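-- helper97 library: forms given as functions, Gram matrices, uniqueness of invariant forms.
import Cfsg.Agent.Helper97.Basic

set_option autoImplicit false
open Cfsg Cfsg.Geo Matrix

namespace Cfsg.Agent.Helper97

variable {F : Type*} [Field F] {n : ℕ}

/-- A sesquilinear form given as a function: linear in the first argument, `τ`-semilinear in the second. -/
structure IsSesq (τ : F ≃+* F) (f : (Fin n → F) → (Fin n → F) → F) : Prop where
  add_left : ∀ x y v, f (x + y) v = f x v + f y v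
  smul_left : ∀ (c : F) (x v : Fin n → F), f (c • x) v = c * f x v
  add_right : ∀ v x y, f v (x + y) = f v x + f v y
  smul_right : ∀ (c : F) (v x : Fin n → F), f v (c • x) = τ c * f v x

theorem isSesq_of_bilinear {f : (Fin n → F) → (Fin n → F) → F} (hf : IsBilinearForm f) :
    IsSesq (RingEquiv.refl F) f :=
  ⟨hf.add_left, hf.smul_left, hf.add_right, hf.smul_right⟩

theorem isSesq_of_unitary {σ : F ≃+* F} {f : (Fin n → F) → (Fin n → F) → F} (hf : IsUnitaryForm σ f) :
    IsSesq σ f := by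
  refine ⟨hf.add_left, hf.smul_left, ?_, ?_⟩
  · intro v x y
    rw [hf.herm v (x + y), hf.add_left, map_add, ← hf.herm, ← hf.herm]
  · intro c v x
    rw [hf.herm v (c • x), hf.smul_left, map_mul, ← hf.herm]

/-- The Gram matrix of a form. -/
def gram (f : (Fin n → F) → (Fin n → F) → F) : Matrix (Fin n) (Fin n) F :=
  fun i j => f (Pi.single i 1) (Pi.single j 1)

theorem gram_apply (f : (Fin n → F) → (Fin n → F) → F) (i j : Fin n) :
    gram f i j = f (Pi.single i 1) (Pi.single j 1) := rfl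

theorem IsSesq.zero_left {τ : F ≃+* F} {f : (Fin n → F) → (Fin n → F) → F} (hf : IsSesq τ f)
    (v : Fin n → F) : f 0 v = 0 := by
  have := hf.smul_left 0 0 v
  simpa using this

theorem IsSesq.zero_right {τ : F ≃+* F} {f : (Fin n → F) → (Fin n → F) → F} (hf : IsSesq τ f)
    (v : Fin n → F) : f v 0 = 0 := by
  have := hf.smul_right 0 v 0
  simpa using this

theorem IsSesq.sum_left {τ : F ≃+* F} {f : (Fin n → F) → (Fin n → F) → F} (hf : IsSesq τ f)
    {ι : Type*} (s : Finset ι) (x : ι → (Fin n → F)) (v : Fin n → F) :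
    f (∑ i ∈ s, x i) v = ∑ i ∈ s, f (x i) v := by
  classical
  induction s using Finset.induction_on with
  | empty => simp [hf.zero_left]
  | insert a s ha ih => rw [Finset.sum_insert ha, Finset.sum_insert ha, hf.add_left, ih]

theorem IsSesq.sum_right {τ : F ≃+* F} {f : (Fin n → F) → (Fin n → F) → F} (hf : IsSesq τ f)
    {ι : Type*} (s : Finset ι) (x : ι → (Fin n → F)) (v : Fin n → F) :
    f v (∑ i ∈ s, x i) = ∑ i ∈ s, f v (x i) := by
  classical
  induction s using Finset.induction_on with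
  | empty => simp [hf.zero_right]
  | insert a s ha ih => rw [Finset.sum_insert ha, Finset.sum_insert ha, hf.add_right, ih]

theorem vec_eq_sum_single (v : Fin n → F) : v = ∑ i, v i • (Pi.single i 1 : Fin n → F) := by
  funext k
  simp [Finset.sum_apply, Pi.single_apply]

theorem IsSesq.apply_eq {τ : F ≃+* F} {f : (Fin n → F) → (Fin n → F) → F} (hf : IsSesq τ f)
    (u v : Fin n → F) : f u v = u ⬝ᵥ (gram f *ᵥ (fun j => τ (v j))) := by
  conv_lhs => rw [vec_eq_sum_single u, vec_eq_sum_single v]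
  rw [hf.sum_left]
  simp only [hf.sum_right, hf.smul_left, hf.smul_right]
  simp only [dotProduct, Matrix.mulVec, gram_apply, Finset.mul_sum]
  refine Finset.sum_congr rfl fun i _ => Finset.sum_congr rfl fun j _ => ?_
  ring

theorem IsSesq.apply_mulVec {τ : F ≃+* F} {f : (Fin n → F) → (Fin n → F) → F} (hf : IsSesq τ f)
    (g : Matrix (Fin n) (Fin n) F) (u v : Fin n → F) :
    f (g *ᵥ u) (g *ᵥ v)
      = u ⬝ᵥ ((gᵀ * gram f * g.map τ) *ᵥ (fun j => τ (v j))) := by
  rw [hf.apply_eq]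
  have h1 : (fun j => τ ((g *ᵥ v) j)) = g.map τ *ᵥ (fun j => τ (v j)) := by
    funext j
    simp [Matrix.mulVec, dotProduct, map_sum, map_mul]
  rw [h1, Matrix.mulVec_mulVec, mul_assoc, Matrix.dotProduct_mulVec, Matrix.dotProduct_mulVec,
    ← Matrix.vecMul_vecMul u gᵀ, Matrix.vecMul_transpose]

theorem IsSesq.gram_mul {τ : F ≃+* F} {f : (Fin n → F) → (Fin n → F) → F} (hf : IsSesq τ f)
    (g : Matrix (Fin n) (Fin n) F) (i j : Fin n) :
    (gᵀ * gram f * g.map τ) i j = f (g *ᵥ Pi.single i 1) (g *ᵥ Pi.single j 1) := by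
  rw [hf.apply_mulVec]
  have h1 : (fun k => τ ((Pi.single j 1 : Fin n → F) k)) = Pi.single j 1 := by
    funext k
    by_cases hk : k = j
    · subst hk; simp
    · simp [Pi.single_apply, hk]
  rw [h1, Matrix.mulVec_single_one, single_one_dotProduct]
  rfl

theorem IsSesq.gram_of_similar {τ : F ≃+* F} {f : (Fin n → F) → (Fin n → F) → F} (hf : IsSesq τ f)
    (g : Matrix (Fin n) (Fin n) F) (c : F) (h : ∀ u v, f (g *ᵥ u) (g *ᵥ v) = c * f u v) :
    gᵀ * gram f * g.map τ = c • gram f := by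
  ext i j
  rw [hf.gram_mul, h, Matrix.smul_apply, gram_apply, smul_eq_mul]

theorem IsSesq.similar_of_gram {τ : F ≃+* F} {f : (Fin n → F) → (Fin n → F) → F} (hf : IsSesq τ f)
    (g : Matrix (Fin n) (Fin n) F) (c : F) (h : gᵀ * gram f * g.map τ = c • gram f)
    (u v : Fin n → F) : f (g *ᵥ u) (g *ᵥ v) = c * f u v := by
  rw [hf.apply_mulVec, h, hf.apply_eq, Matrix.smul_mulVec, dotProduct_smul, smul_eq_mul]

theorem IsSesq.det_gram_ne_zero {τ : F ≃+* F} {f : (Fin n → F) → (Fin n → F) → F} (hf : IsSesq τ f)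
    (hnd : ∀ v, v ≠ 0 → ∃ x, f x v ≠ 0) : (gram f).det ≠ 0 := by
  intro hdet
  obtain ⟨w, hw0, hw⟩ := Matrix.exists_mulVec_eq_zero_iff.mpr hdet
  have hv0 : (fun j => τ.symm (w j)) ≠ 0 := by
    intro h
    apply hw0
    funext j
    have := congrFun h j
    simpa using this
  obtain ⟨x, hx⟩ := hnd _ hv0
  apply hx
  rw [hf.apply_eq]
  simp only [RingEquiv.apply_symm_apply]
  rw [hw, dotProduct_zero]

theorem map_mul_equiv (τ : F ≃+* F) (L M : Matrix (Fin n) (Fin n) F) :
    (L * M).map τ = L.map τ * M.map τ :=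
  Matrix.map_mul (f := (τ : F →+* F))

/-- Schur: a non-degenerate sesquilinear form fixed by an absolutely irreducible group is unique up to
scalars, so the normaliser of the group consists of similarities. -/
theorem normalizer_le_similarity [NeZero n] (P : Subgroup (GL (Fin n) F))
    (habs : ActsAbsolutelyIrreducibly (matrixSet P)) (τ : F ≃+* F)
    (f : (Fin n → F) → (Fin n → F) → F) (hf : IsSesq τ f)
    (hnd : ∀ v, v ≠ 0 → ∃ x, f x v ≠ 0) (hfix : FixesForm (matrixSet P) f)
    (h : GL (Fin n) F) (hh : ∀ x ∈ P, h * x * h⁻¹ ∈ P) : h ∈ similarityGroup f := by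
  obtain ⟨A, hA⟩ : ∃ A : Matrix (Fin n) (Fin n) F, A = gram f := ⟨_, rfl⟩
  have hdet : A.det ≠ 0 := hA ▸ hf.det_gram_ne_zero hnd
  have hAu : IsUnit A.det := isUnit_iff_ne_zero.mpr hdet
  have hPA : ∀ p ∈ P, (p : Matrix (Fin n) (Fin n) F)ᵀ * A * (p : Matrix (Fin n) (Fin n) F).map τ = A := by
    intro p hp
    have := hf.gram_of_similar (p : Matrix (Fin n) (Fin n) F) 1
      (fun u v => by rw [one_mul]; exact hfix _ (coe_mem_matrixSet hp) u v)
    rwa [one_smul, ← hA] at this
  obtain ⟨A', hA'⟩ : ∃ A' : Matrix (Fin n) (Fin n) F,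
      A' = (h : Matrix (Fin n) (Fin n) F)ᵀ * A * (h : Matrix (Fin n) (Fin n) F).map τ := ⟨_, rfl⟩
  have hPA' : ∀ p ∈ P,
      (p : Matrix (Fin n) (Fin n) F)ᵀ * A' * (p : Matrix (Fin n) (Fin n) F).map τ = A' := by
    intro p hp
    have hp' := hh p hp
    have hcomm : (h : Matrix (Fin n) (Fin n) F) * (p : Matrix (Fin n) (Fin n) F)
        = ((h * p * h⁻¹ : GL (Fin n) F) : Matrix (Fin n) (Fin n) F) * (h : Matrix (Fin n) (Fin n) F) := by
      rw [← Units.val_mul, ← Units.val_mul]
      congr 1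
      group
    calc (p : Matrix (Fin n) (Fin n) F)ᵀ * A' * (p : Matrix (Fin n) (Fin n) F).map τ
        = ((h : Matrix (Fin n) (Fin n) F) * (p : Matrix (Fin n) (Fin n) F))ᵀ * A
            * ((h : Matrix (Fin n) (Fin n) F) * (p : Matrix (Fin n) (Fin n) F)).map τ := by
          rw [hA', Matrix.transpose_mul, map_mul_equiv]
          simp only [mul_assoc]
      _ = (((h * p * h⁻¹ : GL (Fin n) F) : Matrix (Fin n) (Fin n) F) * (h : Matrix (Fin n) (Fin n) F))ᵀ * A
            * (((h * p * h⁻¹ : GL (Fin n) F) : Matrix (Fin n) (Fin n) F)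
                * (h : Matrix (Fin n) (Fin n) F)).map τ := by rw [hcomm]
      _ = (h : Matrix (Fin n) (Fin n) F)ᵀ * (((h * p * h⁻¹ : GL (Fin n) F) : Matrix (Fin n) (Fin n) F)ᵀ * A
            * ((h * p * h⁻¹ : GL (Fin n) F) : Matrix (Fin n) (Fin n) F).map τ)
            * (h : Matrix (Fin n) (Fin n) F).map τ := by
          rw [Matrix.transpose_mul, map_mul_equiv]
          simp only [mul_assoc]
      _ = A' := by rw [hPA _ hp', hA']
  obtain ⟨M, hM⟩ : ∃ M : Matrix (Fin n) (Fin n) F, M = A' * A⁻¹ := ⟨_, rfl⟩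
  have hMA : M * A = A' := by
    rw [hM, mul_assoc, Matrix.nonsing_inv_mul A hAu, mul_one]
  have hMcomm : ∀ s ∈ matrixSet P, Mᵀ * s = s * Mᵀ := by
    rintro s ⟨p, hp, rfl⟩
    obtain ⟨q, hq⟩ : ∃ q : Matrix (Fin n) (Fin n) F,
        q = ((p⁻¹ : GL (Fin n) F) : Matrix (Fin n) (Fin n) F).map τ := ⟨_, rfl⟩
    have hpq : (p : Matrix (Fin n) (Fin n) F).map τ * q = 1 := by
      rw [hq, ← map_mul_equiv, ← Units.val_mul, mul_inv_cancel, Units.val_one]
      exact Matrix.map_one _ (map_zero τ) (map_one τ)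
    have h1 : (p : Matrix (Fin n) (Fin n) F)ᵀ * A' = A' * q := by
      calc (p : Matrix (Fin n) (Fin n) F)ᵀ * A'
          = (p : Matrix (Fin n) (Fin n) F)ᵀ * A' * ((p : Matrix (Fin n) (Fin n) F).map τ * q) := by
            rw [hpq, mul_one]
        _ = ((p : Matrix (Fin n) (Fin n) F)ᵀ * A' * (p : Matrix (Fin n) (Fin n) F).map τ) * q := by
            simp only [mul_assoc]
        _ = A' * q := by rw [hPA' p hp]
    have h2 : (p : Matrix (Fin n) (Fin n) F)ᵀ * A = A * q := by
      calc (p : Matrix (Fin n) (Fin n) F)ᵀ * A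
          = (p : Matrix (Fin n) (Fin n) F)ᵀ * A * ((p : Matrix (Fin n) (Fin n) F).map τ * q) := by
            rw [hpq, mul_one]
        _ = ((p : Matrix (Fin n) (Fin n) F)ᵀ * A * (p : Matrix (Fin n) (Fin n) F).map τ) * q := by
            simp only [mul_assoc]
        _ = A * q := by rw [hPA p hp]
    have h3 : A⁻¹ * (p : Matrix (Fin n) (Fin n) F)ᵀ = q * A⁻¹ := by
      calc A⁻¹ * (p : Matrix (Fin n) (Fin n) F)ᵀ
          = A⁻¹ * ((p : Matrix (Fin n) (Fin n) F)ᵀ * A) * A⁻¹ := by
            rw [mul_assoc, mul_assoc, Matrix.mul_nonsing_inv A hAu, mul_one]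
        _ = A⁻¹ * (A * q) * A⁻¹ := by rw [h2]
        _ = q * A⁻¹ := by rw [← mul_assoc A⁻¹, Matrix.nonsing_inv_mul A hAu, one_mul]
    have h4 : (p : Matrix (Fin n) (Fin n) F)ᵀ * M = M * (p : Matrix (Fin n) (Fin n) F)ᵀ := by
      calc (p : Matrix (Fin n) (Fin n) F)ᵀ * M
          = ((p : Matrix (Fin n) (Fin n) F)ᵀ * A') * A⁻¹ := by rw [hM, mul_assoc]
        _ = A' * q * A⁻¹ := by rw [h1]
        _ = A' * (q * A⁻¹) := mul_assoc _ _ _
        _ = A' * (A⁻¹ * (p : Matrix (Fin n) (Fin n) F)ᵀ) := by rw [h3]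
        _ = M * (p : Matrix (Fin n) (Fin n) F)ᵀ := by rw [hM, mul_assoc]
    have h5 := congrArg Matrix.transpose h4
    rw [Matrix.transpose_mul, Matrix.transpose_mul (M := M), Matrix.transpose_transpose] at h5
    exact h5
  obtain ⟨c, hc⟩ := habs.2 Mᵀ hMcomm
  have hMc : M = c • (1 : Matrix (Fin n) (Fin n) F) := by
    have := congrArg Matrix.transpose hc
    rwa [Matrix.transpose_transpose, Matrix.transpose_smul, Matrix.transpose_one] at this
  have hA'c : A' = c • A := by
    rw [← hMA, hMc, Matrix.smul_mul, Matrix.one_mul]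
  have hsim : ∀ u v, f ((h : Matrix (Fin n) (Fin n) F) *ᵥ u) ((h : Matrix (Fin n) (Fin n) F) *ᵥ v)
      = c * f u v := fun u v => hf.similar_of_gram _ c (by rw [← hA, ← hA', hA'c]) u v
  have hc0 : c ≠ 0 := by
    rintro rfl
    have he : (Pi.single 0 1 : Fin n → F) ≠ 0 := by
      intro h0
      have := congrFun h0 0
      simp at this
    have he' : (h : Matrix (Fin n) (Fin n) F) *ᵥ (Pi.single 0 1 : Fin n → F) ≠ 0 := by
      intro h0
      apply he
      have := mulVec_injective h (by simpa using h0 :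
        (h : Matrix (Fin n) (Fin n) F) *ᵥ (Pi.single 0 1 : Fin n → F)
          = (h : Matrix (Fin n) (Fin n) F) *ᵥ 0)
      exact this
    obtain ⟨x, hx⟩ := hnd _ he'
    apply hx
    have := hsim (((h⁻¹ : GL (Fin n) F) : Matrix (Fin n) (Fin n) F) *ᵥ x) (Pi.single 0 1)
    rwa [mulVec_cancel_inv, zero_mul] at this
  exact (mem_similarityGroup_iff f h).mpr ⟨Units.mk0 c hc0, hsim⟩

theorem polar_self (Q : (Fin n → F) → F) (hQ : IsNondegenerateQuadraticForm Q) (v : Fin n → F) :
    QuadraticMap.polar Q v v = 2 * Q v := by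
  have h1 : v + v = (2 : F) • v := (two_smul F v).symm
  rw [QuadraticMap.polar, h1, hQ.smul]
  ring

theorem fixesForm_polar (S : Set (Matrix (Fin n) (Fin n) F)) (Q : (Fin n → F) → F)
    (h : FixesQuadForm S Q) : FixesForm S (QuadraticMap.polar Q) := by
  intro s hs u v
  simp only [QuadraticMap.polar]
  rw [← Matrix.mulVec_add, h s hs, h s hs, h s hs]

theorem normalizer_le_quadSimilarity [NeZero n] (P : Subgroup (GL (Fin n) F))
    (habs : ActsAbsolutelyIrreducibly (matrixSet P))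
    (Q : (Fin n → F) → F) (hQ : IsNondegenerateQuadraticForm Q) (h2 : (2 : F) ≠ 0)
    (hfix : FixesQuadForm (matrixSet P) Q)
    (h : GL (Fin n) F) (hh : ∀ x ∈ P, h * x * h⁻¹ ∈ P) : h ∈ quadSimilarityGroup Q := by
  have h1 := normalizer_le_similarity P habs (RingEquiv.refl F) (QuadraticMap.polar Q)
    (isSesq_of_bilinear hQ.polar_bilinear) (fun v hv => (hQ.nondegenerate v hv).1)
    (fixesForm_polar _ Q hfix) h hh
  obtain ⟨c, hc⟩ := (mem_similarityGroup_iff _ h).mp h1
  refine (mem_quadSimilarityGroup_iff Q h).mpr ⟨c, fun v => ?_⟩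
  have h3 := hc v v
  rw [polar_self Q hQ, polar_self Q hQ] at h3
  have h4 : (2 : F) * (Q ((h : Matrix (Fin n) (Fin n) F) *ᵥ v) - c * Q v) = 0 := by
    rw [mul_sub, h3]; ring
  rcases mul_eq_zero.mp h4 with h5 | h5
  · exact absurd h5 h2
  · exact sub_eq_zero.mp h5

/-! ### Alternating forms in odd dimension -/

theorem det_eq_zero_of_alt_odd (A : Matrix (Fin n) (Fin n) F) (hskew : ∀ i j, A i j = - A j i)
    (hdiag : ∀ i, A i i = 0) (hn : Odd n) : A.det = 0 := by
  rw [Matrix.det_apply]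
  refine Finset.sum_involution (fun σ _ => σ⁻¹) ?_ ?_ (fun _ _ => Finset.mem_univ _)
    (fun σ _ => inv_inv σ)
  · intro σ _
    have h1 : ∏ i, A (σ⁻¹ i) i = ∏ i, A i (σ i) := by
      rw [← Equiv.prod_comp σ (fun i => A (σ⁻¹ i) i)]
      simp
    have h2 : ∏ i, A i (σ i) = - ∏ i, A (σ i) i := by
      have : ∀ i, A i (σ i) = -1 * A (σ i) i := fun i => by rw [hskew i (σ i)]; ring
      simp only [this]
      rw [Finset.prod_mul_distrib, Finset.prod_const, Finset.card_univ, Fintype.card_fin,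
        hn.neg_one_pow]
      ring
    rw [Equiv.Perm.sign_inv, h1, h2, smul_neg, add_neg_cancel]
  · intro σ _ hne hinv
    apply hne
    have hsq : σ ^ 2 = 1 := by
      rw [pow_two]
      nth_rewrite 1 [← hinv]
      exact inv_mul_cancel σ
    have h2 := Equiv.Perm.two_dvd_card_support hsq
    have hfix : ∃ i, σ i = i := by
      by_contra hcon
      have hsupp : σ.support = Finset.univ := by
        ext i
        simp only [Equiv.Perm.mem_support, Finset.mem_univ, iff_true]
        exact fun h => hcon ⟨i, h⟩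
      rw [hsupp, Finset.card_univ, Fintype.card_fin] at h2
      exact (Nat.not_even_iff_odd.mpr hn) (even_iff_two_dvd.mpr h2)
    obtain ⟨i, hi⟩ := hfix
    have : ∏ j, A (σ j) j = 0 := Finset.prod_eq_zero (Finset.mem_univ i) (by rw [hi, hdiag])
    rw [this, smul_zero]

theorem not_symplectic_of_odd (hn : Odd n) (f : (Fin n → F) → (Fin n → F) → F)
    (hf : IsSymplecticForm f) : False := by
  have hs := isSesq_of_bilinear hf.bilinear
  have h1 : (gram f).det = 0 :=
    det_eq_zero_of_alt_odd (gram f) (fun i j => by rw [gram_apply, gram_apply, hf.skew])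
      (fun i => by rw [gram_apply, hf.alternating]) hn
  exact hs.det_gram_ne_zero (fun v hv => (hf.nondegenerate v hv).1) h1

theorem not_quadratic_char_two_of_odd (hn : Odd n) (h2 : (2 : F) = 0) (Q : (Fin n → F) → F)
    (hQ : IsNondegenerateQuadraticForm Q) : False := by
  refine not_symplectic_of_odd hn (QuadraticMap.polar Q) ⟨hQ.polar_bilinear, ?_, ?_, hQ.nondegenerate⟩
  · intro v w
    rw [QuadraticMap.polar_comm]
    have : QuadraticMap.polar Q w v + QuadraticMap.polar Q w v = 0 := by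
      rw [← two_mul, h2, zero_mul]
    exact eq_neg_of_add_eq_zero_left this
  · intro v
    rw [polar_self Q hQ, h2, zero_mul]

end Cfsg.Agent.Helper97
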