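-- helper97 library: the standard unitary form over a field with q^2 elements; unitary transvections.
import Cfsg.Agent.Helper97.Forms
import Cfsg.Agent.Helper97.NotSL

set_option autoImplicit false
open Cfsg Cfsg.Geo Matrix

namespace Cfsg.Agent.Helper97

variable {F : Type*} [Field F] {n : ℕ}

/-- `σ` is the involution `x ↦ x ^ q` of the field with `q ^ 2` elements. -/
structure IsSigma (q : ℕ) (σ : F ≃+* F) : Prop where
  pow : ∀ x : F, σ x = x ^ q
  inv : ∀ x : F, σ (σ x) = x
  ne : σ ≠ RingEquiv.refl F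

theorem two_le_of_card [Fintype F] {q : ℕ} (hF : Fintype.card F = q ^ 2) : 2 ≤ q := by
  have h1 : 1 < Fintype.card F := Fintype.one_lt_card
  rw [hF] at h1
  by_contra h
  have h2 : q ≤ 1 := by omega
  have h3 : q ^ 2 ≤ 1 ^ 2 := Nat.pow_le_pow_left h2 2
  omega

theorem exists_sigma [Fintype F] {q : ℕ} (hF : Fintype.card F = q ^ 2) :
    ∃ σ : F ≃+* F, IsSigma q σ := by
  obtain ⟨p, hchar⟩ := CharP.exists F
  have hp : p.Prime := (CharP.char_is_prime_or_zero F p).resolve_right (CharP.char_ne_zero_of_finite F p)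
  have : Fact p.Prime := ⟨hp⟩
  obtain ⟨e, -, he⟩ := FiniteField.card F p
  have hq : q ∣ p ^ (e : ℕ) := by
    rw [← he, hF]; exact dvd_pow_self q (by norm_num)
  obtain ⟨a, -, rfl⟩ := (Nat.dvd_prime_pow hp).mp hq
  have hq2 := two_le_of_card hF
  have hpow : ∀ x : F, iterateFrobeniusEquiv F p a x = x ^ p ^ a := by
    intro x
    rw [coe_iterateFrobeniusEquiv, iterateFrobenius_def]
  refine ⟨iterateFrobeniusEquiv F p a, hpow, ?_, ?_⟩
  · intro x
    rw [hpow, hpow, ← pow_mul, ← pow_two, ← hF, FiniteField.pow_card]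
  · intro h
    obtain ⟨g, hg⟩ := IsCyclic.exists_ofOrder_eq_natCard (α := Fˣ)
    rw [Nat.card_units, Nat.card_eq_fintype_card, hF] at hg
    have h1 : iterateFrobeniusEquiv F p a (g : F) = (g : F) := by rw [h]; rfl
    rw [hpow] at h1
    have h2 : (g : F) ^ (p ^ a - 1) = 1 := by
      have h3 : (g : F) ^ (p ^ a - 1) * (g : F) = 1 * (g : F) := by
        rw [← pow_succ, Nat.sub_add_cancel (by omega), h1, one_mul]
      exact mul_right_cancel₀ g.ne_zero h3
    have h4 : g ^ (p ^ a - 1) = 1 := by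
      apply Units.ext
      rw [Units.val_pow_eq_pow_val, h2, Units.val_one]
    have h5 := orderOf_dvd_of_pow_eq_one h4
    rw [hg] at h5
    have h6 := Nat.le_of_dvd (by omega) h5
    have h7 : p ^ a < (p ^ a) ^ 2 := by nlinarith
    omega

namespace IsSigma

variable {q : ℕ} {σ : F ≃+* F}

theorem exists_ne (h : IsSigma q σ) : ∃ d : F, σ d ≠ d := by
  by_contra hcon
  apply h.ne
  ext x
  by_contra hx
  exact hcon ⟨x, hx⟩

theorem exists_trace_zero (h : IsSigma q σ) : ∃ c : F, c ≠ 0 ∧ σ c = -c := by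
  obtain ⟨d, hd⟩ := h.exists_ne
  refine ⟨d - σ d, ?_, ?_⟩
  · intro h0
    exact hd (sub_eq_zero.mp h0).symm
  · rw [map_sub, h.inv]
    ring

theorem exists_norm_one (h : IsSigma q σ) : ∃ m : F, m * σ m = 1 ∧ m ≠ 1 ∧ m ≠ 0 := by
  obtain ⟨d, hd⟩ := h.exists_ne
  have hd0 : d ≠ 0 := by
    rintro rfl
    exact hd (map_zero σ)
  have hsd0 : σ d ≠ 0 := (map_ne_zero σ).mpr hd0
  refine ⟨σ d / d, ?_, ?_, div_ne_zero hsd0 hd0⟩
  · rw [map_div₀, h.inv]
    field_simp
  · intro h1
    rw [div_eq_one_iff_eq hd0] at h1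
    exact hd h1

/-- The norm `x ↦ x * σ x` is onto the non-zero fixed elements. -/
theorem exists_norm_eq [Fintype F] (h : IsSigma q σ) (hF : Fintype.card F = q ^ 2) (a : F)
    (ha : σ a = a) (ha0 : a ≠ 0) : ∃ l : F, l * σ l = a := by
  have hq2 := two_le_of_card hF
  obtain ⟨g, hg⟩ := IsCyclic.exists_monoid_generator (α := Fˣ)
  have hord : orderOf g = q ^ 2 - 1 := by
    rw [orderOf_eq_card_of_forall_mem_zpowers, Nat.card_units, Nat.card_eq_fintype_card, hF]
    intro x
    obtain ⟨m, hm⟩ := hg x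
    exact ⟨(m : ℤ), by simpa using hm⟩
  obtain ⟨m, hm⟩ := hg (Units.mk0 a ha0)
  have hm' : (g : F) ^ m = a := by
    have := congrArg Units.val hm
    simpa using this
  have h1 : (g : F) ^ (m * (q - 1)) = 1 := by
    have h2 : a ^ q = a := by rw [← h.pow, ha]
    have h3 : a ^ (q - 1) * a = 1 * a := by
      rw [← pow_succ, Nat.sub_add_cancel (by omega), h2, one_mul]
    have h4 := mul_right_cancel₀ ha0 h3
    rw [pow_mul, hm', h4]
  have h2 : g ^ (m * (q - 1)) = 1 := by
    apply Units.ext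
    rw [Units.val_pow_eq_pow_val, h1, Units.val_one]
  have h3 := orderOf_dvd_of_pow_eq_one h2
  rw [hord] at h3
  have h4 : q ^ 2 - 1 = (q + 1) * (q - 1) := by
    obtain ⟨k, rfl⟩ : ∃ k, q = k + 1 := ⟨q - 1, by omega⟩
    rw [Nat.add_sub_cancel]
    have : (k + 1) ^ 2 = (k + 1 + 1) * k + 1 := by ring
    rw [this, Nat.add_sub_cancel]
  rw [h4] at h3
  have h5 : q + 1 ∣ m := Nat.dvd_of_mul_dvd_mul_right (by omega) h3
  obtain ⟨k, hk⟩ := h5
  refine ⟨(g : F) ^ k, ?_⟩
  rw [h.pow, ← pow_succ', ← pow_mul, ← hm', hk]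
  congr 1
  ring

/-! ### The form -/

theorem herm_eq (h : IsSigma q σ) (u v : Fin n → F) :
    hermForm n F q u v = ∑ i, u i * σ (v i) := by
  simp only [hermForm, h.pow]

theorem isUnitaryForm (h : IsSigma q σ) : IsUnitaryForm σ (hermForm n F q) := by
  classical
  refine ⟨h.ne, h.inv, ?_, ?_, ?_, ?_⟩
  · intro x y v
    simp only [h.herm_eq, Pi.add_apply, add_mul, Finset.sum_add_distrib]
  · intro c x v
    simp only [h.herm_eq, Pi.smul_apply, smul_eq_mul, Finset.mul_sum, mul_assoc]
  · intro v w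
    simp only [h.herm_eq, map_sum, map_mul, h.inv]
    exact Finset.sum_congr rfl fun i _ => mul_comm _ _
  · intro v hv
    obtain ⟨i, hi⟩ : ∃ i, v i ≠ 0 := by
      by_contra hcon
      apply hv
      funext i
      by_contra hi
      exact hcon ⟨i, hi⟩
    refine ⟨⟨Pi.single i 1, ?_⟩, ⟨Pi.single i 1, ?_⟩⟩
    · rw [h.herm_eq, Finset.sum_eq_single i]
      · rw [Pi.single_eq_same, one_mul]
        exact (map_ne_zero σ).mpr hi
      · intro j _ hj
        rw [Pi.single_eq_of_ne hj, zero_mul]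
      · intro hni
        exact absurd (Finset.mem_univ i) hni
    · rw [h.herm_eq, Finset.sum_eq_single i]
      · rw [Pi.single_eq_same, map_one, mul_one]
        exact hi
      · intro j _ hj
        rw [Pi.single_eq_of_ne hj, map_zero, mul_zero]
      · intro hni
        exact absurd (Finset.mem_univ i) hni

theorem isSesq (h : IsSigma q σ) : IsSesq σ (hermForm n F q) := isSesq_of_unitary h.isUnitaryForm

theorem gram_herm (h : IsSigma q σ) : gram (hermForm n F q) = (1 : Matrix (Fin n) (Fin n) F) := by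
  classical
  ext i j
  rw [gram_apply, h.herm_eq, Finset.sum_eq_single i]
  · rw [Pi.single_eq_same, one_mul, Matrix.one_apply]
    by_cases hij : i = j
    · subst hij
      rw [Pi.single_eq_same, map_one, if_pos rfl]
    · rw [Pi.single_eq_of_ne hij, map_zero, if_neg hij]
  · intro k _ hk
    rw [Pi.single_eq_of_ne hk, zero_mul]
  · intro hni
    exact absurd (Finset.mem_univ i) hni

theorem herm_symm (h : IsSigma q σ) (v w : Fin n → F) :
    hermForm n F q v w = σ (hermForm n F q w v) := h.isUnitaryForm.herm v w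

theorem herm_self_fixed (h : IsSigma q σ) (v : Fin n → F) :
    σ (hermForm n F q v v) = hermForm n F q v v := (h.herm_symm v v).symm

theorem herm_eq_zero_symm (h : IsSigma q σ) {v w : Fin n → F} (h0 : hermForm n F q v w = 0) :
    hermForm n F q w v = 0 := by
  rw [h.herm_symm, h0, map_zero]

theorem herm_dot (h : IsSigma q σ) (c : F) (u v : Fin n → F) :
    (c • (fun i => σ (u i))) ⬝ᵥ v = c * hermForm n F q v u := by
  rw [h.herm_eq, smul_dotProduct, smul_eq_mul]
  congr 1
  exact Finset.sum_congr rfl fun i _ => mul_comm _ _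

theorem mem_GU_iff (g : GL (Fin n) F) :
    g ∈ GU n F q ↔ ∀ u v, hermForm n F q ((g : Matrix (Fin n) (Fin n) F) *ᵥ u)
      ((g : Matrix (Fin n) (Fin n) F) *ᵥ v) = hermForm n F q u v := Iff.rfl

theorem GU_le_similarity : GU n F q ≤ similarityGroup (hermForm n F q) := by
  intro g hg
  exact (mem_similarityGroup_iff _ g).mpr ⟨1, fun u v => by rw [Units.val_one, one_mul]; exact hg u v⟩

/-- The matrix identity satisfied by the unitary matrices. -/
theorem GU_matrix (h : IsSigma q σ) (g : GL (Fin n) F) (hg : g ∈ GU n F q) :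
    (g : Matrix (Fin n) (Fin n) F)ᵀ * (g : Matrix (Fin n) (Fin n) F).map σ = 1 := by
  have h1 := h.isSesq.gram_of_similar (g : Matrix (Fin n) (Fin n) F) 1
    (fun u v => by rw [one_mul]; exact hg u v)
  rwa [h.gram_herm, mul_one, one_smul] at h1

/-! ### Unitary transvections -/

/-- The unitary transvection attached to an isotropic vector `u` and a scalar `c` of trace zero. -/
theorem exists_utv (h : IsSigma q σ) (u : Fin n → F) (hu : hermForm n F q u u = 0) (c : F)
    (hc : σ c = -c) :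
    ∃ t : GL (Fin n) F, t ∈ GU n F q ⊓ specialLinear (Fin n) F ∧
      (∀ v, (t : Matrix (Fin n) (Fin n) F) *ᵥ v = v + (c * hermForm n F q v u) • u) ∧
      (∀ v, ((t⁻¹ : GL (Fin n) F) : Matrix (Fin n) (Fin n) F) *ᵥ v = v - (c * hermForm n F q v u) • u) := by
  have hau : (c • (fun i => σ (u i))) ⬝ᵥ u = 0 := by rw [h.herm_dot, hu, mul_zero]
  have hS := h.isSesq (n := n)
  have ht : ∀ v, ((genTv u _ hau : GL (Fin n) F) : Matrix (Fin n) (Fin n) F) *ᵥ v
      = v + (c * hermForm n F q v u) • u := by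
    intro v
    rw [genTv_mulVec, h.herm_dot]
  refine ⟨genTv u _ hau, ⟨?_, genTv_mem u _ hau⟩, ht, ?_⟩
  · intro v w
    show hermForm n F q (((genTv u _ hau : GL (Fin n) F) : Matrix (Fin n) (Fin n) F) *ᵥ v)
      (((genTv u _ hau : GL (Fin n) F) : Matrix (Fin n) (Fin n) F) *ᵥ w) = hermForm n F q v w
    rw [ht, ht, hS.add_left, hS.add_right, hS.add_right, hS.smul_left, hS.smul_right, hS.smul_right,
      hS.smul_left, hu, map_mul, hc, h.herm_symm u w]
    ring
  · intro v
    apply mulVec_injective (genTv u _ hau)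
    simp only
    have e : v - (c * hermForm n F q v u) • u = v + (-(c * hermForm n F q v u)) • u := by
      rw [neg_smul, sub_eq_add_neg]
    rw [mulVec_cancel_inv, ht, e, hS.add_left, hS.smul_left, hu, mul_zero, add_zero, add_assoc,
      ← add_smul, neg_add_cancel, zero_smul, add_zero]

end IsSigma

end Cfsg.Agent.Helper97
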