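-- helper97 library (general index type): Clifford-type dichotomy for normal subgroups of irreducible linear groups.
import Cfsg.Agent.Helper97.GBasic

set_option autoImplicit false
open Cfsg Cfsg.Geo Matrix

namespace Cfsg.Agent.Helper97.Gen

variable {κ : Type} [Fintype κ] [DecidableEq κ] {F : Type*} [Field F] {n : ℕ}

/-- The dimension of the natural module, recorded as a fact. -/
theorem finrank_fun_eq (F : Type*) [Field F] {κ : Type} [Fintype κ] {n : ℕ}
    [hcard : Fact (Fintype.card κ = n)] : Module.finrank F (κ → F) = n := by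
  rw [Module.finrank_fintype_fun_eq_card]
  exact hcard.out

variable [hcard : Fact (Fintype.card κ = n)]

theorem eq_zero_of_mulVec_eq_zero_of_inv (K : Subalgebra F (Matrix κ κ F))
    (hinv : ∀ x ∈ K, x ≠ 0 → ∃ y ∈ K, x * y = 1) {k : Matrix κ κ F} (hk : k ∈ K)
    {v : κ → F} (hv : v ≠ 0) (hkv : k *ᵥ v = 0) : k = 0 := by
  by_contra hk0
  obtain ⟨y, -, hy⟩ := hinv k hk hk0
  have hy' : y * k = 1 := mul_eq_one_comm.mp hy
  apply hv
  have := congrArg (fun w => y *ᵥ w) hkv
  simpa [Matrix.mulVec_mulVec, hy'] using this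

/-! ### Separating families are independent -/

theorem disjoint_finset_sup_of_sep {α : Type*} [DecidableEq α]
    (D : α → Submodule F (κ → F))
    (hsep : ∀ i j, i ≠ j → ∃ φ : (κ → F) →ₗ[F] (κ → F),
      D i ≤ LinearMap.ker φ ∧ D j ⊓ LinearMap.ker φ = ⊥ ∧ ∀ k, (D k).map φ ≤ D k)
    (s : Finset α) (i : α) (hi : i ∉ s) : Disjoint (D i) (s.sup D) := by
  induction s using Finset.induction_on with
  | empty => simp
  | insert k s hk ih =>
    rw [Finset.mem_insert, not_or] at hi
    obtain ⟨hik, his⟩ := hi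
    have ih' := ih his
    obtain ⟨φ, h1, h2, h3⟩ := hsep k i (Ne.symm hik)
    rw [Finset.sup_insert, Submodule.disjoint_def]
    intro v hvi hv
    obtain ⟨y, hy, z, hz, rfl⟩ := Submodule.mem_sup.mp hv
    have hφy : φ y = 0 := LinearMap.mem_ker.mp (h1 hy)
    have hmap : (s.sup D).map φ ≤ s.sup D := by
      rw [Submodule.map_le_iff_le_comap]
      refine Finset.sup_le fun k hk => ?_
      rw [← Submodule.map_le_iff_le_comap]
      exact (h3 k).trans (Finset.le_sup hk)
    have hφz : φ z ∈ s.sup D := hmap (Submodule.mem_map_of_mem hz)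
    have hφv : φ (y + z) ∈ D i := h3 i (Submodule.mem_map_of_mem hvi)
    have h5 : φ (y + z) = φ z := by rw [map_add, hφy, zero_add]
    have h6 : φ (y + z) = 0 := by
      rw [h5] at hφv ⊢
      exact (Submodule.disjoint_def.mp ih') _ hφv hφz
    have h7 : y + z ∈ D i ⊓ LinearMap.ker φ := ⟨hvi, LinearMap.mem_ker.mpr h6⟩
    rw [h2] at h7
    exact (Submodule.mem_bot F).mp h7

theorem iSupIndep_of_sep {α : Type*} [Finite α]
    (D : α → Submodule F (κ → F))
    (hsep : ∀ i j, i ≠ j → ∃ φ : (κ → F) →ₗ[F] (κ → F),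
      D i ≤ LinearMap.ker φ ∧ D j ⊓ LinearMap.ker φ = ⊥ ∧ ∀ k, (D k).map φ ≤ D k) :
    iSupIndep D := by
  classical
  have := Fintype.ofFinite α
  rw [iSupIndep_iff_supIndep_univ]
  intro s _ i _ his
  exact disjoint_finset_sup_of_sep D hsep s i his

/-! ### Joint kernels of sets of matrices -/

/-- The joint kernel of a set of matrices. -/
noncomputable def jointKer (T : Set (Matrix κ κ F)) : Submodule F (κ → F) :=
  ⨅ s ∈ T, LinearMap.ker (Matrix.toLin' s)

theorem mem_jointKer {T : Set (Matrix κ κ F)} {v : κ → F} :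
    v ∈ jointKer T ↔ ∀ s ∈ T, s *ᵥ v = 0 := by
  simp [jointKer, Submodule.mem_iInf, LinearMap.mem_ker, Matrix.toLin'_apply]

/-- The conjugate of a set of matrices by an invertible matrix. -/
def conjMatSet (h : GL κ F) (T : Set (Matrix κ κ F)) :
    Set (Matrix κ κ F) :=
  (fun s => (h : Matrix κ κ F) * s * ((h⁻¹ : GL κ F) : Matrix κ κ F)) '' T

theorem val_inv_mul_val (h : GL κ F) :
    ((h⁻¹ : GL κ F) : Matrix κ κ F) * (h : Matrix κ κ F) = 1 := by
  rw [← Units.val_mul, inv_mul_cancel, Units.val_one]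

theorem val_mul_val_inv (h : GL κ F) :
    (h : Matrix κ κ F) * ((h⁻¹ : GL κ F) : Matrix κ κ F) = 1 := by
  rw [← Units.val_mul, mul_inv_cancel, Units.val_one]

theorem mem_conjMatSet {h : GL κ F} {T : Set (Matrix κ κ F)}
    {b : Matrix κ κ F} :
    b ∈ conjMatSet h T ↔
      ((h⁻¹ : GL κ F) : Matrix κ κ F) * b * (h : Matrix κ κ F) ∈ T := by
  constructor
  · rintro ⟨s, hs, rfl⟩
    have : ((h⁻¹ : GL κ F) : Matrix κ κ F)
        * ((h : Matrix κ κ F) * s * ((h⁻¹ : GL κ F) : Matrix κ κ F))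
        * (h : Matrix κ κ F) = s := by
      calc _ = (((h⁻¹ : GL κ F) : Matrix κ κ F) * (h : Matrix κ κ F)) * s
            * (((h⁻¹ : GL κ F) : Matrix κ κ F) * (h : Matrix κ κ F)) := by
            simp only [mul_assoc]
        _ = s := by rw [val_inv_mul_val, one_mul, mul_one]
    rw [this]; exact hs
  · intro hb
    refine ⟨_, hb, ?_⟩
    calc _ = ((h : Matrix κ κ F) * ((h⁻¹ : GL κ F) : Matrix κ κ F)) * b
            * ((h : Matrix κ κ F) * ((h⁻¹ : GL κ F) : Matrix κ κ F)) := by
            simp only [mul_assoc]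
      _ = b := by rw [val_mul_val_inv, one_mul, mul_one]

theorem conjMatSet_inv_conjMatSet (h : GL κ F) (T : Set (Matrix κ κ F)) :
    conjMatSet h⁻¹ (conjMatSet h T) = T := by
  ext b
  rw [mem_conjMatSet, mem_conjMatSet, inv_inv]
  have : ((h⁻¹ : GL κ F) : Matrix κ κ F)
      * ((h : Matrix κ κ F) * b * ((h⁻¹ : GL κ F) : Matrix κ κ F))
      * (h : Matrix κ κ F) = b := by
    calc _ = (((h⁻¹ : GL κ F) : Matrix κ κ F) * (h : Matrix κ κ F)) * b
          * (((h⁻¹ : GL κ F) : Matrix κ κ F) * (h : Matrix κ κ F)) := by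
          simp only [mul_assoc]
      _ = b := by rw [val_inv_mul_val, one_mul, mul_one]
  rw [this]

theorem conjMatSet_conjMatSet_inv (h : GL κ F) (T : Set (Matrix κ κ F)) :
    conjMatSet h (conjMatSet h⁻¹ T) = T := by
  have := conjMatSet_inv_conjMatSet h⁻¹ T
  rwa [inv_inv] at this

theorem conjMatSet_mono (h : GL κ F) {T T' : Set (Matrix κ κ F)} (hT : T ⊆ T') :
    conjMatSet h T ⊆ conjMatSet h T' :=
  Set.image_mono hT

theorem conjMatSet_mul (h k : GL κ F) (T : Set (Matrix κ κ F)) :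
    conjMatSet h (conjMatSet k T) = conjMatSet (h * k) T := by
  ext b
  rw [mem_conjMatSet, mem_conjMatSet, mem_conjMatSet, _root_.mul_inv_rev, Units.val_mul, Units.val_mul]
  simp only [mul_assoc]

theorem conjMatSet_one (T : Set (Matrix κ κ F)) : conjMatSet (1 : GL κ F) T = T := by
  ext b
  rw [mem_conjMatSet]
  simp

theorem jointKer_conjMatSet (h : GL κ F) (T : Set (Matrix κ κ F)) :
    jointKer (conjMatSet h T) = (jointKer T).map (Matrix.toLin' (h : Matrix κ κ F)) := by
  ext v
  rw [mem_jointKer, Submodule.mem_map]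
  constructor
  · intro hv
    refine ⟨((h⁻¹ : GL κ F) : Matrix κ κ F) *ᵥ v, ?_, ?_⟩
    · rw [mem_jointKer]
      intro s hs
      have h1 := hv _ ⟨s, hs, rfl⟩
      rw [← Matrix.mulVec_mulVec, ← Matrix.mulVec_mulVec] at h1
      have h2 := congrArg (fun w => ((h⁻¹ : GL κ F) : Matrix κ κ F) *ᵥ w) h1
      simpa [mulVec_inv_cancel] using h2
    · rw [Matrix.toLin'_apply, mulVec_cancel_inv]
  · rintro ⟨w, hw, rfl⟩
    rw [mem_jointKer] at hw
    rintro _ ⟨s, hs, rfl⟩
    rw [Matrix.toLin'_apply, ← Matrix.mulVec_mulVec, ← Matrix.mulVec_mulVec, mulVec_inv_cancel, hw s hs,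
      Matrix.mulVec_zero]

theorem toLin'_val_injective (h : GL κ F) :
    Function.Injective (Matrix.toLin' (h : Matrix κ κ F)) := by
  intro v w hvw
  simp only [Matrix.toLin'_apply] at hvw
  exact mulVec_injective h hvw

theorem eq_zero_of_mulVec_eq_zero {a : Matrix κ κ F} (h : ∀ w : κ → F, a *ᵥ w = 0) :
    a = 0 := by
  apply Matrix.toLin'.injective
  apply LinearMap.ext
  intro w
  simpa [Matrix.toLin'_apply] using h w

/-- A commutative family of matrices, stable under conjugation by an irreducible group and containing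
a non-zero singular matrix, yields a decomposition stabilised by the group. -/
theorem exists_decomp_of_comm_stable [Finite F] (G : Subgroup (GL κ F))
    (hirr : ActsIrreducibly (matrixSet G))
    (Z : Set (Matrix κ κ F))
    (hcomm : ∀ a ∈ Z, ∀ b ∈ Z, a * b = b * a)
    (hstab : ∀ g ∈ G, ∀ a ∈ Z,
      (g : Matrix κ κ F) * a * ((g⁻¹ : GL κ F) : Matrix κ κ F) ∈ Z)
    (a : Matrix κ κ F) (haZ : a ∈ Z) (ha0 : a ≠ 0) (v : κ → F) (hv0 : v ≠ 0)
    (hav : a *ᵥ v = 0) :
    ∃ (t m : ℕ) (D : Fin t → Submodule F (κ → F)),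
      IsMDecomposition m D ∧ G ≤ decompositionStabilizer D := by
  classical
  let p : Set (Matrix κ κ F) → Prop := fun T => T ⊆ Z ∧ jointKer T ≠ ⊥
  have hp0 : p {a} := by
    refine ⟨?_, ?_⟩
    · rintro b rfl
      exact haZ
    · intro hbot
      apply hv0
      have : v ∈ jointKer ({a} : Set (Matrix κ κ F)) := by
        rw [mem_jointKer]
        rintro s rfl
        exact hav
      rw [hbot] at this
      exact (Submodule.mem_bot F).mp this
  obtain ⟨T, haT, hTmax⟩ := Finite.exists_le_maximal hp0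
  have haT' : a ∈ T := haT (Set.mem_singleton a)
  have hpconj : ∀ h ∈ G, ∀ T' : Set (Matrix κ κ F), p T' → p (conjMatSet h T') := by
    intro h hh T' hT'
    refine ⟨?_, ?_⟩
    · rintro _ ⟨s, hs, rfl⟩
      exact hstab h hh s (hT'.1 hs)
    · rw [jointKer_conjMatSet]
      intro hbot
      apply hT'.2
      rw [Submodule.eq_bot_iff] at hbot ⊢
      intro w hw
      exact toLin'_val_injective h ((hbot _ (Submodule.mem_map_of_mem hw)).trans (map_zero _).symm)
  have hmaxconj : ∀ h ∈ G, ∀ T' : Set (Matrix κ κ F), Maximal p T' →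
      Maximal p (conjMatSet h T') := by
    intro h hh T' hT'
    refine ⟨hpconj h hh T' hT'.1, ?_⟩
    intro T'' hT'' hle
    have h1 : T' ≤ conjMatSet h⁻¹ T'' := by
      have := conjMatSet_mono h⁻¹ hle
      rwa [conjMatSet_inv_conjMatSet] at this
    have h2 := hT'.2 (hpconj h⁻¹ (G.inv_mem hh) T'' hT'') h1
    have h3 := conjMatSet_mono h h2
    rwa [conjMatSet_conjMatSet_inv] at h3
  let α : Type _ := {T' : Set (Matrix κ κ F) // ∃ h ∈ G, T' = conjMatSet h T}
  have hαmax : ∀ i : α, Maximal p i.1 := by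
    rintro ⟨T', h, hh, rfl⟩
    exact hmaxconj h hh T hTmax
  let D : α → Submodule F (κ → F) := fun i => jointKer i.1
  let i0 : α := ⟨T, 1, G.one_mem, (conjMatSet_one T).symm⟩
  have hsep : ∀ i j : α, i ≠ j → ∃ φ : (κ → F) →ₗ[F] (κ → F),
      D i ≤ LinearMap.ker φ ∧ D j ⊓ LinearMap.ker φ = ⊥ ∧ ∀ k, (D k).map φ ≤ D k := by
    intro i j hij
    have hnot : ¬ i.1 ⊆ j.1 := by
      intro hsub
      apply hij
      apply Subtype.ext
      exact le_antisymm hsub ((hαmax i).2 (hαmax j).1 hsub)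
    obtain ⟨s, hsi, hsj⟩ := Set.not_subset.mp hnot
    have hsZ : s ∈ Z := (hαmax i).1.1 hsi
    refine ⟨Matrix.toLin' s, ?_, ?_, ?_⟩
    · intro w hw
      rw [LinearMap.mem_ker, Matrix.toLin'_apply]
      exact mem_jointKer.mp hw s hsi
    · by_contra hbot
      have hp : p (insert s j.1) := by
        refine ⟨Set.insert_subset hsZ (hαmax j).1.1, ?_⟩
        intro hb
        apply hbot
        rw [Submodule.eq_bot_iff] at hb ⊢
        rintro w ⟨hw1, hw2⟩
        apply hb
        rw [mem_jointKer]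
        intro s' hs'
        rcases hs' with rfl | hs'
        · rw [SetLike.mem_coe, LinearMap.mem_ker, Matrix.toLin'_apply] at hw2
          exact hw2
        · exact mem_jointKer.mp hw1 s' hs'
      exact hsj ((hαmax j).2 hp (Set.subset_insert s j.1) (Set.mem_insert s j.1))
    · rintro k _ ⟨w, hw, rfl⟩
      rw [SetLike.mem_coe] at hw
      change _ ∈ jointKer k.1
      rw [mem_jointKer]
      intro s' hs'
      have hs'Z : s' ∈ Z := (hαmax k).1.1 hs'
      have hw' := mem_jointKer.mp hw s' hs'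
      rw [Matrix.toLin'_apply, Matrix.mulVec_mulVec, hcomm s' hs'Z s hsZ, ← Matrix.mulVec_mulVec, hw',
        Matrix.mulVec_zero]
  have hindep : iSupIndep D := iSupIndep_of_sep D hsep
  have hDconj : ∀ h ∈ G, ∀ i : α, ∃ j : α,
      (D i).map (Matrix.toLin' (h : Matrix κ κ F)) = D j := by
    rintro h hh ⟨T', k, hk, rfl⟩
    refine ⟨⟨conjMatSet h (conjMatSet k T), h * k, G.mul_mem hh hk, conjMatSet_mul h k T⟩, ?_⟩
    exact (jointKer_conjMatSet h _).symm
  have hsum : iSup D = ⊤ := by
    have hinv : ∀ s ∈ matrixSet G, (iSup D).map (Matrix.toLin' s) ≤ iSup D := by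
      rintro _ ⟨g, hg, rfl⟩
      rw [Submodule.map_iSup]
      refine iSup_le fun i => ?_
      obtain ⟨j, hj⟩ := hDconj g hg i
      rw [hj]
      exact le_iSup D j
    rcases hirr (iSup D) hinv with h | h
    · exfalso
      apply hTmax.1.2
      have : D i0 ≤ iSup D := le_iSup D i0
      rw [h] at this
      exact le_bot_iff.mp this
    · exact h
  have hdim : ∀ i : α, Module.finrank F (D i) = Module.finrank F (jointKer T) := by
    rintro ⟨T', k, hk, rfl⟩
    change Module.finrank F (jointKer (conjMatSet k T)) = _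
    rw [jointKer_conjMatSet]
    exact (Submodule.equivMapOfInjective _ (toLin'_val_injective k) _).finrank_eq.symm
  have hpos : 0 < Module.finrank F (jointKer T) := by
    rw [Module.finrank_pos_iff]
    exact (Submodule.nontrivial_iff_ne_bot).mpr hTmax.1.2
  have hfin : Finite α := inferInstance
  set t := Nat.card α with ht
  let e : α ≃ Fin t := Finite.equivFin α
  have h2 : 2 ≤ t := by
    by_contra h2
    have hle : Nat.card α ≤ 1 := by omega
    have hsub : Subsingleton α := (Finite.card_le_one_iff_subsingleton).mp hle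
    have hD0 : D i0 = ⊤ := by
      rw [← hsum]
      apply le_antisymm (le_iSup D i0)
      refine iSup_le fun i => ?_
      rw [Subsingleton.elim i i0]
    apply ha0
    apply eq_zero_of_mulVec_eq_zero
    intro w
    have hw : w ∈ D i0 := by rw [hD0]; exact Submodule.mem_top
    exact mem_jointKer.mp hw a haT'
  refine ⟨t, Module.finrank F (jointKer T), D ∘ e.symm, ?_, ?_⟩
  · refine ⟨h2, hpos, fun i => hdim _, hindep.comp e.symm.injective, ?_⟩
    rw [← hsum]
    exact e.symm.iSup_comp (g := D)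
  · intro g hg
    have hτ : ∀ i : Fin t, ∃ j : Fin t,
        (D (e.symm i)).map (Matrix.toLin' (g : Matrix κ κ F)) = D (e.symm j) := by
      intro i
      obtain ⟨j, hj⟩ := hDconj g hg (e.symm i)
      exact ⟨e j, by rw [Equiv.symm_apply_apply]; exact hj⟩
    choose τ hτ' using hτ
    have hτinj : Function.Injective τ := by
      intro i j hij
      have h1 := hτ' i
      have h2 := hτ' j
      rw [hij] at h1
      have h3 : (D (e.symm i)).map (Matrix.toLin' (g : Matrix κ κ F))
          = (D (e.symm j)).map (Matrix.toLin' (g : Matrix κ κ F)) := h1.trans h2.symm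
      have h4 : D (e.symm i) = D (e.symm j) :=
        Submodule.map_injective_of_injective (toLin'_val_injective g) h3
      by_contra hne
      have hne' : e.symm i ≠ e.symm j := fun h => hne (e.symm.injective h)
      have hdis := hindep.pairwiseDisjoint hne'
      rw [Function.onFun, h4, disjoint_self] at hdis
      have := hdim (e.symm j)
      rw [hdis] at this
      simp at this
      omega
    exact (mem_decompositionStabilizer_iff _ g).mpr
      ⟨Equiv.ofBijective τ (Finite.injective_iff_bijective.mp hτinj), fun i => hτ' i⟩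

/-! ### Invariant subspaces and minimal invariant subspaces -/

/-- `W` is invariant under every matrix of `T`. -/
def IsInv (T : Set (Matrix κ κ F)) (W : Submodule F (κ → F)) : Prop :=
  ∀ s ∈ T, ∀ w ∈ W, s *ᵥ w ∈ W

theorem isInv_iff_map {T : Set (Matrix κ κ F)} {W : Submodule F (κ → F)} :
    IsInv T W ↔ ∀ s ∈ T, W.map (Matrix.toLin' s) ≤ W := by
  constructor
  · rintro h s hs _ ⟨w, hw, rfl⟩
    rw [Matrix.toLin'_apply]
    exact h s hs w hw
  · intro h s hs w hw
    have := h s hs (Submodule.mem_map_of_mem hw)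
    rwa [Matrix.toLin'_apply] at this

/-- `U` is a minimal non-zero invariant subspace. -/
def IsMinInv (T : Set (Matrix κ κ F)) (U : Submodule F (κ → F)) : Prop :=
  U ≠ ⊥ ∧ IsInv T U ∧ ∀ U' : Submodule F (κ → F), IsInv T U' → U' ≤ U → U' = ⊥ ∨ U' = U

theorem isInv_inf {T : Set (Matrix κ κ F)} {W W' : Submodule F (κ → F)}
    (h : IsInv T W) (h' : IsInv T W') : IsInv T (W ⊓ W') :=
  fun s hs w hw => ⟨h s hs w hw.1, h' s hs w hw.2⟩

theorem isInv_sup {T : Set (Matrix κ κ F)} {W W' : Submodule F (κ → F)}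
    (h : IsInv T W) (h' : IsInv T W') : IsInv T (W ⊔ W') := by
  intro s hs w hw
  obtain ⟨y, hy, z, hz, rfl⟩ := Submodule.mem_sup.mp hw
  rw [Matrix.mulVec_add]
  exact Submodule.add_mem _ (Submodule.mem_sup_left (h s hs y hy)) (Submodule.mem_sup_right (h' s hs z hz))

theorem isInv_bot (T : Set (Matrix κ κ F)) : IsInv T (⊥ : Submodule F (κ → F)) := by
  intro s _ w hw
  rw [(Submodule.mem_bot F).mp hw, Matrix.mulVec_zero]
  exact Submodule.zero_mem _

theorem isInv_top (T : Set (Matrix κ κ F)) : IsInv T (⊤ : Submodule F (κ → F)) :=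
  fun _ _ _ _ => Submodule.mem_top

theorem isInv_finset_sup {T : Set (Matrix κ κ F)} {α : Type*} (s : Finset α)
    (U : α → Submodule F (κ → F)) (h : ∀ i, IsInv T (U i)) : IsInv T (s.sup U) := by
  classical
  induction s using Finset.induction_on with
  | empty => rw [Finset.sup_empty]; exact isInv_bot T
  | insert a s _ ih => rw [Finset.sup_insert]; exact isInv_sup (h a) ih

theorem IsMinInv.inf_eq_bot_or_le {T : Set (Matrix κ κ F)} {U W : Submodule F (κ → F)}
    (hU : IsMinInv T U) (hW : IsInv T W) : U ⊓ W = ⊥ ∨ U ≤ W := by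
  rcases hU.2.2 (U ⊓ W) (isInv_inf hU.2.1 hW) inf_le_left with h | h
  · exact Or.inl h
  · exact Or.inr (inf_eq_left.mp h)

theorem finrank_sup_dvd {T : Set (Matrix κ κ F)} {α : Type*} (d : ℕ)
    (U : α → Submodule F (κ → F)) (hU : ∀ i, IsMinInv T (U i) ∧ Module.finrank F (U i) = d)
    (s : Finset α) : d ∣ Module.finrank F (s.sup U : Submodule F (κ → F)) := by
  classical
  induction s using Finset.induction_on with
  | empty => rw [Finset.sup_empty, finrank_bot]; exact dvd_zero d
  | insert a s _ ih =>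
    rw [Finset.sup_insert]
    rcases (hU a).1.inf_eq_bot_or_le (isInv_finset_sup s U (fun i => (hU i).1.2.1)) with h | h
    · have h1 := Submodule.finrank_sup_add_finrank_inf_eq (U a) (s.sup U)
      rw [h, finrank_bot, add_zero, (hU a).2] at h1
      rw [h1]
      exact Dvd.dvd.add (dvd_refl d) ih
    · rw [sup_eq_right.mpr h]
      exact ih

theorem exists_minInv [Finite F] (T : Set (Matrix κ κ F)) (W : Submodule F (κ → F))
    (hW0 : W ≠ ⊥) (hW : IsInv T W) : ∃ U ≤ W, IsMinInv T U := by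
  obtain ⟨U, hUW, hUmin⟩ := Finite.exists_le_minimal
    (p := fun U : Submodule F (κ → F) => U ≠ ⊥ ∧ IsInv T U) ⟨hW0, hW⟩
  refine ⟨U, hUW, hUmin.1.1, hUmin.1.2, fun U' hU' hle => ?_⟩
  by_cases h0 : U' = ⊥
  · exact Or.inl h0
  · exact Or.inr (le_antisymm hle (hUmin.2 ⟨h0, hU'⟩ hle))

theorem isInv_map_of_normalizes (S : Subgroup (GL κ F)) (g : GL κ F)
    (hg : ∀ s ∈ S, g⁻¹ * s * g ∈ S) {W : Submodule F (κ → F)} (hW : IsInv (matrixSet S) W) :
    IsInv (matrixSet S) (W.map (Matrix.toLin' (g : Matrix κ κ F))) := by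
  rintro _ ⟨s, hs, rfl⟩ _ ⟨w, hw, rfl⟩
  refine ⟨((g⁻¹ * s * g : GL κ F) : Matrix κ κ F) *ᵥ w,
    hW _ (coe_mem_matrixSet (hg s hs)) w hw, ?_⟩
  rw [Matrix.toLin'_apply, Matrix.toLin'_apply, Units.val_mul, Units.val_mul, ← Matrix.mulVec_mulVec,
    ← Matrix.mulVec_mulVec, mulVec_cancel_inv]

theorem map_map_inv (g : GL κ F) (W : Submodule F (κ → F)) :
    (W.map (Matrix.toLin' ((g⁻¹ : GL κ F) : Matrix κ κ F))).map
      (Matrix.toLin' (g : Matrix κ κ F)) = W := by
  ext v
  constructor
  · rintro ⟨_, ⟨w, hw, rfl⟩, rfl⟩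
    rw [Matrix.toLin'_apply, Matrix.toLin'_apply, mulVec_cancel_inv]
    exact hw
  · intro hv
    refine ⟨((g⁻¹ : GL κ F) : Matrix κ κ F) *ᵥ v, ⟨v, hv, ?_⟩, ?_⟩
    · rw [Matrix.toLin'_apply]
    · rw [Matrix.toLin'_apply, mulVec_cancel_inv]

theorem isMinInv_map_of_normalizes (S : Subgroup (GL κ F)) (g : GL κ F)
    (hg : ∀ s ∈ S, g⁻¹ * s * g ∈ S) (hg' : ∀ s ∈ S, g * s * g⁻¹ ∈ S)
    {U : Submodule F (κ → F)} (hU : IsMinInv (matrixSet S) U) :
    IsMinInv (matrixSet S) (U.map (Matrix.toLin' (g : Matrix κ κ F))) := by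
  refine ⟨?_, isInv_map_of_normalizes S g hg hU.2.1, ?_⟩
  · intro hbot
    apply hU.1
    rw [Submodule.eq_bot_iff] at hbot ⊢
    intro w hw
    exact toLin'_val_injective g ((hbot _ (Submodule.mem_map_of_mem hw)).trans (map_zero _).symm)
  · intro U' hU' hle
    have h1 : IsInv (matrixSet S)
        (U'.map (Matrix.toLin' ((g⁻¹ : GL κ F) : Matrix κ κ F))) :=
      isInv_map_of_normalizes S g⁻¹ (by simpa using hg') hU'
    have h2 : U'.map (Matrix.toLin' ((g⁻¹ : GL κ F) : Matrix κ κ F)) ≤ U := by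
      rintro _ ⟨w, hw, rfl⟩
      obtain ⟨u, hu, rfl⟩ := hle hw
      rw [Matrix.toLin'_apply, Matrix.toLin'_apply, mulVec_inv_cancel]
      exact hu
    rcases hU.2.2 _ h1 h2 with h | h
    · left
      rw [← map_map_inv g U', h, Submodule.map_bot]
    · right
      rw [← map_map_inv g U', h]

/-- The translates of a minimal invariant subspace of a normal subgroup of an irreducible group
span the whole space, so its dimension divides `n`. -/
theorem finrank_minInv_dvd [Finite F] (G S : Subgroup (GL κ F))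
    (hirr : ActsIrreducibly (matrixSet G)) (hSG : ∀ g ∈ G, ∀ s ∈ S, g * s * g⁻¹ ∈ S)
    (U : Submodule F (κ → F)) (hU : IsMinInv (matrixSet S) U) :
    Module.finrank F U ∣ n ∧
      (⨆ g : G, U.map (Matrix.toLin' ((g : GL κ F) : Matrix κ κ F))) = ⊤ := by
  classical
  have hfin : Fintype G := Fintype.ofFinite G
  obtain ⟨Ufam, hUfam⟩ : ∃ Ufam : G → Submodule F (κ → F), ∀ g : G,
      Ufam g = U.map (Matrix.toLin' ((g : GL κ F) : Matrix κ κ F)) := ⟨_, fun _ => rfl⟩
  have hmin : ∀ g : G, IsMinInv (matrixSet S) (Ufam g) ∧ Module.finrank F (Ufam g) = Module.finrank F U := by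
    intro g
    rw [hUfam]
    refine ⟨isMinInv_map_of_normalizes S g ?_ (hSG g g.2) hU, ?_⟩
    · intro s hs
      have := hSG g⁻¹ (G.inv_mem g.2) s hs
      simpa using this
    · exact (Submodule.equivMapOfInjective (Matrix.toLin' ((g : GL κ F) : Matrix κ κ F))
        (toLin'_val_injective (g : GL κ F)) U).finrank_eq.symm
  have hsup : (⨆ g : G, Ufam g) = ⊤ := by
    have hinv : ∀ s ∈ matrixSet G, (⨆ g : G, Ufam g).map (Matrix.toLin' s) ≤ ⨆ g : G, Ufam g := by
      rintro _ ⟨g, hg, rfl⟩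
      rw [Submodule.map_iSup]
      refine iSup_le fun k => ?_
      refine le_trans (le_of_eq ?_) (le_iSup Ufam (⟨g, hg⟩ * k))
      have hcoe : (((⟨g, hg⟩ * k : G) : GL κ F) : Matrix κ κ F)
          = (g : Matrix κ κ F) * ((k : GL κ F) : Matrix κ κ F) := rfl
      rw [hUfam, hUfam, hcoe, Matrix.toLin'_mul, Submodule.map_comp]
    rcases hirr _ hinv with h | h
    · exfalso
      apply hU.1
      have h1 : Ufam 1 ≤ ⨆ g : G, Ufam g := le_iSup Ufam 1
      rw [h] at h1
      have h2 : Ufam 1 = U := by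
        rw [hUfam]
        have : (((1 : G) : GL κ F) : Matrix κ κ F) = 1 := rfl
        rw [this, Matrix.toLin'_one, Submodule.map_id]
      rw [h2] at h1
      exact le_bot_iff.mp h1
    · exact h
  refine ⟨?_, ?_⟩
  · have h1 : Module.finrank F U ∣ Module.finrank F (Finset.univ.sup Ufam : Submodule F (κ → F)) :=
      finrank_sup_dvd (T := matrixSet S) (Module.finrank F U) Ufam hmin Finset.univ
    have h2 : (Finset.univ.sup Ufam) = ⊤ := by rw [Finset.sup_univ_eq_iSup]; exact hsup
    rw [h2] at h1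
    have h3 : Module.finrank F (⊤ : Submodule F (κ → F)) = n := by
      rw [finrank_top]; exact finrank_fun_eq F
    rwa [h3] at h1
  · rw [← hsup]
    exact iSup_congr fun g => (hUfam g).symm

/-! ### Division subalgebras of the matrix algebra -/

/-- Evaluation of matrices at a vector, as a linear map. -/
def evalAt (v : κ → F) : Matrix κ κ F →ₗ[F] (κ → F) where
  toFun k := k *ᵥ v
  map_add' a b := Matrix.add_mulVec a b v
  map_smul' c a := Matrix.smul_mulVec c a v

theorem evalAt_apply (v : κ → F) (k : Matrix κ κ F) : evalAt v k = k *ᵥ v := rfl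

theorem finrank_dvd_of_division [Finite F] (K : Subalgebra F (Matrix κ κ F))
    (hinv : ∀ x ∈ K, x ≠ 0 → ∃ y ∈ K, x * y = 1) :
    Module.finrank F K ∣ n ∧
      ∀ v : κ → F, v ≠ 0 → Module.finrank F K = n → ∀ w : κ → F, ∃ k ∈ K, k *ᵥ v = w := by
  classical
  have hfin : Fintype {v : κ → F // v ≠ 0} := Fintype.ofFinite _
  obtain ⟨U, hUdef⟩ : ∃ U : {v : κ → F // v ≠ 0} → Submodule F (κ → F),
      ∀ v, U v = (Subalgebra.toSubmodule K).map (evalAt v.1) := ⟨_, fun _ => rfl⟩
  have hmemU : ∀ (v : {v : κ → F // v ≠ 0}) (w : κ → F), w ∈ U v ↔ ∃ k ∈ K, k *ᵥ v.1 = w := by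
    intro v w
    rw [hUdef, Submodule.mem_map]
    rfl
  have hfr : ∀ v : {v : κ → F // v ≠ 0}, Module.finrank F (U v) = Module.finrank F K := by
    intro v
    have hinj : Function.Injective ((evalAt v.1).domRestrict (Subalgebra.toSubmodule K)) := by
      intro a b hab
      have h1 : ((a : Matrix κ κ F) - (b : Matrix κ κ F)) *ᵥ v.1 = 0 := by
        rw [Matrix.sub_mulVec]
        have : (a : Matrix κ κ F) *ᵥ v.1 = (b : Matrix κ κ F) *ᵥ v.1 := hab
        rw [this, sub_self]
      have h2 := eq_zero_of_mulVec_eq_zero_of_inv K hinv (K.sub_mem a.2 b.2) v.2 h1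
      exact Subtype.ext (sub_eq_zero.mp h2)
    have h3 := LinearMap.finrank_range_of_inj hinj
    rw [LinearMap.range_domRestrict] at h3
    rw [hUdef]
    exact h3
  have hmin : ∀ v : {v : κ → F // v ≠ 0},
      IsMinInv (K : Set (Matrix κ κ F)) (U v) ∧ Module.finrank F (U v) = Module.finrank F K := by
    intro v
    refine ⟨⟨?_, ?_, ?_⟩, hfr v⟩
    · intro hbot
      apply v.2
      have : v.1 ∈ U v := (hmemU v v.1).mpr ⟨1, K.one_mem, Matrix.one_mulVec _⟩
      rw [hbot] at this
      exact (Submodule.mem_bot F).mp this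
    · intro s hs w hw
      obtain ⟨k, hk, rfl⟩ := (hmemU v w).mp hw
      exact (hmemU v _).mpr ⟨s * k, K.mul_mem hs hk, (Matrix.mulVec_mulVec _ _ _).symm⟩
    · intro U' hU' hle
      by_cases h0 : U' = ⊥
      · exact Or.inl h0
      right
      apply le_antisymm hle
      obtain ⟨w, hwU', hw0⟩ := (Submodule.ne_bot_iff U').mp h0
      obtain ⟨k₀, hk₀, rfl⟩ := (hmemU v w).mp (hle hwU')
      have hk₀0 : k₀ ≠ 0 := by
        rintro rfl
        exact hw0 (Matrix.zero_mulVec _)
      obtain ⟨y, hy, hky⟩ := hinv k₀ hk₀ hk₀0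
      have hyk : y * k₀ = 1 := mul_eq_one_comm.mp hky
      intro w' hw'
      obtain ⟨k, hk, rfl⟩ := (hmemU v w').mp hw'
      have h1 : k *ᵥ v.1 = (k * y) *ᵥ (k₀ *ᵥ v.1) := by
        rw [Matrix.mulVec_mulVec, mul_assoc, hyk, mul_one]
      rw [h1]
      exact hU' (k * y) (K.mul_mem hk hy) _ hwU'
  have hsup : (Finset.univ.sup U) = ⊤ := by
    rw [eq_top_iff]
    intro w _
    by_cases hw : w = 0
    · rw [hw]; exact Submodule.zero_mem _
    · have h1 : w ∈ U ⟨w, hw⟩ := (hmemU ⟨w, hw⟩ w).mpr ⟨1, K.one_mem, Matrix.one_mulVec _⟩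
      exact (Finset.le_sup (f := U) (Finset.mem_univ (⟨w, hw⟩ : {v : κ → F // v ≠ 0}))) h1
  have htop : Module.finrank F (⊤ : Submodule F (κ → F)) = n := by
    rw [finrank_top]; exact finrank_fun_eq F
  refine ⟨?_, ?_⟩
  · have h1 : Module.finrank F K ∣ Module.finrank F (Finset.univ.sup U : Submodule F (κ → F)) :=
      finrank_sup_dvd (T := (K : Set (Matrix κ κ F))) (Module.finrank F K) U hmin Finset.univ
    rwa [hsup, htop] at h1
  · intro v hv hKn w
    have h1 : U ⟨v, hv⟩ = ⊤ := by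
      apply Submodule.eq_top_of_finrank_eq
      rw [hfr, hKn, finrank_fun_eq F (κ := κ) (n := n)]
    have h2 : w ∈ U ⟨v, hv⟩ := by rw [h1]; exact Submodule.mem_top
    exact (hmemU ⟨v, hv⟩ w).mp h2

/-! ### Decompositions in prime dimension -/

theorem isMDecomposition_card {t m : ℕ} (D : Fin t → Submodule F (κ → F))
    (hD : IsMDecomposition m D) : t * m = n := by
  classical
  have hint := DirectSum.isInternal_submodule_of_iSupIndep_of_iSup_eq_top hD.indep hD.iSup_eq_top
  have e := LinearEquiv.ofBijective (DirectSum.coeLinearMap D) hint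
  have h1 := e.finrank_eq
  rw [Module.finrank_directSum, finrank_fun_eq F (κ := κ) (n := n)] at h1
  rw [← h1]
  simp [hD.finrank_eq]

theorem decomp_prime (hn : n.Prime) (G : Subgroup (GL κ F)) {t m : ℕ}
    (D : Fin t → Submodule F (κ → F)) (hD : IsMDecomposition m D)
    (hG : G ≤ decompositionStabilizer D) :
    ∃ D' : Fin n → Submodule F (κ → F), IsMDecomposition 1 D' ∧ G ≤ decompositionStabilizer D' := by
  have h1 : t * m = n := isMDecomposition_card D hD
  have ht : t ∣ n := ⟨m, h1.symm⟩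
  rcases (Nat.dvd_prime hn).mp ht with h | h
  · have := hD.two_le
    omega
  · subst h
    have hm : m = 1 := by
      have : t * m = t * 1 := by rw [h1, mul_one]
      exact Nat.eq_of_mul_eq_mul_left hn.pos this
    subst hm
    exact ⟨D, hD, hG⟩

theorem eq_smul_one_of_finrank_one (K : Subalgebra F (Matrix κ κ F))
    (h : Module.finrank F K = 1) (k : Matrix κ κ F) (hk : k ∈ K) :
    ∃ c : F, k = c • (1 : Matrix κ κ F) := by
  obtain ⟨v, hv0, hv⟩ := finrank_eq_one_iff'.mp h
  obtain ⟨c₁, hc₁⟩ := hv 1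
  obtain ⟨c, hc⟩ := hv ⟨k, hk⟩
  have hc₁0 : c₁ ≠ 0 := by
    rintro rfl
    rw [zero_smul] at hc₁
    by_cases hn : IsEmpty κ
    · exact hv0 (Subsingleton.elim _ _)
    · obtain ⟨i0⟩ := not_isEmpty_iff.mp hn
      have h2 : ((1 : K) : Matrix κ κ F) = 0 := by rw [← hc₁]; rfl
      have h3 := congrFun (congrFun h2 i0) i0
      simp at h3
  refine ⟨c * c₁⁻¹, ?_⟩
  have h1 : (v : Matrix κ κ F) = c₁⁻¹ • (1 : Matrix κ κ F) := by
    have : ((c₁ • v : K) : Matrix κ κ F) = 1 := by rw [hc₁]; rfl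
    have h2 : c₁ • (v : Matrix κ κ F) = 1 := this
    rw [← h2, smul_smul, inv_mul_cancel₀ hc₁0, one_smul]
  have h2 : k = c • (v : Matrix κ κ F) := by
    have : ((c • v : K) : Matrix κ κ F) = k := by rw [hc]
    exact this.symm
  rw [h2, h1, smul_smul]

theorem inv_mem_centralizer (T : Set (Matrix κ κ F)) (c : Matrix κ κ F)
    (hc : c ∈ Subalgebra.centralizer F T) (hdet : c.det ≠ 0) :
    c⁻¹ ∈ Subalgebra.centralizer F T ∧ c * c⁻¹ = 1 := by
  have hu : IsUnit c.det := isUnit_iff_ne_zero.mpr hdet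
  refine ⟨?_, Matrix.mul_nonsing_inv c hu⟩
  rw [Subalgebra.mem_centralizer_iff] at hc ⊢
  intro g hg
  have h1 := hc g hg
  calc g * c⁻¹ = c⁻¹ * c * (g * c⁻¹) := by rw [Matrix.nonsing_inv_mul c hu, one_mul]
    _ = c⁻¹ * (c * g) * c⁻¹ := by simp only [mul_assoc]
    _ = c⁻¹ * (g * c) * c⁻¹ := by rw [h1]
    _ = c⁻¹ * g * (c * c⁻¹) := by simp only [mul_assoc]
    _ = c⁻¹ * g := by rw [Matrix.mul_nonsing_inv c hu, mul_one]

theorem det_ne_zero_of_injective (c : Matrix κ κ F)
    (h : ∀ v : κ → F, c *ᵥ v = 0 → v = 0) : c.det ≠ 0 := by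
  intro hdet
  obtain ⟨w, hw0, hw⟩ := Matrix.exists_mulVec_eq_zero_iff.mpr hdet
  exact hw0 (h w hw)

/-- An abelian normal subgroup of an irreducible group in prime dimension. -/
theorem abelian_normal_cases [Finite F] (hn : n.Prime) (G S : Subgroup (GL κ F))
    (hirr : ActsIrreducibly (matrixSet G)) (hSG : ∀ g ∈ G, ∀ s ∈ S, g * s * g⁻¹ ∈ S)
    (hab : ∀ a ∈ S, ∀ b ∈ S, a * b = b * a) :
    S ≤ scalars κ F ∨
    (∃ D : Fin n → Submodule F (κ → F), IsMDecomposition 1 D ∧ G ≤ decompositionStabilizer D) ∨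
    (∃ K : Subalgebra F (Matrix κ κ F), IsFieldSubalgebra n K ∧ G ≤ subalgebraNormalizer K) := by
  classical
  obtain ⟨C, hCdef⟩ : ∃ C : Subalgebra F (Matrix κ κ F),
      C = Subalgebra.centralizer F (matrixSet S) := ⟨_, rfl⟩
  obtain ⟨K, hKdef⟩ : ∃ K : Subalgebra F (Matrix κ κ F),
      K = Subalgebra.centralizer F (C : Set (Matrix κ κ F)) := ⟨_, rfl⟩
  have hmemC : ∀ c : Matrix κ κ F, c ∈ C ↔ ∀ s ∈ S, (s : Matrix κ κ F) * c
      = c * (s : Matrix κ κ F) := by
    intro c
    rw [hCdef, Subalgebra.mem_centralizer_iff]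
    constructor
    · intro h s hs
      exact h _ (coe_mem_matrixSet hs)
    · rintro h _ ⟨s, hs, rfl⟩
      exact h s hs
  have hmemK : ∀ a : Matrix κ κ F, a ∈ K ↔ ∀ c ∈ C, c * a = a * c := by
    intro a
    rw [hKdef, Subalgebra.mem_centralizer_iff]
    rfl
  have hSC : ∀ s ∈ S, (s : Matrix κ κ F) ∈ C := by
    intro s hs
    rw [hmemC]
    intro s' hs'
    rw [← Units.val_mul, ← Units.val_mul, hab s' hs' s hs]
  have hSK : ∀ s ∈ S, (s : Matrix κ κ F) ∈ K := by
    intro s hs
    rw [hmemK]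
    intro c hc
    exact ((hmemC c).mp hc s hs).symm
  have hKC : ∀ a ∈ K, a ∈ C := by
    intro a ha
    rw [hmemC]
    intro s hs
    exact (hmemK a).mp ha _ (hSC s hs)
  have hKcomm : ∀ a ∈ K, ∀ b ∈ K, a * b = b * a := by
    intro a ha b hb
    exact ((hmemK b).mp hb a (hKC a ha))
  have hCstab : ∀ g ∈ G, ∀ c ∈ C,
      ((g⁻¹ : GL κ F) : Matrix κ κ F) * c * (g : Matrix κ κ F) ∈ C := by
    intro g hg c hc
    rw [hmemC]
    intro s hs
    have h1 := (hmemC c).mp hc _ (hSG g hg s hs)
    simp only [Units.val_mul] at h1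
    calc (s : Matrix κ κ F)
          * (((g⁻¹ : GL κ F) : Matrix κ κ F) * c * (g : Matrix κ κ F))
        = ((g⁻¹ : GL κ F) : Matrix κ κ F) * ((g : Matrix κ κ F)
          * (s : Matrix κ κ F) * ((g⁻¹ : GL κ F) : Matrix κ κ F) * c)
          * (g : Matrix κ κ F) := by
          simp only [mul_assoc, Units.inv_mul_cancel_left]
      _ = ((g⁻¹ : GL κ F) : Matrix κ κ F) * (c * ((g : Matrix κ κ F)
          * (s : Matrix κ κ F) * ((g⁻¹ : GL κ F) : Matrix κ κ F)))
          * (g : Matrix κ κ F) := by rw [h1]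
      _ = _ := by
          simp only [mul_assoc, Units.inv_mul]
          rw [mul_one]
  have hKstab : ∀ g ∈ G, ∀ a ∈ K,
      (g : Matrix κ κ F) * a * ((g⁻¹ : GL κ F) : Matrix κ κ F) ∈ K := by
    intro g hg a ha
    rw [hmemK]
    intro c hc
    have h1 := (hmemK a).mp ha _ (hCstab g hg c hc)
    calc c * ((g : Matrix κ κ F) * a * ((g⁻¹ : GL κ F) : Matrix κ κ F))
        = (g : Matrix κ κ F) * ((((g⁻¹ : GL κ F) : Matrix κ κ F) * c
          * (g : Matrix κ κ F)) * a) * ((g⁻¹ : GL κ F) : Matrix κ κ F) := by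
          simp only [mul_assoc, Units.mul_inv_cancel_left]
      _ = (g : Matrix κ κ F) * (a * (((g⁻¹ : GL κ F) : Matrix κ κ F) * c
          * (g : Matrix κ κ F))) * ((g⁻¹ : GL κ F) : Matrix κ κ F) := by
          rw [h1]
      _ = _ := by
          simp only [mul_assoc, Units.mul_inv]
          rw [mul_one]
  by_cases hsing : ∃ a ∈ K, a ≠ 0 ∧ ∃ v : κ → F, v ≠ 0 ∧ a *ᵥ v = 0
  · obtain ⟨a, haK, ha0, v, hv0, hav⟩ := hsing
    obtain ⟨t, m, D, hD, hGD⟩ := exists_decomp_of_comm_stable G hirr (K : Set (Matrix κ κ F))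
      hKcomm hKstab a haK ha0 v hv0 hav
    exact Or.inr (Or.inl (decomp_prime hn G D hD hGD))
  · have hinv : ∀ x ∈ K, x ≠ 0 → ∃ y ∈ K, x * y = 1 := by
      intro x hx hx0
      have hdet : x.det ≠ 0 := by
        apply det_ne_zero_of_injective
        intro v hv
        by_contra hv0
        exact hsing ⟨x, hx, hx0, v, hv0, hv⟩
      have := inv_mem_centralizer (C : Set (Matrix κ κ F)) x (hKdef ▸ hx) hdet
      exact ⟨x⁻¹, hKdef ▸ this.1, this.2⟩
    have hdvd := (finrank_dvd_of_division (n := n) K hinv).1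
    rcases (Nat.dvd_prime hn).mp hdvd with h1 | h1
    · left
      intro s hs
      obtain ⟨c, hc⟩ := eq_smul_one_of_finrank_one K h1 _ (hSK s hs)
      exact (scalar_mem_scalars_iff s).mpr ⟨c, hc⟩
    · right; right
      refine ⟨K, ⟨hKcomm, hinv, h1⟩, ?_⟩
      intro g hg
      rw [mem_subalgebraNormalizer_iff]
      intro k
      constructor
      · exact hKstab g hg k
      · intro hk
        have := hKstab g⁻¹ (G.inv_mem hg) _ hk
        rw [inv_inv] at this
        have e : ((g⁻¹ : GL κ F) : Matrix κ κ F)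
            * ((g : Matrix κ κ F) * k * ((g⁻¹ : GL κ F) : Matrix κ κ F))
            * (g : Matrix κ κ F) = k := by
          simp only [mul_assoc, Units.inv_mul_cancel_left, Units.inv_mul, mul_one]
        rwa [e] at this

/-- A one-dimensional subspace invariant under two matrices is killed by their commutator. -/
theorem comm_kills_of_finrank_one (a b : Matrix κ κ F) (L : Submodule F (κ → F))
    (hL : Module.finrank F L = 1) (ha : ∀ w ∈ L, a *ᵥ w ∈ L) (hb : ∀ w ∈ L, b *ᵥ w ∈ L)
    (w : κ → F) (hw : w ∈ L) : (a * b - b * a) *ᵥ w = 0 := by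
  obtain ⟨w₀, hw₀0, hw₀⟩ := finrank_eq_one_iff'.mp hL
  obtain ⟨α, hα⟩ := hw₀ ⟨a *ᵥ (w₀ : κ → F), ha _ w₀.2⟩
  obtain ⟨β, hβ⟩ := hw₀ ⟨b *ᵥ (w₀ : κ → F), hb _ w₀.2⟩
  obtain ⟨c, hc⟩ := hw₀ ⟨w, hw⟩
  have hα' : a *ᵥ (w₀ : κ → F) = α • (w₀ : κ → F) := (congrArg Subtype.val hα).symm
  have hβ' : b *ᵥ (w₀ : κ → F) = β • (w₀ : κ → F) := (congrArg Subtype.val hβ).symm
  have hc' : w = c • (w₀ : κ → F) := (congrArg Subtype.val hc).symm
  rw [hc', Matrix.mulVec_smul, Matrix.sub_mulVec, ← Matrix.mulVec_mulVec, ← Matrix.mulVec_mulVec, hα', hβ',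
    Matrix.mulVec_smul, Matrix.mulVec_smul, hα', hβ', smul_smul, smul_smul, mul_comm, sub_self, smul_zero]

/-- Clifford-type dichotomy in prime dimension: a subgroup normalised by an irreducible group is
scalar, or abelian (with a decomposition or a field normalised by the big group), or absolutely
irreducible. -/
theorem clifford_dichotomy [Finite F] (hn : n.Prime) (G S : Subgroup (GL κ F))
    (hirr : ActsIrreducibly (matrixSet G)) (hSG : ∀ g ∈ G, ∀ s ∈ S, g * s * g⁻¹ ∈ S) :
    S ≤ scalars κ F ∨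
    ((∀ a ∈ S, ∀ b ∈ S, a * b = b * a) ∧
      ((∃ D : Fin n → Submodule F (κ → F), IsMDecomposition 1 D ∧ G ≤ decompositionStabilizer D) ∨
       (∃ K : Subalgebra F (Matrix κ κ F), IsFieldSubalgebra n K ∧
          G ≤ subalgebraNormalizer K))) ∨
    ActsAbsolutelyIrreducibly (matrixSet S) := by
  classical
  have : NeZero n := ⟨hn.ne_zero⟩
  obtain ⟨i0⟩ : Nonempty κ := Fintype.card_pos_iff.mp (by rw [hcard.out]; exact hn.pos)
  by_cases hab : ∀ a ∈ S, ∀ b ∈ S, a * b = b * a
  · rcases abelian_normal_cases hn G S hirr hSG hab with h | h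
    · exact Or.inl h
    · exact Or.inr (Or.inl ⟨hab, h⟩)
  right; right
  have htop : (⊤ : Submodule F (κ → F)) ≠ ⊥ := by
    intro h
    have h1 : (Pi.single i0 1 : κ → F) ∈ (⊤ : Submodule F (κ → F)) := Submodule.mem_top
    rw [h] at h1
    have h2 := congrFun ((Submodule.mem_bot F).mp h1) i0
    simp at h2
  obtain ⟨U, -, hU⟩ := exists_minInv (matrixSet S) ⊤ htop (isInv_top _)
  obtain ⟨hdvd, hsup⟩ := finrank_minInv_dvd (n := n) G S hirr hSG U hU
  have hU0 : Module.finrank F U ≠ 0 := by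
    intro h0
    apply hU.1
    exact Submodule.finrank_eq_zero.mp h0
  rcases (Nat.dvd_prime hn).mp hdvd with h1 | h1
  · -- one-dimensional: `S` is abelian, a contradiction
    exfalso
    apply hab
    intro a ha b hb
    apply Units.ext
    rw [Units.val_mul, Units.val_mul]
    apply sub_eq_zero.mp
    apply eq_zero_of_mulVec_eq_zero
    intro w
    have hw : w ∈ (⨆ g : G, U.map (Matrix.toLin' ((g : GL κ F) : Matrix κ κ F))) := by
      rw [hsup]; exact Submodule.mem_top
    have hker : (⨆ g : G, U.map (Matrix.toLin' ((g : GL κ F) : Matrix κ κ F)))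
        ≤ LinearMap.ker (Matrix.toLin' ((a : Matrix κ κ F) * (b : Matrix κ κ F)
          - (b : Matrix κ κ F) * (a : Matrix κ κ F))) := by
      refine iSup_le fun g => ?_
      intro w' hw'
      rw [LinearMap.mem_ker, Matrix.toLin'_apply]
      have hinvg : IsInv (matrixSet S)
          (U.map (Matrix.toLin' ((g : GL κ F) : Matrix κ κ F))) := by
        refine isInv_map_of_normalizes S g ?_ hU.2.1
        intro s hs
        have := hSG g⁻¹ (G.inv_mem g.2) s hs
        simpa using this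
      have hfr : Module.finrank F (U.map (Matrix.toLin' ((g : GL κ F) : Matrix κ κ F))) = 1 := by
        rw [← h1]
        exact (Submodule.equivMapOfInjective (Matrix.toLin' ((g : GL κ F) : Matrix κ κ F))
          (toLin'_val_injective (g : GL κ F)) U).finrank_eq.symm
      exact comm_kills_of_finrank_one _ _ _ hfr (fun w hw => hinvg _ (coe_mem_matrixSet ha) w hw)
        (fun w hw => hinvg _ (coe_mem_matrixSet hb) w hw) w' hw'
    have := hker hw
    rwa [LinearMap.mem_ker, Matrix.toLin'_apply] at this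
  · -- `U = ⊤`: `S` is irreducible
    have hUtop : U = ⊤ := by
      apply Submodule.eq_top_of_finrank_eq
      rw [h1, finrank_fun_eq F (κ := κ) (n := n)]
    have hSirr : ActsIrreducibly (matrixSet S) := by
      intro W hW
      have := hU.2.2 W (isInv_iff_map.mpr hW) (by rw [hUtop]; exact le_top)
      rwa [hUtop] at this
    obtain ⟨C, hCdef⟩ : ∃ C : Subalgebra F (Matrix κ κ F),
        C = Subalgebra.centralizer F (matrixSet S) := ⟨_, rfl⟩
    have hmemC : ∀ c : Matrix κ κ F, c ∈ C ↔ ∀ s ∈ S, (s : Matrix κ κ F) * c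
        = c * (s : Matrix κ κ F) := by
      intro c
      rw [hCdef, Subalgebra.mem_centralizer_iff]
      constructor
      · intro h s hs
        exact h _ (coe_mem_matrixSet hs)
      · rintro h _ ⟨s, hs, rfl⟩
        exact h s hs
    have hCinj : ∀ c ∈ C, c ≠ 0 → ∀ v : κ → F, c *ᵥ v = 0 → v = 0 := by
      intro c hc hc0 v hv
      have hkinv : ∀ s ∈ matrixSet S, (LinearMap.ker (Matrix.toLin' c)).map (Matrix.toLin' s)
          ≤ LinearMap.ker (Matrix.toLin' c) := by
        rintro _ ⟨s, hs, rfl⟩ _ ⟨w, hw, rfl⟩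
        rw [SetLike.mem_coe, LinearMap.mem_ker, Matrix.toLin'_apply] at hw
        rw [LinearMap.mem_ker, Matrix.toLin'_apply, Matrix.toLin'_apply, Matrix.mulVec_mulVec,
          ← (hmemC c).mp hc s hs, ← Matrix.mulVec_mulVec, hw, Matrix.mulVec_zero]
      rcases hSirr _ hkinv with h | h
      · have : v ∈ LinearMap.ker (Matrix.toLin' c) := by
          rw [LinearMap.mem_ker, Matrix.toLin'_apply]; exact hv
        rw [h] at this
        exact (Submodule.mem_bot F).mp this
      · exfalso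
        apply hc0
        apply eq_zero_of_mulVec_eq_zero
        intro w
        have : w ∈ LinearMap.ker (Matrix.toLin' c) := by rw [h]; exact Submodule.mem_top
        rwa [LinearMap.mem_ker, Matrix.toLin'_apply] at this
    have hinv : ∀ x ∈ C, x ≠ 0 → ∃ y ∈ C, x * y = 1 := by
      intro x hx hx0
      have hdet : x.det ≠ 0 := det_ne_zero_of_injective x (hCinj x hx hx0)
      have := inv_mem_centralizer (matrixSet S) x (hCdef ▸ hx) hdet
      exact ⟨x⁻¹, hCdef ▸ this.1, this.2⟩
    have hCcomm : ∀ a ∈ C, ∀ b ∈ C, a * b = b * a := by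
      have hnt : Nontrivial C := by
        refine ⟨0, 1, ?_⟩
        intro h
        have h2 : ((0 : C) : Matrix κ κ F) = ((1 : C) : Matrix κ κ F) := by rw [h]
        have h3 := congrFun (congrFun h2 i0) i0
        simp at h3
      have hnzd : NoZeroDivisors C := by
        refine ⟨?_⟩
        intro a b hab'
        by_cases ha0 : a = 0
        · exact Or.inl ha0
        right
        have ha0' : (a : Matrix κ κ F) ≠ 0 := fun h => ha0 (Subtype.ext h)
        apply Subtype.ext
        apply eq_zero_of_mulVec_eq_zero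
        intro w
        apply hCinj _ a.2 ha0'
        rw [Matrix.mulVec_mulVec]
        have : (a : Matrix κ κ F) * (b : Matrix κ κ F) = 0 := by
          have := congrArg Subtype.val hab'
          exact this
        rw [this, Matrix.zero_mulVec]
      have hdom : IsDomain C := NoZeroDivisors.to_isDomain C
      have hfield := Finite.isDomain_to_isField C
      intro a ha b hb
      have := hfield.mul_comm ⟨a, ha⟩ ⟨b, hb⟩
      exact congrArg Subtype.val this
    obtain ⟨hdvdC, hfull⟩ := finrank_dvd_of_division (n := n) C hinv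
    rcases (Nat.dvd_prime hn).mp hdvdC with h2 | h2
    · refine ⟨hSirr, ?_⟩
      intro M hM
      apply eq_smul_one_of_finrank_one C h2 M
      rw [hmemC]
      intro s hs
      exact (hM _ (coe_mem_matrixSet hs)).symm
    · exfalso
      apply hab
      have hSC : ∀ s ∈ S, (s : Matrix κ κ F) ∈ C := by
        intro s hs
        have he : (Pi.single i0 1 : κ → F) ≠ 0 := by
          intro h0
          have := congrFun h0 i0
          simp at this
        obtain ⟨c₀, hc₀, hc₀v⟩ := hfull _ he h2 ((s : Matrix κ κ F) *ᵥ (Pi.single i0 1 : κ → F))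
        have : (s : Matrix κ κ F) = c₀ := by
          apply sub_eq_zero.mp
          apply eq_zero_of_mulVec_eq_zero
          intro w
          obtain ⟨c, hc, hcw⟩ := hfull _ he h2 w
          rw [← hcw, Matrix.sub_mulVec, Matrix.mulVec_mulVec, Matrix.mulVec_mulVec,
            (hmemC c).mp hc s hs, hCcomm c₀ hc₀ c hc, ← Matrix.mulVec_mulVec, ← Matrix.mulVec_mulVec,
            hc₀v, sub_self]
        rw [this]
        exact hc₀
      intro a ha b hb
      apply Units.ext
      rw [Units.val_mul, Units.val_mul]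
      exact hCcomm _ (hSC a ha) _ (hSC b hb)

end Cfsg.Agent.Helper97.Gen
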