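-- helper97 library: Clifford theory in prime dimension, with the separation data of the decomposition.
import Cfsg.Agent.Helper97.GClifford

set_option autoImplicit false
open Cfsg Cfsg.Geo Matrix

namespace Cfsg.Agent.Helper97.Gen

variable {κ : Type} [Fintype κ] [DecidableEq κ] {F : Type*} [Field F] {n : ℕ}

variable [hcard : Fact (Fintype.card κ = n)]

/-- A commutative family of matrices, stable under conjugation by an irreducible group and containing
a non-zero singular matrix, yields a decomposition stabilised by the group. -/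
theorem exists_decomp_of_comm_stable_sep [Finite F] (G : Subgroup (GL κ F))
    (hirr : ActsIrreducibly (matrixSet G))
    (Z : Set (Matrix κ κ F))
    (hcomm : ∀ a ∈ Z, ∀ b ∈ Z, a * b = b * a)
    (hstab : ∀ g ∈ G, ∀ a ∈ Z,
      (g : Matrix κ κ F) * a * ((g⁻¹ : GL κ F) : Matrix κ κ F) ∈ Z)
    (a : Matrix κ κ F) (haZ : a ∈ Z) (ha0 : a ≠ 0) (v : κ → F) (hv0 : v ≠ 0)
    (hav : a *ᵥ v = 0) :
    ∃ (t m : ℕ) (D : Fin t → Submodule F (κ → F)),
      IsMDecomposition m D ∧ G ≤ decompositionStabilizer D ∧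
      (∀ s ∈ Z, ∀ i, ∀ w ∈ D i, s *ᵥ w ∈ D i) ∧
      (∀ i j, i ≠ j → ∃ s ∈ Z, (∀ w ∈ D i, s *ᵥ w = 0) ∧ (∀ w ∈ D j, s *ᵥ w = 0 → w = 0)) := by
  classical
  let p : Set (Matrix κ κ F) → Prop := fun T => T ⊆ Z ∧ jointKer T ≠ ⊥
  have hp0 : p {a} := by
    refine ⟨?_, ?_⟩
    · rintro b rfl
      exact haZ
    · intro hbot
      apply hv0
      have : v ∈ jointKer ({a} : Set (Matrix κ κ F)) := by
        rw [mem_jointKer]
        rintro s rfl
        exact hav
      rw [hbot] at this
      exact (Submodule.mem_bot F).mp this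
  obtain ⟨T, haT, hTmax⟩ := Finite.exists_le_maximal hp0
  have haT' : a ∈ T := haT (Set.mem_singleton a)
  have hpconj : ∀ h ∈ G, ∀ T' : Set (Matrix κ κ F), p T' → p (conjMatSet h T') := by
    intro h hh T' hT'
    refine ⟨?_, ?_⟩
    · rintro _ ⟨s, hs, rfl⟩
      exact hstab h hh s (hT'.1 hs)
    · rw [jointKer_conjMatSet]
      intro hbot
      apply hT'.2
      rw [Submodule.eq_bot_iff] at hbot ⊢
      intro w hw
      exact toLin'_val_injective h ((hbot _ (Submodule.mem_map_of_mem hw)).trans (map_zero _).symm)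
  have hmaxconj : ∀ h ∈ G, ∀ T' : Set (Matrix κ κ F), Maximal p T' →
      Maximal p (conjMatSet h T') := by
    intro h hh T' hT'
    refine ⟨hpconj h hh T' hT'.1, ?_⟩
    intro T'' hT'' hle
    have h1 : T' ≤ conjMatSet h⁻¹ T'' := by
      have := conjMatSet_mono h⁻¹ hle
      rwa [conjMatSet_inv_conjMatSet] at this
    have h2 := hT'.2 (hpconj h⁻¹ (G.inv_mem hh) T'' hT'') h1
    have h3 := conjMatSet_mono h h2
    rwa [conjMatSet_conjMatSet_inv] at h3
  let α : Type _ := {T' : Set (Matrix κ κ F) // ∃ h ∈ G, T' = conjMatSet h T}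
  have hαmax : ∀ i : α, Maximal p i.1 := by
    rintro ⟨T', h, hh, rfl⟩
    exact hmaxconj h hh T hTmax
  let D : α → Submodule F (κ → F) := fun i => jointKer i.1
  let i0 : α := ⟨T, 1, G.one_mem, (conjMatSet_one T).symm⟩
  have hsep : ∀ i j : α, i ≠ j → ∃ φ : (κ → F) →ₗ[F] (κ → F),
      D i ≤ LinearMap.ker φ ∧ D j ⊓ LinearMap.ker φ = ⊥ ∧ ∀ k, (D k).map φ ≤ D k := by
    intro i j hij
    have hnot : ¬ i.1 ⊆ j.1 := by
      intro hsub
      apply hij
      apply Subtype.ext
      exact le_antisymm hsub ((hαmax i).2 (hαmax j).1 hsub)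
    obtain ⟨s, hsi, hsj⟩ := Set.not_subset.mp hnot
    have hsZ : s ∈ Z := (hαmax i).1.1 hsi
    refine ⟨Matrix.toLin' s, ?_, ?_, ?_⟩
    · intro w hw
      rw [LinearMap.mem_ker, Matrix.toLin'_apply]
      exact mem_jointKer.mp hw s hsi
    · by_contra hbot
      have hp : p (insert s j.1) := by
        refine ⟨Set.insert_subset hsZ (hαmax j).1.1, ?_⟩
        intro hb
        apply hbot
        rw [Submodule.eq_bot_iff] at hb ⊢
        rintro w ⟨hw1, hw2⟩
        apply hb
        rw [mem_jointKer]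
        intro s' hs'
        rcases hs' with rfl | hs'
        · rw [SetLike.mem_coe, LinearMap.mem_ker, Matrix.toLin'_apply] at hw2
          exact hw2
        · exact mem_jointKer.mp hw1 s' hs'
      exact hsj ((hαmax j).2 hp (Set.subset_insert s j.1) (Set.mem_insert s j.1))
    · rintro k _ ⟨w, hw, rfl⟩
      rw [SetLike.mem_coe] at hw
      change _ ∈ jointKer k.1
      rw [mem_jointKer]
      intro s' hs'
      have hs'Z : s' ∈ Z := (hαmax k).1.1 hs'
      have hw' := mem_jointKer.mp hw s' hs'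
      rw [Matrix.toLin'_apply, Matrix.mulVec_mulVec, hcomm s' hs'Z s hsZ, ← Matrix.mulVec_mulVec, hw',
        Matrix.mulVec_zero]
  have hsep' : ∀ i j : α, i ≠ j → ∃ s ∈ Z, (∀ w ∈ D i, s *ᵥ w = 0) ∧
      (∀ w ∈ D j, s *ᵥ w = 0 → w = 0) := by
    intro i j hij
    have hnot : ¬ i.1 ⊆ j.1 := by
      intro hsub
      apply hij
      apply Subtype.ext
      exact le_antisymm hsub ((hαmax i).2 (hαmax j).1 hsub)
    obtain ⟨s, hsi, hsj⟩ := Set.not_subset.mp hnot
    have hsZ : s ∈ Z := (hαmax i).1.1 hsi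
    refine ⟨s, hsZ, fun w hw => mem_jointKer.mp hw s hsi, ?_⟩
    intro w hw hsw
    by_contra hw0
    have hp : p (insert s j.1) := by
      refine ⟨Set.insert_subset hsZ (hαmax j).1.1, ?_⟩
      intro hb
      apply hw0
      have hmem : w ∈ jointKer (insert s j.1) := by
        rw [mem_jointKer]
        intro s' hs'
        rcases hs' with rfl | hs'
        · exact hsw
        · exact mem_jointKer.mp hw s' hs'
      rw [hb] at hmem
      exact (Submodule.mem_bot F).mp hmem
    exact hsj ((hαmax j).2 hp (Set.subset_insert s j.1) (Set.mem_insert s j.1))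
  have hinvZ : ∀ s ∈ Z, ∀ k : α, ∀ w ∈ D k, s *ᵥ w ∈ D k := by
    intro s hsZ k w hw
    change _ ∈ jointKer k.1
    rw [mem_jointKer]
    intro s' hs'
    have hs'Z : s' ∈ Z := (hαmax k).1.1 hs'
    have hw' := mem_jointKer.mp hw s' hs'
    rw [Matrix.mulVec_mulVec, hcomm s' hs'Z s hsZ, ← Matrix.mulVec_mulVec, hw', Matrix.mulVec_zero]
  have hindep : iSupIndep D := iSupIndep_of_sep D hsep
  have hDconj : ∀ h ∈ G, ∀ i : α, ∃ j : α,
      (D i).map (Matrix.toLin' (h : Matrix κ κ F)) = D j := by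
    rintro h hh ⟨T', k, hk, rfl⟩
    refine ⟨⟨conjMatSet h (conjMatSet k T), h * k, G.mul_mem hh hk, conjMatSet_mul h k T⟩, ?_⟩
    exact (jointKer_conjMatSet h _).symm
  have hsum : iSup D = ⊤ := by
    have hinv : ∀ s ∈ matrixSet G, (iSup D).map (Matrix.toLin' s) ≤ iSup D := by
      rintro _ ⟨g, hg, rfl⟩
      rw [Submodule.map_iSup]
      refine iSup_le fun i => ?_
      obtain ⟨j, hj⟩ := hDconj g hg i
      rw [hj]
      exact le_iSup D j
    rcases hirr (iSup D) hinv with h | h
    · exfalso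
      apply hTmax.1.2
      have : D i0 ≤ iSup D := le_iSup D i0
      rw [h] at this
      exact le_bot_iff.mp this
    · exact h
  have hdim : ∀ i : α, Module.finrank F (D i) = Module.finrank F (jointKer T) := by
    rintro ⟨T', k, hk, rfl⟩
    change Module.finrank F (jointKer (conjMatSet k T)) = _
    rw [jointKer_conjMatSet]
    exact (Submodule.equivMapOfInjective _ (toLin'_val_injective k) _).finrank_eq.symm
  have hpos : 0 < Module.finrank F (jointKer T) := by
    rw [Module.finrank_pos_iff]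
    exact (Submodule.nontrivial_iff_ne_bot).mpr hTmax.1.2
  have hfin : Finite α := inferInstance
  set t := Nat.card α with ht
  let e : α ≃ Fin t := Finite.equivFin α
  have h2 : 2 ≤ t := by
    by_contra h2
    have hle : Nat.card α ≤ 1 := by omega
    have hsub : Subsingleton α := (Finite.card_le_one_iff_subsingleton).mp hle
    have hD0 : D i0 = ⊤ := by
      rw [← hsum]
      apply le_antisymm (le_iSup D i0)
      refine iSup_le fun i => ?_
      rw [Subsingleton.elim i i0]
    apply ha0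
    apply eq_zero_of_mulVec_eq_zero
    intro w
    have hw : w ∈ D i0 := by rw [hD0]; exact Submodule.mem_top
    exact mem_jointKer.mp hw a haT'
  refine ⟨t, Module.finrank F (jointKer T), D ∘ e.symm, ?_, ?_,
    fun s hs i w hw => hinvZ s hs (e.symm i) w hw,
    fun i j hij => hsep' (e.symm i) (e.symm j) (fun h => hij (e.symm.injective h))⟩
  · refine ⟨h2, hpos, fun i => hdim _, hindep.comp e.symm.injective, ?_⟩
    rw [← hsum]
    exact e.symm.iSup_comp (g := D)
  · intro g hg
    have hτ : ∀ i : Fin t, ∃ j : Fin t,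
        (D (e.symm i)).map (Matrix.toLin' (g : Matrix κ κ F)) = D (e.symm j) := by
      intro i
      obtain ⟨j, hj⟩ := hDconj g hg (e.symm i)
      exact ⟨e j, by rw [Equiv.symm_apply_apply]; exact hj⟩
    choose τ hτ' using hτ
    have hτinj : Function.Injective τ := by
      intro i j hij
      have h1 := hτ' i
      have h2 := hτ' j
      rw [hij] at h1
      have h3 : (D (e.symm i)).map (Matrix.toLin' (g : Matrix κ κ F))
          = (D (e.symm j)).map (Matrix.toLin' (g : Matrix κ κ F)) := h1.trans h2.symm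
      have h4 : D (e.symm i) = D (e.symm j) :=
        Submodule.map_injective_of_injective (toLin'_val_injective g) h3
      by_contra hne
      have hne' : e.symm i ≠ e.symm j := fun h => hne (e.symm.injective h)
      have hdis := hindep.pairwiseDisjoint hne'
      rw [Function.onFun, h4, disjoint_self] at hdis
      have := hdim (e.symm j)
      rw [hdis] at this
      simp at this
      omega
    exact (mem_decompositionStabilizer_iff _ g).mpr
      ⟨Equiv.ofBijective τ (Finite.injective_iff_bijective.mp hτinj), fun i => hτ' i⟩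


/-- An abelian normal subgroup of an irreducible group in prime dimension. -/
theorem abelian_normal_cases_sep [Finite F] (hn : n.Prime) (G S : Subgroup (GL κ F))
    (hirr : ActsIrreducibly (matrixSet G)) (hSG : ∀ g ∈ G, ∀ s ∈ S, g * s * g⁻¹ ∈ S)
    (hab : ∀ a ∈ S, ∀ b ∈ S, a * b = b * a) :
    S ≤ scalars κ F ∨
    ∃ K : Subalgebra F (Matrix κ κ F),
      (∀ a : Matrix κ κ F, a ∈ K ↔ ∀ c : Matrix κ κ F,
        (∀ s ∈ S, (s : Matrix κ κ F) * c = c * (s : Matrix κ κ F)) →
          c * a = a * c) ∧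
      ((∃ D : Fin n → Submodule F (κ → F), IsMDecomposition 1 D ∧ G ≤ decompositionStabilizer D ∧
          (∀ s ∈ K, ∀ i, ∀ w ∈ D i, s *ᵥ w ∈ D i) ∧
          (∀ i j, i ≠ j → ∃ s ∈ K, (∀ w ∈ D i, s *ᵥ w = 0) ∧ (∀ w ∈ D j, s *ᵥ w = 0 → w = 0))) ∨
       (IsFieldSubalgebra n K ∧ G ≤ subalgebraNormalizer K)) := by
  classical
  obtain ⟨C, hCdef⟩ : ∃ C : Subalgebra F (Matrix κ κ F),
      C = Subalgebra.centralizer F (matrixSet S) := ⟨_, rfl⟩
  obtain ⟨K, hKdef⟩ : ∃ K : Subalgebra F (Matrix κ κ F),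
      K = Subalgebra.centralizer F (C : Set (Matrix κ κ F)) := ⟨_, rfl⟩
  have hmemC : ∀ c : Matrix κ κ F, c ∈ C ↔ ∀ s ∈ S, (s : Matrix κ κ F) * c
      = c * (s : Matrix κ κ F) := by
    intro c
    rw [hCdef, Subalgebra.mem_centralizer_iff]
    constructor
    · intro h s hs
      exact h _ (coe_mem_matrixSet hs)
    · rintro h _ ⟨s, hs, rfl⟩
      exact h s hs
  have hmemK : ∀ a : Matrix κ κ F, a ∈ K ↔ ∀ c ∈ C, c * a = a * c := by
    intro a
    rw [hKdef, Subalgebra.mem_centralizer_iff]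
    rfl
  have hSC : ∀ s ∈ S, (s : Matrix κ κ F) ∈ C := by
    intro s hs
    rw [hmemC]
    intro s' hs'
    rw [← Units.val_mul, ← Units.val_mul, hab s' hs' s hs]
  have hSK : ∀ s ∈ S, (s : Matrix κ κ F) ∈ K := by
    intro s hs
    rw [hmemK]
    intro c hc
    exact ((hmemC c).mp hc s hs).symm
  have hKC : ∀ a ∈ K, a ∈ C := by
    intro a ha
    rw [hmemC]
    intro s hs
    exact (hmemK a).mp ha _ (hSC s hs)
  have hKcomm : ∀ a ∈ K, ∀ b ∈ K, a * b = b * a := by
    intro a ha b hb
    exact ((hmemK b).mp hb a (hKC a ha))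
  have hCstab : ∀ g ∈ G, ∀ c ∈ C,
      ((g⁻¹ : GL κ F) : Matrix κ κ F) * c * (g : Matrix κ κ F) ∈ C := by
    intro g hg c hc
    rw [hmemC]
    intro s hs
    have h1 := (hmemC c).mp hc _ (hSG g hg s hs)
    simp only [Units.val_mul] at h1
    calc (s : Matrix κ κ F)
          * (((g⁻¹ : GL κ F) : Matrix κ κ F) * c * (g : Matrix κ κ F))
        = ((g⁻¹ : GL κ F) : Matrix κ κ F) * ((g : Matrix κ κ F)
          * (s : Matrix κ κ F) * ((g⁻¹ : GL κ F) : Matrix κ κ F) * c)
          * (g : Matrix κ κ F) := by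
          simp only [mul_assoc, Units.inv_mul_cancel_left]
      _ = ((g⁻¹ : GL κ F) : Matrix κ κ F) * (c * ((g : Matrix κ κ F)
          * (s : Matrix κ κ F) * ((g⁻¹ : GL κ F) : Matrix κ κ F)))
          * (g : Matrix κ κ F) := by rw [h1]
      _ = _ := by
          simp only [mul_assoc, Units.inv_mul]
          rw [mul_one]
  have hKstab : ∀ g ∈ G, ∀ a ∈ K,
      (g : Matrix κ κ F) * a * ((g⁻¹ : GL κ F) : Matrix κ κ F) ∈ K := by
    intro g hg a ha
    rw [hmemK]
    intro c hc
    have h1 := (hmemK a).mp ha _ (hCstab g hg c hc)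
    calc c * ((g : Matrix κ κ F) * a * ((g⁻¹ : GL κ F) : Matrix κ κ F))
        = (g : Matrix κ κ F) * ((((g⁻¹ : GL κ F) : Matrix κ κ F) * c
          * (g : Matrix κ κ F)) * a) * ((g⁻¹ : GL κ F) : Matrix κ κ F) := by
          simp only [mul_assoc, Units.mul_inv_cancel_left]
      _ = (g : Matrix κ κ F) * (a * (((g⁻¹ : GL κ F) : Matrix κ κ F) * c
          * (g : Matrix κ κ F))) * ((g⁻¹ : GL κ F) : Matrix κ κ F) := by
          rw [h1]
      _ = _ := by
          simp only [mul_assoc, Units.mul_inv]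
          rw [mul_one]
  have hKchar : ∀ a : Matrix κ κ F, a ∈ K ↔ ∀ c : Matrix κ κ F,
      (∀ s ∈ S, (s : Matrix κ κ F) * c = c * (s : Matrix κ κ F)) →
        c * a = a * c := by
    intro a
    rw [hmemK]
    constructor
    · intro h c hc
      exact h c ((hmemC c).mpr hc)
    · intro h c hc
      exact h c ((hmemC c).mp hc)
  by_cases hsing : ∃ a ∈ K, a ≠ 0 ∧ ∃ v : κ → F, v ≠ 0 ∧ a *ᵥ v = 0
  · obtain ⟨a, haK, ha0, v, hv0, hav⟩ := hsing
    obtain ⟨t, m, D, hD, hGD, hinvD, hsepD⟩ := exists_decomp_of_comm_stable_sep G hirr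
      (K : Set (Matrix κ κ F)) hKcomm hKstab a haK ha0 v hv0 hav
    have h1 : t * m = n := isMDecomposition_card D hD
    have ht : t ∣ n := ⟨m, h1.symm⟩
    rcases (Nat.dvd_prime hn).mp ht with h | h
    · have := hD.two_le
      omega
    · subst h
      have hm : m = 1 := by
        have : t * m = t * 1 := by rw [h1, mul_one]
        exact Nat.eq_of_mul_eq_mul_left hn.pos this
      subst hm
      exact Or.inr ⟨K, hKchar, Or.inl ⟨D, hD, hGD, hinvD, hsepD⟩⟩
  · have hinv : ∀ x ∈ K, x ≠ 0 → ∃ y ∈ K, x * y = 1 := by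
      intro x hx hx0
      have hdet : x.det ≠ 0 := by
        apply det_ne_zero_of_injective
        intro v hv
        by_contra hv0
        exact hsing ⟨x, hx, hx0, v, hv0, hv⟩
      have := inv_mem_centralizer (C : Set (Matrix κ κ F)) x (hKdef ▸ hx) hdet
      exact ⟨x⁻¹, hKdef ▸ this.1, this.2⟩
    have hdvd := (finrank_dvd_of_division (n := n) K hinv).1
    rcases (Nat.dvd_prime hn).mp hdvd with h1 | h1
    · left
      intro s hs
      obtain ⟨c, hc⟩ := eq_smul_one_of_finrank_one K h1 _ (hSK s hs)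
      exact (scalar_mem_scalars_iff s).mpr ⟨c, hc⟩
    · right
      refine ⟨K, hKchar, Or.inr ⟨⟨hKcomm, hinv, h1⟩, ?_⟩⟩
      intro g hg
      rw [mem_subalgebraNormalizer_iff]
      intro k
      constructor
      · exact hKstab g hg k
      · intro hk
        have := hKstab g⁻¹ (G.inv_mem hg) _ hk
        rw [inv_inv] at this
        have e : ((g⁻¹ : GL κ F) : Matrix κ κ F)
            * ((g : Matrix κ κ F) * k * ((g⁻¹ : GL κ F) : Matrix κ κ F))
            * (g : Matrix κ κ F) = k := by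
          simp only [mul_assoc, Units.inv_mul_cancel_left, Units.inv_mul, mul_one]
        rwa [e] at this


end Cfsg.Agent.Helper97.Gen
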