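-- helper97 library: abstract group lemmas on minimal normal subgroups modulo a central subgroup.
import Mathlib

set_option autoImplicit false

namespace Cfsg.Agent.Helper97

open scoped commutatorElement

variable {G : Type*} [Group G]

/-- The conjugate `h S h⁻¹` of a subgroup. -/
def cj (h : G) (S : Subgroup G) : Subgroup G := S.map (MulAut.conj h).toMonoidHom

theorem mem_cj {h : G} {S : Subgroup G} {x : G} : x ∈ cj h S ↔ h⁻¹ * x * h ∈ S := by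
  rw [cj, Subgroup.mem_map_equiv]
  simp [MulAut.conj_symm_apply]

theorem conj_mem_cj {h : G} {S : Subgroup G} {s : G} (hs : s ∈ S) : h * s * h⁻¹ ∈ cj h S := by
  rw [mem_cj]
  have : h⁻¹ * (h * s * h⁻¹) * h = s := by group
  rw [this]; exact hs

theorem normal_of_central (Z : Subgroup G) (hZ : ∀ z ∈ Z, ∀ g : G, z * g = g * z) : Z.Normal := by
  refine ⟨fun z hz g => ?_⟩
  have : g * z * g⁻¹ = z := by
    rw [← hZ z hz g]; group
  rw [this]; exact hz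

/-- If `h g = c g h` with `c` commuting with `g` and `h`, then `h^k g = c^k g h^k`. -/
theorem pow_mul_of_comm_central {g h c : G} (hc : h * g = c * g * h) (hcg : c * g = g * c)
    (hch : c * h = h * c) (k : ℕ) : h ^ k * g = c ^ k * g * h ^ k := by
  induction k with
  | zero => simp
  | succ k ih =>
    have hchk : ∀ m : ℕ, c ^ m * h = h * c ^ m := fun m => (Commute.pow_left (show Commute c h from hch) m).eq
    calc h ^ (k + 1) * g = h * (h ^ k * g) := by rw [pow_succ']; group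
      _ = h * (c ^ k * g * h ^ k) := by rw [ih]
      _ = (h * c ^ k) * g * h ^ k := by group
      _ = (c ^ k * h) * g * h ^ k := by rw [hchk k]
      _ = c ^ k * (h * g) * h ^ k := by group
      _ = c ^ k * (c * g * h) * h ^ k := by rw [hc]
      _ = c ^ (k + 1) * g * h ^ (k + 1) := by rw [pow_succ, pow_succ']; group

/-- If `h g = c g h` with `c` commuting with `g` and `h`, then `(g h)^k = c^(0+1+...+(k-1)) g^k h^k`. -/
theorem mul_pow_of_comm_central {g h c : G} (hc : h * g = c * g * h) (hcg : c * g = g * c)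
    (hch : c * h = h * c) (k : ℕ) :
    (g * h) ^ k = c ^ (∑ i ∈ Finset.range k, i) * g ^ k * h ^ k := by
  induction k with
  | zero => simp
  | succ k ih =>
    have h1 := pow_mul_of_comm_central hc hcg hch k
    have hcgk : ∀ m j : ℕ, c ^ m * g ^ j = g ^ j * c ^ m := fun m j =>
      (Commute.pow_pow (show Commute c g from hcg) m j).eq
    calc (g * h) ^ (k + 1) = (g * h) ^ k * (g * h) := pow_succ _ _
      _ = c ^ (∑ i ∈ Finset.range k, i) * g ^ k * h ^ k * (g * h) := by rw [ih]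
      _ = c ^ (∑ i ∈ Finset.range k, i) * g ^ k * (h ^ k * g) * h := by group
      _ = c ^ (∑ i ∈ Finset.range k, i) * g ^ k * (c ^ k * g * h ^ k) * h := by rw [h1]
      _ = c ^ (∑ i ∈ Finset.range k, i) * (g ^ k * c ^ k) * g * h ^ k * h := by group
      _ = c ^ (∑ i ∈ Finset.range k, i) * (c ^ k * g ^ k) * g * h ^ k * h := by rw [hcgk k k]
      _ = c ^ (∑ i ∈ Finset.range (k + 1), i) * g ^ (k + 1) * h ^ (k + 1) := by
          rw [Finset.sum_range_succ, pow_add, pow_succ, pow_succ]; group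

theorem dvd_sum_range_of_odd {k : ℕ} (hk : Odd k) : k ∣ ∑ i ∈ Finset.range k, i := by
  have h1 := Finset.sum_range_id_mul_two k
  have h2 : k ∣ (∑ i ∈ Finset.range k, i) * 2 := ⟨k - 1, h1⟩
  exact (Nat.Coprime.dvd_mul_right (Nat.Coprime.symm (Nat.coprime_two_left.mpr hk))).mp h2

/-- A minimal subgroup among those normalised by `H` and not contained in `Z`. -/
theorem exists_minimal_normal [Finite G] (Z H : Subgroup G) (hHZ : ¬ H ≤ Z) :
    ∃ N : Subgroup G, N ≤ H ∧ (∀ h ∈ H, ∀ x ∈ N, h * x * h⁻¹ ∈ N) ∧ ¬ N ≤ Z ∧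
      ∀ N' : Subgroup G, N' ≤ N → (∀ h ∈ H, ∀ x ∈ N', h * x * h⁻¹ ∈ N') → N' ≤ Z ∨ N' = N := by
  obtain ⟨N, hNH, hNmin⟩ := Finite.exists_le_minimal
    (p := fun N : Subgroup G => N ≤ H ∧ (∀ h ∈ H, ∀ x ∈ N, h * x * h⁻¹ ∈ N) ∧ ¬ N ≤ Z)
    ⟨le_refl H, fun h hh x hx => H.mul_mem (H.mul_mem hh hx) (H.inv_mem hh), hHZ⟩
  refine ⟨N, hNmin.1.1, hNmin.1.2.1, hNmin.1.2.2, fun N' hN'N hN'n => ?_⟩
  by_cases hZ' : N' ≤ Z
  · exact Or.inl hZ'
  · exact Or.inr (le_antisymm hN'N (hNmin.2 ⟨hN'N.trans hNmin.1.1, hN'n, hZ'⟩ hN'N))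

theorem commutator_normalized (H N : Subgroup G) (hN : ∀ h ∈ H, ∀ x ∈ N, h * x * h⁻¹ ∈ N) :
    ∀ h ∈ H, ∀ x ∈ ⁅N, N⁆, h * x * h⁻¹ ∈ ⁅N, N⁆ := by
  intro h hh x hx
  have h1 : (MulAut.conj h).toMonoidHom x ∈ Subgroup.map (MulAut.conj h).toMonoidHom ⁅N, N⁆ :=
    Subgroup.mem_map_of_mem _ hx
  rw [Subgroup.map_commutator] at h1
  have h2 : Subgroup.map (MulAut.conj h).toMonoidHom N ≤ N := by
    rintro _ ⟨y, hy, rfl⟩
    exact hN h hh y hy
  exact Subgroup.commutator_mono h2 h2 h1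

/-- In a minimal non-central `H`-normal subgroup `N` which is abelian modulo the central subgroup `Z`,
some prime `r` has `x ^ r ∈ Z` for all `x ∈ N`. -/
theorem exists_prime_pow_mem [Finite G] (Z H N : Subgroup G) (hZ : ∀ z ∈ Z, ∀ g : G, z * g = g * z)
    (hNn : ∀ h ∈ H, ∀ x ∈ N, h * x * h⁻¹ ∈ N) (hNZ : ¬ N ≤ Z)
    (hNmin : ∀ N' : Subgroup G, N' ≤ N → (∀ h ∈ H, ∀ x ∈ N', h * x * h⁻¹ ∈ N') → N' ≤ Z ∨ N' = N)
    (hab : ∀ a ∈ N, ∀ b ∈ N, a * b * a⁻¹ * b⁻¹ ∈ Z) :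
    ∃ r : ℕ, r.Prime ∧ ∀ x ∈ N, x ^ r ∈ Z := by
  classical
  have hZn : Z.Normal := normal_of_central Z hZ
  obtain ⟨x₀, hx₀N, hx₀Z⟩ := SetLike.not_le_iff_exists.mp hNZ
  have hcomm : ∀ a ∈ N, ∀ b ∈ N, Commute (a : G ⧸ Z) (b : G ⧸ Z) := by
    intro a ha b hb
    have h1 := (QuotientGroup.eq_one_iff (N := Z) (a * b * a⁻¹ * b⁻¹)).mpr (hab a ha b hb)
    have h2 : ((a * b * a⁻¹ * b⁻¹ : G) : G ⧸ Z) = (a : G ⧸ Z) * (b : G ⧸ Z) * (a : G ⧸ Z)⁻¹ * (b : G ⧸ Z)⁻¹ := rfl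
    rw [h2] at h1
    have h3 : (a : G ⧸ Z) * (b : G ⧸ Z) = (b : G ⧸ Z) * (a : G ⧸ Z) := by
      calc (a : G ⧸ Z) * (b : G ⧸ Z)
          = ((a : G ⧸ Z) * (b : G ⧸ Z) * (a : G ⧸ Z)⁻¹ * (b : G ⧸ Z)⁻¹) * ((b : G ⧸ Z) * (a : G ⧸ Z)) := by group
        _ = (b : G ⧸ Z) * (a : G ⧸ Z) := by rw [h1, one_mul]
    exact h3
  set m := orderOf (x₀ : G ⧸ Z) with hm
  have hm0 : 0 < m := orderOf_pos _
  have hm1 : m ≠ 1 := by
    intro h1
    apply hx₀Z
    rw [hm, orderOf_eq_one_iff] at h1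
    exact (QuotientGroup.eq_one_iff x₀).mp h1
  obtain ⟨r, hr, hrm⟩ := Nat.exists_prime_and_dvd hm1
  refine ⟨r, hr, ?_⟩
  -- the subgroup of elements with `x ^ r ∈ Z`
  let N₁ : Subgroup G :=
    { carrier := {x | x ∈ N ∧ x ^ r ∈ Z}
      one_mem' := ⟨N.one_mem, by rw [one_pow]; exact Z.one_mem⟩
      mul_mem' := by
        rintro a b ⟨ha, ha'⟩ ⟨hb, hb'⟩
        refine ⟨N.mul_mem ha hb, ?_⟩
        rw [← QuotientGroup.eq_one_iff (N := Z)]
        have h1 : (((a * b) ^ r : G) : G ⧸ Z) = ((a : G ⧸ Z) * (b : G ⧸ Z)) ^ r := rfl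
        rw [h1, (hcomm a ha b hb).mul_pow]
        have h2 : (a : G ⧸ Z) ^ r = 1 := (QuotientGroup.eq_one_iff (N := Z) (a ^ r)).mpr ha'
        have h3 : (b : G ⧸ Z) ^ r = 1 := (QuotientGroup.eq_one_iff (N := Z) (b ^ r)).mpr hb'
        rw [h2, h3, one_mul]
      inv_mem' := by
        rintro a ⟨ha, ha'⟩
        refine ⟨N.inv_mem ha, ?_⟩
        rw [inv_pow]
        exact Z.inv_mem ha' }
  have hN₁mem : ∀ x, x ∈ N₁ ↔ x ∈ N ∧ x ^ r ∈ Z := fun x => Iff.rfl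
  have hN₁N : N₁ ≤ N := fun x hx => hx.1
  have hN₁n : ∀ h ∈ H, ∀ x ∈ N₁, h * x * h⁻¹ ∈ N₁ := by
    intro h hh x hx
    refine ⟨hNn h hh x hx.1, ?_⟩
    rw [conj_pow]
    exact hZn.conj_mem _ hx.2 h
  have hN₁Z : ¬ N₁ ≤ Z := by
    intro hle
    have hdiv : m / r < m := Nat.div_lt_self hm0 hr.one_lt
    have hdiv0 : m / r ≠ 0 := by
      have := Nat.div_pos (Nat.le_of_dvd hm0 hrm) hr.pos
      omega
    have h1 : (x₀ : G ⧸ Z) ^ (m / r) ≠ 1 := pow_ne_one_of_lt_orderOf hdiv0 hdiv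
    apply h1
    have h2 : x₀ ^ (m / r) ∈ N₁ := by
      refine ⟨N.pow_mem hx₀N _, ?_⟩
      rw [← pow_mul, Nat.div_mul_cancel hrm, ← QuotientGroup.eq_one_iff (N := Z)]
      exact pow_orderOf_eq_one (x₀ : G ⧸ Z)
    exact (QuotientGroup.eq_one_iff (N := Z) (x₀ ^ (m / r))).mpr (hle h2)
  rcases hNmin N₁ hN₁N hN₁n with h | h
  · exact absurd h hN₁Z
  · intro x hx
    have : x ∈ N₁ := by rw [h]; exact hx
    exact this.2

/-- If `h` centralises a perfect group `P` modulo the central subgroup `Z`, and elements centralising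
`P` lie in `Z`, then `h ∈ Z`. -/
theorem mem_of_centralizes_mod (Z P : Subgroup G) (hZ : ∀ z ∈ Z, ∀ g : G, z * g = g * z)
    (hperf : ⁅P, P⁆ = P) (hcent : ∀ c : G, (∀ s ∈ P, c * s = s * c) → c ∈ Z)
    (h : G) (hh : ∀ x ∈ P, h * x * h⁻¹ * x⁻¹ ∈ Z) : h ∈ Z := by
  apply hcent
  have hle : ⁅P, P⁆ ≤ Subgroup.centralizer {h} := by
    rw [Subgroup.commutator_le]
    intro x hx y hy
    rw [Subgroup.mem_centralizer_iff]
    intro k hk
    rw [Set.mem_singleton_iff] at hk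
    subst hk
    -- `k x = z x k`, `k y = w y k`
    obtain ⟨z, hz, hzx⟩ : ∃ z ∈ Z, k * x = z * x * k := ⟨_, hh x hx, by group⟩
    obtain ⟨w, hw, hwy⟩ : ∃ w ∈ Z, k * y = w * y * k := ⟨_, hh y hy, by group⟩
    have hkx' : k * x⁻¹ = z⁻¹ * x⁻¹ * k := by
      have h1 : x⁻¹ * z⁻¹ * k = k * x⁻¹ := by
        calc x⁻¹ * z⁻¹ * k = x⁻¹ * z⁻¹ * (k * x) * x⁻¹ := by group
          _ = x⁻¹ * z⁻¹ * (z * x * k) * x⁻¹ := by rw [hzx]
          _ = k * x⁻¹ := by group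
      rw [← h1]
      have := hZ z⁻¹ (Z.inv_mem hz) x⁻¹
      rw [this]
    have hky' : k * y⁻¹ = w⁻¹ * y⁻¹ * k := by
      have h1 : y⁻¹ * w⁻¹ * k = k * y⁻¹ := by
        calc y⁻¹ * w⁻¹ * k = y⁻¹ * w⁻¹ * (k * y) * y⁻¹ := by group
          _ = y⁻¹ * w⁻¹ * (w * y * k) * y⁻¹ := by rw [hwy]
          _ = k * y⁻¹ := by group
      rw [← h1]
      have := hZ w⁻¹ (Z.inv_mem hw) y⁻¹
      rw [this]
    have hzc : ∀ g : G, z * g = g * z := hZ z hz
    have hwc : ∀ g : G, w * g = g * w := hZ w hw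
    have hzic : ∀ g : G, z⁻¹ * g = g * z⁻¹ := hZ z⁻¹ (Z.inv_mem hz)
    have hwic : ∀ g : G, w⁻¹ * g = g * w⁻¹ := hZ w⁻¹ (Z.inv_mem hw)
    rw [commutatorElement_def]
    calc k * (x * y * x⁻¹ * y⁻¹) = (k * x) * y * x⁻¹ * y⁻¹ := by group
      _ = z * x * (k * y) * x⁻¹ * y⁻¹ := by rw [hzx]; group
      _ = z * x * w * y * (k * x⁻¹) * y⁻¹ := by rw [hwy]; group
      _ = z * x * w * y * z⁻¹ * x⁻¹ * (k * y⁻¹) := by rw [hkx']; group
      _ = z * x * w * y * z⁻¹ * x⁻¹ * w⁻¹ * y⁻¹ * k := by rw [hky']; group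
      _ = z * (x * w) * (y * z⁻¹) * (x⁻¹ * w⁻¹) * y⁻¹ * k := by group
      _ = z * (w * x) * (z⁻¹ * y) * (w⁻¹ * x⁻¹) * y⁻¹ * k := by rw [← hwc x, ← hzic y, ← hwic x⁻¹]
      _ = (z * w) * (x * z⁻¹) * (y * w⁻¹) * x⁻¹ * y⁻¹ * k := by group
      _ = (z * w) * (z⁻¹ * x) * (w⁻¹ * y) * x⁻¹ * y⁻¹ * k := by rw [← hzic x, ← hwic y]
      _ = z * (w * z⁻¹) * x * w⁻¹ * y * x⁻¹ * y⁻¹ * k := by group
      _ = z * (z⁻¹ * w) * x * w⁻¹ * y * x⁻¹ * y⁻¹ * k := by rw [← hzic w]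
      _ = (w * x) * w⁻¹ * y * x⁻¹ * y⁻¹ * k := by group
      _ = (x * w) * w⁻¹ * y * x⁻¹ * y⁻¹ * k := by rw [hwc x]
      _ = x * y * x⁻¹ * y⁻¹ * k := by group
  intro s hs
  have hs' : s ∈ ⁅P, P⁆ := by rw [hperf]; exact hs
  have := Subgroup.mem_centralizer_iff.mp (hle hs') h (Set.mem_singleton h)
  exact this

/-- A perfect minimal non-central `H`-normal subgroup is simple modulo the central subgroup, provided
its normal subgroups are central, abelian, or have central centraliser. -/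
theorem simple_of_minimal [Finite G] (Z H P : Subgroup G)
    (hZ : ∀ z ∈ Z, ∀ g : G, z * g = g * z)
    (hPn : ∀ h ∈ H, ∀ x ∈ P, h * x * h⁻¹ ∈ P) (hPZ : ¬ P ≤ Z)
    (hPmin : ∀ N : Subgroup G, N ≤ P → (∀ h ∈ H, ∀ x ∈ N, h * x * h⁻¹ ∈ N) → N ≤ Z ∨ N = P)
    (hperf : ⁅P, P⁆ = P)
    (hdich : ∀ S : Subgroup G, S ≤ P → (∀ x ∈ P, ∀ s ∈ S, x * s * x⁻¹ ∈ S) →
      S ≤ Z ∨ (∀ a ∈ S, ∀ b ∈ S, a * b = b * a) ∨ (∀ c : G, (∀ s ∈ S, c * s = s * c) → c ∈ Z))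
    (K : Subgroup G) (hKP : K ≤ P) (hKn : ∀ x ∈ P, ∀ k ∈ K, x * k * x⁻¹ ∈ K) : K ≤ Z ∨ K = P := by
  classical
  by_contra hcon
  rw [not_or] at hcon
  obtain ⟨hKZ, hKne⟩ := hcon
  have hZn : Z.Normal := normal_of_central Z hZ
  let q : Subgroup G → Prop := fun S => S ≤ P ∧ (∀ x ∈ P, ∀ s ∈ S, x * s * x⁻¹ ∈ S) ∧ ¬ S ≤ Z
  obtain ⟨S, hSK, hSmin⟩ := Finite.exists_le_minimal (p := q) ⟨hKP, hKn, hKZ⟩
  have hSP : S ≠ P := fun h => hKne (le_antisymm hKP (h ▸ hSK))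
  have hqS : q S := hSmin.1
  have hqc : ∀ h ∈ H, ∀ S' : Subgroup G, q S' → q (cj h S') := by
    intro h hh S' hS'
    refine ⟨?_, ?_, ?_⟩
    · intro x hx
      rw [mem_cj] at hx
      have h1 := hPn h hh _ (hS'.1 hx)
      have h2 : h * (h⁻¹ * x * h) * h⁻¹ = x := by group
      rwa [h2] at h1
    · intro x hx y hy
      rw [mem_cj] at hy ⊢
      have hx' : h⁻¹ * x * h ∈ P := by
        have := hPn h⁻¹ (H.inv_mem hh) x hx
        simpa using this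
      have h1 := hS'.2.1 _ hx' _ hy
      have h2 : h⁻¹ * x * h * (h⁻¹ * y * h) * (h⁻¹ * x * h)⁻¹ = h⁻¹ * (x * y * x⁻¹) * h := by group
      rwa [h2] at h1
    · intro hle
      apply hS'.2.2
      intro s hs
      have h1 := hle (conj_mem_cj (h := h) hs)
      have h2 := hZn.conj_mem _ h1 h⁻¹
      have h3 : h⁻¹ * (h * s * h⁻¹) * h⁻¹⁻¹ = s := by group
      rwa [h3] at h2
  have hminc : ∀ h ∈ H, ∀ S'' : Subgroup G, q S'' → S'' ≤ cj h S → cj h S ≤ S'' := by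
    intro h hh S'' hS'' hle
    have h1 : cj h⁻¹ S'' ≤ S := by
      intro x hx
      rw [mem_cj, inv_inv] at hx
      have h2 := hle hx
      rw [mem_cj] at h2
      have h3 : h⁻¹ * (h * x * h⁻¹) * h = x := by group
      rwa [h3] at h2
    have h2 : S ≤ cj h⁻¹ S'' := hSmin.2 (hqc h⁻¹ (H.inv_mem hh) S'' hS'') h1
    intro x hx
    rw [mem_cj] at hx
    have h3 := h2 hx
    rw [mem_cj, inv_inv] at h3
    have h4 : h * (h⁻¹ * x * h) * h⁻¹ = x := by group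
    rwa [h4] at h3
  have hA : ∀ h ∈ H, cj h S = S ∨ ∀ s ∈ S, ∀ t ∈ cj h S, s * t * s⁻¹ * t⁻¹ ∈ Z := by
    intro h hh
    have hqh := hqc h hh S hqS
    by_cases hle : S ⊓ cj h S ≤ Z
    · right
      intro s hs t ht
      apply hle
      refine ⟨?_, ?_⟩
      · have h1 := hqS.2.1 t (hqh.1 ht) s⁻¹ (S.inv_mem hs)
        have h2 : s * t * s⁻¹ * t⁻¹ = s * (t * s⁻¹ * t⁻¹) := by group
        rw [h2]
        exact S.mul_mem hs h1
      · have h1 := hqh.2.1 s (hqS.1 hs) t ht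
        exact (cj h S).mul_mem h1 ((cj h S).inv_mem ht)
    · left
      have hq' : q (S ⊓ cj h S) := by
        refine ⟨inf_le_left.trans hqS.1, ?_, hle⟩
        intro x hx s hs
        exact ⟨hqS.2.1 x hx s hs.1, hqh.2.1 x hx s hs.2⟩
      have h1 : S ≤ cj h S := (hSmin.2 hq' inf_le_left).trans inf_le_right
      exact le_antisymm (hminc h hh S hqS h1) h1
  by_cases hall : ∀ h ∈ H, cj h S = S
  · have hSn : ∀ h ∈ H, ∀ x ∈ S, h * x * h⁻¹ ∈ S := by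
      intro h hh x hx
      have := conj_mem_cj (h := h) hx
      rwa [hall h hh] at this
    rcases hPmin S hqS.1 hSn with h | h
    · exact hqS.2.2 h
    · exact hSP h
  · have hall' : ∃ h₀ ∈ H, cj h₀ S ≠ S := by
      by_contra hc
      apply hall
      intro h hh
      by_contra hne
      exact hc ⟨h, hh, hne⟩
    obtain ⟨h₀, hh₀, hne⟩ := hall'
    have hcomm0 : ∀ s ∈ S, ∀ t ∈ cj h₀ S, s * t * s⁻¹ * t⁻¹ ∈ Z := by
      rcases hA h₀ hh₀ with h | h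
      · exact absurd h hne
      · exact h
    have hB : ∀ a ∈ S, ∀ b ∈ S, a * b * a⁻¹ * b⁻¹ ∈ Z := by
      rcases hdich S hqS.1 hqS.2.1 with h | h | h
      · exact absurd h hqS.2.2
      · intro a ha b hb
        rw [h a ha b hb]
        have : b * a * a⁻¹ * b⁻¹ = 1 := by group
        rw [this]; exact Z.one_mem
      · -- `S` has central centraliser
        have hTS : ⁅cj h₀ S, S⁆ ≤ Z := by
          rw [Subgroup.commutator_le]
          intro t ht s hs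
          have h1 := Z.inv_mem (hcomm0 s hs t ht)
          have h2 : (s * t * s⁻¹ * t⁻¹)⁻¹ = ⁅t, s⁆ := by rw [commutatorElement_def]; group
          rwa [h2] at h1
        have hST : ⁅S, cj h₀ S⁆ ≤ Z := by
          rw [Subgroup.commutator_comm]; exact hTS
        have hZc : ∀ T : Subgroup G, Z ≤ Subgroup.centralizer (T : Set G) := by
          intro T z hz
          rw [Subgroup.mem_centralizer_iff]
          intro t _
          exact (hZ z hz t).symm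
        have h1 : ⁅⁅cj h₀ S, S⁆, cj h₀ S⁆ = ⊥ :=
          Subgroup.commutator_eq_bot_iff_le_centralizer.mpr (hTS.trans (hZc _))
        have h2 : ⁅⁅S, cj h₀ S⁆, cj h₀ S⁆ = ⊥ :=
          Subgroup.commutator_eq_bot_iff_le_centralizer.mpr (hST.trans (hZc _))
        have h3 : ⁅⁅cj h₀ S, cj h₀ S⁆, S⁆ = ⊥ := Subgroup.commutator_commutator_eq_bot_of_rotate h1 h2
        have h4 : ⁅cj h₀ S, cj h₀ S⁆ ≤ Z := by
          intro c hc
          apply h
          intro s hs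
          have := Subgroup.commutator_eq_bot_iff_le_centralizer.mp h3 hc
          exact (Subgroup.mem_centralizer_iff.mp this s hs).symm
        intro a ha b hb
        have h5 : ⁅h₀ * a * h₀⁻¹, h₀ * b * h₀⁻¹⁆ ∈ Z :=
          h4 (Subgroup.commutator_mem_commutator (conj_mem_cj ha) (conj_mem_cj hb))
        have h6 := hZn.conj_mem _ h5 h₀⁻¹
        have h7 : h₀⁻¹ * ⁅h₀ * a * h₀⁻¹, h₀ * b * h₀⁻¹⁆ * h₀⁻¹⁻¹ = a * b * a⁻¹ * b⁻¹ := by
          rw [commutatorElement_def]; group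
        rwa [h7] at h6
    have hC : ∀ h ∈ H, ∀ h' ∈ H, ∀ x ∈ cj h S, ∀ y ∈ cj h' S, x * y * x⁻¹ * y⁻¹ ∈ Z := by
      intro h hh h' hh' x hx y hy
      rw [mem_cj] at hx hy
      have hk : h⁻¹ * h' ∈ H := H.mul_mem (H.inv_mem hh) hh'
      have hy' : h⁻¹ * y * h ∈ cj (h⁻¹ * h') S := by
        rw [mem_cj]
        have : (h⁻¹ * h')⁻¹ * (h⁻¹ * y * h) * (h⁻¹ * h') = h'⁻¹ * y * h' := by group
        rw [this]; exact hy
      have h1 : (h⁻¹ * x * h) * (h⁻¹ * y * h) * (h⁻¹ * x * h)⁻¹ * (h⁻¹ * y * h)⁻¹ ∈ Z := by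
        rcases hA _ hk with h2 | h2
        · rw [h2] at hy'
          exact hB _ hx _ hy'
        · exact h2 _ hx _ hy'
      have h2 := hZn.conj_mem _ h1 h
      have h3 : h * ((h⁻¹ * x * h) * (h⁻¹ * y * h) * (h⁻¹ * x * h)⁻¹ * (h⁻¹ * y * h)⁻¹) * h⁻¹
          = x * y * x⁻¹ * y⁻¹ := by group
      rwa [h3] at h2
    let U : Set G := {x | ∃ h ∈ H, x ∈ cj h S}
    have hUcomm : ∀ x ∈ U, ∀ y ∈ U, x * y * x⁻¹ * y⁻¹ ∈ Z := by
      rintro x ⟨h, hh, hx⟩ y ⟨h', hh', hy⟩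
      exact hC h hh h' hh' x hx y hy
    have hMP : Subgroup.closure U ≤ P := by
      rw [Subgroup.closure_le]
      rintro x ⟨h, hh, hx⟩
      exact (hqc h hh S hqS).1 hx
    have hMn : ∀ h ∈ H, ∀ x ∈ Subgroup.closure U, h * x * h⁻¹ ∈ Subgroup.closure U := by
      intro h hh x hx
      induction hx using Subgroup.closure_induction with
      | mem x hx =>
        obtain ⟨k, hk, hxk⟩ := hx
        apply Subgroup.subset_closure
        refine ⟨h * k, H.mul_mem hh hk, ?_⟩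
        rw [mem_cj] at hxk ⊢
        have : (h * k)⁻¹ * (h * x * h⁻¹) * (h * k) = k⁻¹ * x * k := by group
        rw [this]; exact hxk
      | one => simp
      | mul x y _ _ hx hy =>
        have : h * (x * y) * h⁻¹ = (h * x * h⁻¹) * (h * y * h⁻¹) := by group
        rw [this]; exact Subgroup.mul_mem _ hx hy
      | inv x _ hx =>
        have : h * x⁻¹ * h⁻¹ = (h * x * h⁻¹)⁻¹ := by group
        rw [this]; exact Subgroup.inv_mem _ hx
    have hSM : S ≤ Subgroup.closure U := by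
      intro s hs
      apply Subgroup.subset_closure
      refine ⟨1, H.one_mem, ?_⟩
      rw [mem_cj]
      simpa using hs
    have hMZ : ¬ Subgroup.closure U ≤ Z := fun hle => hqS.2.2 (hSM.trans hle)
    have hMeq : Subgroup.closure U = P := by
      rcases hPmin _ hMP hMn with h | h
      · exact absurd h hMZ
      · exact h
    have hcommM : ∀ x ∈ Subgroup.closure U, ∀ y ∈ Subgroup.closure U,
        Commute (x : G ⧸ Z) (y : G ⧸ Z) := by
      intro x hx y hy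
      induction hx, hy using Subgroup.closure_induction₂ with
      | mem x y hx hy =>
        have h1 := (QuotientGroup.eq_one_iff (N := Z) (x * y * x⁻¹ * y⁻¹)).mpr (hUcomm x hx y hy)
        have h2 : ((x * y * x⁻¹ * y⁻¹ : G) : G ⧸ Z)
            = (x : G ⧸ Z) * (y : G ⧸ Z) * (x : G ⧸ Z)⁻¹ * (y : G ⧸ Z)⁻¹ := rfl
        rw [h2] at h1
        have h3 : (x : G ⧸ Z) * (y : G ⧸ Z) = (y : G ⧸ Z) * (x : G ⧸ Z) := by
          calc (x : G ⧸ Z) * (y : G ⧸ Z)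
              = ((x : G ⧸ Z) * (y : G ⧸ Z) * (x : G ⧸ Z)⁻¹ * (y : G ⧸ Z)⁻¹) * ((y : G ⧸ Z) * (x : G ⧸ Z)) := by
                group
            _ = (y : G ⧸ Z) * (x : G ⧸ Z) := by rw [h1, one_mul]
        exact h3
      | one_left x _ => exact Commute.one_left _
      | one_right x _ => exact Commute.one_right _
      | mul_left x y z _ _ _ h1 h2 => exact Commute.mul_left h1 h2
      | mul_right y z x _ _ _ h1 h2 => exact Commute.mul_right h1 h2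
      | inv_left x y _ _ h1 => exact Commute.inv_left h1
      | inv_right x y _ _ h1 => exact Commute.inv_right h1
    apply hPZ
    rw [← hperf, Subgroup.commutator_le]
    intro x hx y hy
    rw [← hMeq] at hx hy
    have h1 := (hcommM x hx y hy).eq
    rw [← QuotientGroup.eq_one_iff (N := Z), commutatorElement_def]
    have h2 : ((x * y * x⁻¹ * y⁻¹ : G) : G ⧸ Z)
        = (x : G ⧸ Z) * (y : G ⧸ Z) * (x : G ⧸ Z)⁻¹ * (y : G ⧸ Z)⁻¹ := rfl
    rw [h2, h1]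
    group

/-- Simplicity of the quotient by the (central) subgroup `Z`. -/
theorem isSimpleGroup_quot (Z P : Subgroup G) [Z.Normal] (hPZ : ¬ P ≤ Z)
    (h : ∀ K : Subgroup G, K ≤ P → (∀ x ∈ P, ∀ k ∈ K, x * k * x⁻¹ ∈ K) → K ≤ Z ∨ K = P) :
    IsSimpleGroup (P ⧸ Z.subgroupOf P) := by
  obtain ⟨x, hxP, hxZ⟩ := SetLike.not_le_iff_exists.mp hPZ
  have hnt : Nontrivial (P ⧸ Z.subgroupOf P) := by
    refine ⟨((⟨x, hxP⟩ : P) : P ⧸ Z.subgroupOf P), 1, ?_⟩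
    intro h1
    rw [QuotientGroup.eq_one_iff, Subgroup.mem_subgroupOf] at h1
    exact hxZ h1
  refine { toNontrivial := hnt, eq_bot_or_eq_top_of_normal := ?_ }
  intro Nb hNb
  set K' : Subgroup P := Nb.comap (QuotientGroup.mk' (Z.subgroupOf P)) with hK'
  have hK'n : K'.Normal := Subgroup.Normal.comap hNb _
  have hNb_eq : Nb = K'.map (QuotientGroup.mk' (Z.subgroupOf P)) := by
    rw [hK', Subgroup.map_comap_eq_self_of_surjective (QuotientGroup.mk'_surjective _)]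
  set K : Subgroup G := K'.map P.subtype with hK
  have hKP : K ≤ P := by
    rintro _ ⟨y, _, rfl⟩
    exact y.2
  have hKn : ∀ x ∈ P, ∀ k ∈ K, x * k * x⁻¹ ∈ K := by
    rintro x hx _ ⟨y, hy, rfl⟩
    exact ⟨⟨x, hx⟩ * y * ⟨x, hx⟩⁻¹, hK'n.conj_mem y hy ⟨x, hx⟩, rfl⟩
  rcases h K hKP hKn with h1 | h1
  · left
    rw [hNb_eq, eq_bot_iff]
    rintro _ ⟨y, hy, rfl⟩
    rw [Subgroup.mem_bot]
    have : (y : G) ∈ Z := h1 ⟨y, hy, rfl⟩
    exact (QuotientGroup.eq_one_iff y).mpr (Subgroup.mem_subgroupOf.mpr this)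
  · right
    rw [hNb_eq, eq_top_iff]
    intro y _
    obtain ⟨y', rfl⟩ := QuotientGroup.mk'_surjective (Z.subgroupOf P) y
    have : (y' : G) ∈ K := by rw [h1]; exact y'.2
    obtain ⟨y'', hy'', hyy⟩ := this
    have : y'' = y' := Subtype.ext hyy
    rw [this] at hy''
    exact ⟨y', hy'', rfl⟩

theorem not_commutative_quot (Z P : Subgroup G) [Z.Normal] (hPZ : ¬ P ≤ Z) (hperf : ⁅P, P⁆ = P) :
    ¬ IsMulCommutative (P ⧸ Z.subgroupOf P) := by
  intro hc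
  apply hPZ
  rw [← hperf, Subgroup.commutator_le]
  intro x hx y hy
  have h1 := hc.is_comm.comm (((⟨x, hx⟩ : P) : P ⧸ Z.subgroupOf P)) (((⟨y, hy⟩ : P) : P ⧸ Z.subgroupOf P))
  have h2 : (((⟨x, hx⟩ * ⟨y, hy⟩ * ⟨x, hx⟩⁻¹ * ⟨y, hy⟩⁻¹ : P)) : P ⧸ Z.subgroupOf P) = 1 := by
    have e : (((⟨x, hx⟩ * ⟨y, hy⟩ * ⟨x, hx⟩⁻¹ * ⟨y, hy⟩⁻¹ : P)) : P ⧸ Z.subgroupOf P)
        = ((⟨x, hx⟩ : P) : P ⧸ Z.subgroupOf P) * ((⟨y, hy⟩ : P) : P ⧸ Z.subgroupOf P)
          * ((⟨x, hx⟩ : P) : P ⧸ Z.subgroupOf P)⁻¹ * ((⟨y, hy⟩ : P) : P ⧸ Z.subgroupOf P)⁻¹ := rfl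
    rw [e, h1]
    group
  rw [QuotientGroup.eq_one_iff, Subgroup.mem_subgroupOf] at h2
  rw [commutatorElement_def]
  exact h2

end Cfsg.Agent.Helper97
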