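-- helper97 library (general index type): non-degenerate quadratic forms in odd characteristic, Omega.
import Cfsg.Agent.Helper97.GForms
import Cfsg.Agent.Helper97.GClifford2
import Cfsg.Agent.Helper97.GSubfield
import Cfsg.Agent.Helper97.GroupLemmas

set_option autoImplicit false
open Cfsg Cfsg.Geo Matrix
open scoped commutatorElement

namespace Cfsg.Agent.Helper97.Gen

variable {κ : Type} [Fintype κ] [DecidableEq κ] {F : Type*} [Field F]

/-- A non-degenerate isotropic quadratic form in odd characteristic and dimension at least three. -/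
structure IsOQ (Q : (κ → F) → F) : Prop where
  two_ne : (2 : F) ≠ 0
  quad : IsNondegenerateQuadraticForm Q
  three_le : 3 ≤ Fintype.card κ
  isotropic : ∃ u : κ → F, u ≠ 0 ∧ Q u = 0

theorem gl_ext {g h : GL κ F}
    (hgh : ∀ v, (g : Matrix κ κ F) *ᵥ v = (h : Matrix κ κ F) *ᵥ v) : g = h := by
  apply Units.ext
  have h1 : (g : Matrix κ κ F) - (h : Matrix κ κ F) = 0 :=
    eq_zero_of_mulVec_eq_zero (fun w => by rw [Matrix.sub_mulVec, hgh, sub_self])
  exact sub_eq_zero.mp h1

theorem mem_isometryGroup_iff (Q : (κ → F) → F) (g : GL κ F) :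
    g ∈ isometryGroup F Q ↔ ∀ u : κ → F, Q ((g : Matrix κ κ F) *ᵥ u) = Q u := by
  constructor
  · intro h u
    exact h u 0
  · intro h u v
    exact h u

theorem omegaGL_le (Q : (κ → F) → F) : omegaGL Q ≤ isometryGroup F Q := by
  rintro _ ⟨x, -, rfl⟩
  exact x.2

theorem comm_mem_omegaGL {Q : (κ → F) → F} {a b : GL κ F} (ha : a ∈ isometryGroup F Q)
    (hb : b ∈ isometryGroup F Q) : a * b * a⁻¹ * b⁻¹ ∈ omegaGL Q := by
  have h1 : ⁅(⟨a, ha⟩ : isometryGroup F Q), ⟨b, hb⟩⁆ ∈ commutator (isometryGroup F Q) := by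
    rw [commutator_def]
    exact Subgroup.commutator_mem_commutator (Subgroup.mem_top _) (Subgroup.mem_top _)
  have h2 : (isometryGroup F Q).subtype ⁅(⟨a, ha⟩ : isometryGroup F Q), ⟨b, hb⟩⁆
      = a * b * a⁻¹ * b⁻¹ := by
    rw [commutatorElement_def, map_mul, map_mul, map_mul, map_inv, map_inv]
    rfl
  rw [← h2, omegaGL]
  exact Subgroup.mem_map_of_mem _ h1

theorem polar_isometry {Q : (κ → F) → F} {g : GL κ F} (hg : g ∈ isometryGroup F Q) (x y : κ → F) :
    QuadraticMap.polar Q ((g : Matrix κ κ F) *ᵥ x) ((g : Matrix κ κ F) *ᵥ y)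
      = QuadraticMap.polar Q x y := by
  have h := (mem_isometryGroup_iff Q g).mp hg
  simp only [QuadraticMap.polar]
  rw [← Matrix.mulVec_add, h, h, h]

namespace IsOQ

variable {Q : (κ → F) → F}

theorem add (_hQ : IsOQ Q) (x y : κ → F) :
    Q (x + y) = Q x + Q y + QuadraticMap.polar Q x y := by
  simp only [QuadraticMap.polar]
  ring

theorem smul (hQ : IsOQ Q) (c : F) (x : κ → F) : Q (c • x) = c ^ 2 * Q x := hQ.quad.smul c x

theorem bil (hQ : IsOQ Q) : IsBilinearForm (QuadraticMap.polar Q) := hQ.quad.polar_bilinear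

theorem sesq (hQ : IsOQ Q) : IsSesq (RingEquiv.refl F) (QuadraticMap.polar Q) :=
  isSesq_of_bilinear hQ.bil

theorem symm (_hQ : IsOQ Q) (x y : κ → F) : QuadraticMap.polar Q x y = QuadraticMap.polar Q y x :=
  QuadraticMap.polar_comm Q x y

theorem self (hQ : IsOQ Q) (x : κ → F) : QuadraticMap.polar Q x x = 2 * Q x :=
  polar_self Q hQ.quad x

theorem zero (hQ : IsOQ Q) : Q 0 = 0 := by
  have := hQ.quad.smul 0 0
  simpa using this

theorem neg (hQ : IsOQ Q) (x : κ → F) : Q (-x) = Q x := by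
  have := hQ.quad.smul (-1) x
  simpa using this

theorem pl_zero_left (hQ : IsOQ Q) (x : κ → F) : QuadraticMap.polar Q 0 x = 0 := hQ.sesq.zero_left x

theorem pl_zero_right (hQ : IsOQ Q) (x : κ → F) : QuadraticMap.polar Q x 0 = 0 := hQ.sesq.zero_right x

theorem pl_neg_left (hQ : IsOQ Q) (x y : κ → F) :
    QuadraticMap.polar Q (-x) y = - QuadraticMap.polar Q x y := by
  have := hQ.bil.smul_left (-1) x y
  simpa using this

theorem pl_neg_right (hQ : IsOQ Q) (x y : κ → F) :
    QuadraticMap.polar Q x (-y) = - QuadraticMap.polar Q x y := by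
  have := hQ.bil.smul_right (-1) x y
  simpa using this

theorem pl_sub_left (hQ : IsOQ Q) (x y z : κ → F) :
    QuadraticMap.polar Q (x - y) z = QuadraticMap.polar Q x z - QuadraticMap.polar Q y z := by
  rw [sub_eq_add_neg, hQ.bil.add_left, hQ.pl_neg_left]
  ring

theorem pl_sub_right (hQ : IsOQ Q) (x y z : κ → F) :
    QuadraticMap.polar Q x (y - z) = QuadraticMap.polar Q x y - QuadraticMap.polar Q x z := by
  rw [sub_eq_add_neg, hQ.bil.add_right, hQ.pl_neg_right]
  ring

/-- The form on a combination `x + a • u + b • v`. -/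
theorem add3 (hQ : IsOQ Q) (x u v : κ → F) (a b : F) :
    Q (x + a • u + b • v) = Q x + a ^ 2 * Q u + b ^ 2 * Q v + a * QuadraticMap.polar Q x u
      + b * QuadraticMap.polar Q x v + a * b * QuadraticMap.polar Q u v := by
  rw [hQ.add, hQ.add, hQ.smul, hQ.smul, hQ.bil.add_left, hQ.bil.smul_right, hQ.bil.smul_right,
    hQ.bil.smul_left, hQ.bil.smul_right]
  ring

theorem pl_add3_left (hQ : IsOQ Q) (x u v y : κ → F) (a b : F) :
    QuadraticMap.polar Q (x + a • u + b • v) y = QuadraticMap.polar Q x y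
      + a * QuadraticMap.polar Q u y + b * QuadraticMap.polar Q v y := by
  rw [hQ.bil.add_left, hQ.bil.add_left, hQ.bil.smul_left, hQ.bil.smul_left]

theorem nondeg (hQ : IsOQ Q) {x : κ → F} (hx : x ≠ 0) : ∃ y, QuadraticMap.polar Q x y ≠ 0 :=
  (hQ.quad.nondegenerate x hx).2

theorem eq_zero_of_perp (hQ : IsOQ Q) {x : κ → F} (hx : ∀ y, QuadraticMap.polar Q x y = 0) :
    x = 0 := by
  by_contra h
  obtain ⟨y, hy⟩ := hQ.nondeg h
  exact hy (hx y)

/-- If `w` is not a multiple of `u`, some vector is orthogonal to `u` but not to `w`. -/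
theorem exists_perp_not_perp (hQ : IsOQ Q) (u w : κ → F) (hw : ¬ ∃ c : F, w = c • u) :
    ∃ x, QuadraticMap.polar Q u x = 0 ∧ QuadraticMap.polar Q w x ≠ 0 := by
  by_contra hcon
  have hall : ∀ x, QuadraticMap.polar Q u x = 0 → QuadraticMap.polar Q w x = 0 := by
    intro x hx
    by_contra h
    exact hcon ⟨x, hx, h⟩
  apply hw
  by_cases hu : u = 0
  · refine ⟨0, ?_⟩
    rw [zero_smul]
    apply hQ.eq_zero_of_perp
    intro y
    exact hall y (by rw [hu, hQ.pl_zero_left])
  obtain ⟨x₁, hx₁⟩ := hQ.nondeg hu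
  refine ⟨QuadraticMap.polar Q w x₁ / QuadraticMap.polar Q u x₁, ?_⟩
  apply sub_eq_zero.mp
  apply hQ.eq_zero_of_perp
  intro x
  have h1 := hall (x - (QuadraticMap.polar Q u x / QuadraticMap.polar Q u x₁) • x₁) (by
    rw [hQ.pl_sub_right, hQ.bil.smul_right]
    field_simp
    ring)
  rw [hQ.pl_sub_right, hQ.bil.smul_right] at h1
  rw [hQ.pl_sub_left, hQ.bil.smul_left]
  field_simp
  field_simp at h1
  linear_combination h1

/-- A non-zero singular vector has a non-singular vector in its orthogonal complement. -/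
theorem exists_nonsing_perp (hQ : IsOQ Q) (u : κ → F) (hu0 : u ≠ 0) :
    ∃ v, QuadraticMap.polar Q u v = 0 ∧ Q v ≠ 0 := by
  by_contra hcon
  have hall : ∀ v, QuadraticMap.polar Q u v = 0 → Q v = 0 := by
    intro v hv
    by_contra h
    exact hcon ⟨v, hv, h⟩
  let φ : (κ → F) →ₗ[F] F :=
    { toFun := fun x => QuadraticMap.polar Q u x
      map_add' := fun x y => hQ.bil.add_right u x y
      map_smul' := fun c x => hQ.bil.smul_right c u x }
  have hker : LinearMap.ker φ ≤ Submodule.span F {u} := by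
    intro w hw
    have hw' : QuadraticMap.polar Q u w = 0 := LinearMap.mem_ker.mp hw
    by_contra hnot
    have h1 : ¬ ∃ c : F, w = c • u := by
      rintro ⟨c, rfl⟩
      exact hnot (Submodule.smul_mem _ _ (Submodule.mem_span_singleton_self u))
    obtain ⟨x, hx1, hx2⟩ := hQ.exists_perp_not_perp u w h1
    apply hx2
    have h2 := hall (w + x) (by rw [hQ.bil.add_right, hw', hx1, add_zero])
    rw [hQ.add, hall w hw', hall x hx1] at h2
    simpa using h2
  have h1 := LinearMap.finrank_range_add_finrank_ker φ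
  rw [Module.finrank_fintype_fun_eq_card] at h1
  have h2 : Module.finrank F (LinearMap.range φ) ≤ 1 := by
    have := Submodule.finrank_le (LinearMap.range φ)
    rwa [Module.finrank_self] at this
  have h3 : Module.finrank F (LinearMap.ker φ) ≤ 1 :=
    (Submodule.finrank_mono hker).trans (finrank_span_singleton hu0).le
  have := hQ.three_le
  omega

/-- The singular vectors span the space. -/
theorem span_singular (hQ : IsOQ Q) (W : Submodule F (κ → F)) (hW : ∀ u, Q u = 0 → u ∈ W) :
    W = ⊤ := by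
  obtain ⟨u₀, hu₀, hQu₀⟩ := hQ.isotropic
  have key : ∀ x, QuadraticMap.polar Q x u₀ ≠ 0 → x ∈ W := by
    intro x hx
    have h1 : Q (x + (- Q x / QuadraticMap.polar Q x u₀) • u₀) = 0 := by
      rw [hQ.add, hQ.smul, hQu₀, hQ.bil.smul_right]
      field_simp
      ring
    have h2 := W.sub_mem (hW _ h1) (W.smul_mem (- Q x / QuadraticMap.polar Q x u₀) (hW _ hQu₀))
    simpa using h2
  obtain ⟨x₁, hx₁⟩ := hQ.nondeg hu₀
  rw [hQ.symm] at hx₁
  rw [eq_top_iff]
  intro x _
  by_cases hx : QuadraticMap.polar Q x u₀ = 0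
  · have h1 : x + x₁ ∈ W := key _ (by rw [hQ.bil.add_left, hx, zero_add]; exact hx₁)
    have h2 := W.sub_mem h1 (key _ hx₁)
    simpa using h2
  · exact key x hx

end IsOQ

end Cfsg.Agent.Helper97.Gen
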