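-- helper97 library (general index type): reflections and Siegel transformations in Omega.
import Cfsg.Agent.Helper97.OForm

set_option autoImplicit false
open Cfsg Cfsg.Geo Matrix

namespace Cfsg.Agent.Helper97.Gen

variable {κ : Type} [Fintype κ] [DecidableEq κ] {F : Type*} [Field F]

/-- An invertible matrix from a pair of mutually inverse linear maps. -/
noncomputable def glOfLin (f g : (κ → F) →ₗ[F] (κ → F)) (hfg : ∀ x, f (g x) = x)
    (hgf : ∀ x, g (f x) = x) : GL κ F :=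
  ⟨LinearMap.toMatrix' f, LinearMap.toMatrix' g,
    by rw [← LinearMap.toMatrix'_comp, show f ∘ₗ g = LinearMap.id from LinearMap.ext hfg,
      LinearMap.toMatrix'_id],
    by rw [← LinearMap.toMatrix'_comp, show g ∘ₗ f = LinearMap.id from LinearMap.ext hgf,
      LinearMap.toMatrix'_id]⟩

theorem glOfLin_mulVec (f g : (κ → F) →ₗ[F] (κ → F)) (hfg : ∀ x, f (g x) = x)
    (hgf : ∀ x, g (f x) = x) (x : κ → F) :
    ((glOfLin f g hfg hgf : GL κ F) : Matrix κ κ F) *ᵥ x = f x := by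
  show LinearMap.toMatrix' f *ᵥ x = f x
  rw [← Matrix.toLin'_apply, Matrix.toLin'_toMatrix']

theorem glOfLin_inv_mulVec (f g : (κ → F) →ₗ[F] (κ → F)) (hfg : ∀ x, f (g x) = x)
    (hgf : ∀ x, g (f x) = x) (x : κ → F) :
    (((glOfLin f g hfg hgf)⁻¹ : GL κ F) : Matrix κ κ F) *ᵥ x = g x := by
  show LinearMap.toMatrix' g *ᵥ x = g x
  rw [← Matrix.toLin'_apply, Matrix.toLin'_toMatrix']

/-- The Siegel transformation attached to a singular vector `u` and a vector `v` orthogonal to it. -/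
def sg (Q : (κ → F) → F) (u v x : κ → F) : κ → F :=
  x + QuadraticMap.polar Q x v • u - QuadraticMap.polar Q x u • v
    - (Q v * QuadraticMap.polar Q x u) • u

/-- The reflection in the non-singular vector `v`. -/
def rf (Q : (κ → F) → F) (v x : κ → F) : κ → F :=
  x - (QuadraticMap.polar Q x v / Q v) • v

namespace IsOQ

variable {Q : (κ → F) → F}

theorem sg_add (hQ : IsOQ Q) (u v x y : κ → F) : sg Q u v (x + y) = sg Q u v x + sg Q u v y := by
  simp only [sg, hQ.bil.add_left]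
  module

theorem sg_smul (hQ : IsOQ Q) (u v : κ → F) (c : F) (x : κ → F) :
    sg Q u v (c • x) = c • sg Q u v x := by
  simp only [sg, hQ.bil.smul_left]
  module

theorem sg_zero (hQ : IsOQ Q) (u x : κ → F) : sg Q u 0 x = x := by
  simp only [sg, hQ.pl_zero_right, hQ.zero]
  module

theorem sg_zero_left (hQ : IsOQ Q) (v x : κ → F) : sg Q 0 v x = x := by
  simp only [sg, hQ.pl_zero_right]
  module

theorem sg_comp (hQ : IsOQ Q) (u v w x : κ → F) (hu : Q u = 0)
    (huv : QuadraticMap.polar Q u v = 0) (huw : QuadraticMap.polar Q u w = 0) :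
    sg Q u v (sg Q u w x) = sg Q u (v + w) x := by
  have huu : QuadraticMap.polar Q u u = 0 := by rw [hQ.self, hu, mul_zero]
  have hwu : QuadraticMap.polar Q w u = 0 := by rw [hQ.symm]; exact huw
  have e1 : QuadraticMap.polar Q (sg Q u w x) u = QuadraticMap.polar Q x u := by
    simp only [sg, hQ.pl_sub_left, hQ.bil.add_left, hQ.bil.smul_left, huu, hwu]
    ring
  have e2 : QuadraticMap.polar Q (sg Q u w x) v
      = QuadraticMap.polar Q x v - QuadraticMap.polar Q x u * QuadraticMap.polar Q w v := by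
    simp only [sg, hQ.pl_sub_left, hQ.bil.add_left, hQ.bil.smul_left, huv]
    ring
  have e3 : Q (v + w) = Q v + Q w + QuadraticMap.polar Q w v := by
    rw [hQ.add, hQ.symm v w]
  have e4 : QuadraticMap.polar Q x (v + w) = QuadraticMap.polar Q x v + QuadraticMap.polar Q x w :=
    hQ.bil.add_right x v w
  rw [sg, e1, e2, sg, sg, e3, e4]
  module

theorem sg_Q (hQ : IsOQ Q) (u v x : κ → F) (hu : Q u = 0) (huv : QuadraticMap.polar Q u v = 0) :
    Q (sg Q u v x) = Q x := by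
  have e : sg Q u v x = x + (QuadraticMap.polar Q x v - Q v * QuadraticMap.polar Q x u) • u
      + (- QuadraticMap.polar Q x u) • v := by
    simp only [sg]
    module
  rw [e, hQ.add3, hu, huv]
  ring

theorem rf_add (hQ : IsOQ Q) (v x y : κ → F) : rf Q v (x + y) = rf Q v x + rf Q v y := by
  simp only [rf, hQ.bil.add_left, add_div]
  module

theorem rf_smul (hQ : IsOQ Q) (v : κ → F) (c : F) (x : κ → F) : rf Q v (c • x) = c • rf Q v x := by
  simp only [rf, hQ.bil.smul_left, mul_div_assoc]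
  module

theorem rf_perp (_hQ : IsOQ Q) (v x : κ → F) (hx : QuadraticMap.polar Q x v = 0) : rf Q v x = x := by
  simp only [rf, hx, zero_div, zero_smul, sub_zero]

theorem rf_smul_self (hQ : IsOQ Q) (v : κ → F) (hv : Q v ≠ 0) (c : F) :
    rf Q v (c • v) = (-c) • v := by
  have e : QuadraticMap.polar Q (c • v) v / Q v = 2 * c := by
    rw [hQ.bil.smul_left, hQ.self]
    field_simp
  rw [rf, e]
  module

theorem rf_rf (hQ : IsOQ Q) (v x : κ → F) (hv : Q v ≠ 0) : rf Q v (rf Q v x) = x := by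
  have e : QuadraticMap.polar Q (rf Q v x) v / Q v = - (QuadraticMap.polar Q x v / Q v) := by
    rw [rf, hQ.pl_sub_left, hQ.bil.smul_left, hQ.self]
    field_simp
    ring
  rw [rf, e, rf]
  module

theorem rf_Q (hQ : IsOQ Q) (v x : κ → F) (hv : Q v ≠ 0) : Q (rf Q v x) = Q x := by
  have e : rf Q v x = x + (- (QuadraticMap.polar Q x v / Q v)) • v + (0 : F) • v := by
    simp only [rf]
    module
  rw [e, hQ.add3]
  field_simp
  ring

/-- The Siegel transformation as a linear map. -/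
def sgLin (hQ : IsOQ Q) (u v : κ → F) : (κ → F) →ₗ[F] (κ → F) where
  toFun := sg Q u v
  map_add' := hQ.sg_add u v
  map_smul' := hQ.sg_smul u v

/-- The reflection as a linear map. -/
def rfLin (hQ : IsOQ Q) (v : κ → F) : (κ → F) →ₗ[F] (κ → F) where
  toFun := rf Q v
  map_add' := hQ.rf_add v
  map_smul' := hQ.rf_smul v

/-- The Siegel transformation as an invertible matrix. -/
noncomputable def glSiegel (hQ : IsOQ Q) (u v : κ → F) (hu : Q u = 0)
    (huv : QuadraticMap.polar Q u v = 0) : GL κ F :=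
  glOfLin (hQ.sgLin u v) (hQ.sgLin u (-v))
    (fun x => by
      show sg Q u v (sg Q u (-v) x) = x
      rw [hQ.sg_comp u v (-v) x hu huv (by rw [hQ.pl_neg_right, huv, neg_zero]), add_neg_cancel,
        hQ.sg_zero])
    (fun x => by
      show sg Q u (-v) (sg Q u v x) = x
      rw [hQ.sg_comp u (-v) v x hu (by rw [hQ.pl_neg_right, huv, neg_zero]) huv, neg_add_cancel,
        hQ.sg_zero])

theorem glSiegel_mulVec (hQ : IsOQ Q) (u v : κ → F) (hu : Q u = 0)
    (huv : QuadraticMap.polar Q u v = 0) (x : κ → F) :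
    ((hQ.glSiegel u v hu huv : GL κ F) : Matrix κ κ F) *ᵥ x = sg Q u v x :=
  glOfLin_mulVec _ _ _ _ x

theorem glSiegel_inv_mulVec (hQ : IsOQ Q) (u v : κ → F) (hu : Q u = 0)
    (huv : QuadraticMap.polar Q u v = 0) (x : κ → F) :
    (((hQ.glSiegel u v hu huv)⁻¹ : GL κ F) : Matrix κ κ F) *ᵥ x = sg Q u (-v) x :=
  glOfLin_inv_mulVec _ _ _ _ x

theorem glSiegel_mem (hQ : IsOQ Q) (u v : κ → F) (hu : Q u = 0)
    (huv : QuadraticMap.polar Q u v = 0) : hQ.glSiegel u v hu huv ∈ isometryGroup F Q := by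
  rw [mem_isometryGroup_iff]
  intro x
  rw [hQ.glSiegel_mulVec, hQ.sg_Q u v x hu huv]

/-- The reflection as an invertible matrix. -/
noncomputable def glRefl (hQ : IsOQ Q) (v : κ → F) (hv : Q v ≠ 0) : GL κ F :=
  glOfLin (hQ.rfLin v) (hQ.rfLin v) (fun x => hQ.rf_rf v x hv) (fun x => hQ.rf_rf v x hv)

theorem glRefl_mulVec (hQ : IsOQ Q) (v : κ → F) (hv : Q v ≠ 0) (x : κ → F) :
    ((hQ.glRefl v hv : GL κ F) : Matrix κ κ F) *ᵥ x = rf Q v x :=
  glOfLin_mulVec _ _ _ _ x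

theorem glRefl_inv_mulVec (hQ : IsOQ Q) (v : κ → F) (hv : Q v ≠ 0) (x : κ → F) :
    (((hQ.glRefl v hv)⁻¹ : GL κ F) : Matrix κ κ F) *ᵥ x = rf Q v x :=
  glOfLin_inv_mulVec _ _ _ _ x

theorem glRefl_mem (hQ : IsOQ Q) (v : κ → F) (hv : Q v ≠ 0) : hQ.glRefl v hv ∈ isometryGroup F Q := by
  rw [mem_isometryGroup_iff]
  intro x
  rw [hQ.glRefl_mulVec, hQ.rf_Q v x hv]

/-- Conjugating a Siegel transformation by an isometry. -/
theorem sg_conj (_hQ : IsOQ Q) {g : GL κ F} (hg : g ∈ isometryGroup F Q) (u w y : κ → F) :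
    (g : Matrix κ κ F) *ᵥ (sg Q u w (((g⁻¹ : GL κ F) : Matrix κ κ F) *ᵥ y))
      = sg Q ((g : Matrix κ κ F) *ᵥ u) ((g : Matrix κ κ F) *ᵥ w) y := by
  have e1 : ∀ z, QuadraticMap.polar Q (((g⁻¹ : GL κ F) : Matrix κ κ F) *ᵥ y) z
      = QuadraticMap.polar Q y ((g : Matrix κ κ F) *ᵥ z) := by
    intro z
    rw [← polar_isometry hg, mulVec_cancel_inv]
  have e3 : Q w = Q ((g : Matrix κ κ F) *ᵥ w) := ((mem_isometryGroup_iff Q g).mp hg w).symm
  rw [sg, sg, Matrix.mulVec_sub, Matrix.mulVec_sub, Matrix.mulVec_add, Matrix.mulVec_smul,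
    Matrix.mulVec_smul, Matrix.mulVec_smul, mulVec_cancel_inv, e1, e1, ← e3]

/-- Siegel transformations with a non-singular second vector are commutators of isometries. -/
theorem glSiegel_mem_omega_of_nonsing (hQ : IsOQ Q) (u v : κ → F) (hu : Q u = 0)
    (huv : QuadraticMap.polar Q u v = 0) (hv : Q v ≠ 0) :
    hQ.glSiegel u v hu huv ∈ omegaGL Q := by
  obtain ⟨w, hw⟩ : ∃ w : κ → F, w = (2⁻¹ : F) • v := ⟨_, rfl⟩
  have hww : w + w = v := by
    rw [hw, ← add_smul, ← two_mul, mul_inv_cancel₀ hQ.two_ne, one_smul]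
  have huw : QuadraticMap.polar Q u (-w) = 0 := by
    rw [hQ.pl_neg_right, hw, hQ.bil.smul_right, huv, mul_zero, neg_zero]
  have huw' : QuadraticMap.polar Q u w = 0 := by
    rw [hw, hQ.bil.smul_right, huv, mul_zero]
  have key : hQ.glRefl v hv * hQ.glSiegel u (-w) hu huw * (hQ.glRefl v hv)⁻¹
      * (hQ.glSiegel u (-w) hu huw)⁻¹ = hQ.glSiegel u v hu huv := by
    apply gl_ext
    intro x
    rw [Units.val_mul, Units.val_mul, Units.val_mul, ← Matrix.mulVec_mulVec, ← Matrix.mulVec_mulVec,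
      ← Matrix.mulVec_mulVec, hQ.glSiegel_inv_mulVec, neg_neg, hQ.glSiegel_mulVec,
      hQ.sg_conj (hQ.glRefl_mem v hv), hQ.glRefl_mulVec, hQ.glRefl_mulVec, hQ.glSiegel_mulVec,
      hQ.rf_perp v u huv]
    have e : rf Q v (-w) = w := by
      have h1 : -w = (-(2⁻¹ : F)) • v := by rw [hw, neg_smul]
      rw [h1, hQ.rf_smul_self v hv, neg_neg, hw]
    rw [e, hQ.sg_comp u w w x hu huw' huw', hww]
  rw [← key]
  exact comm_mem_omegaGL (hQ.glRefl_mem v hv) (hQ.glSiegel_mem u (-w) hu huw)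

/-- Siegel transformations lie in `Ω`. -/
theorem exists_siegel (hQ : IsOQ Q) (u v : κ → F) (hu : Q u = 0)
    (huv : QuadraticMap.polar Q u v = 0) :
    ∃ E : GL κ F, E ∈ omegaGL Q ∧ ∀ x, (E : Matrix κ κ F) *ᵥ x = sg Q u v x := by
  by_cases hu0 : u = 0
  · refine ⟨1, Subgroup.one_mem _, fun x => ?_⟩
    rw [hu0, hQ.sg_zero_left, Units.val_one, Matrix.one_mulVec]
  by_cases hv : Q v = 0
  swap
  · exact ⟨_, hQ.glSiegel_mem_omega_of_nonsing u v hu huv hv, hQ.glSiegel_mulVec u v hu huv⟩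
  obtain ⟨v₁, huv₁, hv₁⟩ := hQ.exists_nonsing_perp u hu0
  have hneg : QuadraticMap.polar Q u (-v₁) = 0 := by rw [hQ.pl_neg_right, huv₁, neg_zero]
  by_cases h1 : Q (v + v₁) = 0
  · have h2 : Q (v + -v₁) ≠ 0 := by
      intro h2
      rw [hQ.add, hv, hQ.neg, hQ.pl_neg_right] at h2
      rw [hQ.add, hv] at h1
      apply hv₁
      have h3 : (2 : F) * Q v₁ = 0 := by linear_combination h1 + h2
      exact (mul_eq_zero.mp h3).resolve_left hQ.two_ne
    have huv' : QuadraticMap.polar Q u (v + -v₁) = 0 := by rw [hQ.bil.add_right, huv, hneg, add_zero]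
    refine ⟨hQ.glSiegel u (v + -v₁) hu huv' * hQ.glSiegel u v₁ hu huv₁,
      Subgroup.mul_mem _ (hQ.glSiegel_mem_omega_of_nonsing u _ hu huv' h2)
        (hQ.glSiegel_mem_omega_of_nonsing u _ hu huv₁ hv₁), fun x => ?_⟩
    rw [Units.val_mul, ← Matrix.mulVec_mulVec, hQ.glSiegel_mulVec, hQ.glSiegel_mulVec,
      hQ.sg_comp u _ _ x hu huv' huv₁, add_assoc, neg_add_cancel, add_zero]
  · have huv' : QuadraticMap.polar Q u (v + v₁) = 0 := by rw [hQ.bil.add_right, huv, huv₁, add_zero]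
    have hv₁' : Q (-v₁) ≠ 0 := by rw [hQ.neg]; exact hv₁
    refine ⟨hQ.glSiegel u (v + v₁) hu huv' * hQ.glSiegel u (-v₁) hu hneg,
      Subgroup.mul_mem _ (hQ.glSiegel_mem_omega_of_nonsing u _ hu huv' h1)
        (hQ.glSiegel_mem_omega_of_nonsing u _ hu hneg hv₁'), fun x => ?_⟩
    rw [Units.val_mul, ← Matrix.mulVec_mulVec, hQ.glSiegel_mulVec, hQ.glSiegel_mulVec,
      hQ.sg_comp u _ _ x hu huv' hneg, add_assoc, add_neg_cancel, add_zero]

end IsOQ

end Cfsg.Agent.Helper97.Gen
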