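-- helper97 library (general index type): Omega is not contained in the geometric subgroups.
import Cfsg.Agent.Helper97.OSiegel

set_option autoImplicit false
open Cfsg Cfsg.Geo Matrix

namespace Cfsg.Agent.Helper97.Gen

variable {κ : Type} [Fintype κ] [DecidableEq κ] {F : Type*} [Field F]

theorem exists_ne_zero_coord {v : κ → F} (hv : v ≠ 0) : ∃ i, v i ≠ 0 := by
  by_contra hcon
  apply hv
  funext i
  by_contra hi
  exact hcon ⟨i, hi⟩

theorem scalar_pow_val {z : GL κ F} {ζ : F}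
    (hz : (z : Matrix κ κ F) = ζ • (1 : Matrix κ κ F)) (k : ℕ) :
    ((z ^ k : GL κ F) : Matrix κ κ F) = ζ ^ k • (1 : Matrix κ κ F) := by
  rw [Units.val_pow_eq_pow_val, hz, smul_pow, one_pow]

theorem subfield_pow_card (F₀ : Subfield F) [Finite F] (x : F) (hx : x ∈ F₀) : x ^ Nat.card F₀ = x := by
  have : Fintype F₀ := Fintype.ofFinite F₀
  rw [Nat.card_eq_fintype_card]
  have h1 := FiniteField.pow_card (⟨x, hx⟩ : F₀)
  exact congrArg Subtype.val h1

/-- An element of order `p` lying in a subfield group is rational. -/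
theorem unipotent_rational [Fintype F] {p : ℕ} [Fact p.Prime] [CharP F p] [Nonempty κ]
    (F₀ : Subfield F) (P : GL κ F) (t : GL κ F) (htp : t ^ p = 1)
    (hmem : t ∈ subfieldSubgroup F₀ P) :
    ∀ i j, ((P⁻¹ * t * P : GL κ F) : Matrix κ κ F) i j ∈ F₀ := by
  obtain ⟨i0⟩ := (inferInstance : Nonempty κ)
  rw [subfieldSubgroup, Subgroup.mem_map] at hmem
  obtain ⟨y, hy, hyt⟩ := hmem
  have hyt' : y = P⁻¹ * t * P := by
    have h1 : P * y * P⁻¹ = t := hyt
    rw [← h1]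
    group
  rw [← hyt']
  have hyp : y ^ p = 1 := by
    have e : P⁻¹ * t * P = P⁻¹ * t * P⁻¹⁻¹ := by rw [inv_inv]
    rw [hyt', e, conj_pow, htp]
    group
  obtain ⟨a, ha, b, hb, hab⟩ := Subgroup.mem_sup_of_normal_right.mp hy
  obtain ⟨a', rfl⟩ := ha
  obtain ⟨d, hd⟩ := (mem_scalars_iff b).mp hb
  have hcomm : Commute (Matrix.GeneralLinearGroup.map (F₀.subtype : F₀ →+* F) a') b :=
    (scalars_comm hb _).symm
  have hval : ((y ^ p : GL κ F) : Matrix κ κ F)
      = ((d : F) ^ p) • (((a' ^ p : GL κ F₀) : Matrix κ κ F₀).map F₀.subtype) := by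
    rw [← hab, hcomm.mul_pow, ← map_pow, Units.val_mul, scalar_pow_val hd p, Matrix.mul_smul,
      Matrix.mul_one]
    rfl
  rw [hyp, Units.val_one] at hval
  have h00 := congrFun (congrFun hval i0) i0
  simp only [Matrix.one_apply_eq, Matrix.smul_apply, Matrix.map_apply, smul_eq_mul] at h00
  have hdp : (d : F) ^ p ∈ F₀ := by
    have h1 : (F₀.subtype (((a' ^ p : GL κ F₀) : Matrix κ κ F₀) i0 i0)) ≠ 0 := by
      intro h
      rw [h, mul_zero] at h00
      exact one_ne_zero h00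
    have h2 : (d : F) ^ p = (F₀.subtype (((a' ^ p : GL κ F₀) : Matrix κ κ F₀) i0 i0))⁻¹ := by
      field_simp
      exact h00.symm
    rw [h2]
    exact F₀.inv_mem (SetLike.coe_mem _)
  have hd0 : (d : F) ∈ F₀ := by
    obtain ⟨e, -, hcard⟩ := FiniteField.card F p
    have h1 : (d : F) ^ p ^ (e : ℕ) = (d : F) := by rw [← hcard, FiniteField.pow_card]
    have h2 : p ^ (e : ℕ) = p * p ^ ((e : ℕ) - 1) := by
      rw [← pow_succ', Nat.sub_add_cancel e.pos]
    rw [h2, pow_mul] at h1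
    rw [← h1]
    exact F₀.pow_mem hdp _
  intro i j
  have hval1 : (y : Matrix κ κ F)
      = (d : F) • ((a' : Matrix κ κ F₀).map F₀.subtype) := by
    rw [← hab, Units.val_mul, hd, Matrix.mul_smul, Matrix.mul_one]
    rfl
  rw [hval1]
  simp only [Matrix.smul_apply, Matrix.map_apply, smul_eq_mul]
  exact F₀.mul_mem hd0 (SetLike.coe_mem _)

namespace IsOQ

variable {Q : (κ → F) → F}

/-! ### Class 1 -/

theorem notOmega_subspace (hQ : IsOQ Q) (W : Submodule F (κ → F)) (hW0 : W ≠ ⊥) (hW1 : W ≠ ⊤) :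
    ¬ omegaGL Q ≤ subspaceStabilizer W := by
  intro hle
  apply hW1
  apply hQ.span_singular W
  obtain ⟨w, hwW, hw0⟩ := (Submodule.ne_bot_iff W).mp hW0
  have hE : ∀ u v, Q u = 0 → QuadraticMap.polar Q u v = 0 → sg Q u v w ∈ W := by
    intro u v hu huv
    obtain ⟨E, hEΩ, hEx⟩ := hQ.exists_siegel u v hu huv
    have := ((mem_subspaceStabilizer_iff W E).mp (hle hEΩ) w).mp hwW
    rwa [hEx] at this
  intro u hu
  by_cases hu0 : u = 0
  · rw [hu0]
    exact W.zero_mem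
  by_cases hwu : QuadraticMap.polar Q w u = 0
  · by_cases hmul : ∃ c : F, w = c • u
    · obtain ⟨c, rfl⟩ := hmul
      have hc : c ≠ 0 := by
        rintro rfl
        exact hw0 (zero_smul _ _)
      have := W.smul_mem c⁻¹ hwW
      rwa [smul_smul, inv_mul_cancel₀ hc, one_smul] at this
    · obtain ⟨x, hx1, hx2⟩ := hQ.exists_perp_not_perp u w hmul
      have h1 := hE u x hu hx1
      have e : sg Q u x w = w + QuadraticMap.polar Q w x • u := by
        simp only [sg, hwu]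
        module
      rw [e] at h1
      have h2 := W.sub_mem h1 hwW
      rw [add_sub_cancel_left] at h2
      have := W.smul_mem (QuadraticMap.polar Q w x)⁻¹ h2
      rwa [smul_smul, inv_mul_cancel₀ hx2, one_smul] at this
  · obtain ⟨v, huv, hv⟩ := hQ.exists_nonsing_perp u hu0
    have h1 := hE u v hu huv
    have h2 := hE u (-v) hu (by rw [hQ.pl_neg_right, huv, neg_zero])
    have h4 := W.sub_mem (W.add_mem h1 h2) (W.smul_mem (2 : F) hwW)
    have e : sg Q u v w + sg Q u (-v) w - (2 : F) • w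
        = (-(2 * Q v * QuadraticMap.polar Q w u)) • u := by
      simp only [sg, hQ.pl_neg_right, hQ.neg]
      module
    rw [e] at h4
    have hne : -(2 * Q v * QuadraticMap.polar Q w u) ≠ 0 :=
      neg_ne_zero.mpr (mul_ne_zero (mul_ne_zero hQ.two_ne hv) hwu)
    have := W.smul_mem (-(2 * Q v * QuadraticMap.polar Q w u))⁻¹ h4
    rwa [smul_smul, inv_mul_cancel₀ hne, one_smul] at this

/-! ### Class 2 -/

theorem notOmega_decomp [Fintype F] (hQ : IsOQ Q) {t : ℕ} (ht : 4 ≤ t)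
    (D : Fin t → Submodule F (κ → F))
    (hD : IsNondegenerateMDecomposition (QuadraticMap.polar Q) 1 D) :
    ¬ omegaGL Q ≤ decompositionStabilizer D := by
  classical
  intro hle
  have hS := hQ.sesq
  have hex : ∀ i, ∃ d : κ → F, d ∈ D i ∧ Q d ≠ 0 := by
    intro i
    have hfr := hD.decomp.finrank_eq i
    obtain ⟨d, hd0, hd⟩ := finrank_eq_one_iff'.mp hfr
    have hd0' : (d : κ → F) ≠ 0 := fun h0 => hd0 (Subtype.ext h0)
    obtain ⟨⟨x, hx, hxd⟩, -⟩ := hD.nondegenerate i d d.2 hd0'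
    obtain ⟨a, ha⟩ := hd ⟨x, hx⟩
    refine ⟨d, d.2, ?_⟩
    intro h0
    apply hxd
    have e : x = a • (d : κ → F) := (congrArg Subtype.val ha).symm
    rw [e, hS.smul_left, hQ.self, h0, mul_zero, mul_zero]
  choose d hdD hdd using hex
  obtain ⟨i0, hi0⟩ : ∃ i : Fin t, i = ⟨0, by omega⟩ := ⟨_, rfl⟩
  obtain ⟨i1, hi1⟩ : ∃ i : Fin t, i = ⟨1, by omega⟩ := ⟨_, rfl⟩
  obtain ⟨i2, hi2⟩ : ∃ i : Fin t, i = ⟨2, by omega⟩ := ⟨_, rfl⟩
  obtain ⟨i3, hi3⟩ : ∃ i : Fin t, i = ⟨3, by omega⟩ := ⟨_, rfl⟩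
  have hort : ∀ i j, i ≠ j → QuadraticMap.polar Q (d i) (d j) = 0 :=
    fun i j hij => hD.orthogonal i j hij _ (hdD i) _ (hdD j)
  have h01 : i0 ≠ i1 := by simp [hi0, hi1, Fin.ext_iff]
  have h02 : i0 ≠ i2 := by simp [hi0, hi2, Fin.ext_iff]
  have h03 : i0 ≠ i3 := by simp [hi0, hi3, Fin.ext_iff]
  have h12 : i1 ≠ i2 := by simp [hi1, hi2, Fin.ext_iff]
  have h13 : i1 ≠ i3 := by simp [hi1, hi3, Fin.ext_iff]
  have h23 : i2 ≠ i3 := by simp [hi2, hi3, Fin.ext_iff]
  have o01 := hort i0 i1 h01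
  have o02 := hort i0 i2 h02
  have o12 := hort i1 i2 h12
  have o30 := hort i3 i0 h03.symm
  have o31 := hort i3 i1 h13.symm
  have o32 := hort i3 i2 h23.symm
  have o03 := hort i0 i3 h03
  have o13 := hort i1 i3 h13
  have o23 := hort i2 i3 h23
  -- a singular vector supported on the first three lines
  have hcardF : Fintype.card F % 2 = 1 := by
    obtain ⟨p, hchar⟩ := CharP.exists F
    have hp : p.Prime :=
      (CharP.char_is_prime_or_zero F p).resolve_right (CharP.char_ne_zero_of_finite F p)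
    have : Fact p.Prime := ⟨hp⟩
    obtain ⟨e, -, hcard⟩ := FiniteField.card F p
    have hp2 : p ≠ 2 := by
      rintro rfl
      exact hQ.two_ne (by exact_mod_cast CharP.cast_eq_zero F 2)
    rw [hcard]
    exact Nat.odd_iff.mp ((hp.eq_two_or_odd'.resolve_left hp2).pow)
  obtain ⟨a, b, hab⟩ := FiniteField.exists_root_sum_quadratic
    (f := Polynomial.C (Q (d i1)) * Polynomial.X ^ 2)
    (g := Polynomial.C (Q (d i2)) * Polynomial.X ^ 2 + Polynomial.C (Q (d i0)))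
    (Polynomial.degree_C_mul_X_pow 2 (hdd i1))
    (by
      rw [Polynomial.degree_add_eq_left_of_degree_lt]
      · exact Polynomial.degree_C_mul_X_pow 2 (hdd i2)
      · rw [Polynomial.degree_C_mul_X_pow 2 (hdd i2)]
        exact lt_of_le_of_lt Polynomial.degree_C_le (by norm_num))
    hcardF
  simp only [Polynomial.eval_add, Polynomial.eval_mul, Polynomial.eval_C, Polynomial.eval_pow,
    Polynomial.eval_X] at hab
  obtain ⟨u, hudef⟩ : ∃ u : κ → F, u = d i0 + a • d i1 + b • d i2 := ⟨_, rfl⟩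
  have hu : Q u = 0 := by
    rw [hudef, hQ.add3, o01, o02, o12]
    linear_combination hab
  have hd3u : QuadraticMap.polar Q (d i3) u = 0 := by
    rw [hudef, hQ.bil.add_right, hQ.bil.add_right, hQ.bil.smul_right, hQ.bil.smul_right, o30, o31, o32]
    ring
  have hud3 : QuadraticMap.polar Q u (d i3) = 0 := by rw [hQ.symm]; exact hd3u
  have hud0 : QuadraticMap.polar Q u (d i0) = 2 * Q (d i0) := by
    rw [hudef, hQ.bil.add_left, hQ.bil.add_left, hQ.bil.smul_left, hQ.bil.smul_left, hQ.self,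
      hQ.symm (d i1), hQ.symm (d i2), o01, o02]
    ring
  obtain ⟨E, hEΩ, hEx⟩ := hQ.exists_siegel u (d i3) hu hud3
  obtain ⟨π, hπ⟩ := (mem_decompositionStabilizer_iff D E).mp (hle hEΩ)
  have hw : (E : Matrix κ κ F) *ᵥ d i3 ∈ D (π i3) := by
    rw [← hπ i3]
    exact ⟨d i3, hdD i3, by rw [Matrix.toLin'_apply]⟩
  have e : (E : Matrix κ κ F) *ᵥ d i3 = d i3 + (2 * Q (d i3)) • u := by
    rw [hEx, sg, hd3u, hQ.self]
    module
  rw [e] at hw
  have e1 : π i3 = i3 := by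
    by_contra hne
    have h1 := hD.orthogonal (π i3) i3 hne _ hw _ (hdD i3)
    rw [hQ.bil.add_left, hQ.bil.smul_left, hud3, hQ.self, mul_zero, add_zero] at h1
    exact (mul_ne_zero hQ.two_ne (hdd i3)) h1
  have e2 : π i3 = i0 := by
    by_contra hne
    have h1 := hD.orthogonal (π i3) i0 hne _ hw _ (hdD i0)
    rw [hQ.bil.add_left, hQ.bil.smul_left, hud0, o30, zero_add] at h1
    exact (mul_ne_zero (mul_ne_zero hQ.two_ne (hdd i3)) (mul_ne_zero hQ.two_ne (hdd i0))) h1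
  exact h03 (e2.symm.trans e1)

/-! ### Class 5 -/

theorem siegel_pow (hQ : IsOQ Q) (E : GL κ F) (u v : κ → F) (hu : Q u = 0)
    (huv : QuadraticMap.polar Q u v = 0) (hE : ∀ x, (E : Matrix κ κ F) *ᵥ x = sg Q u v x) (k : ℕ)
    (x : κ → F) : ((E ^ k : GL κ F) : Matrix κ κ F) *ᵥ x = sg Q u ((k : F) • v) x := by
  induction k with
  | zero => simp [hQ.sg_zero]
  | succ k ih =>
    rw [pow_succ', Units.val_mul, ← Matrix.mulVec_mulVec, ih, hE,
      hQ.sg_comp u v _ x hu huv (by rw [hQ.bil.smul_right, huv, mul_zero])]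
    congr 1
    push_cast
    module

theorem exists_polar_ne (hQ : IsOQ Q) (P : GL κ F) {u : κ → F} (hu0 : u ≠ 0) :
    ∃ j, QuadraticMap.polar Q ((P : Matrix κ κ F) *ᵥ Pi.single j 1) u ≠ 0 := by
  classical
  by_contra hcon
  have hall : ∀ j, QuadraticMap.polar Q ((P : Matrix κ κ F) *ᵥ Pi.single j 1) u = 0 := by
    intro j
    by_contra hj
    exact hcon ⟨j, hj⟩
  obtain ⟨w, hw⟩ := hQ.nondeg hu0
  apply hw
  rw [hQ.symm]
  have e : w = ∑ j, (((P⁻¹ : GL κ F) : Matrix κ κ F) *ᵥ w) j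
      • ((P : Matrix κ κ F) *ᵥ Pi.single j 1) := by
    conv_lhs => rw [← mulVec_cancel_inv P w,
      vec_eq_sum_single (((P⁻¹ : GL κ F) : Matrix κ κ F) *ᵥ w)]
    rw [Matrix.mulVec_sum]
    exact Finset.sum_congr rfl fun j _ => Matrix.mulVec_smul _ _ _
  rw [e, hQ.sesq.sum_left]
  apply Finset.sum_eq_zero
  intro j _
  rw [hQ.sesq.smul_left, hall j, mul_zero]

theorem notOmega_subfield [Fintype F] (hQ : IsOQ Q) (F₀ : Subfield F) (hF₀ : F₀ ≠ ⊤) (P : GL κ F) :
    ¬ omegaGL Q ≤ subfieldSubgroup F₀ P := by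
  classical
  intro hle
  obtain ⟨p, hchar⟩ := CharP.exists F
  have hp : p.Prime :=
    (CharP.char_is_prime_or_zero F p).resolve_right (CharP.char_ne_zero_of_finite F p)
  have : Fact p.Prime := ⟨hp⟩
  have hne : Nonempty κ := Fintype.card_pos_iff.mp (by have := hQ.three_le; omega)
  obtain ⟨u, hu0, hu⟩ := hQ.isotropic
  obtain ⟨v, huv, hv⟩ := hQ.exists_nonsing_perp u hu0
  obtain ⟨j, hj⟩ := hQ.exists_polar_ne P hu0
  have hPu : ((P⁻¹ : GL κ F) : Matrix κ κ F) *ᵥ u ≠ 0 := by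
    intro h0
    apply hu0
    have := congrArg (fun z => (P : Matrix κ κ F) *ᵥ z) h0
    simpa [mulVec_cancel_inv] using this
  obtain ⟨i, hi⟩ := exists_ne_zero_coord hPu
  -- rationality of the conjugated Siegel transformations
  have hrat : ∀ l : F, ∃ E : GL κ F, (∀ x, (E : Matrix κ κ F) *ᵥ x = sg Q u (l • v) x) ∧
      ∀ i j, ((P⁻¹ * E * P : GL κ F) : Matrix κ κ F) i j ∈ F₀ := by
    intro l
    have hul : QuadraticMap.polar Q u (l • v) = 0 := by rw [hQ.bil.smul_right, huv, mul_zero]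
    obtain ⟨E, hEΩ, hEx⟩ := hQ.exists_siegel u (l • v) hu hul
    refine ⟨E, hEx, unipotent_rational F₀ P E ?_ (hle hEΩ)⟩
    apply gl_ext
    intro x
    rw [hQ.siegel_pow E u (l • v) hu hul hEx, CharP.cast_eq_zero, zero_smul, hQ.sg_zero,
      Units.val_one, Matrix.one_mulVec]
  have key : ∀ l : F, l ^ 2 * (2 * Q v * QuadraticMap.polar Q ((P : Matrix κ κ F) *ᵥ Pi.single j 1) u
      * (((P⁻¹ : GL κ F) : Matrix κ κ F) *ᵥ u) i) ∈ F₀ := by
    intro l
    obtain ⟨E₁, hE₁, hr₁⟩ := hrat l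
    obtain ⟨E₂, hE₂, hr₂⟩ := hrat (-l)
    have h1 := hr₁ i j
    have h2 := hr₂ i j
    have e1 : ∀ E : GL κ F, ((P⁻¹ * E * P : GL κ F) : Matrix κ κ F) i j
        = (((P⁻¹ : GL κ F) : Matrix κ κ F) *ᵥ ((E : Matrix κ κ F)
          *ᵥ ((P : Matrix κ κ F) *ᵥ Pi.single j 1))) i := by
      intro E
      rw [Matrix.mulVec_mulVec, Matrix.mulVec_mulVec, ← Units.val_mul, ← Units.val_mul,
        Matrix.mulVec_single_one]
      rfl
    rw [e1, hE₁] at h1
    rw [e1, hE₂] at h2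
    have h3 : (2 : F) ∈ F₀ := by
      have : (2 : F) = 1 + 1 := by norm_num
      rw [this]
      exact F₀.add_mem F₀.one_mem F₀.one_mem
    have h3' : (if i = j then (1 : F) else 0) ∈ F₀ := by
      split_ifs
      · exact F₀.one_mem
      · exact F₀.zero_mem
    have h4 := F₀.sub_mem (F₀.add_mem h1 h2) (F₀.mul_mem h3 h3')
    have e2 : sg Q u (l • v) ((P : Matrix κ κ F) *ᵥ Pi.single j 1)
        + sg Q u ((-l) • v) ((P : Matrix κ κ F) *ᵥ Pi.single j 1)
        = (2 : F) • ((P : Matrix κ κ F) *ᵥ Pi.single j 1)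
          + (-(l ^ 2 * (2 * Q v * QuadraticMap.polar Q ((P : Matrix κ κ F) *ᵥ Pi.single j 1) u))) • u := by
      simp only [sg, hQ.bil.smul_right, hQ.smul]
      module
    have e3 : (((P⁻¹ : GL κ F) : Matrix κ κ F) *ᵥ sg Q u (l • v) ((P : Matrix κ κ F) *ᵥ Pi.single j 1)) i
        + (((P⁻¹ : GL κ F) : Matrix κ κ F) *ᵥ sg Q u ((-l) • v) ((P : Matrix κ κ F) *ᵥ Pi.single j 1)) i
        - 2 * (if i = j then (1 : F) else 0)
        = -(l ^ 2 * (2 * Q v * QuadraticMap.polar Q ((P : Matrix κ κ F) *ᵥ Pi.single j 1) u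
          * (((P⁻¹ : GL κ F) : Matrix κ κ F) *ᵥ u) i)) := by
      have h5 := congrArg (fun z => (((P⁻¹ : GL κ F) : Matrix κ κ F) *ᵥ z) i) e2
      simp only [Matrix.mulVec_add, Matrix.mulVec_smul, mulVec_inv_cancel, Pi.add_apply,
        Pi.smul_apply, smul_eq_mul, Pi.single_apply] at h5
      rw [h5]
      by_cases hij : i = j
      · simp [hij]; ring
      · simp [hij]; ring
    rw [e3] at h4
    have := F₀.neg_mem h4
    rwa [neg_neg] at this
  obtain ⟨c, hc⟩ : ∃ c : F, c = 2 * Q v * QuadraticMap.polar Q ((P : Matrix κ κ F) *ᵥ Pi.single j 1) u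
      * (((P⁻¹ : GL κ F) : Matrix κ κ F) *ᵥ u) i := ⟨_, rfl⟩
  rw [← hc] at key
  have hc0 : c ≠ 0 := hc ▸ mul_ne_zero (mul_ne_zero (mul_ne_zero hQ.two_ne hv) hj) hi
  have hcF : c ∈ F₀ := by
    have := key 1
    rwa [one_pow, one_mul] at this
  have hsq : ∀ l : F, l ^ 2 ∈ F₀ := by
    intro l
    have h1 := F₀.mul_mem (key l) (F₀.inv_mem hcF)
    rwa [mul_assoc, mul_inv_cancel₀ hc0, mul_one] at h1
  apply hF₀
  rw [eq_top_iff]
  intro θ _
  have h1 := F₀.sub_mem (F₀.sub_mem (hsq (θ + 1)) (hsq θ)) F₀.one_mem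
  have h2 : (θ + 1) ^ 2 - θ ^ 2 - 1 = 2 * θ := by ring
  rw [h2] at h1
  have h3 : (2 : F) ∈ F₀ := by
    have : (2 : F) = 1 + 1 := by norm_num
    rw [this]
    exact F₀.add_mem F₀.one_mem F₀.one_mem
  have h4 := F₀.mul_mem (F₀.inv_mem h3) h1
  rwa [← mul_assoc, inv_mul_cancel₀ hQ.two_ne, one_mul] at h4

end IsOQ

end Cfsg.Agent.Helper97.Gen
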