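-- helper97 library (general index type): reducible subgroups of the orthogonal group.
import Cfsg.Agent.Helper97.ONot

set_option autoImplicit false
open Cfsg Cfsg.Geo Matrix

namespace Cfsg.Agent.Helper97.Gen

variable {κ : Type} [Fintype κ] [DecidableEq κ] {F : Type*} [Field F]

theorem le_subspaceStabilizer (H : Subgroup (GL κ F)) (W : Submodule F (κ → F))
    (h : ∀ g ∈ H, ∀ v ∈ W, (g : Matrix κ κ F) *ᵥ v ∈ W) : H ≤ subspaceStabilizer W := by
  intro g hg
  rw [mem_subspaceStabilizer_iff]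
  intro v
  constructor
  · exact h g hg v
  · intro hv
    have := h g⁻¹ (H.inv_mem hg) _ hv
    rwa [mulVec_inv_cancel] at this

/-- A field with three elements consists of `0`, `1` and `-1`. -/
theorem card_three_cases [Fintype F] (hF3 : Fintype.card F = 3) (h2 : (2 : F) ≠ 0) (b : F) :
    b = 0 ∨ b = 1 ∨ b = -1 := by
  classical
  have h1 : (1 : F) ≠ -1 := by
    intro h
    apply h2
    have : (2 : F) = 1 + 1 := by norm_num
    rw [this]
    nth_rewrite 1 [h]
    exact neg_add_cancel 1
  have hs : ({0, 1, -1} : Finset F) = Finset.univ := by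
    apply Finset.eq_univ_of_card
    rw [Finset.card_insert_of_notMem, Finset.card_insert_of_notMem, Finset.card_singleton, hF3]
    · simpa using h1
    · simp
  have hb : b ∈ ({0, 1, -1} : Finset F) := by rw [hs]; exact Finset.mem_univ b
  simpa using hb

namespace IsOQ

variable {Q : (κ → F) → F}

/-- The orthogonal complement of a subspace for the polar form. -/
def perp (hQ : IsOQ Q) (U : Submodule F (κ → F)) : Submodule F (κ → F) where
  carrier := {u | ∀ v ∈ U, QuadraticMap.polar Q u v = 0}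
  add_mem' := by
    intro a b ha hb v hv
    rw [hQ.bil.add_left, ha v hv, hb v hv, add_zero]
  zero_mem' := by
    intro v _
    exact hQ.pl_zero_left v
  smul_mem' := by
    intro c a ha v hv
    rw [hQ.bil.smul_left, ha v hv, mul_zero]

theorem mem_perp (hQ : IsOQ Q) (U : Submodule F (κ → F)) (u : κ → F) :
    u ∈ hQ.perp U ↔ ∀ v ∈ U, QuadraticMap.polar Q u v = 0 := Iff.rfl

theorem isInv_perp (hQ : IsOQ Q) (H : Subgroup (GL κ F)) (hH : H ≤ isometryGroup F Q)
    (U : Submodule F (κ → F)) (hU : IsInv (matrixSet H) U) : IsInv (matrixSet H) (hQ.perp U) := by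
  rintro _ ⟨g, hg, rfl⟩ u hu
  rw [hQ.mem_perp]
  intro v hv
  have h1 := polar_isometry (hH hg) u (((g⁻¹ : GL κ F) : Matrix κ κ F) *ᵥ v)
  rw [mulVec_cancel_inv] at h1
  rw [h1]
  exact hu _ (hU _ (coe_mem_matrixSet (H.inv_mem hg)) v hv)

theorem finrank_perp_ge (hQ : IsOQ Q) (U : Submodule F (κ → F)) :
    Fintype.card κ ≤ Module.finrank F U + Module.finrank F (hQ.perp U) := by
  classical
  have hS := hQ.sesq
  obtain ⟨d, hd⟩ : ∃ d, d = Module.finrank F U := ⟨_, rfl⟩
  let b : Module.Basis (Fin d) F U := (Module.finBasis F U).reindex (finCongr hd.symm)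
  let L : (κ → F) →ₗ[F] (Fin d → F) :=
    { toFun := fun u j => QuadraticMap.polar Q u (b j)
      map_add' := by
        intro u v
        funext j
        exact hS.add_left u v _
      map_smul' := by
        intro c u
        funext j
        exact hS.smul_left c u _ }
  have hker : LinearMap.ker L ≤ hQ.perp U := by
    intro u hu
    rw [LinearMap.mem_ker] at hu
    rw [hQ.mem_perp]
    intro v hv
    have e : v = ∑ j, (b.repr ⟨v, hv⟩ j) • (b j : κ → F) := by
      have h1 := congrArg Subtype.val (b.sum_repr ⟨v, hv⟩)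
      simp only [AddSubmonoidClass.coe_finsetSum, Submodule.coe_smul] at h1
      exact h1.symm
    rw [e, hS.sum_right]
    apply Finset.sum_eq_zero
    intro j _
    rw [hS.smul_right]
    have h2 : L u j = 0 := by rw [hu]; rfl
    have h3 : QuadraticMap.polar Q u (b j) = 0 := h2
    rw [h3, mul_zero]
  have h1 := LinearMap.finrank_range_add_finrank_ker L
  rw [Module.finrank_fintype_fun_eq_card] at h1
  have h2 : Module.finrank F (LinearMap.range L) ≤ d := by
    have := Submodule.finrank_le (LinearMap.range L)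
    rwa [Module.finrank_fin_fun] at this
  have h3 := Submodule.finrank_mono hker
  omega

/-- A subspace meeting its orthogonal complement trivially is non-degenerate, and so is the complement. -/
theorem perp_compl (hQ : IsOQ Q) (U : Submodule F (κ → F)) (hbot : U ⊓ hQ.perp U = ⊥) :
    Module.finrank F U + Module.finrank F (hQ.perp U) = Fintype.card κ ∧
      IsNondegenerateOn (QuadraticMap.polar Q) U ∧
      IsNondegenerateOn (QuadraticMap.polar Q) (hQ.perp U) := by
  have hS := hQ.sesq
  have h1 := hQ.finrank_perp_ge U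
  have h2 := Submodule.finrank_sup_add_finrank_inf_eq U (hQ.perp U)
  rw [hbot, finrank_bot, add_zero] at h2
  have h3 : Module.finrank F (U ⊔ hQ.perp U : Submodule F (κ → F)) ≤ Fintype.card κ := by
    have := Submodule.finrank_le (U ⊔ hQ.perp U)
    rwa [Module.finrank_fintype_fun_eq_card] at this
  have hsum : Module.finrank F U + Module.finrank F (hQ.perp U) = Fintype.card κ := by omega
  have htop : U ⊔ hQ.perp U = ⊤ := by
    apply Submodule.eq_top_of_finrank_eq
    rw [Module.finrank_fintype_fun_eq_card, h2, hsum]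
  refine ⟨hsum, ?_, ?_⟩
  · intro w hw hw0
    have hex : ∃ v ∈ U, QuadraticMap.polar Q w v ≠ 0 := by
      by_contra hcon
      apply hw0
      have hwp : w ∈ hQ.perp U := by
        rw [hQ.mem_perp]
        intro v hv
        by_contra hne
        exact hcon ⟨v, hv, hne⟩
      have : w ∈ U ⊓ hQ.perp U := ⟨hw, hwp⟩
      rw [hbot] at this
      exact (Submodule.mem_bot F).mp this
    obtain ⟨v, hv, hwv⟩ := hex
    refine ⟨⟨v, hv, ?_⟩, ⟨v, hv, hwv⟩⟩
    rw [hQ.symm]
    exact hwv
  · intro w hw hw0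
    obtain ⟨y, hy⟩ := hQ.nondeg hw0
    have hytop : y ∈ U ⊔ hQ.perp U := by
      rw [htop]
      exact Submodule.mem_top
    obtain ⟨y₁, hy₁, y₂, hy₂, rfl⟩ := Submodule.mem_sup.mp hytop
    rw [hQ.bil.add_right, hw y₁ hy₁, zero_add] at hy
    refine ⟨⟨y₂, hy₂, ?_⟩, ⟨y₂, hy₂, hy⟩⟩
    rw [hQ.symm]
    exact hy

/-- A reducible subgroup of the orthogonal group in odd dimension stabilises a totally singular
subspace or a non-degenerate subspace of even dimension. -/
theorem reducible_cases [Finite F] (hQ : IsOQ Q) (hodd : Odd (Fintype.card κ))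
    (H : Subgroup (GL κ F)) (hH : H ≤ isometryGroup F Q)
    (hred : ¬ ActsIrreducibly (matrixSet H)) :
    (∃ W : Submodule F (κ → F), W ≠ ⊥ ∧ W ≠ ⊤ ∧ IsTotallySingularQuad Q W ∧
      H ≤ subspaceStabilizer W) ∨
    (∃ W : Submodule F (κ → F), W ≠ ⊥ ∧ W ≠ ⊤ ∧ IsNondegenerateOn (QuadraticMap.polar Q) W ∧
      Even (Module.finrank F W) ∧ H ≤ subspaceStabilizer W) := by
  classical
  have hex : ∃ W : Submodule F (κ → F),
      (∀ s ∈ matrixSet H, W.map (Matrix.toLin' s) ≤ W) ∧ W ≠ ⊥ ∧ W ≠ ⊤ := by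
    by_contra hcon
    apply hred
    intro W hW
    by_contra hW'
    rw [not_or] at hW'
    exact hcon ⟨W, hW, hW'.1, hW'.2⟩
  obtain ⟨W, hW, hW0, hW1⟩ := hex
  obtain ⟨U, hUW, hUmin⟩ := exists_minInv (matrixSet H) W hW0 (isInv_iff_map.mpr hW)
  have hU0 : U ≠ ⊥ := hUmin.1
  have hU1 : U ≠ ⊤ := by
    rintro rfl
    exact hW1 (top_le_iff.mp hUW)
  have hUinv : IsInv (matrixSet H) U := hUmin.2.1
  have hPinv := hQ.isInv_perp H hH U hUinv
  have hstab : ∀ V : Submodule F (κ → F), IsInv (matrixSet H) V → H ≤ subspaceStabilizer V :=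
    fun V hV => le_subspaceStabilizer H V (fun g hg v hv => hV _ (coe_mem_matrixSet hg) v hv)
  rcases hUmin.inf_eq_bot_or_le hPinv with hbot | hle
  swap
  · left
    refine ⟨U, hU0, hU1, fun u hu => ?_, hstab U hUinv⟩
    have h1 := hle hu u hu
    rw [hQ.self] at h1
    exact (mul_eq_zero.mp h1).resolve_left hQ.two_ne
  right
  obtain ⟨hsum, hndU, hndP⟩ := hQ.perp_compl U hbot
  by_cases hev : Even (Module.finrank F U)
  · exact ⟨U, hU0, hU1, hndU, hev, hstab U hUinv⟩
  have hUpos : 0 < Module.finrank F U := by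
    rw [Module.finrank_pos_iff]
    exact (Submodule.nontrivial_iff_ne_bot).mpr hU0
  refine ⟨hQ.perp U, ?_, ?_, hndP, ?_, hstab _ hPinv⟩
  · intro hb
    rw [hb, finrank_bot, add_zero] at hsum
    apply hU1
    apply Submodule.eq_top_of_finrank_eq
    rw [Module.finrank_fintype_fun_eq_card, hsum]
  · intro ht
    rw [ht, finrank_top, Module.finrank_fintype_fun_eq_card] at hsum
    omega
  · have hoddU : Odd (Module.finrank F U) := Nat.not_even_iff_odd.mp hev
    rw [← hsum] at hodd
    obtain ⟨a, ha⟩ := hoddU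
    obtain ⟨b, hb⟩ := hodd
    exact ⟨b - a, by omega⟩

/-- Over the field with three elements the stabiliser of a plus-type plane stabilises a non-degenerate
hyperplane. -/
theorem plus_plane_three [Fintype F] (hQ : IsOQ Q) (hF3 : Fintype.card F = 3)
    (H : Subgroup (GL κ F)) (hH : H ≤ isometryGroup F Q) (U : Submodule F (κ → F))
    (hHU : H ≤ subspaceStabilizer U) (hnd : IsNondegenerateOn (QuadraticMap.polar Q) U)
    (hdim : Module.finrank F U = 2) (hplus : IsPlusTypeOn Q U) :
    ∃ W : Submodule F (κ → F), Module.finrank F W + 1 = Fintype.card κ ∧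
      IsNondegenerateOn (QuadraticMap.polar Q) W ∧ H ≤ subspaceStabilizer W := by
  classical
  obtain ⟨U', hU'U, hU's, hU'd⟩ := hplus
  have hU'1 : Module.finrank F U' = 1 := by omega
  obtain ⟨e', he'0, -⟩ := finrank_eq_one_iff'.mp hU'1
  obtain ⟨e, hedef⟩ : ∃ e : κ → F, e = (e' : κ → F) := ⟨_, rfl⟩
  have he0 : e ≠ 0 := hedef ▸ fun h0 => he'0 (Subtype.ext h0)
  have heU : e ∈ U := hedef ▸ hU'U e'.2
  have hQe : Q e = 0 := hedef ▸ hU's _ e'.2
  obtain ⟨-, ⟨x, hxU, hex⟩⟩ := hnd e heU he0
  obtain ⟨β₀, hβ₀⟩ : ∃ β₀ : F, β₀ = QuadraticMap.polar Q e x := ⟨_, rfl⟩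
  have hβ₀0 : β₀ ≠ 0 := hβ₀ ▸ hex
  have hee : QuadraticMap.polar Q e e = 0 := by rw [hQ.self, hQe, mul_zero]
  -- `e`, `x` span `U`
  have hspan : Submodule.span F {e, x} = U := by
    have hli : LinearIndependent F ![e, x] := by
      rw [LinearIndependent.pair_iff]
      intro s t hst
      have h1 := congrArg (fun z => QuadraticMap.polar Q e z) hst
      simp only [hQ.bil.add_right, hQ.bil.smul_right, hee, hQ.pl_zero_right, ← hβ₀] at h1
      have ht : t = 0 := by
        have : t * β₀ = 0 := by linear_combination h1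
        exact (mul_eq_zero.mp this).resolve_right hβ₀0
      rw [ht, zero_smul, add_zero] at hst
      exact ⟨(smul_eq_zero.mp hst).resolve_right he0, ht⟩
    have hfr : Module.finrank F (Submodule.span F (Set.range ![e, x])) = 2 := by
      rw [finrank_span_eq_card hli, Fintype.card_fin]
    have hrange : Set.range ![e, x] = {e, x} := by
      ext z
      simp only [Matrix.range_cons, Matrix.range_empty, Set.union_empty, Set.mem_union,
        Set.mem_singleton_iff, Set.mem_insert_iff]
    rw [hrange] at hfr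
    apply Submodule.eq_of_le_of_finrank_eq
    · rw [Submodule.span_le]
      intro z hz
      rcases hz with rfl | rfl
      · exact heU
      · exact hxU
    · rw [hfr, hdim]
  obtain ⟨w₀, hw₀⟩ : ∃ w₀ : κ → F, w₀ = ((1 - Q x) / β₀) • e + x := ⟨_, rfl⟩
  have hw₀U : w₀ ∈ U := hw₀ ▸ U.add_mem (U.smul_mem _ heU) hxU
  have hQw₀ : Q w₀ = 1 := by
    rw [hw₀, hQ.add, hQ.smul, hQe, hQ.bil.smul_left, ← hβ₀]
    field_simp
    ring
  have huniq : ∀ y ∈ U, Q y = 1 → y = w₀ ∨ y = -w₀ := by
    intro y hy hQy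
    rw [← hspan] at hy
    obtain ⟨a, b, rfl⟩ := Submodule.mem_span_pair.mp hy
    rw [hQ.add, hQ.smul, hQ.smul, hQe, hQ.bil.smul_left, hQ.bil.smul_right, ← hβ₀] at hQy
    rcases card_three_cases hF3 hQ.two_ne b with rfl | rfl | rfl
    · exfalso
      simp at hQy
    · left
      have ha : a = (1 - Q x) / β₀ := by
        field_simp
        linear_combination hQy
      rw [hw₀, ha, one_smul]
    · right
      have ha : a = -((1 - Q x) / β₀) := by
        field_simp
        linear_combination -hQy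
      rw [hw₀, ha]
      module
  obtain ⟨L, hL⟩ : ∃ L : Submodule F (κ → F), L = Submodule.span F {w₀} := ⟨_, rfl⟩
  have hw₀0 : w₀ ≠ 0 := by
    rintro h0
    rw [h0, hQ.zero] at hQw₀
    exact zero_ne_one hQw₀
  have hLinv : IsInv (matrixSet H) L := by
    rintro _ ⟨g, hg, rfl⟩ v hv
    rw [hL] at hv ⊢
    obtain ⟨c, rfl⟩ := Submodule.mem_span_singleton.mp hv
    rw [Matrix.mulVec_smul]
    apply Submodule.smul_mem
    have h1 : (g : Matrix κ κ F) *ᵥ w₀ ∈ U := ((mem_subspaceStabilizer_iff U g).mp (hHU hg) w₀).mp hw₀U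
    have h2 : Q ((g : Matrix κ κ F) *ᵥ w₀) = 1 := by
      rw [(mem_isometryGroup_iff Q g).mp (hH hg), hQw₀]
    rcases huniq _ h1 h2 with h3 | h3
    · rw [h3]
      exact Submodule.mem_span_singleton_self w₀
    · rw [h3]
      exact Submodule.neg_mem _ (Submodule.mem_span_singleton_self w₀)
  have hbot : L ⊓ hQ.perp L = ⊥ := by
    rw [eq_bot_iff]
    rintro v ⟨hv1, hv2⟩
    rw [hL] at hv1
    obtain ⟨c, rfl⟩ := Submodule.mem_span_singleton.mp hv1
    have h1 := hv2 w₀ (hL ▸ Submodule.mem_span_singleton_self w₀)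
    rw [hQ.bil.smul_left, hQ.self, hQw₀, mul_one] at h1
    have hc : c = 0 := (mul_eq_zero.mp h1).resolve_right hQ.two_ne
    rw [hc, zero_smul]
    exact Submodule.zero_mem _
  obtain ⟨hsum, -, hndP⟩ := hQ.perp_compl L hbot
  have hL1 : Module.finrank F L = 1 := by rw [hL]; exact finrank_span_singleton hw₀0
  refine ⟨hQ.perp L, by omega, hndP, ?_⟩
  exact le_subspaceStabilizer H _ (fun g hg v hv =>
    hQ.isInv_perp H hH L hLinv _ (coe_mem_matrixSet hg) v hv)

end IsOQ

end Cfsg.Agent.Helper97.Gen
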