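-- helper97 library (general index type): subfield structures carrying a quadratic form.
import Cfsg.Agent.Helper97.OReducible

set_option autoImplicit false
open Cfsg Cfsg.Geo Matrix

namespace Cfsg.Agent.Helper97.Gen

variable {κ : Type} [Fintype κ] [DecidableEq κ] {F : Type*} [Field F]

theorem map_refl (M : Matrix κ κ F) : M.map (RingEquiv.refl F) = M := by
  ext i j
  rfl

theorem commutant_conj (N : Subgroup (GL κ F)) (habs : ActsAbsolutelyIrreducibly (matrixSet N))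
    (B : GL κ F) (M : Matrix κ κ F)
    (hM : ∀ g ∈ N, M * ((B * g * B⁻¹ : GL κ F) : Matrix κ κ F)
      = ((B * g * B⁻¹ : GL κ F) : Matrix κ κ F) * M) :
    ∃ c : F, M = c • (1 : Matrix κ κ F) := by
  have h1 : ∀ s ∈ matrixSet N,
      (((B⁻¹ : GL κ F) : Matrix κ κ F) * M * (B : Matrix κ κ F)) * s
      = s * (((B⁻¹ : GL κ F) : Matrix κ κ F) * M * (B : Matrix κ κ F)) := by
    rintro _ ⟨g, hg, rfl⟩
    have h2 := hM g hg
    simp only [Units.val_mul] at h2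
    calc ((B⁻¹ : GL κ F) : Matrix κ κ F) * M * (B : Matrix κ κ F)
          * (g : Matrix κ κ F)
        = ((B⁻¹ : GL κ F) : Matrix κ κ F) * (M * ((B : Matrix κ κ F)
          * (g : Matrix κ κ F) * ((B⁻¹ : GL κ F) : Matrix κ κ F)))
          * (B : Matrix κ κ F) := by
          simp only [mul_assoc, val_inv_mul_val, mul_one]
      _ = ((B⁻¹ : GL κ F) : Matrix κ κ F) * ((B : Matrix κ κ F)
          * (g : Matrix κ κ F) * ((B⁻¹ : GL κ F) : Matrix κ κ F) * M)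
          * (B : Matrix κ κ F) := by rw [h2]
      _ = _ := by
          simp only [← mul_assoc, val_inv_mul_val, one_mul]
  obtain ⟨c, hc⟩ := habs.2 _ h1
  refine ⟨c, ?_⟩
  calc M = (B : Matrix κ κ F) * (((B⁻¹ : GL κ F) : Matrix κ κ F) * M
        * (B : Matrix κ κ F)) * ((B⁻¹ : GL κ F) : Matrix κ κ F) := by
        simp only [← mul_assoc, val_mul_val_inv, one_mul]
        rw [mul_assoc, val_mul_val_inv, mul_one]
    _ = c • (1 : Matrix κ κ F) := by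
        rw [hc, Matrix.mul_smul, Matrix.smul_mul, mul_one, val_mul_val_inv]

/-- The determinant of a matrix with entries in a subfield lies in the subfield. -/
theorem det_mem_subfield (F₁ : Subfield F) (A : Matrix κ κ F) (hA : ∀ i j, A i j ∈ F₁) :
    A.det ∈ F₁ := by
  obtain ⟨A₁, hA₁⟩ : ∃ A₁ : Matrix κ κ F₁, A = A₁.map F₁.subtype :=
    ⟨Matrix.of (fun i j => (⟨A i j, hA i j⟩ : F₁)), by ext i j; rfl⟩
  have h1 : A.det = F₁.subtype A₁.det := by
    rw [hA₁, RingHom.map_det]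
    rfl
  rw [h1]
  exact SetLike.coe_mem _

/-- A non-zero scalar matrix as an element of `GL`. -/
noncomputable def scalarGL (c : F) (hc : c ≠ 0) : GL κ F :=
  Units.map (Matrix.scalar κ : F →+* Matrix κ κ F).toMonoidHom (Units.mk0 c hc)

theorem scalarGL_val (c : F) (hc : c ≠ 0) :
    ((scalarGL c hc : GL κ F) : Matrix κ κ F) = c • (1 : Matrix κ κ F) := by
  show Matrix.scalar κ c = c • (1 : Matrix κ κ F)
  rw [Matrix.scalar_apply, Matrix.smul_one_eq_diagonal]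

theorem scalarGL_mem (c : F) (hc : c ≠ 0) : (scalarGL c hc : GL κ F) ∈ scalars κ F :=
  ⟨Units.mk0 c hc, rfl⟩

theorem subfieldSubgroup_mul_scalar (F₁ : Subfield F) (P z : GL κ F) (hz : z ∈ scalars κ F) :
    subfieldSubgroup F₁ (P * z) = subfieldSubgroup F₁ P := by
  have h1 : (MulAut.conj (P * z)).toMonoidHom = (MulAut.conj P).toMonoidHom := by
    apply MonoidHom.ext
    intro g
    simp only [MulEquiv.coe_toMonoidHom, MulAut.conj_apply]
    have h2 : z * g = g * z := scalars_comm hz g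
    calc P * z * g * (P * z)⁻¹ = P * (z * g) * z⁻¹ * P⁻¹ := by group
      _ = P * (g * z) * z⁻¹ * P⁻¹ := by rw [h2]
      _ = P * g * P⁻¹ := by group
  rw [subfieldSubgroup, subfieldSubgroup, h1]

namespace IsOQ

variable {Q : (κ → F) → F}

/-- Isometries in Gram-matrix form. -/
theorem gram_isometry (hQ : IsOQ Q) {g : GL κ F} (hg : g ∈ isometryGroup F Q) :
    (g : Matrix κ κ F)ᵀ * gram (QuadraticMap.polar Q) * (g : Matrix κ κ F)
      = gram (QuadraticMap.polar Q) := by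
  have h1 := hQ.sesq.gram_of_similar (g : Matrix κ κ F) 1
    (fun u v => by rw [one_mul]; exact polar_isometry hg u v)
  rwa [one_smul, map_refl] at h1

theorem det_gram_ne_zero (hQ : IsOQ Q) : (gram (QuadraticMap.polar Q)).det ≠ 0 :=
  hQ.sesq.det_gram_ne_zero (fun v hv => (hQ.quad.nondegenerate v hv).1)

/-- The discriminant argument: in odd dimension a basis in which the Gram matrix is a scalar multiple of
a matrix over the subfield can be rescaled to a structure carrying the quadratic form. -/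
theorem rational_structure_of_gram (hQ : IsOQ Q) (hodd : Odd (Fintype.card κ)) (F₁ : Subfield F)
    (hG : ∀ i j, gram (QuadraticMap.polar Q) i j ∈ F₁) (P₀ : GL κ F) (lam : F) (M₁ : Matrix κ κ F)
    (hM₁ : ∀ i j, M₁ i j ∈ F₁)
    (hgram : (P₀ : Matrix κ κ F)ᵀ * gram (QuadraticMap.polar Q) * (P₀ : Matrix κ κ F) = lam • M₁) :
    ∃ P' : GL κ F, subfieldSubgroup F₁ P' = subfieldSubgroup F₁ P₀ ∧
      IsQuadFormRationalStructure Q F₁ P' := by
  classical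
  obtain ⟨G, hGdef⟩ : ∃ G : Matrix κ κ F, G = gram (QuadraticMap.polar Q) := ⟨_, rfl⟩
  rw [← hGdef] at hgram hG
  have hdetG : G.det ≠ 0 := hGdef ▸ hQ.det_gram_ne_zero
  have hdetP : (P₀ : Matrix κ κ F).det ≠ 0 := by
    have h1 := congrArg Matrix.det (val_mul_val_inv P₀)
    rw [Matrix.det_mul, Matrix.det_one] at h1
    exact left_ne_zero_of_mul_eq_one h1
  obtain ⟨k, hk⟩ := hodd
  have hdet : lam ^ (2 * k + 1) * M₁.det = (P₀ : Matrix κ κ F).det ^ 2 * G.det := by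
    have h1 := congrArg Matrix.det hgram
    rw [Matrix.det_mul, Matrix.det_mul, Matrix.det_transpose, Matrix.det_smul, hk] at h1
    rw [← h1]
    ring
  have hlam : lam ≠ 0 := by
    rintro rfl
    rw [zero_pow (by omega), zero_mul] at hdet
    exact (mul_ne_zero (pow_ne_zero 2 hdetP) hdetG) hdet.symm
  have hdetM : M₁.det ≠ 0 := by
    intro h0
    rw [h0, mul_zero] at hdet
    exact (mul_ne_zero (pow_ne_zero 2 hdetP) hdetG) hdet.symm
  obtain ⟨a, ha⟩ : ∃ a : F, a = G.det / M₁.det := ⟨_, rfl⟩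
  have haF : a ∈ F₁ := ha ▸ F₁.div_mem (det_mem_subfield F₁ G hG) (det_mem_subfield F₁ M₁ hM₁)
  obtain ⟨ν, hν⟩ : ∃ ν : F, ν = lam ^ k / (P₀ : Matrix κ κ F).det := ⟨_, rfl⟩
  have hν0 : ν ≠ 0 := hν ▸ div_ne_zero (pow_ne_zero k hlam) hdetP
  have hνa : ν ^ 2 * lam = a := by
    rw [hν, ha]
    field_simp
    linear_combination hdet
  have h2F : (2 : F) ∈ F₁ := by
    have : (2 : F) = 1 + 1 := by norm_num
    rw [this]
    exact F₁.add_mem F₁.one_mem F₁.one_mem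
  refine ⟨P₀ * scalarGL ν hν0, subfieldSubgroup_mul_scalar F₁ P₀ _ (scalarGL_mem ν hν0), ?_⟩
  intro u hu
  have e1 : ((P₀ * scalarGL ν hν0 : GL κ F) : Matrix κ κ F) *ᵥ u
      = ν • ((P₀ : Matrix κ κ F) *ᵥ u) := by
    rw [Units.val_mul, scalarGL_val, Matrix.mul_smul, Matrix.mul_one, Matrix.smul_mulVec]
  have e2 : QuadraticMap.polar Q ((P₀ : Matrix κ κ F) *ᵥ u) ((P₀ : Matrix κ κ F) *ᵥ u)
      = lam * (u ⬝ᵥ (M₁ *ᵥ u)) := by
    rw [hQ.sesq.apply_mulVec, map_refl, ← hGdef, hgram, Matrix.smul_mulVec, dotProduct_smul,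
      smul_eq_mul]
    rfl
  have e3 : Q (((P₀ * scalarGL ν hν0 : GL κ F) : Matrix κ κ F) *ᵥ u)
      = a * (u ⬝ᵥ (M₁ *ᵥ u)) * 2⁻¹ := by
    rw [e1, hQ.smul]
    have h3 := hQ.self ((P₀ : Matrix κ κ F) *ᵥ u)
    rw [e2] at h3
    have h4 : Q ((P₀ : Matrix κ κ F) *ᵥ u) = lam * (u ⬝ᵥ (M₁ *ᵥ u)) * 2⁻¹ := by
      have h5 := hQ.two_ne
      field_simp
      linear_combination -h3
    rw [h4, ← hνa]
    ring
  rw [e3]
  refine F₁.mul_mem (F₁.mul_mem haF ?_) (F₁.inv_mem h2F)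
  refine Subfield.sum_mem F₁ (fun i _ => F₁.mul_mem (hu i) ?_)
  exact Subfield.sum_mem F₁ (fun j _ => F₁.mul_mem (hM₁ i j) (hu j))

/-- An absolutely irreducible group of isometries realisable over a subfield: its normaliser lies in a
subfield group whose structure carries the quadratic form. -/
theorem orth_subfield_structure (hQ : IsOQ Q) (hodd : Odd (Fintype.card κ)) (F₁ : Subfield F)
    (hG : ∀ i j, gram (QuadraticMap.polar Q) i j ∈ F₁)
    (N : Subgroup (GL κ F)) (hNO : N ≤ isometryGroup F Q)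
    (habs : ActsAbsolutelyIrreducibly (matrixSet N)) (B : GL κ F)
    (hB : ∀ s ∈ matrixSet N, ∀ i j,
      ((B : Matrix κ κ F) * s * ((B⁻¹ : GL κ F) : Matrix κ κ F)) i j ∈ F₁) :
    ∃ P' : GL κ F,
      (∀ g : GL κ F, (∀ x ∈ N, g * x * g⁻¹ ∈ N) → g ∈ subfieldSubgroup F₁ P') ∧
      IsQuadFormRationalStructure Q F₁ P' := by
  classical
  have hne : Nonempty κ := Fintype.card_pos_iff.mp (by have := hQ.three_le; omega)
  obtain ⟨i0⟩ := hne
  obtain ⟨G, hGdef⟩ : ∃ G : Matrix κ κ F, G = gram (QuadraticMap.polar Q) := ⟨_, rfl⟩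
  have hdetG : G.det ≠ 0 := hGdef ▸ hQ.det_gram_ne_zero
  have hGu : IsUnit G.det := isUnit_iff_ne_zero.mpr hdetG
  obtain ⟨Pm, hPm⟩ : ∃ Pm : Matrix κ κ F, Pm = ((B⁻¹ : GL κ F) : Matrix κ κ F) := ⟨_, rfl⟩
  obtain ⟨Bm, hBm⟩ : ∃ Bm : Matrix κ κ F, Bm = (B : Matrix κ κ F) := ⟨_, rfl⟩
  have hPB : Pm * Bm = 1 := by rw [hPm, hBm, val_inv_mul_val]
  have hBP : Bm * Pm = 1 := by rw [hPm, hBm, val_mul_val_inv]
  have hBtPt : Bmᵀ * Pmᵀ = 1 := by rw [← Matrix.transpose_mul, hPB, Matrix.transpose_one]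
  have hPtBt : Pmᵀ * Bmᵀ = 1 := by rw [← Matrix.transpose_mul, hBP, Matrix.transpose_one]
  obtain ⟨M, hM⟩ : ∃ M : Matrix κ κ F, M = Pmᵀ * G * Pm := ⟨_, rfl⟩
  obtain ⟨Mi, hMi⟩ : ∃ Mi : Matrix κ κ F, Mi = Bm * G⁻¹ * Bmᵀ := ⟨_, rfl⟩
  have hM1 : M * Mi = 1 := by
    rw [hM, hMi]
    calc Pmᵀ * G * Pm * (Bm * G⁻¹ * Bmᵀ) = Pmᵀ * (G * (Pm * Bm) * G⁻¹) * Bmᵀ := by
          simp only [mul_assoc]
      _ = 1 := by rw [hPB, mul_one, Matrix.mul_nonsing_inv G hGu, mul_one, hPtBt]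
  have hM2 : Mi * M = 1 := by
    rw [hM, hMi]
    calc Bm * G⁻¹ * Bmᵀ * (Pmᵀ * G * Pm) = Bm * (G⁻¹ * (Bmᵀ * Pmᵀ) * G) * Pm := by
          simp only [mul_assoc]
      _ = 1 := by rw [hBtPt, mul_one, Matrix.nonsing_inv_mul G hGu, mul_one, hBP]
  have hM0 : M ≠ 0 := by
    intro h0
    rw [h0, zero_mul] at hM1
    have := congrFun (congrFun hM1 i0) i0
    simp at this
  have hs₁ : ∀ g ∈ N, ∀ i j, ((B * g * B⁻¹ : GL κ F) : Matrix κ κ F) i j ∈ F₁ := by
    intro g hg i j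
    have := hB _ (coe_mem_matrixSet hg) i j
    simpa only [Units.val_mul] using this
  have hsval : ∀ g : GL κ F, ((B * g * B⁻¹ : GL κ F) : Matrix κ κ F)
      = Bm * (g : Matrix κ κ F) * Pm := by
    intro g
    rw [Units.val_mul, Units.val_mul, hBm, hPm]
  have hinvM : ∀ g ∈ N, ((B * g * B⁻¹ : GL κ F) : Matrix κ κ F)ᵀ * M
      * ((B * g * B⁻¹ : GL κ F) : Matrix κ κ F) = M := by
    intro g hg
    have hgU := hQ.gram_isometry (hNO hg)
    rw [← hGdef] at hgU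
    rw [hsval, Matrix.transpose_mul, Matrix.transpose_mul, hM]
    calc Pmᵀ * ((g : Matrix κ κ F)ᵀ * Bmᵀ) * (Pmᵀ * G * Pm) * (Bm * (g : Matrix κ κ F) * Pm)
        = Pmᵀ * (g : Matrix κ κ F)ᵀ * (Bmᵀ * Pmᵀ) * G * (Pm * Bm) * (g : Matrix κ κ F) * Pm := by
          simp only [mul_assoc]
      _ = Pmᵀ * ((g : Matrix κ κ F)ᵀ * G * (g : Matrix κ κ F)) * Pm := by
          rw [hBtPt, hPB]
          simp only [mul_one, mul_assoc]
      _ = Pmᵀ * G * Pm := by rw [hgU]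
  obtain ⟨S, hSdef⟩ : ∃ S : Set (Matrix κ κ F),
      S = {s | ∃ g ∈ N, s = ((B * g * B⁻¹ : GL κ F) : Matrix κ κ F)} := ⟨_, rfl⟩
  have hScomm : ∀ C : Matrix κ κ F, (∀ s ∈ S, C * s = s * C) →
      ∃ c : F, C = c • (1 : Matrix κ κ F) := by
    intro C hC
    exact commutant_conj N habs B C (fun g hg => hC _ (by rw [hSdef]; exact ⟨g, hg, rfl⟩))
  have hMS : ∀ s ∈ S, (∀ i j, s i j ∈ F₁) ∧
      ∃ s' : Matrix κ κ F, (∀ i j, s' i j ∈ F₁) ∧ M * s = s' * M := by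
    intro s hs
    rw [hSdef] at hs
    obtain ⟨g, hg, rfl⟩ := hs
    refine ⟨fun i j => hs₁ g hg i j,
      ((B * g⁻¹ * B⁻¹ : GL κ F) : Matrix κ κ F)ᵀ,
      fun i j => hs₁ g⁻¹ (N.inv_mem hg) j i, ?_⟩
    have h1 := hinvM g hg
    have h2 : ((B * g⁻¹ * B⁻¹ : GL κ F) : Matrix κ κ F)ᵀ
        * ((B * g * B⁻¹ : GL κ F) : Matrix κ κ F)ᵀ = 1 := by
      rw [← Matrix.transpose_mul, ← Units.val_mul]
      have e : B * g * B⁻¹ * (B * g⁻¹ * B⁻¹) = 1 := by group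
      rw [e, Units.val_one, Matrix.transpose_one]
    calc M * ((B * g * B⁻¹ : GL κ F) : Matrix κ κ F)
        = (((B * g⁻¹ * B⁻¹ : GL κ F) : Matrix κ κ F)ᵀ
            * ((B * g * B⁻¹ : GL κ F) : Matrix κ κ F)ᵀ) * M
            * ((B * g * B⁻¹ : GL κ F) : Matrix κ κ F) := by rw [h2, one_mul]
      _ = ((B * g⁻¹ * B⁻¹ : GL κ F) : Matrix κ κ F)ᵀ
            * (((B * g * B⁻¹ : GL κ F) : Matrix κ κ F)ᵀ * M
            * ((B * g * B⁻¹ : GL κ F) : Matrix κ κ F)) := by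
          simp only [mul_assoc]
      _ = _ := by rw [h1]
  obtain ⟨μ, M₁, -, hMμ⟩ := exists_subfield_multiple F₁ S hScomm M Mi hM1 hM2 hM0 hMS
  obtain ⟨P', hP'1, hP'2⟩ := hQ.rational_structure_of_gram hodd F₁ hG B⁻¹ μ (M₁.map F₁.subtype)
    (fun i j => SetLike.coe_mem _) (by rw [← hGdef, ← hPm, ← hM, hMμ])
  refine ⟨P', fun g hg => ?_, hP'2⟩
  rw [hP'1]
  exact normalizer_mem_subfieldSubgroup F₁ N habs B hB g hg

end IsOQ

end Cfsg.Agent.Helper97.Gen
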