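-- helper97 library (general index type): abelian normal subgroups of irreducible orthogonal groups.
import Cfsg.Agent.Helper97.OSubfield

set_option autoImplicit false
open Cfsg Cfsg.Geo Matrix

namespace Cfsg.Agent.Helper97.Gen

variable {κ : Type} [Fintype κ] [DecidableEq κ] {F : Type*} [Field F]

/-- An element whose conjugate has all entries in the subfield lies in the subfield group. -/
theorem mem_subfieldSubgroup_of_entries (F₁ : Subfield F) (P g : GL κ F)
    (h : ∀ i j, ((P⁻¹ * g * P : GL κ F) : Matrix κ κ F) i j ∈ F₁) : g ∈ subfieldSubgroup F₁ P := by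
  obtain ⟨X₁, hX₁⟩ : ∃ X₁ : Matrix κ κ F₁, ((P⁻¹ * g * P : GL κ F) : Matrix κ κ F)
      = X₁.map F₁.subtype :=
    ⟨Matrix.of (fun i j => (⟨_, h i j⟩ : F₁)), by ext i j; rfl⟩
  have hdetX : ((P⁻¹ * g * P : GL κ F) : Matrix κ κ F).det ≠ 0 := by
    have h1 := congrArg Matrix.det (val_mul_val_inv (P⁻¹ * g * P))
    rw [Matrix.det_mul, Matrix.det_one] at h1
    exact left_ne_zero_of_mul_eq_one h1
  have hdet1 : X₁.det ≠ 0 := by
    intro h0
    apply hdetX
    have : (X₁.map F₁.subtype).det = F₁.subtype X₁.det := (RingHom.map_det F₁.subtype X₁).symm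
    rw [hX₁, this, h0, map_zero]
  obtain ⟨g₀, hg₀⟩ : ∃ g₀ : GL κ F₁, (g₀ : Matrix κ κ F₁) = X₁ :=
    ⟨Matrix.GeneralLinearGroup.mkOfDetNeZero X₁ hdet1, rfl⟩
  have hprod : P⁻¹ * g * P = Matrix.GeneralLinearGroup.map (F₁.subtype : F₁ →+* F) g₀ := by
    apply Units.ext
    rw [hX₁, ← hg₀]
    rfl
  rw [subfieldSubgroup, Subgroup.mem_map]
  refine ⟨P⁻¹ * g * P, ?_, ?_⟩
  · rw [hprod]
    exact Subgroup.mem_sup_left ⟨g₀, rfl⟩
  · simp only [MulEquiv.coe_toMonoidHom, MulAut.conj_apply]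
    group

namespace IsOQ

variable {Q : (κ → F) → F}

theorem mat_eq_of_polar (hQ : IsOQ Q) {A B : Matrix κ κ F}
    (h : ∀ u v, QuadraticMap.polar Q u (A *ᵥ v) = QuadraticMap.polar Q u (B *ᵥ v)) : A = B := by
  apply sub_eq_zero.mp
  apply eq_zero_of_mulVec_eq_zero
  intro v
  apply hQ.eq_zero_of_perp
  intro y
  rw [hQ.symm, Matrix.sub_mulVec, hQ.pl_sub_right, h, sub_self]

/-- Every matrix has an adjoint for the polar form. -/
theorem exists_adj (hQ : IsOQ Q) (k : Matrix κ κ F) :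
    ∃ k' : Matrix κ κ F, ∀ u v, QuadraticMap.polar Q (k *ᵥ u) v = QuadraticMap.polar Q u (k' *ᵥ v) := by
  obtain ⟨G, hGdef⟩ : ∃ G : Matrix κ κ F, G = gram (QuadraticMap.polar Q) := ⟨_, rfl⟩
  have hGu : IsUnit G.det := isUnit_iff_ne_zero.mpr (hGdef ▸ hQ.det_gram_ne_zero)
  have e : ∀ x y : κ → F, QuadraticMap.polar Q x y = x ⬝ᵥ (G *ᵥ y) := by
    intro x y
    rw [hQ.sesq.apply_eq, hGdef]
    rfl
  refine ⟨G⁻¹ * kᵀ * G, fun u v => ?_⟩
  rw [e, e, Matrix.mulVec_mulVec, ← mul_assoc, ← mul_assoc, Matrix.mul_nonsing_inv G hGu, one_mul,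
    ← Matrix.mulVec_mulVec, Matrix.dotProduct_mulVec u kᵀ, Matrix.vecMul_transpose]

/-- The double centraliser of a group of isometries is closed under adjoints. -/
theorem double_centralizer_adj (hQ : IsOQ Q) (S : Subgroup (GL κ F)) (hS : S ≤ isometryGroup F Q)
    (K : Set (Matrix κ κ F))
    (hK : ∀ a : Matrix κ κ F, a ∈ K ↔ ∀ c : Matrix κ κ F,
      (∀ s ∈ S, (s : Matrix κ κ F) * c = c * (s : Matrix κ κ F)) → c * a = a * c)
    (k : Matrix κ κ F) (hk : k ∈ K) :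
    ∃ k' ∈ K, ∀ u v, QuadraticMap.polar Q (k *ᵥ u) v = QuadraticMap.polar Q u (k' *ᵥ v) := by
  obtain ⟨k', hk'⟩ := hQ.exists_adj k
  refine ⟨k', ?_, hk'⟩
  rw [hK]
  intro c hc
  obtain ⟨c₁, hc₁⟩ := hQ.exists_adj c
  have hc₁S : ∀ s ∈ S, (s : Matrix κ κ F) * c₁ = c₁ * (s : Matrix κ κ F) := by
    intro s hs
    apply hQ.mat_eq_of_polar
    intro u v
    have iso : ∀ x y : κ → F, QuadraticMap.polar Q x ((s : Matrix κ κ F) *ᵥ y)
        = QuadraticMap.polar Q (((s⁻¹ : GL κ F) : Matrix κ κ F) *ᵥ x) y := by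
      intro x y
      rw [← polar_isometry (hS hs) (((s⁻¹ : GL κ F) : Matrix κ κ F) *ᵥ x) y, mulVec_cancel_inv]
    have h1 := hc s⁻¹ (S.inv_mem hs)
    rw [← Matrix.mulVec_mulVec, ← Matrix.mulVec_mulVec, iso, ← hc₁, ← hc₁, iso,
      Matrix.mulVec_mulVec, Matrix.mulVec_mulVec, h1]
  have h3 := (hK k).mp hk c₁ hc₁S
  have hsymm : ∀ x y : κ → F, QuadraticMap.polar Q (c₁ *ᵥ x) y = QuadraticMap.polar Q x (c *ᵥ y) := by
    intro x y
    rw [hQ.symm, ← hc₁, hQ.symm]
  apply hQ.mat_eq_of_polar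
  intro u v
  rw [← Matrix.mulVec_mulVec, ← Matrix.mulVec_mulVec, ← hsymm, ← hk', ← hk', ← hsymm,
    Matrix.mulVec_mulVec, Matrix.mulVec_mulVec, h3]

/-- A decomposition into lines normalised by an irreducible group of isometries, whose lines are
separated by an adjoint-closed commutative family, is an orthogonal decomposition into non-degenerate
lines. -/
theorem decomp_orthogonal (hQ : IsOQ Q) {n : ℕ} (hodd : Odd n) (H : Subgroup (GL κ F))
    (hirr : ActsIrreducibly (matrixSet H)) (hHO : H ≤ isometryGroup F Q)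
    (K : Set (Matrix κ κ F))
    (hKadj : ∀ k ∈ K, ∃ k' ∈ K, ∀ u v,
      QuadraticMap.polar Q (k *ᵥ u) v = QuadraticMap.polar Q u (k' *ᵥ v))
    (D : Fin n → Submodule F (κ → F)) (hD : IsMDecomposition 1 D)
    (hHD : H ≤ decompositionStabilizer D)
    (hKD : ∀ k ∈ K, ∀ i, ∀ w ∈ D i, k *ᵥ w ∈ D i)
    (hsep : ∀ i j, i ≠ j → ∃ k ∈ K, (∀ w ∈ D i, k *ᵥ w = 0) ∧ (∀ w ∈ D j, k *ᵥ w = 0 → w = 0)) :
    IsNondegenerateMDecomposition (QuadraticMap.polar Q) 1 D := by
  classical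
  have hS := hQ.sesq
  have hex : ∀ i, ∃ d : κ → F, d ∈ D i ∧ d ≠ 0 ∧ ∀ w ∈ D i, ∃ c : F, w = c • d := by
    intro i
    obtain ⟨d, hd0, hd⟩ := finrank_eq_one_iff'.mp (hD.finrank_eq i)
    refine ⟨d, d.2, fun h0 => hd0 (Subtype.ext h0), fun w hw => ?_⟩
    obtain ⟨c, hc⟩ := hd ⟨w, hw⟩
    exact ⟨c, (congrArg Subtype.val hc).symm⟩
  choose d hdD hd0 hdgen using hex
  have hb : ∀ i j l, i ≠ j → QuadraticMap.polar Q (d i) (d l) ≠ 0 →
      QuadraticMap.polar Q (d j) (d l) ≠ 0 → False := by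
    intro i j l hij hil hjl
    obtain ⟨k, hkK, hki, hkj⟩ := hsep i j hij
    obtain ⟨k', hk'K, hk'⟩ := hKadj k hkK
    obtain ⟨e, he⟩ := hdgen l _ (hKD _ hk'K l (d l) (hdD l))
    have h1 := hk' (d i) (d l)
    rw [hki (d i) (hdD i), hS.zero_left, he, hQ.bil.smul_right] at h1
    have he0 : e = 0 := by
      rcases mul_eq_zero.mp h1.symm with h2 | h2
      · exact h2
      · exact absurd h2 hil
    obtain ⟨c, hc⟩ := hdgen j _ (hKD k hkK j (d j) (hdD j))
    have hc0 : c ≠ 0 := by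
      rintro rfl
      rw [zero_smul] at hc
      exact hd0 j (hkj (d j) (hdD j) hc)
    have h2 := hk' (d j) (d l)
    rw [hc, hS.smul_left, he, he0, zero_smul, hS.zero_right] at h2
    rcases mul_eq_zero.mp h2 with h3 | h3
    · exact hc0 h3
    · exact hjl h3
  have hc : ∀ l, ∃ i, QuadraticMap.polar Q (d i) (d l) ≠ 0 := by
    intro l
    by_contra hcon
    have hall : ∀ i, QuadraticMap.polar Q (d i) (d l) = 0 := by
      intro i
      by_contra hi
      exact hcon ⟨i, hi⟩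
    obtain ⟨⟨x, hx⟩, -⟩ := hQ.quad.nondegenerate (d l) (hd0 l)
    apply hx
    have hxtop : x ∈ ⨆ i, D i := by
      rw [hD.iSup_eq_top]
      exact Submodule.mem_top
    refine Submodule.iSup_induction D (motive := fun x => QuadraticMap.polar Q x (d l) = 0) hxtop
      ?_ ?_ ?_
    · intro i w hw
      obtain ⟨c, hc⟩ := hdgen i w hw
      rw [hc, hS.smul_left, hall i, mul_zero]
    · exact hS.zero_left _
    · intro a b ha hb
      rw [hS.add_left, ha, hb, add_zero]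
  choose τ hτ using hc
  have hτuniq : ∀ l i, QuadraticMap.polar Q (d i) (d l) ≠ 0 → i = τ l := by
    intro l i hi
    by_contra hne
    exact hb i (τ l) l hne hi (hτ l)
  have hτinv : Function.Involutive τ := by
    intro l
    have h1 : QuadraticMap.polar Q (d l) (d (τ l)) ≠ 0 := by
      rw [hQ.symm]
      exact hτ l
    exact (hτuniq (τ l) l h1).symm
  obtain ⟨l₀, hl₀⟩ : ∃ l, τ l = l := by
    by_contra hcon
    have hsq : (Function.Involutive.toPerm τ hτinv) ^ 2 = 1 := by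
      ext x
      simp [pow_two, hτinv x]
    have h2 := Equiv.Perm.two_dvd_card_support hsq
    have hsupp : (Function.Involutive.toPerm τ hτinv).support = Finset.univ := by
      ext i
      simp only [Equiv.Perm.mem_support, Finset.mem_univ, iff_true, Function.Involutive.coe_toPerm]
      exact fun h => hcon ⟨i, h⟩
    rw [hsupp, Finset.card_univ, Fintype.card_fin] at h2
    exact (Nat.not_even_iff_odd.mpr hodd) (even_iff_two_dvd.mpr h2)
  have hJ0 : QuadraticMap.polar Q (d l₀) (d l₀) ≠ 0 := by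
    have h1 := hτ l₀
    rwa [hl₀] at h1
  have hperm : ∀ g ∈ H, ∀ l, QuadraticMap.polar Q (d l) (d l) ≠ 0 → ∃ l',
      D l' = (D l).map (Matrix.toLin' (g : Matrix κ κ F)) ∧
        QuadraticMap.polar Q (d l') (d l') ≠ 0 := by
    intro g hg l hl
    obtain ⟨π, hπ⟩ := (mem_decompositionStabilizer_iff D g).mp (hHD hg)
    refine ⟨π l, (hπ l).symm, ?_⟩
    have hmem : (g : Matrix κ κ F) *ᵥ d l ∈ D (π l) := by
      rw [← hπ l]
      exact ⟨d l, hdD l, by rw [Matrix.toLin'_apply]⟩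
    obtain ⟨c, hc⟩ := hdgen (π l) _ hmem
    have h1 := polar_isometry (hHO hg) (d l) (d l)
    rw [hc, hS.smul_left, hQ.bil.smul_right] at h1
    intro h0
    rw [h0, mul_zero, mul_zero] at h1
    exact hl h1.symm
  obtain ⟨W₀, hW₀⟩ : ∃ W₀ : Submodule F (κ → F),
      W₀ = ⨆ l : {l // QuadraticMap.polar Q (d l) (d l) ≠ 0}, D l.1 := ⟨_, rfl⟩
  have hW₀inv : ∀ s ∈ matrixSet H, W₀.map (Matrix.toLin' s) ≤ W₀ := by
    rintro _ ⟨g, hg, rfl⟩
    rw [hW₀, Submodule.map_iSup]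
    refine iSup_le fun l => ?_
    obtain ⟨l', hl', hl'0⟩ := hperm g hg l.1 l.2
    rw [← hl']
    exact le_iSup (fun l : {l // QuadraticMap.polar Q (d l) (d l) ≠ 0} => D l.1) ⟨l', hl'0⟩
  have hW₀top : W₀ = ⊤ := by
    rcases hirr W₀ hW₀inv with h0 | h0
    · exfalso
      have h1 : D l₀ ≤ W₀ := by
        rw [hW₀]
        exact le_iSup (fun l : {l // QuadraticMap.polar Q (d l) (d l) ≠ 0} => D l.1) ⟨l₀, hJ0⟩
      rw [h0] at h1
      exact hd0 l₀ ((Submodule.mem_bot F).mp (h1 (hdD l₀)))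
    · exact h0
  have hall : ∀ l, QuadraticMap.polar Q (d l) (d l) ≠ 0 := by
    intro l
    by_contra hl
    have hle : W₀ ≤ ⨆ j, ⨆ (_ : j ≠ l), D j := by
      rw [hW₀]
      refine iSup_le fun l' => ?_
      exact le_iSup₂_of_le l'.1 (fun h => l'.2 (by rw [h]; exact hl)) le_rfl
    have hdis := hD.indep l
    have h1 : d l ∈ ⨆ j, ⨆ (_ : j ≠ l), D j := hle (by rw [hW₀top]; exact Submodule.mem_top)
    exact hd0 l ((Submodule.disjoint_def.mp hdis) _ (hdD l) h1)
  have hort : ∀ i j, i ≠ j → QuadraticMap.polar Q (d i) (d j) = 0 := by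
    intro i j hij
    by_contra hne
    have h1 := hτuniq j i hne
    have h2 := hτuniq j j (hall j)
    exact hij (h1.trans h2.symm)
  refine ⟨hD, ?_, ?_⟩
  · intro i w hw hw0
    obtain ⟨c, hc⟩ := hdgen i w hw
    have hc0 : c ≠ 0 := by
      rintro rfl
      rw [zero_smul] at hc
      exact hw0 hc
    have hww : QuadraticMap.polar Q w w ≠ 0 := by
      rw [hc, hS.smul_left, hQ.bil.smul_right]
      exact mul_ne_zero hc0 (mul_ne_zero hc0 (hall i))
    exact ⟨⟨w, hw, hww⟩, ⟨w, hw, hww⟩⟩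
  · intro i j hij u hu v hv
    obtain ⟨a, ha⟩ := hdgen i u hu
    obtain ⟨b, hb'⟩ := hdgen j v hv
    rw [ha, hb', hS.smul_left, hQ.bil.smul_right, hort i j hij, mul_zero, mul_zero]

/-- An irreducible group permuting a decomposition acts transitively on its members. -/
theorem decomp_transitive {n : ℕ} (H : Subgroup (GL κ F))
    (hirr : ActsIrreducibly (matrixSet H)) (D : Fin n → Submodule F (κ → F))
    (hD : IsMDecomposition 1 D) (hHD : H ≤ decompositionStabilizer D) (i j : Fin n) :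
    ∃ g ∈ H, (D i).map (Matrix.toLin' (g : Matrix κ κ F)) = D j := by
  classical
  have hne : ∀ l, D l ≠ ⊥ := by
    intro l h0
    have := hD.finrank_eq l
    rw [h0, finrank_bot] at this
    omega
  obtain ⟨W₀, hW₀⟩ : ∃ W₀ : Submodule F (κ → F),
      W₀ = ⨆ l : {l // ∃ g ∈ H, (D i).map (Matrix.toLin' (g : Matrix κ κ F)) = D l}, D l.1 :=
    ⟨_, rfl⟩
  have hW₀inv : ∀ s ∈ matrixSet H, W₀.map (Matrix.toLin' s) ≤ W₀ := by
    rintro _ ⟨h, hh, rfl⟩
    rw [hW₀, Submodule.map_iSup]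
    refine iSup_le fun l => ?_
    obtain ⟨g, hg, hgl⟩ := l.2
    obtain ⟨π, hπ⟩ := (mem_decompositionStabilizer_iff D h).mp (hHD hh)
    rw [hπ l.1]
    refine le_iSup (fun l : {l // ∃ g ∈ H, (D i).map (Matrix.toLin' (g : Matrix κ κ F)) = D l}
      => D l.1) ⟨π l.1, h * g, H.mul_mem hh hg, ?_⟩
    rw [Units.val_mul, Matrix.toLin'_mul, Submodule.map_comp, hgl, hπ]
  have hi : ∃ g ∈ H, (D i).map (Matrix.toLin' (g : Matrix κ κ F)) = D i :=
    ⟨1, H.one_mem, by rw [Units.val_one, Matrix.toLin'_one, Submodule.map_id]⟩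
  have hW₀top : W₀ = ⊤ := by
    rcases hirr W₀ hW₀inv with h0 | h0
    · exfalso
      have h1 : D i ≤ W₀ := by
        rw [hW₀]
        exact le_iSup (fun l : {l // ∃ g ∈ H, (D i).map (Matrix.toLin' (g : Matrix κ κ F)) = D l}
          => D l.1) ⟨i, hi⟩
      rw [h0] at h1
      exact hne i (le_bot_iff.mp h1)
    · exact h0
  by_contra hj
  have hle : W₀ ≤ ⨆ l, ⨆ (_ : l ≠ j), D l := by
    rw [hW₀]
    refine iSup_le fun l' => ?_
    exact le_iSup₂_of_le l'.1 (fun h => hj (h ▸ l'.2)) le_rfl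
  have hdis := hD.indep j
  apply hne j
  rw [eq_bot_iff]
  intro x hx
  have h1 : x ∈ ⨆ l, ⨆ (_ : l ≠ j), D l := hle (by rw [hW₀top]; exact Submodule.mem_top)
  rw [(Submodule.disjoint_def.mp hdis) x hx h1]
  exact Submodule.zero_mem _

/-- The lines of a decomposition permuted by an irreducible group of isometries are isometric. -/
theorem decomp_isometric (_hQ : IsOQ Q) {n : ℕ} (H : Subgroup (GL κ F))
    (hirr : ActsIrreducibly (matrixSet H)) (hHO : H ≤ isometryGroup F Q)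
    (D : Fin n → Submodule F (κ → F)) (hD : IsMDecomposition 1 D)
    (hHD : H ≤ decompositionStabilizer D) (i j : Fin n) : AreIsometricFor Q (D i) (D j) := by
  obtain ⟨g, hg, hgij⟩ := decomp_transitive H hirr D hD hHD i j
  refine ⟨(Submodule.equivMapOfInjective (Matrix.toLin' (g : Matrix κ κ F))
    (toLin'_val_injective g) (D i)).trans (LinearEquiv.ofEq _ _ hgij), fun w => ?_⟩
  have h1 := (mem_isometryGroup_iff Q g).mp (hHO hg) (w : κ → F)
  rw [← h1]
  congr 1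

/-- A field subalgebra containing a group of isometries in odd dimension forces the group to be scalar. -/
theorem field_contra (hQ : IsOQ Q) (hodd : Odd (Fintype.card κ)) (N : Subgroup (GL κ F))
    (hN : N ≤ isometryGroup F Q) (K : Subalgebra F (Matrix κ κ F))
    (hKinv : ∀ x ∈ K, x ≠ 0 → ∃ y ∈ K, x * y = 1)
    (hNK : ∀ g ∈ N, (g : Matrix κ κ F) ∈ K) : N ≤ scalars κ F := by
  intro g hg
  obtain ⟨G, hGdef⟩ : ∃ G : Matrix κ κ F, G = gram (QuadraticMap.polar Q) := ⟨_, rfl⟩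
  have hdetG : G.det ≠ 0 := hGdef ▸ hQ.det_gram_ne_zero
  obtain ⟨gm, hgm⟩ : ∃ gm : Matrix κ κ F, gm = (g : Matrix κ κ F) := ⟨_, rfl⟩
  obtain ⟨gi, hgi⟩ : ∃ gi : Matrix κ κ F, gi = ((g⁻¹ : GL κ F) : Matrix κ κ F) := ⟨_, rfl⟩
  have h12 : gm * gi = 1 := by rw [hgm, hgi, val_mul_val_inv]
  have h21 : gi * gm = 1 := by rw [hgm, hgi, val_inv_mul_val]
  have hk : gm - gi ∈ K := hgm ▸ hgi ▸ K.sub_mem (hNK g hg) (hNK g⁻¹ (N.inv_mem hg))
  have e1 : gmᵀ * G = G * gi := by
    have h1 := hQ.gram_isometry (hN hg)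
    rw [← hGdef, ← hgm] at h1
    calc gmᵀ * G = gmᵀ * G * (gm * gi) := by rw [h12, mul_one]
      _ = (gmᵀ * G * gm) * gi := by simp only [mul_assoc]
      _ = G * gi := by rw [h1]
  have e2 : giᵀ * G = G * gm := by
    have h1 := hQ.gram_isometry (hN (N.inv_mem hg))
    rw [← hGdef, ← hgi] at h1
    calc giᵀ * G = giᵀ * G * (gi * gm) := by rw [h21, mul_one]
      _ = (giᵀ * G * gi) * gm := by simp only [mul_assoc]
      _ = G * gm := by rw [h1]
  have e3 : (gm - gi)ᵀ * G = G * (-(gm - gi)) := by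
    rw [Matrix.transpose_sub, sub_mul, e1, e2, mul_neg, mul_sub]
    abel
  have hdet0 : (gm - gi).det = 0 := by
    have h1 := congrArg Matrix.det e3
    rw [Matrix.det_mul, Matrix.det_mul, Matrix.det_transpose, Matrix.det_neg, hodd.neg_one_pow] at h1
    have h2 : (2 : F) * (G.det * (gm - gi).det) = 0 := by linear_combination h1
    rcases mul_eq_zero.mp h2 with h3 | h3
    · exact absurd h3 hQ.two_ne
    · exact (mul_eq_zero.mp h3).resolve_left hdetG
  have hzero : gm - gi = 0 := by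
    by_contra hne
    obtain ⟨y, -, hy⟩ := hKinv _ hk hne
    have h1 := congrArg Matrix.det hy
    rw [Matrix.det_mul, hdet0, zero_mul, Matrix.det_one] at h1
    exact zero_ne_one h1
  have hsq : gm * gm = 1 := by
    have h1 : gm = gi := sub_eq_zero.mp hzero
    nth_rewrite 2 [h1]
    exact h12
  have hprod : (gm - 1) * (gm + 1) = 0 := by
    rw [sub_mul, mul_add, mul_add, hsq, mul_one, one_mul, one_mul]
    abel
  rw [scalar_mem_scalars_iff]
  by_cases h1 : gm - 1 = 0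
  · exact ⟨1, by rw [← hgm, one_smul]; exact sub_eq_zero.mp h1⟩
  · obtain ⟨y, -, hy⟩ := hKinv _ (K.sub_mem (hgm ▸ hNK g hg) K.one_mem) h1
    have hy' : y * (gm - 1) = 1 := mul_eq_one_comm.mp hy
    have h2 : gm + 1 = 0 := by
      calc gm + 1 = (y * (gm - 1)) * (gm + 1) := by rw [hy', one_mul]
        _ = y * ((gm - 1) * (gm + 1)) := by rw [mul_assoc]
        _ = 0 := by rw [hprod, mul_zero]
    refine ⟨-1, ?_⟩
    rw [← hgm, neg_smul, one_smul]
    exact eq_neg_of_add_eq_zero_left h2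

end IsOQ

end Cfsg.Agent.Helper97.Gen
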