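-- helper97 library (general index type): orthogonal frames are rational over every subfield.
import Cfsg.Agent.Helper97.OAbelian

set_option autoImplicit false
open Cfsg Cfsg.Geo Matrix

namespace Cfsg.Agent.Helper97.Gen

variable {κ : Type} [Fintype κ] [DecidableEq κ] {F : Type*} [Field F]

namespace IsOQ

variable {Q : (κ → F) → F}

/-- The isometries permuting an orthogonal decomposition into isometric lines lie in a subfield group
whose structure carries the quadratic form, for every subfield containing the Gram matrix. -/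
theorem decomp_subfield (hQ : IsOQ Q) {n : ℕ} (hcard : Fintype.card κ = n) (hodd : Odd n)
    (F₁ : Subfield F) (hG : ∀ i j, gram (QuadraticMap.polar Q) i j ∈ F₁)
    (D : Fin n → Submodule F (κ → F)) (hD : IsOrthogonalMDecomposition Q 1 D) :
    ∃ P' : GL κ F, IsQuadFormRationalStructure Q F₁ P' ∧
      decompositionStabilizer D ⊓ isometryGroup F Q ≤ subfieldSubgroup F₁ P' := by
  classical
  have hDd := hD.decomp.decomp
  have hn2 := hDd.two_le
  obtain ⟨i₀, -⟩ : ∃ i : Fin n, i = ⟨0, by omega⟩ := ⟨_, rfl⟩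
  obtain ⟨d₀', hd₀'0, hd₀'⟩ := finrank_eq_one_iff'.mp (hDd.finrank_eq i₀)
  have hiso := hD.isometric i₀
  choose e he using hiso
  obtain ⟨d, hd⟩ : ∃ d : Fin n → κ → F, ∀ j, d j = ((e j d₀' : D j) : κ → F) := ⟨_, fun _ => rfl⟩
  have hdD : ∀ j, d j ∈ D j := fun j => by rw [hd]; exact (e j d₀').2
  obtain ⟨c, hc⟩ : ∃ c : F, c = Q (d₀' : κ → F) := ⟨_, rfl⟩
  have hQd : ∀ j, Q (d j) = c := fun j => by rw [hd, he j d₀', hc]
  have hc0 : c ≠ 0 := by
    have hne : (d₀' : κ → F) ≠ 0 := fun h0 => hd₀'0 (Subtype.ext h0)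
    obtain ⟨⟨x, hx, hxd⟩, -⟩ := hD.decomp.nondegenerate i₀ d₀' d₀'.2 hne
    obtain ⟨a, ha⟩ := hd₀' ⟨x, hx⟩
    have e1 : x = a • (d₀' : κ → F) := (congrArg Subtype.val ha).symm
    rw [e1, hQ.bil.smul_left, hQ.self, ← hc] at hxd
    intro h0
    apply hxd
    rw [h0, mul_zero, mul_zero]
  have hd0 : ∀ j, d j ≠ 0 := by
    intro j h0
    have := hQd j
    rw [h0, hQ.zero] at this
    exact hc0 this.symm
  have hdgen : ∀ j, ∀ w ∈ D j, ∃ a : F, w = a • d j := by
    intro j w hw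
    obtain ⟨v, hv0, hv⟩ := finrank_eq_one_iff'.mp (hDd.finrank_eq j)
    obtain ⟨a₀, ha₀⟩ := hv ⟨d j, hdD j⟩
    obtain ⟨a, ha⟩ := hv ⟨w, hw⟩
    have e1 : d j = a₀ • (v : κ → F) := (congrArg Subtype.val ha₀).symm
    have e2 : w = a • (v : κ → F) := (congrArg Subtype.val ha).symm
    have ha₀0 : a₀ ≠ 0 := by
      rintro rfl
      rw [zero_smul] at e1
      exact hd0 j e1
    refine ⟨a / a₀, ?_⟩
    rw [e1, e2, smul_smul, div_mul_cancel₀ a ha₀0]
  have hort : ∀ i j, i ≠ j → QuadraticMap.polar Q (d i) (d j) = 0 :=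
    fun i j hij => hD.decomp.orthogonal i j hij _ (hdD i) _ (hdD j)
  have hli : LinearIndependent F d := hDd.indep.linearIndependent D hdD hd0
  have hnonempty : Nonempty (Fin n) := ⟨i₀⟩
  have hfr : Fintype.card (Fin n) = Module.finrank F (κ → F) := by
    rw [Module.finrank_fintype_fun_eq_card, Fintype.card_fin, hcard]
  obtain ⟨b, hb⟩ : ∃ b : Module.Basis (Fin n) F (κ → F), ∀ i, b i = d i :=
    ⟨basisOfLinearIndependentOfCardEqFinrank hli hfr,
      fun i => by rw [coe_basisOfLinearIndependentOfCardEqFinrank]⟩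
  obtain ⟨eq⟩ : Nonempty (κ ≃ Fin n) := ⟨Fintype.equivFinOfCardEq hcard⟩
  obtain ⟨b', hb'⟩ : ∃ b' : Module.Basis κ F (κ → F), ∀ k, b' k = d (eq k) :=
    ⟨b.reindex eq.symm, fun k => by rw [Module.Basis.reindex_apply, Equiv.symm_symm, hb]⟩
  obtain ⟨P₀, hP₀⟩ : ∃ P₀ : GL κ F, ∀ k, (P₀ : Matrix κ κ F) *ᵥ Pi.single k 1 = d (eq k) := by
    refine ⟨glOfLin (b'.equivFun.symm : (κ → F) →ₗ[F] (κ → F)) (b'.equivFun : (κ → F) →ₗ[F] (κ → F))
      (fun x => b'.equivFun.symm_apply_apply x) (fun x => b'.equivFun.apply_symm_apply x),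
      fun k => ?_⟩
    rw [glOfLin_mulVec, ← hb']
    show b'.equivFun.symm (Pi.single k 1) = b' k
    rw [LinearEquiv.symm_apply_eq]
    funext j
    rw [Module.Basis.equivFun_self, Pi.single_apply]
    by_cases hjk : j = k
    · rw [if_pos hjk, if_pos hjk.symm]
    · rw [if_neg hjk, if_neg (fun h => hjk h.symm)]
  have hP₀inv : ∀ k, ((P₀⁻¹ : GL κ F) : Matrix κ κ F) *ᵥ d (eq k) = Pi.single k 1 := by
    intro k
    rw [← hP₀ k, mulVec_inv_cancel]
  have hgram : (P₀ : Matrix κ κ F)ᵀ * gram (QuadraticMap.polar Q) * (P₀ : Matrix κ κ F)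
      = c • ((2 : F) • (1 : Matrix κ κ F)) := by
    ext i j
    have h1 := hQ.sesq.gram_mul (P₀ : Matrix κ κ F) i j
    rw [map_refl] at h1
    rw [h1, hP₀, hP₀]
    by_cases hij : i = j
    · subst hij
      rw [hQ.self, hQd]
      simp
      ring
    · rw [hort _ _ (fun h => hij (eq.injective h))]
      simp [hij]
  have h2F : (2 : F) ∈ F₁ := by
    have : (2 : F) = 1 + 1 := by norm_num
    rw [this]
    exact F₁.add_mem F₁.one_mem F₁.one_mem
  obtain ⟨P', hP'1, hP'2⟩ := hQ.rational_structure_of_gram (hcard ▸ hodd) F₁ hG P₀ c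
    ((2 : F) • (1 : Matrix κ κ F)) (fun i j => by
      rw [Matrix.smul_apply, Matrix.one_apply, smul_eq_mul]
      split_ifs
      · rw [mul_one]; exact h2F
      · rw [mul_zero]; exact F₁.zero_mem) hgram
  refine ⟨P', hP'2, ?_⟩
  rw [hP'1]
  rintro g ⟨hgD, hgO⟩
  apply mem_subfieldSubgroup_of_entries
  intro i j
  obtain ⟨π, hπ⟩ := (mem_decompositionStabilizer_iff D g).mp hgD
  have hmem : (g : Matrix κ κ F) *ᵥ d (eq j) ∈ D (π (eq j)) := by
    rw [← hπ (eq j)]
    exact ⟨d (eq j), hdD _, by rw [Matrix.toLin'_apply]⟩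
  obtain ⟨a, ha⟩ := hdgen _ _ hmem
  have ha2 : a = 1 ∨ a = -1 := by
    have h1 := (mem_isometryGroup_iff Q g).mp hgO (d (eq j))
    rw [ha, hQ.smul, hQd, hQd] at h1
    have h2 : (a - 1) * (a + 1) * c = 0 := by linear_combination h1
    rcases mul_eq_zero.mp h2 with h3 | h3
    · rcases mul_eq_zero.mp h3 with h4 | h4
      · left; exact sub_eq_zero.mp h4
      · right; exact eq_neg_of_add_eq_zero_left h4
    · exact absurd h3 hc0
  have e1 : ((P₀⁻¹ * g * P₀ : GL κ F) : Matrix κ κ F) i j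
      = (((P₀⁻¹ : GL κ F) : Matrix κ κ F) *ᵥ ((g : Matrix κ κ F)
        *ᵥ ((P₀ : Matrix κ κ F) *ᵥ Pi.single j 1))) i := by
    rw [Matrix.mulVec_mulVec, Matrix.mulVec_mulVec, ← Units.val_mul, ← Units.val_mul,
      Matrix.mulVec_single_one]
    rfl
  have e2 : d (π (eq j)) = d (eq (eq.symm (π (eq j)))) := by rw [Equiv.apply_symm_apply]
  rw [e1, hP₀, ha, Matrix.mulVec_smul, e2, hP₀inv, Pi.smul_apply, Pi.single_apply, smul_eq_mul]
  have ha' : a ∈ F₁ := by
    rcases ha2 with rfl | rfl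
    · exact F₁.one_mem
    · exact F₁.neg_mem F₁.one_mem
  split_ifs
  · rw [mul_one]; exact ha'
  · rw [mul_zero]; exact F₁.zero_mem

end IsOQ

end Cfsg.Agent.Helper97.Gen
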