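import Mathlib
import Cfsg.Agent.Helper71.T4Defs
import Cfsg.Agent.Helper5.SLGen

/-!
# Helper97: piece N3 of CALL S5637 (all "diagonal-free" elementary transvections generate `SL`)
-/

set_option autoImplicit false

namespace Cfsg.Agent.Helper97.T4N3

open Matrix Cfsg.Agent.Helper71.T4
open scoped Kronecker commutatorElement

variable {F : Type*} [Field F] {a b : ℕ}

/-- matrix form of the Chevalley commutator formula -/
theorem n3_comm {ι : Type*} [DecidableEq ι] [Fintype ι] {p q r : ι} (hpq : p ≠ q) (hqr : q ≠ r)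
    (hpr : p ≠ r) (c d : F) :
    Matrix.transvection p q c * Matrix.transvection q r d * Matrix.transvection p q (-c) *
      Matrix.transvection q r (-d) = Matrix.transvection p r (c * d) := by
  have h := Cfsg.Agent.Helper5.transvection_commutator hpq hqr hpr c d
  rw [commutatorElement_def, Matrix.SpecialLinearGroup.transvection_inv,
    Matrix.SpecialLinearGroup.transvection_inv] at h
  exact congrArg Subtype.val h

/-- PIECE N3 -/
theorem sl_of_tvC (ha : 2 ≤ a) (hb : 3 ≤ b) (M : Subgroup (GL (Fin a × Fin b) F))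
    (hC : ∀ (i j : Fin a) (k l : Fin b), i ≠ j → k ≠ l → ∀ c : F,
      InM M (Matrix.transvection (i, k) (j, l) c)) : HasSL M := by
  -- same first index
  have h1 : ∀ (i : Fin a) (k l : Fin b), k ≠ l → ∀ c : F,
      InM M (Matrix.transvection (i, k) (i, l) c) := by
    intro i k l hkl c
    obtain ⟨j', hj'⟩ : ∃ j' : Fin a, j' ≠ i := by
      by_cases h0 : i = ⟨0, by omega⟩
      · exact ⟨⟨1, by omega⟩, by rw [h0]; simp [Fin.ext_iff]⟩
      · exact ⟨⟨0, by omega⟩, fun h => h0 h.symm⟩
    obtain ⟨m, hmk, hml⟩ : ∃ m : Fin b, m ≠ k ∧ m ≠ l := by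
      by_contra hcon
      push Not at hcon
      have hsub : (Finset.univ : Finset (Fin b)) ⊆ {k, l} := by
        intro m _
        by_cases hm : m = k
        · simp [hm]
        · simp [hcon m hm]
      have h1 := Finset.card_le_card hsub
      have h2 : ({k, l} : Finset (Fin b)).card ≤ 2 := Finset.card_le_two
      rw [Finset.card_univ, Fintype.card_fin] at h1
      omega
    have e := n3_comm (F := F) (p := (i, k)) (q := (j', m)) (r := (i, l))
      (by simp [Prod.ext_iff, hj'.symm]) (by simp [Prod.ext_iff, hj']) (by simp [Prod.ext_iff, hkl])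
      c 1
    rw [mul_one] at e
    rw [← e]
    exact (((hC i j' k m hj'.symm hmk.symm c).mul (hC j' i m l hj' hml 1)).mul
      (hC i j' k m hj'.symm hmk.symm (-c))).mul (hC j' i m l hj' hml (-1))
  -- same second index
  have h2 : ∀ (i j : Fin a) (k : Fin b), i ≠ j → ∀ c : F,
      InM M (Matrix.transvection (i, k) (j, k) c) := by
    intro i j k hij c
    obtain ⟨m, hmk⟩ : ∃ m : Fin b, m ≠ k := by
      by_cases h0 : k = ⟨0, by omega⟩
      · exact ⟨⟨1, by omega⟩, by rw [h0]; simp [Fin.ext_iff]⟩
      · exact ⟨⟨0, by omega⟩, fun h => h0 h.symm⟩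
    have e := n3_comm (F := F) (p := (i, k)) (q := (i, m)) (r := (j, k))
      (by simp [Prod.ext_iff, hmk.symm]) (by simp [Prod.ext_iff, hij]) (by simp [Prod.ext_iff, hij])
      c 1
    rw [mul_one] at e
    rw [← e]
    exact (((h1 i k m hmk.symm c).mul (hC i j m k hij hmk 1)).mul
      (h1 i k m hmk.symm (-c))).mul (hC i j m k hij hmk (-1))
  -- all elementary transvections
  have h3 : ∀ (p q : Fin a × Fin b), p ≠ q → ∀ c : F, InM M (Matrix.transvection p q c) := by
    rintro ⟨i, k⟩ ⟨j, l⟩ hpq c
    by_cases hij : i = j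
    · subst hij
      have hkl : k ≠ l := fun h => hpq (by rw [h])
      exact h1 i k l hkl c
    · by_cases hkl : k = l
      · subst hkl
        exact h2 i j k hij c
      · exact hC i j k l hij hkl c
  have : Nontrivial (Fin a × Fin b) := by
    have : Nontrivial (Fin a) := Fin.nontrivial_iff_two_le.mpr ha
    have : Nonempty (Fin b) := ⟨⟨0, by omega⟩⟩
    infer_instance
  have h4 : ∀ A : Matrix.SpecialLinearGroup (Fin a × Fin b) F,
      InM M (A : Matrix (Fin a × Fin b) (Fin a × Fin b) F) := by
    intro A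
    refine Cfsg.Agent.Helper5.SL_transvection_induction
      (fun A => InM M (A : Matrix (Fin a × Fin b) (Fin a × Fin b) F)) ?_ ?_ A
    · intro p q hpq c
      exact h3 p q hpq c
    · intro A B hA hB
      rw [Matrix.SpecialLinearGroup.coe_mul]
      exact hA.mul hB
  intro g hg
  exact mem_of_inM (h4 ⟨(g : Matrix (Fin a × Fin b) (Fin a × Fin b) F), hg⟩)

end Cfsg.Agent.Helper97.T4N3
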