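-- helper97 library: the extraspecial case (minimal normal subgroup of class two modulo scalars).
import Cfsg.Agent.Helper97.GroupLemmas
import Cfsg.Agent.Helper97.Clifford
import Cfsg.Agent.Helper97.Forms
import Cfsg.Agent.Helper97.Subfield

set_option autoImplicit false
open Cfsg Cfsg.Geo Matrix

namespace Cfsg.Agent.Helper97

/-! ### An abstract commutation lemma -/

theorem twist_commutes {G : Type*} [Group G] {g x y z : G} (hz : ∀ k : G, z * k = k * z)
    {s t n : ℕ} (htn : t ≤ n) (hzn : z ^ n = 1)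
    (hx : g * x = z ^ s * x * g) (hy : g * y = z ^ t * y * g) (hxy : x * y = z * y * x) :
    (g * y ^ s * x ^ (n - t)) * x = x * (g * y ^ s * x ^ (n - t)) ∧
    (g * y ^ s * x ^ (n - t)) * y = y * (g * y ^ s * x ^ (n - t)) := by
  have hzi : ∀ k : G, z⁻¹ * k = k * z⁻¹ := by
    intro k
    have := hz k
    calc z⁻¹ * k = z⁻¹ * (k * z) * z⁻¹ := by group
      _ = z⁻¹ * (z * k) * z⁻¹ := by rw [this]
      _ = k * z⁻¹ := by group
  have hyx : y * x = z⁻¹ * x * y := by
    calc y * x = z⁻¹ * (z * y * x) := by group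
      _ = z⁻¹ * (x * y) := by rw [hxy]
      _ = z⁻¹ * x * y := by group
  have e1 : y ^ s * x = (z⁻¹) ^ s * x * y ^ s := pow_mul_of_comm_central hyx (hzi x) (hzi y) s
  have e2 : x ^ (n - t) * y = z ^ (n - t) * y * x ^ (n - t) :=
    pow_mul_of_comm_central hxy (hz y) (hz x) (n - t)
  have hzp : ∀ (j : ℕ) (k : G), z ^ j * k = k * z ^ j := fun j k =>
    (Commute.pow_left (show Commute z k from hz k) j).eq
  have hzip : ∀ (j : ℕ) (k : G), (z⁻¹) ^ j * k = k * (z⁻¹) ^ j := fun j k =>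
    (Commute.pow_left (show Commute z⁻¹ k from hzi k) j).eq
  refine ⟨?_, ?_⟩
  · calc g * y ^ s * x ^ (n - t) * x = g * (y ^ s * x) * x ^ (n - t) := by group
      _ = g * ((z⁻¹) ^ s * x * y ^ s) * x ^ (n - t) := by rw [e1]
      _ = (g * (z⁻¹) ^ s) * x * y ^ s * x ^ (n - t) := by group
      _ = ((z⁻¹) ^ s * g) * x * y ^ s * x ^ (n - t) := by rw [hzip s g]
      _ = (z⁻¹) ^ s * (g * x) * y ^ s * x ^ (n - t) := by group
      _ = (z⁻¹) ^ s * (z ^ s * x * g) * y ^ s * x ^ (n - t) := by rw [hx]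
      _ = x * (g * y ^ s * x ^ (n - t)) := by group
  · calc g * y ^ s * x ^ (n - t) * y = g * y ^ s * (x ^ (n - t) * y) := by group
      _ = g * y ^ s * (z ^ (n - t) * y * x ^ (n - t)) := by rw [e2]
      _ = g * (y ^ s * z ^ (n - t)) * y * x ^ (n - t) := by group
      _ = g * (z ^ (n - t) * y ^ s) * y * x ^ (n - t) := by rw [hzp (n - t) (y ^ s)]
      _ = (g * z ^ (n - t)) * y ^ s * y * x ^ (n - t) := by group
      _ = (z ^ (n - t) * g) * y ^ s * y * x ^ (n - t) := by rw [hzp (n - t) g]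
      _ = z ^ (n - t) * (g * y) * y ^ s * x ^ (n - t) := by group
      _ = z ^ (n - t) * (z ^ t * y * g) * y ^ s * x ^ (n - t) := by rw [hy]
      _ = (z ^ (n - t) * z ^ t) * y * g * y ^ s * x ^ (n - t) := by group
      _ = y * (g * y ^ s * x ^ (n - t)) := by
          rw [← pow_add, Nat.sub_add_cancel htn, hzn]; group

variable {F : Type*} [Field F] {n : ℕ}

/-! ### Scalars -/

theorem scalar_pow_val {z : GL (Fin n) F} {ζ : F}
    (hz : (z : Matrix (Fin n) (Fin n) F) = ζ • (1 : Matrix (Fin n) (Fin n) F)) (k : ℕ) :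
    ((z ^ k : GL (Fin n) F) : Matrix (Fin n) (Fin n) F) = ζ ^ k • (1 : Matrix (Fin n) (Fin n) F) := by
  rw [Units.val_pow_eq_pow_val, hz, smul_pow, one_pow]

theorem smul_one_eq_one_iff [NeZero n] (c : F) :
    c • (1 : Matrix (Fin n) (Fin n) F) = 1 ↔ c = 1 := by
  constructor
  · intro h
    have := congrFun (congrFun h 0) 0
    simpa using this
  · rintro rfl
    rw [one_smul]

theorem det_smul_one (c : F) : (c • (1 : Matrix (Fin n) (Fin n) F)).det = c ^ n := by
  rw [Matrix.det_smul, Matrix.det_one, mul_one, Fintype.card_fin]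

/-- Exponent and basic structure of a minimal normal subgroup of class two modulo scalars. -/
theorem extra_exponent [Finite F] (hn : n.Prime) (hodd : Odd n) (H N : Subgroup (GL (Fin n) F))
    (hNSL : N ≤ specialLinear (Fin n) F)
    (hNn : ∀ h ∈ H, ∀ x ∈ N, h * x * h⁻¹ ∈ N) (hNZ : ¬ N ≤ scalars (Fin n) F)
    (hNmin : ∀ N' : Subgroup (GL (Fin n) F), N' ≤ N → (∀ h ∈ H, ∀ x ∈ N', h * x * h⁻¹ ∈ N') →
      N' ≤ scalars (Fin n) F ∨ N' = N)
    (hab : ∀ a ∈ N, ∀ b ∈ N, a * b * a⁻¹ * b⁻¹ ∈ scalars (Fin n) F)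
    (habs : ActsAbsolutelyIrreducibly (matrixSet N)) :
    ∃ (x y z : GL (Fin n) F) (ζ : F), x ∈ N ∧ y ∈ N ∧ z ∈ N ∧
      (z : Matrix (Fin n) (Fin n) F) = ζ • (1 : Matrix (Fin n) (Fin n) F) ∧ IsPrimitiveRoot ζ n ∧
      x * y = z * y * x ∧ ∀ g ∈ N, g ^ n = 1 := by
  classical
  have : NeZero n := ⟨hn.ne_zero⟩
  have hZc : ∀ z ∈ scalars (Fin n) F, ∀ g : GL (Fin n) F, z * g = g * z := fun z hz g => scalars_comm hz g
  obtain ⟨r, hr, hpow⟩ := exists_prime_pow_mem (scalars (Fin n) F) H N hZc hNn hNZ hNmin hab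
  -- `N` is not abelian
  have hnonab : ∃ x ∈ N, ∃ y ∈ N, x * y ≠ y * x := by
    by_contra hcon
    apply hNZ
    intro g hg
    have h1 : ∀ s ∈ matrixSet N, (g : Matrix (Fin n) (Fin n) F) * s = s * (g : Matrix (Fin n) (Fin n) F) := by
      rintro _ ⟨s, hs, rfl⟩
      rw [← Units.val_mul, ← Units.val_mul]
      congr 1
      by_contra hne
      exact hcon ⟨g, hg, s, hs, hne⟩
    obtain ⟨c, hc⟩ := habs.2 _ h1
    exact (scalar_mem_scalars_iff g).mpr ⟨c, hc⟩
  obtain ⟨x, hxN, y, hyN, hxy_ne⟩ := hnonab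
  obtain ⟨z, hzdef⟩ : ∃ z : GL (Fin n) F, z = x * y * x⁻¹ * y⁻¹ := ⟨_, rfl⟩
  have hzN : z ∈ N := by
    rw [hzdef]; exact N.mul_mem (N.mul_mem (N.mul_mem hxN hyN) (N.inv_mem hxN)) (N.inv_mem hyN)
  have hzZ : z ∈ scalars (Fin n) F := by rw [hzdef]; exact hab x hxN y hyN
  have hxy : x * y = z * y * x := by rw [hzdef]; group
  have hz1 : z ≠ 1 := by
    intro h
    apply hxy_ne
    rw [hxy, h, one_mul]
  obtain ⟨ζu, hζ⟩ := (mem_scalars_iff z).mp hzZ
  obtain ⟨ζ, hζdef⟩ : ∃ ζ : F, ζ = (ζu : F) := ⟨_, rfl⟩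
  rw [← hζdef] at hζ
  have hζ1 : ζ ≠ 1 := by
    intro h
    apply hz1
    apply Units.ext
    rw [hζ, h, one_smul, Units.val_one]
  -- scalars of `N` have `n`-th power one
  have hscal : ∀ w ∈ N, w ∈ scalars (Fin n) F → w ^ n = 1 := by
    intro w hwN hwZ
    obtain ⟨c, hc⟩ := (mem_scalars_iff w).mp hwZ
    have hdet := (mem_specialLinear_iff w).mp (hNSL hwN)
    rw [hc, det_smul_one] at hdet
    apply Units.ext
    rw [scalar_pow_val hc, hdet, one_smul, Units.val_one]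
  have hζn : ζ ^ n = 1 := by
    have h1 := hscal z hzN hzZ
    have h2 := congrArg Units.val h1
    rw [scalar_pow_val hζ, Units.val_one] at h2
    exact (smul_one_eq_one_iff _).mp h2
  have hζr : ζ ^ r = 1 := by
    have h1 := pow_mul_of_comm_central hxy (hZc z hzZ y) (hZc z hzZ x) r
    have h2 : x ^ r * y = y * x ^ r := hZc _ (hpow x hxN) y
    have h3 : z ^ r = 1 := by
      have h4 : z ^ r * (y * x ^ r) = y * x ^ r := by rw [← mul_assoc, ← h1, h2]
      exact mul_eq_right.mp h4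
    have h5 := congrArg Units.val h3
    rw [scalar_pow_val hζ, Units.val_one] at h5
    exact (smul_one_eq_one_iff _).mp h5
  have hord_ne : orderOf ζ ≠ 1 := fun h => hζ1 (orderOf_eq_one_iff.mp h)
  have hordn : orderOf ζ = n :=
    ((Nat.dvd_prime hn).mp (orderOf_dvd_of_pow_eq_one hζn)).resolve_left hord_ne
  have hordr : orderOf ζ = r :=
    ((Nat.dvd_prime hr).mp (orderOf_dvd_of_pow_eq_one hζr)).resolve_left hord_ne
  have hrn : r = n := hordr.symm.trans hordn
  subst hrn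
  have hprim : IsPrimitiveRoot ζ r := IsPrimitiveRoot.iff_orderOf.mpr hordn
  -- commutators have `r`-th power one
  have hcommpow : ∀ a ∈ N, ∀ b ∈ N, (b * a * b⁻¹ * a⁻¹) ^ r = 1 := by
    intro a ha b hb
    exact hscal _ (N.mul_mem (N.mul_mem (N.mul_mem hb ha) (N.inv_mem hb)) (N.inv_mem ha)) (hab b hb a ha)
  have hmulpow : ∀ a ∈ N, ∀ b ∈ N, (a * b) ^ r = a ^ r * b ^ r := by
    intro a ha b hb
    have hc : b * a = (b * a * b⁻¹ * a⁻¹) * a * b := by group
    have hcZ := hab b hb a ha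
    have h1 := mul_pow_of_comm_central hc (hZc _ hcZ a) (hZc _ hcZ b) r
    obtain ⟨k, hk⟩ := dvd_sum_range_of_odd hodd
    rw [h1, hk, pow_mul, hcommpow a ha b hb, one_pow, one_mul]
  -- the subgroup of elements of order dividing `r`
  let Ω : Subgroup (GL (Fin r) F) :=
    { carrier := {g | g ∈ N ∧ g ^ r = 1}
      one_mem' := ⟨N.one_mem, one_pow _⟩
      mul_mem' := by
        rintro a b ⟨ha, ha'⟩ ⟨hb, hb'⟩
        exact ⟨N.mul_mem ha hb, by rw [hmulpow a ha b hb, ha', hb', one_mul]⟩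
      inv_mem' := by
        rintro a ⟨ha, ha'⟩
        exact ⟨N.inv_mem ha, by rw [inv_pow, ha', inv_one]⟩ }
  have hΩN : Ω ≤ N := fun g hg => hg.1
  have hΩn : ∀ h ∈ H, ∀ g ∈ Ω, h * g * h⁻¹ ∈ Ω := by
    intro h hh g hg
    exact ⟨hNn h hh g hg.1, by rw [conj_pow, hg.2]; group⟩
  have hΩZ : ¬ Ω ≤ scalars (Fin r) F := by
    intro hle
    by_cases hx1 : x ^ r = 1
    · have hxZ : x ∈ scalars (Fin r) F := hle ⟨hxN, hx1⟩
      exact hxy_ne (hZc x hxZ y)
    · -- adjust `y` by a power of `x`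
      have haZ : x ^ r ∈ scalars (Fin r) F := hpow x hxN
      have hbZ : y ^ r ∈ scalars (Fin r) F := hpow y hyN
      obtain ⟨α, hα⟩ := (mem_scalars_iff _).mp haZ
      obtain ⟨β, hβ⟩ := (mem_scalars_iff _).mp hbZ
      have hαr : (α : F) ^ r = 1 := by
        have h1 := hscal _ (N.pow_mem hxN r) haZ
        have h2 := congrArg Units.val h1
        rw [scalar_pow_val hα, Units.val_one] at h2
        exact (smul_one_eq_one_iff _).mp h2
      have hβr : (β : F) ^ r = 1 := by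
        have h1 := hscal _ (N.pow_mem hyN r) hbZ
        have h2 := congrArg Units.val h1
        rw [scalar_pow_val hβ, Units.val_one] at h2
        exact (smul_one_eq_one_iff _).mp h2
      have hα1 : (α : F) ≠ 1 := by
        intro h
        apply hx1
        apply Units.ext
        rw [hα, h, one_smul, Units.val_one]
      have hαprim : IsPrimitiveRoot (α : F) r := by
        rw [IsPrimitiveRoot.iff_orderOf]
        exact ((Nat.dvd_prime hr).mp (orderOf_dvd_of_pow_eq_one hαr)).resolve_left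
          (fun h => hα1 (orderOf_eq_one_iff.mp h))
      have hβinv : ((β : F)⁻¹) ^ r = 1 := by rw [inv_pow, hβr, inv_one]
      obtain ⟨k, -, hk⟩ := hαprim.eq_pow_of_pow_eq_one hβinv
      have hwN : x ^ k * y ∈ N := N.mul_mem (N.pow_mem hxN k) hyN
      have hw : (x ^ k * y) ^ r = 1 := by
        rw [hmulpow _ (N.pow_mem hxN k) y hyN, ← pow_mul, mul_comm k r, pow_mul]
        apply Units.ext
        rw [Units.val_mul, scalar_pow_val hα, hβ, Units.val_one, Matrix.smul_mul, Matrix.one_mul,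
          smul_smul, hk, inv_mul_cancel₀ β.ne_zero, one_smul]
      have hwZ : x ^ k * y ∈ scalars (Fin r) F := hle ⟨hwN, hw⟩
      apply hxy_ne
      have h1 := hZc _ hwZ x
      have h2 : x ^ k * (y * x) = x ^ k * (x * y) := by
        calc x ^ k * (y * x) = x ^ k * y * x := by group
          _ = x * (x ^ k * y) := h1
          _ = x ^ k * (x * y) := by group
      exact (mul_left_cancel h2).symm
  have hΩeq : Ω = N := (hNmin Ω hΩN hΩn).resolve_left hΩZ
  refine ⟨x, y, z, ζ, hxN, hyN, hzN, hζ, hprim, hxy, ?_⟩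
  intro g hg
  have : g ∈ Ω := by rw [hΩeq]; exact hg
  exact this.2

/-- The data of the extraspecial situation. -/
structure ExtraData (N : Subgroup (GL (Fin n) F)) (x y z : GL (Fin n) F) (ζ : F) : Prop where
  hx : x ∈ N
  hy : y ∈ N
  hz : z ∈ N
  hzval : (z : Matrix (Fin n) (Fin n) F) = ζ • (1 : Matrix (Fin n) (Fin n) F)
  hprim : IsPrimitiveRoot ζ n
  hxy : x * y = z * y * x
  hexp : ∀ g ∈ N, g ^ n = 1
  hab : ∀ a ∈ N, ∀ b ∈ N, a * b * a⁻¹ * b⁻¹ ∈ scalars (Fin n) F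

theorem extraData_exists [Finite F] (hn : n.Prime) (hodd : Odd n) (H N : Subgroup (GL (Fin n) F))
    (hNSL : N ≤ specialLinear (Fin n) F)
    (hNn : ∀ h ∈ H, ∀ x ∈ N, h * x * h⁻¹ ∈ N) (hNZ : ¬ N ≤ scalars (Fin n) F)
    (hNmin : ∀ N' : Subgroup (GL (Fin n) F), N' ≤ N → (∀ h ∈ H, ∀ x ∈ N', h * x * h⁻¹ ∈ N') →
      N' ≤ scalars (Fin n) F ∨ N' = N)
    (hab : ∀ a ∈ N, ∀ b ∈ N, a * b * a⁻¹ * b⁻¹ ∈ scalars (Fin n) F)
    (habs : ActsAbsolutelyIrreducibly (matrixSet N)) :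
    ∃ (x y z : GL (Fin n) F) (ζ : F), ExtraData N x y z ζ := by
  obtain ⟨x, y, z, ζ, h1, h2, h3, h4, h5, h6, h7⟩ :=
    extra_exponent hn hodd H N hNSL hNn hNZ hNmin hab habs
  exact ⟨x, y, z, ζ, ⟨h1, h2, h3, h4, h5, h6, h7, hab⟩⟩

theorem mul_pow_of_rel {G : Type*} [Group G] {x y z : G} (hz : ∀ k : G, z * k = k * z)
    (hxy : x * y = z * y * x) (i : ℕ) : x * y ^ i = z ^ i * y ^ i * x := by
  induction i with
  | zero => simp
  | succ i ih =>
    calc x * y ^ (i + 1) = (x * y ^ i) * y := by rw [pow_succ]; group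
      _ = z ^ i * y ^ i * (x * y) := by rw [ih]; group
      _ = z ^ i * y ^ i * (z * y * x) := by rw [hxy]
      _ = z ^ i * (y ^ i * z) * y * x := by group
      _ = z ^ i * (z * y ^ i) * y * x := by rw [hz (y ^ i)]
      _ = z ^ (i + 1) * y ^ (i + 1) * x := by rw [pow_succ, pow_succ]; group

namespace ExtraData

variable {N : Subgroup (GL (Fin n) F)} {x y z : GL (Fin n) F} {ζ : F}

theorem hzZ (D : ExtraData N x y z ζ) : z ∈ scalars (Fin n) F :=
  (scalar_mem_scalars_iff z).mpr ⟨ζ, D.hzval⟩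

theorem hzc (D : ExtraData N x y z ζ) (k : GL (Fin n) F) : z * k = k * z := scalars_comm D.hzZ k

theorem z_mulVec (D : ExtraData N x y z ζ) (k : ℕ) (v : Fin n → F) :
    ((z ^ k : GL (Fin n) F) : Matrix (Fin n) (Fin n) F) *ᵥ v = ζ ^ k • v := by
  rw [scalar_pow_val D.hzval, Matrix.smul_mulVec, Matrix.one_mulVec]

/-- An eigenbasis of `x` cyclically permuted by `y`. -/
theorem exists_basis (D : ExtraData N x y z ζ) (hn : n.Prime) :
    ∃ (lam : F) (ev : ℕ → (Fin n → F)) (b : Module.Basis (Fin n) F (Fin n → F)),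
      lam ^ n = 1 ∧ (∀ i : Fin n, b i = ev i) ∧ (∀ i, ev (i + n) = ev i) ∧
      (∀ i, (x : Matrix (Fin n) (Fin n) F) *ᵥ ev i = (ζ ^ i * lam) • ev i) ∧
      (∀ i, (y : Matrix (Fin n) (Fin n) F) *ᵥ ev i = ev (i + 1)) := by
  classical
  have hnz : NeZero n := ⟨hn.ne_zero⟩
  -- an eigenvector of `x`
  obtain ⟨e₀, lam, he₀, hxe⟩ : ∃ (e : Fin n → F) (lam : F), e ≠ 0 ∧
      (x : Matrix (Fin n) (Fin n) F) *ᵥ e = lam • e := by
    set f : Module.End F (Fin n → F) := Matrix.toLin' (x : Matrix (Fin n) (Fin n) F) with hf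
    have hxn : (x : Matrix (Fin n) (Fin n) F) ^ n = 1 := by
      rw [← Units.val_pow_eq_pow_val, D.hexp x D.hx, Units.val_one]
    have hfn : f ^ n = 1 := by
      rw [hf, ← Matrix.toLin'_pow, hxn, Matrix.toLin'_one]; rfl
    have h1 : minpoly F f ∣ (Polynomial.X ^ n - Polynomial.C 1 : Polynomial F) := by
      apply minpoly.dvd
      simp [hfn]
    have h2 : (Polynomial.X ^ n - Polynomial.C 1 : Polynomial F).Splits := Polynomial.X_pow_sub_one_splits D.hprim
    have h3 : (Polynomial.X ^ n - Polynomial.C 1 : Polynomial F) ≠ 0 :=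
      Polynomial.X_pow_sub_C_ne_zero hn.pos 1
    have h4 : (minpoly F f).Splits := Polynomial.Splits.of_dvd h2 h3 h1
    have hint : IsIntegral F f := Algebra.IsIntegral.isIntegral f
    have h5 : (minpoly F f).degree ≠ 0 := ne_of_gt (minpoly.degree_pos hint)
    obtain ⟨μ, hμ⟩ := h4.exists_eval_eq_zero h5
    have h6 : f.HasEigenvalue μ := Module.End.hasEigenvalue_of_isRoot hμ
    obtain ⟨v, hv⟩ := h6.exists_hasEigenvector
    rw [Module.End.hasEigenvector_iff, Module.End.mem_eigenspace_iff] at hv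
    exact ⟨v, μ, hv.2, by simpa [hf] using hv.1⟩
  have hxpow : ∀ k : ℕ, ((x ^ k : GL (Fin n) F) : Matrix (Fin n) (Fin n) F) *ᵥ e₀ = lam ^ k • e₀ := by
    intro k
    induction k with
    | zero => simp
    | succ k ih =>
      rw [pow_succ, Units.val_mul, ← Matrix.mulVec_mulVec, hxe, Matrix.mulVec_smul, ih, smul_smul,
        pow_succ, mul_comm]
  have hlam : lam ^ n = 1 := by
    have h1 := hxpow n
    rw [D.hexp x D.hx, Units.val_one, Matrix.one_mulVec] at h1
    have h2 : (lam ^ n - 1) • e₀ = 0 := by rw [sub_smul, one_smul, ← h1, sub_self]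
    rcases smul_eq_zero.mp h2 with h | h
    · exact sub_eq_zero.mp h
    · exact absurd h he₀
  have hlam0 : lam ≠ 0 := by
    rintro rfl
    rw [zero_pow hn.ne_zero] at hlam
    exact zero_ne_one hlam
  obtain ⟨ev, hev⟩ : ∃ ev : ℕ → (Fin n → F),
      ∀ i, ev i = ((y ^ i : GL (Fin n) F) : Matrix (Fin n) (Fin n) F) *ᵥ e₀ := ⟨_, fun _ => rfl⟩
  have hy_ev : ∀ i, (y : Matrix (Fin n) (Fin n) F) *ᵥ ev i = ev (i + 1) := by
    intro i
    rw [hev, hev, Matrix.mulVec_mulVec, ← Units.val_mul, ← pow_succ']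
  have hper : ∀ i, ev (i + n) = ev i := by
    intro i
    rw [hev, hev, pow_add, D.hexp y D.hy, mul_one]
  have hx_ev : ∀ i, (x : Matrix (Fin n) (Fin n) F) *ᵥ ev i = (ζ ^ i * lam) • ev i := by
    intro i
    have h1 := congrArg Units.val (mul_pow_of_rel D.hzc D.hxy i)
    rw [Units.val_mul, Units.val_mul, Units.val_mul, scalar_pow_val D.hzval] at h1
    rw [hev, Matrix.mulVec_mulVec, h1, Matrix.smul_mul, Matrix.one_mul, Matrix.smul_mul,
      Matrix.smul_mulVec, ← Matrix.mulVec_mulVec, hxe, Matrix.mulVec_smul, smul_smul]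
  have hev0 : ∀ i, ev i ≠ 0 := by
    intro i h0
    apply he₀
    rw [hev] at h0
    exact mulVec_injective (y ^ i) (by simpa using h0 :
      ((y ^ i : GL (Fin n) F) : Matrix (Fin n) (Fin n) F) *ᵥ e₀
        = ((y ^ i : GL (Fin n) F) : Matrix (Fin n) (Fin n) F) *ᵥ 0)
  have hμinj : Function.Injective (fun i : Fin n => ζ ^ (i : ℕ) * lam) := by
    intro i j hij
    have h1 : ζ ^ (i : ℕ) = ζ ^ (j : ℕ) := mul_right_cancel₀ hlam0 hij
    exact Fin.ext (D.hprim.pow_inj i.2 j.2 h1)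
  have hli : LinearIndependent F (fun i : Fin n => ev i) := by
    apply Module.End.eigenvectors_linearIndependent' (Matrix.toLin' (x : Matrix (Fin n) (Fin n) F))
      (fun i : Fin n => ζ ^ (i : ℕ) * lam) hμinj
    intro i
    rw [Module.End.hasEigenvector_iff, Module.End.mem_eigenspace_iff, Matrix.toLin'_apply]
    exact ⟨hx_ev i, hev0 i⟩
  have hcard : Fintype.card (Fin n) = Module.finrank F (Fin n → F) := by
    rw [Module.finrank_fin_fun, Fintype.card_fin]
  refine ⟨lam, ev, basisOfLinearIndependentOfCardEqFinrank hli hcard, hlam, ?_, hper, hx_ev, hy_ev⟩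
  intro i
  rw [coe_basisOfLinearIndependentOfCardEqFinrank]

end ExtraData

end Cfsg.Agent.Helper97
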