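-- helper97 library: the extraspecial case, part 2 (basis, commutant, decomposition).
import Cfsg.Agent.Helper97.Extra

set_option autoImplicit false
open Cfsg Cfsg.Geo Matrix

namespace Cfsg.Agent.Helper97

variable {F : Type*} [Field F] {n : ℕ}

/-- An eigenbasis of `x` cyclically permuted by `y`. -/
structure ExtraBasis (x y : GL (Fin n) F) (ζ lam : F) (ev : ℕ → (Fin n → F))
    (b : Module.Basis (Fin n) F (Fin n → F)) : Prop where
  hlam : lam ^ n = 1
  hb : ∀ i : Fin n, b i = ev i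
  hper : ∀ i, ev (i + n) = ev i
  hx : ∀ i, (x : Matrix (Fin n) (Fin n) F) *ᵥ ev i = (ζ ^ i * lam) • ev i
  hy : ∀ i, (y : Matrix (Fin n) (Fin n) F) *ᵥ ev i = ev (i + 1)

theorem ExtraData.exists_extraBasis {N : Subgroup (GL (Fin n) F)} {x y z : GL (Fin n) F} {ζ : F}
    (D : ExtraData N x y z ζ) (hn : n.Prime) :
    ∃ (lam : F) (ev : ℕ → (Fin n → F)) (b : Module.Basis (Fin n) F (Fin n → F)),
      ExtraBasis x y ζ lam ev b := by
  obtain ⟨lam, ev, b, h1, h2, h3, h4, h5⟩ := D.exists_basis hn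
  exact ⟨lam, ev, b, ⟨h1, h2, h3, h4, h5⟩⟩

namespace ExtraBasis

variable {N : Subgroup (GL (Fin n) F)} {x y z : GL (Fin n) F} {ζ lam : F}
  {ev : ℕ → (Fin n → F)} {b : Module.Basis (Fin n) F (Fin n → F)}

theorem ev_add_mul (E : ExtraBasis x y ζ lam ev b) (i q : ℕ) : ev (i + n * q) = ev i := by
  induction q with
  | zero => simp
  | succ q ih => rw [Nat.mul_succ, ← add_assoc, E.hper, ih]

theorem ev_mod (E : ExtraBasis x y ζ lam ev b) (k : ℕ) : ev (k % n) = ev k := by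
  conv_rhs => rw [← Nat.mod_add_div k n]
  rw [E.ev_add_mul]

theorem b_mod (E : ExtraBasis x y ζ lam ev b) (k : ℕ) (h : k % n < n) : b ⟨k % n, h⟩ = ev k := by
  rw [E.hb, E.ev_mod]

theorem lam_ne_zero (E : ExtraBasis x y ζ lam ev b) (hn : n ≠ 0) : lam ≠ 0 := by
  rintro rfl
  have := E.hlam
  rw [zero_pow hn] at this
  exact zero_ne_one this

theorem ev_ne_zero (E : ExtraBasis x y ζ lam ev b) (hn : n ≠ 0) (k : ℕ) : ev k ≠ 0 := by
  have h : k % n < n := Nat.mod_lt _ (Nat.pos_of_ne_zero hn)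
  rw [← E.b_mod k h]
  exact b.ne_zero _

theorem ypow_ev (E : ExtraBasis x y ζ lam ev b) (c j : ℕ) :
    ((y ^ c : GL (Fin n) F) : Matrix (Fin n) (Fin n) F) *ᵥ ev j = ev (j + c) := by
  induction c with
  | zero => simp
  | succ c ih =>
    rw [pow_succ', Units.val_mul, ← Matrix.mulVec_mulVec, ih, E.hy, add_assoc]

theorem xpow_ev (E : ExtraBasis x y ζ lam ev b) (a j : ℕ) :
    ((x ^ a : GL (Fin n) F) : Matrix (Fin n) (Fin n) F) *ᵥ ev j = (ζ ^ j * lam) ^ a • ev j := by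
  induction a with
  | zero => simp
  | succ a ih =>
    rw [pow_succ', Units.val_mul, ← Matrix.mulVec_mulVec, ih, Matrix.mulVec_smul, E.hx, smul_smul,
      pow_succ]

theorem act (E : ExtraBasis x y ζ lam ev b) (D : ExtraData N x y z ζ) (k a c j : ℕ) :
    ((z ^ k * x ^ a * y ^ c : GL (Fin n) F) : Matrix (Fin n) (Fin n) F) *ᵥ ev j
      = (ζ ^ k * (ζ ^ (j + c) * lam) ^ a) • ev (j + c) := by
  rw [Units.val_mul, Units.val_mul, ← Matrix.mulVec_mulVec, ← Matrix.mulVec_mulVec, E.ypow_ev,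
    E.xpow_ev, Matrix.mulVec_smul, D.z_mulVec, smul_smul, mul_comm]

/-- Coordinates of `x v`. -/
theorem coX (E : ExtraBasis x y ζ lam ev b) (v : Fin n → F) (j : Fin n) :
    b.repr ((x : Matrix (Fin n) (Fin n) F) *ᵥ v) j = (ζ ^ (j : ℕ) * lam) * b.repr v j := by
  have h : (b.coord j).comp (Matrix.toLin' (x : Matrix (Fin n) (Fin n) F))
      = (ζ ^ (j : ℕ) * lam) • b.coord j := by
    apply b.ext
    intro i
    simp only [LinearMap.comp_apply, Matrix.toLin'_apply, LinearMap.smul_apply, Module.Basis.coord_apply,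
      smul_eq_mul]
    rw [E.hb, E.hx, ← E.hb, map_smul, Finsupp.smul_apply, Module.Basis.repr_self, smul_eq_mul]
    by_cases hij : i = j
    · subst hij; rfl
    · rw [Finsupp.single_eq_of_ne (Ne.symm hij), mul_zero, mul_zero]
  have := LinearMap.congr_fun h v
  simpa using this

/-- The commutant of `x` and `y` consists of scalars. -/
theorem commutant (E : ExtraBasis x y ζ lam ev b) (D : ExtraData N x y z ζ) (hn : n.Prime)
    (M : Matrix (Fin n) (Fin n) F)
    (hMx : M * (x : Matrix (Fin n) (Fin n) F) = (x : Matrix (Fin n) (Fin n) F) * M)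
    (hMy : M * (y : Matrix (Fin n) (Fin n) F) = (y : Matrix (Fin n) (Fin n) F) * M) :
    ∃ c : F, M = c • (1 : Matrix (Fin n) (Fin n) F) := by
  classical
  have hnz : NeZero n := ⟨hn.ne_zero⟩
  have hlam0 := E.lam_ne_zero hn.ne_zero
  obtain ⟨w, hw⟩ : ∃ w : Fin n → F, w = M *ᵥ ev 0 := ⟨_, rfl⟩
  have hxw : (x : Matrix (Fin n) (Fin n) F) *ᵥ w = lam • w := by
    rw [hw, Matrix.mulVec_mulVec, ← hMx, ← Matrix.mulVec_mulVec, E.hx, pow_zero, one_mul,
      Matrix.mulVec_smul]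
  have hcoord : ∀ j : Fin n, j ≠ 0 → b.repr w j = 0 := by
    intro j hj
    have h1 := E.coX w j
    rw [hxw, map_smul, Finsupp.smul_apply, smul_eq_mul] at h1
    have h2 : (ζ ^ (j : ℕ) - 1) * lam * b.repr w j = 0 := by
      have : (ζ ^ (j : ℕ) - 1) * lam * b.repr w j = ζ ^ (j : ℕ) * lam * b.repr w j - lam * b.repr w j := by
        ring
      rw [this, ← h1, sub_self]
    have h3 : ζ ^ (j : ℕ) - 1 ≠ 0 := by
      intro h
      have h4 : ζ ^ (j : ℕ) = ζ ^ 0 := by rw [pow_zero]; exact sub_eq_zero.mp h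
      have h5 := D.hprim.pow_inj j.2 hn.pos h4
      exact hj (Fin.ext h5)
    rcases mul_eq_zero.mp h2 with h | h
    · rcases mul_eq_zero.mp h with h | h
      · exact absurd h h3
      · exact absurd h hlam0
    · exact h
  have hw0 : w = b.repr w 0 • ev 0 := by
    conv_lhs => rw [← b.sum_repr w]
    rw [Finset.sum_eq_single (0 : Fin n)]
    · rw [E.hb]; rfl
    · intro j _ hj
      rw [hcoord j hj, zero_smul]
    · intro h; exact absurd (Finset.mem_univ _) h
  obtain ⟨c, hc⟩ : ∃ c : F, c = b.repr w 0 := ⟨_, rfl⟩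
  rw [← hc] at hw0
  have hMypow : ∀ i : ℕ, M * ((y ^ i : GL (Fin n) F) : Matrix (Fin n) (Fin n) F)
      = ((y ^ i : GL (Fin n) F) : Matrix (Fin n) (Fin n) F) * M := by
    intro i
    induction i with
    | zero => simp
    | succ i ih =>
      rw [pow_succ, Units.val_mul, ← Matrix.mul_assoc, ih, Matrix.mul_assoc, hMy, Matrix.mul_assoc]
  have hMev : ∀ i : ℕ, M *ᵥ ev i = c • ev i := by
    intro i
    have h1 := E.ypow_ev i 0
    rw [zero_add] at h1
    rw [← h1, Matrix.mulVec_mulVec, hMypow, ← Matrix.mulVec_mulVec, ← hw, hw0, Matrix.mulVec_smul]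
  refine ⟨c, ?_⟩
  apply Matrix.toLin'.injective
  apply b.ext
  intro i
  rw [Matrix.toLin'_apply, Matrix.toLin'_apply, E.hb, hMev, Matrix.smul_mulVec, Matrix.one_mulVec]

/-- A scalar of `N` is a power of `z`. -/
theorem scalar_eq_zpow (D : ExtraData N x y z ζ) (hn : n.Prime) (g : GL (Fin n) F) (hg : g ∈ N)
    (c : F) (hc : (g : Matrix (Fin n) (Fin n) F) = c • (1 : Matrix (Fin n) (Fin n) F)) :
    ∃ k : ℕ, k < n ∧ c = ζ ^ k ∧ g = z ^ k := by
  have hnz : NeZero n := ⟨hn.ne_zero⟩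
  have h1 := congrArg Units.val (D.hexp g hg)
  rw [scalar_pow_val hc, Units.val_one] at h1
  have h2 : c ^ n = 1 := (smul_one_eq_one_iff _).mp h1
  obtain ⟨k, hk, hk'⟩ := D.hprim.eq_pow_of_pow_eq_one h2
  refine ⟨k, hk, hk'.symm, ?_⟩
  apply Units.ext
  rw [hc, scalar_pow_val D.hzval, hk']

/-- Every element of `N` is `z ^ k * x ^ a * y ^ c`. -/
theorem decomp (E : ExtraBasis x y ζ lam ev b) (D : ExtraData N x y z ζ) (hn : n.Prime)
    (g : GL (Fin n) F) (hg : g ∈ N) : ∃ k a c : ℕ, g = z ^ k * x ^ a * y ^ c := by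
  -- the commutators with `x` and `y`
  have hcomm : ∀ w ∈ N, ∃ s : ℕ, s < n ∧ g * w = z ^ s * w * g := by
    intro w hw
    have h1 := D.hab g hg w hw
    have h2 : g * w * g⁻¹ * w⁻¹ ∈ N := N.mul_mem (N.mul_mem (N.mul_mem hg hw) (N.inv_mem hg)) (N.inv_mem hw)
    obtain ⟨c, hc⟩ := (scalar_mem_scalars_iff _).mp h1
    obtain ⟨s, hs, -, hs'⟩ := scalar_eq_zpow D hn _ h2 c hc
    refine ⟨s, hs, ?_⟩
    rw [← hs']
    group
  obtain ⟨s, hs, hgx⟩ := hcomm x D.hx
  obtain ⟨t, ht, hgy⟩ := hcomm y D.hy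
  have hzn : z ^ n = 1 := D.hexp z D.hz
  obtain ⟨h1, h2⟩ := twist_commutes D.hzc ht.le hzn hgx hgy D.hxy
  obtain ⟨w, hw⟩ : ∃ w : GL (Fin n) F, w = g * y ^ s * x ^ (n - t) := ⟨_, rfl⟩
  rw [← hw] at h1 h2
  have hwN : w ∈ N := by
    rw [hw]
    exact N.mul_mem (N.mul_mem hg (N.pow_mem D.hy s)) (N.pow_mem D.hx _)
  obtain ⟨c, hc⟩ := E.commutant D hn (w : Matrix (Fin n) (Fin n) F)
    (by rw [← Units.val_mul, ← Units.val_mul, h1]) (by rw [← Units.val_mul, ← Units.val_mul, h2])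
  obtain ⟨k, -, -, hk⟩ := scalar_eq_zpow D hn w hwN c hc
  refine ⟨k, t, n - s, ?_⟩
  have hxt : (x ^ (n - t))⁻¹ = x ^ t := by
    apply inv_eq_of_mul_eq_one_right
    rw [← pow_add, Nat.sub_add_cancel ht.le, D.hexp x D.hx]
  have hys : (y ^ s)⁻¹ = y ^ (n - s) := by
    apply inv_eq_of_mul_eq_one_right
    rw [← pow_add, Nat.add_sub_cancel' hs.le, D.hexp y D.hy]
  calc g = (g * y ^ s * x ^ (n - t)) * (x ^ (n - t))⁻¹ * (y ^ s)⁻¹ := by group
    _ = z ^ k * x ^ t * y ^ (n - s) := by rw [← hw, hk, hxt, hys]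

/-- Every element of `N` is monomial in the basis, with roots of unity as coefficients. -/
theorem mono (E : ExtraBasis x y ζ lam ev b) (D : ExtraData N x y z ζ) (hn : n.Prime)
    (g : GL (Fin n) F) (hg : g ∈ N) :
    ∃ (c : ℕ) (m : ℕ → ℕ), ∀ j, (g : Matrix (Fin n) (Fin n) F) *ᵥ ev j = ζ ^ (m j) • ev (j + c) := by
  have hnz : NeZero n := ⟨hn.ne_zero⟩
  obtain ⟨k, a, c, rfl⟩ := E.decomp D hn g hg
  obtain ⟨l, -, hl⟩ := D.hprim.eq_pow_of_pow_eq_one E.hlam
  refine ⟨c, fun j => k + (j + c + l) * a, fun j => ?_⟩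
  rw [E.act D, ← hl, ← pow_add, ← pow_mul, ← pow_add]

open Fin.NatCast

theorem ev_add_cast (E : ExtraBasis x y ζ lam ev b) [NeZero n] (i : Fin n) (c : ℕ) :
    ev ((i : ℕ) + c) = b (i + (c : Fin n)) := by
  rw [E.hb, Fin.val_add, Fin.val_natCast, Nat.add_mod_mod, E.ev_mod]

/-- Coordinates of `g v` for a monomial `g`. -/
theorem coMono (E : ExtraBasis x y ζ lam ev b) [NeZero n] (g : Matrix (Fin n) (Fin n) F) (c : ℕ)
    (m : ℕ → ℕ) (hg : ∀ j, g *ᵥ ev j = ζ ^ (m j) • ev (j + c)) (v : Fin n → F) (j : Fin n) :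
    b.repr (g *ᵥ v) (j + (c : Fin n)) = ζ ^ (m j) * b.repr v j := by
  classical
  have h : (b.coord (j + (c : Fin n))).comp (Matrix.toLin' g) = (ζ ^ (m j)) • b.coord j := by
    apply b.ext
    intro i
    simp only [LinearMap.comp_apply, Matrix.toLin'_apply, LinearMap.smul_apply, Module.Basis.coord_apply,
      smul_eq_mul]
    rw [E.hb, hg, E.ev_add_cast, ← E.hb, map_smul, Finsupp.smul_apply, Module.Basis.repr_self,
      Module.Basis.repr_self, smul_eq_mul]
    by_cases hij : i = j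
    · subst hij; rw [Finsupp.single_eq_same, Finsupp.single_eq_same]
    · rw [Finsupp.single_eq_of_ne (Ne.symm hij), mul_zero,
        Finsupp.single_eq_of_ne (fun h => hij (add_right_cancel h).symm), mul_zero]
  have := LinearMap.congr_fun h v
  simpa using this

/-- `N` is realisable over any subfield containing `ζ`. -/
theorem realisable (E : ExtraBasis x y ζ lam ev b) (D : ExtraData N x y z ζ) (hn : n.Prime)
    (F₀ : Subfield F) (hζ : ζ ∈ F₀) : RealisableOver F₀ (matrixSet N) := by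
  classical
  have hnz : NeZero n := ⟨hn.ne_zero⟩
  obtain ⟨B, hB⟩ : ∃ B : GL (Fin n) F, B = ⟨b.toMatrix (Pi.basisFun F (Fin n)),
      (Pi.basisFun F (Fin n)).toMatrix b, Module.Basis.toMatrix_mul_toMatrix_flip _ _,
      Module.Basis.toMatrix_mul_toMatrix_flip _ _⟩ := ⟨_, rfl⟩
  have hBv : (B : Matrix (Fin n) (Fin n) F) = b.toMatrix (Pi.basisFun F (Fin n)) := by rw [hB]
  have hBi : ((B⁻¹ : GL (Fin n) F) : Matrix (Fin n) (Fin n) F) = (Pi.basisFun F (Fin n)).toMatrix b := by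
    rw [hB]; rfl
  refine ⟨B, ?_⟩
  rintro _ ⟨g, hg, rfl⟩ i j
  obtain ⟨c, m, hm⟩ := E.mono D hn g hg
  have h1 : (B : Matrix (Fin n) (Fin n) F) * (g : Matrix (Fin n) (Fin n) F)
      * ((B⁻¹ : GL (Fin n) F) : Matrix (Fin n) (Fin n) F)
      = LinearMap.toMatrix b b (Matrix.toLin' (g : Matrix (Fin n) (Fin n) F)) := by
    rw [hBv, hBi]
    have h2 := basis_toMatrix_mul_linearMap_toMatrix_mul_basis_toMatrix b (Pi.basisFun F (Fin n)) b
      (Pi.basisFun F (Fin n)) (Matrix.toLin' (g : Matrix (Fin n) (Fin n) F))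
    rw [LinearMap.toMatrix_eq_toMatrix', LinearMap.toMatrix'_toLin'] at h2
    exact h2
  show ((B : Matrix (Fin n) (Fin n) F) * (g : Matrix (Fin n) (Fin n) F)
      * ((B⁻¹ : GL (Fin n) F) : Matrix (Fin n) (Fin n) F)) i j ∈ F₀
  rw [h1, LinearMap.toMatrix_apply, Matrix.toLin'_apply, E.hb, hm, E.ev_add_cast, map_smul,
    Finsupp.smul_apply, Module.Basis.repr_self, smul_eq_mul]
  apply F₀.mul_mem (F₀.pow_mem hζ _)
  by_cases h : j + (c : Fin n) = i
  · rw [h, Finsupp.single_eq_same]; exact F₀.one_mem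
  · rw [Finsupp.single_eq_of_ne (Ne.symm h)]; exact F₀.zero_mem

/-- The standard hermitian form in the basis. -/
noncomputable def herm (b : Module.Basis (Fin n) F (Fin n → F)) (σ : F ≃+* F) (u v : Fin n → F) : F :=
  ∑ i, b.repr u i * σ (b.repr v i)

theorem herm_apply (b : Module.Basis (Fin n) F (Fin n → F)) (σ : F ≃+* F) (u v : Fin n → F) :
    herm b σ u v = ∑ i, b.repr u i * σ (b.repr v i) := rfl

theorem herm_unitary (b : Module.Basis (Fin n) F (Fin n → F)) (σ : F ≃+* F)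
    (hne : σ ≠ RingEquiv.refl F) (hinv : ∀ a : F, σ (σ a) = a) : IsUnitaryForm σ (herm b σ) := by
  classical
  refine ⟨hne, hinv, ?_, ?_, ?_, ?_⟩
  · intro u v w
    rw [herm_apply, herm_apply, herm_apply, ← Finset.sum_add_distrib]
    apply Finset.sum_congr rfl
    intro i _
    rw [map_add, Finsupp.add_apply, add_mul]
  · intro c u v
    rw [herm_apply, herm_apply, Finset.mul_sum]
    apply Finset.sum_congr rfl
    intro i _
    rw [map_smul, Finsupp.smul_apply, smul_eq_mul, mul_assoc]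
  · intro v w
    rw [herm_apply, herm_apply, map_sum]
    apply Finset.sum_congr rfl
    intro i _
    rw [map_mul, hinv, mul_comm]
  · intro v hv
    have hex : ∃ i, b.repr v i ≠ 0 := by
      by_contra hcon
      apply hv
      have h0 : b.repr v = 0 := by
        ext i
        by_contra h
        exact hcon ⟨i, h⟩
      exact b.repr.map_eq_zero_iff.mp h0
    obtain ⟨i₀, hi₀⟩ := hex
    refine ⟨⟨b i₀, ?_⟩, ⟨b i₀, ?_⟩⟩
    · rw [herm_apply, Finset.sum_eq_single i₀]
      · rw [Module.Basis.repr_self, Finsupp.single_eq_same, one_mul]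
        exact fun h => hi₀ ((map_eq_zero_iff σ σ.injective).mp h)
      · intro j _ hj
        rw [Module.Basis.repr_self, Finsupp.single_eq_of_ne hj, zero_mul]
      · intro h; exact absurd (Finset.mem_univ _) h
    · rw [herm_apply, Finset.sum_eq_single i₀]
      · rw [Module.Basis.repr_self, Finsupp.single_eq_same, map_one, mul_one]
        exact hi₀
      · intro j _ hj
        rw [Module.Basis.repr_self, Finsupp.single_eq_of_ne hj, map_zero, mul_zero]
      · intro h; exact absurd (Finset.mem_univ _) h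

/-- `N` fixes the standard hermitian form when `σ` inverts `ζ`. -/
theorem fixes_herm (E : ExtraBasis x y ζ lam ev b) (D : ExtraData N x y z ζ) (hn : n.Prime)
    (σ : F ≃+* F) (hσ : σ ζ = ζ⁻¹) : FixesForm (matrixSet N) (herm b σ) := by
  classical
  have hnz : NeZero n := ⟨hn.ne_zero⟩
  have hζ0 : ζ ≠ 0 := D.hprim.ne_zero hn.ne_zero
  rintro _ ⟨g, hg, rfl⟩ u v
  obtain ⟨c, m, hm⟩ := E.mono D hn g hg
  rw [herm_apply, herm_apply,
    ← Equiv.sum_comp (Equiv.addRight (c : Fin n))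
      (fun i => b.repr ((g : Matrix (Fin n) (Fin n) F) *ᵥ u) i
        * σ (b.repr ((g : Matrix (Fin n) (Fin n) F) *ᵥ v) i))]
  apply Finset.sum_congr rfl
  intro j _
  rw [Equiv.coe_addRight, E.coMono _ c m hm, E.coMono _ c m hm, map_mul, map_pow, hσ, inv_pow]
  field_simp

end ExtraBasis

end Cfsg.Agent.Helper97
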