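-- helper97 library: the extraspecial case, part 3 (the symplectic-type data and the trichotomy).
import Cfsg.Agent.Helper97.Extra2

set_option autoImplicit false
open Cfsg Cfsg.Geo Matrix

namespace Cfsg.Agent.Helper97

variable {F : Type*} [Field F] {n : ℕ}

namespace ExtraBasis

variable {N : Subgroup (GL (Fin n) F)} {x y z : GL (Fin n) F} {ζ lam : F}
  {ev : ℕ → (Fin n → F)} {b : Module.Basis (Fin n) F (Fin n → F)}

theorem z_ne_one (D : ExtraData N x y z ζ) (hn : n.Prime) : z ≠ 1 := by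
  have hnz : NeZero n := ⟨hn.ne_zero⟩
  intro h
  have h1 := D.hzval
  rw [h, Units.val_one] at h1
  exact D.hprim.ne_one hn.one_lt ((smul_one_eq_one_iff ζ).mp h1.symm)

theorem xy_ne (D : ExtraData N x y z ζ) (hn : n.Prime) : x * y ≠ y * x := by
  intro h
  apply z_ne_one D hn
  have h1 : z * (y * x) = 1 * (y * x) := by rw [one_mul, ← mul_assoc, ← D.hxy, h]
  exact mul_right_cancel h1

theorem center_eq (E : ExtraBasis x y ζ lam ev b) (D : ExtraData N x y z ζ) (hn : n.Prime) :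
    Subgroup.center N = Subgroup.zpowers (⟨z, D.hz⟩ : N) := by
  apply le_antisymm
  · rintro ⟨g, hg⟩ hgc
    rw [Subgroup.mem_center_iff] at hgc
    have h1 := congrArg Subtype.val (hgc ⟨x, D.hx⟩)
    have h2 := congrArg Subtype.val (hgc ⟨y, D.hy⟩)
    simp only [Subgroup.coe_mul] at h1 h2
    obtain ⟨c, hc⟩ := E.commutant D hn (g : Matrix (Fin n) (Fin n) F)
      (by rw [← Units.val_mul, ← Units.val_mul, h1]) (by rw [← Units.val_mul, ← Units.val_mul, h2])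
    obtain ⟨k, -, -, hk⟩ := scalar_eq_zpow D hn g hg c hc
    rw [Subgroup.mem_zpowers_iff]
    refine ⟨(k : ℤ), ?_⟩
    apply Subtype.ext
    rw [zpow_natCast, Subgroup.coe_pow]
    exact hk.symm
  · rw [Subgroup.zpowers_le, Subgroup.mem_center_iff]
    rintro ⟨w, hw⟩
    apply Subtype.ext
    simp only [Subgroup.coe_mul]
    exact (D.hzc w).symm

theorem card_center (E : ExtraBasis x y ζ lam ev b) (D : ExtraData N x y z ζ) (hn : n.Prime) :
    Nat.card (Subgroup.center N) = n := by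
  have : Fact n.Prime := ⟨hn⟩
  rw [E.center_eq D hn, Nat.card_zpowers, Subgroup.orderOf_mk]
  exact orderOf_eq_prime (D.hexp z D.hz) (z_ne_one D hn)

theorem smul_ev_inj (E : ExtraBasis x y ζ lam ev b) {i j : ℕ} (hi : i < n) (hj : j < n) {α β : F}
    (hα : α ≠ 0) (h : α • ev i = β • ev j) : i = j := by
  classical
  by_contra hij
  have h1 : ev i = b ⟨i, hi⟩ := by rw [E.hb]
  have h2 : ev j = b ⟨j, hj⟩ := by rw [E.hb]
  rw [h1, h2] at h
  have h3 := congrArg (fun v => b.repr v ⟨i, hi⟩) h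
  simp only [map_smul, Finsupp.smul_apply, Module.Basis.repr_self, smul_eq_mul] at h3
  rw [Finsupp.single_eq_same, Finsupp.single_eq_of_ne (fun h => hij (Fin.mk.inj h)), mul_one,
    mul_zero] at h3
  exact hα h3

theorem smul_cancel (E : ExtraBasis x y ζ lam ev b) (hn : n ≠ 0) {i : ℕ} {α β : F}
    (h : α • ev i = β • ev i) : α = β := by
  have h1 : (α - β) • ev i = 0 := by rw [sub_smul, h, sub_self]
  rcases smul_eq_zero.mp h1 with h2 | h2
  · exact sub_eq_zero.mp h2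
  · exact absurd h2 (E.ev_ne_zero hn i)

theorem card_eq (E : ExtraBasis x y ζ lam ev b) (D : ExtraData N x y z ζ) (hn : n.Prime) :
    Nat.card N = n ^ (1 + 2 * 1) := by
  classical
  have hnz : NeZero n := ⟨hn.ne_zero⟩
  have hζ0 : ζ ≠ 0 := D.hprim.ne_zero hn.ne_zero
  have hlam0 := E.lam_ne_zero hn.ne_zero
  obtain ⟨φ, hφ⟩ : ∃ φ : Fin n × Fin n × Fin n → N, ∀ t, ((φ t : N) : GL (Fin n) F)
      = z ^ (t.1 : ℕ) * x ^ (t.2.1 : ℕ) * y ^ (t.2.2 : ℕ) :=
    ⟨fun t => ⟨z ^ (t.1 : ℕ) * x ^ (t.2.1 : ℕ) * y ^ (t.2.2 : ℕ),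
      N.mul_mem (N.mul_mem (N.pow_mem D.hz _) (N.pow_mem D.hx _)) (N.pow_mem D.hy _)⟩, fun t => rfl⟩
  have hinj : Function.Injective φ := by
    rintro ⟨k, a, c⟩ ⟨k', a', c'⟩ h
    have h0 : z ^ (k : ℕ) * x ^ (a : ℕ) * y ^ (c : ℕ) = z ^ (k' : ℕ) * x ^ (a' : ℕ) * y ^ (c' : ℕ) := by
      rw [← hφ (k, a, c), ← hφ (k', a', c'), h]
    have hact : ∀ j, (ζ ^ (k : ℕ) * (ζ ^ (j + (c : ℕ)) * lam) ^ (a : ℕ)) • ev (j + (c : ℕ))
        = (ζ ^ (k' : ℕ) * (ζ ^ (j + (c' : ℕ)) * lam) ^ (a' : ℕ)) • ev (j + (c' : ℕ)) := by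
      intro j
      rw [← E.act D, ← E.act D, h0]
    have hne : ∀ (k a m : ℕ), ζ ^ k * (ζ ^ m * lam) ^ a ≠ 0 := fun k a m =>
      mul_ne_zero (pow_ne_zero _ hζ0) (pow_ne_zero _ (mul_ne_zero (pow_ne_zero _ hζ0) hlam0))
    have hc : (c : ℕ) = c' := by
      have h1 := hact 0
      rw [zero_add, zero_add] at h1
      exact E.smul_ev_inj c.2 c'.2 (hne _ _ _) h1
    have hc' : c = c' := Fin.ext hc
    subst hc'
    have e0 := E.smul_cancel hn.ne_zero (hact 0)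
    have e1 := E.smul_cancel hn.ne_zero (hact 1)
    rw [zero_add] at e0
    obtain ⟨μ, hμ⟩ : ∃ μ : F, μ = ζ ^ (c : ℕ) * lam := ⟨_, rfl⟩
    have hμ0 : μ ≠ 0 := hμ ▸ mul_ne_zero (pow_ne_zero _ hζ0) hlam0
    have hμ1 : ζ ^ (1 + (c : ℕ)) * lam = ζ * μ := by rw [hμ, pow_add, pow_one, mul_assoc]
    rw [← hμ] at e0
    rw [hμ1, mul_pow, mul_pow] at e1
    have e2 : ζ ^ (a : ℕ) * (ζ ^ (k : ℕ) * μ ^ (a : ℕ)) = ζ ^ (a' : ℕ) * (ζ ^ (k : ℕ) * μ ^ (a : ℕ)) := by
      calc ζ ^ (a : ℕ) * (ζ ^ (k : ℕ) * μ ^ (a : ℕ)) = ζ ^ (k : ℕ) * (ζ ^ (a : ℕ) * μ ^ (a : ℕ)) := by ring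
        _ = ζ ^ (k' : ℕ) * (ζ ^ (a' : ℕ) * μ ^ (a' : ℕ)) := e1
        _ = ζ ^ (a' : ℕ) * (ζ ^ (k' : ℕ) * μ ^ (a' : ℕ)) := by ring
        _ = ζ ^ (a' : ℕ) * (ζ ^ (k : ℕ) * μ ^ (a : ℕ)) := by rw [e0]
    have e3 : ζ ^ (a : ℕ) = ζ ^ (a' : ℕ) :=
      mul_right_cancel₀ (mul_ne_zero (pow_ne_zero _ hζ0) (pow_ne_zero _ hμ0)) e2
    have ha : a = a' := Fin.ext (D.hprim.pow_inj a.2 a'.2 e3)
    subst ha
    have e4 : ζ ^ (k : ℕ) = ζ ^ (k' : ℕ) := mul_right_cancel₀ (pow_ne_zero _ hμ0) e0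
    have hk : k = k' := Fin.ext (D.hprim.pow_inj k.2 k'.2 e4)
    subst hk
    rfl
  have hsurj : Function.Surjective φ := by
    rintro ⟨g, hg⟩
    obtain ⟨k, a, c, hkac⟩ := E.decomp D hn g hg
    refine ⟨(⟨k % n, Nat.mod_lt _ hn.pos⟩, ⟨a % n, Nat.mod_lt _ hn.pos⟩, ⟨c % n, Nat.mod_lt _ hn.pos⟩), ?_⟩
    apply Subtype.ext
    rw [hφ]
    simp only
    rw [← pow_eq_pow_mod k (D.hexp z D.hz), ← pow_eq_pow_mod a (D.hexp x D.hx),
      ← pow_eq_pow_mod c (D.hexp y D.hy), hkac]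
  rw [← Nat.card_congr (Equiv.ofBijective φ ⟨hinj, hsurj⟩), Nat.card_prod, Nat.card_prod, Nat.card_fin]
  ring

theorem notSL (E : ExtraBasis x y ζ lam ev b) (D : ExtraData N x y z ζ) (hn : n.Prime) :
    ¬ specialLinear (Fin n) F ≤ subgroupNormalizer N := by
  classical
  have hnz : NeZero n := ⟨hn.ne_zero⟩
  have hζ0 : ζ ≠ 0 := D.hprim.ne_zero hn.ne_zero
  have hlam0 := E.lam_ne_zero hn.ne_zero
  have hnF : (n : F) ≠ 0 := (D.hprim.neZero').ne
  -- a left eigenvector for the eigenvalue `ζ * lam`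
  have hdet : ((x : Matrix (Fin n) (Fin n) F) - (ζ * lam) • (1 : Matrix (Fin n) (Fin n) F)).det = 0 := by
    rw [← Matrix.exists_mulVec_eq_zero_iff]
    refine ⟨ev 1, E.ev_ne_zero hn.ne_zero 1, ?_⟩
    rw [Matrix.sub_mulVec, E.hx, pow_one, Matrix.smul_mulVec, Matrix.one_mulVec, sub_self]
  obtain ⟨a, ha, hax⟩ := Matrix.exists_vecMul_eq_zero_iff.mpr hdet
  have hax' : a ᵥ* (x : Matrix (Fin n) (Fin n) F) = (ζ * lam) • a := by
    rw [Matrix.vecMul_sub, Matrix.vecMul_smul, Matrix.vecMul_one] at hax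
    exact sub_eq_zero.mp hax
  have hxu : (x : Matrix (Fin n) (Fin n) F) *ᵥ ev 0 = lam • ev 0 := by
    rw [E.hx, pow_zero, one_mul]
  refine notSL_normalizer N n hnF D.hexp x D.hx (ev 0) a lam (ζ * lam) (E.ev_ne_zero hn.ne_zero 0) ha hxu
    hax' ?_
  intro h
  have h1 : (1 : F) * lam = ζ * lam := by rw [one_mul]; exact h
  exact D.hprim.ne_one hn.one_lt (mul_right_cancel₀ hlam0 h1).symm

theorem char_cyclic (D : ExtraData N x y z ζ) (hn : n.Prime)
    (H : Subgroup (GL (Fin n) F)) (hNn : ∀ h ∈ H, ∀ x ∈ N, h * x * h⁻¹ ∈ N)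
    (hNmin : ∀ N' : Subgroup (GL (Fin n) F), N' ≤ N → (∀ h ∈ H, ∀ x ∈ N', h * x * h⁻¹ ∈ N') →
      N' ≤ scalars (Fin n) F ∨ N' = N)
    (A : Subgroup N) (hchar : A.Characteristic) (hcomm : IsMulCommutative A) : IsCyclic A := by
  obtain ⟨A', hA'⟩ : ∃ A' : Subgroup (GL (Fin n) F), A' = A.map N.subtype := ⟨_, rfl⟩
  have hA'N : A' ≤ N := by
    rw [hA']
    rintro _ ⟨a, -, rfl⟩
    exact a.2
  have hA'n : ∀ h ∈ H, ∀ w ∈ A', h * w * h⁻¹ ∈ A' := by
    intro h hh w hw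
    rw [hA'] at hw ⊢
    obtain ⟨a, ha, rfl⟩ := hw
    obtain ⟨φ, hφ⟩ : ∃ φ : N ≃* N, ∀ g : N, ((φ g : N) : GL (Fin n) F) = h⁻¹ * g * h :=
      ⟨{ toFun := fun g => ⟨h⁻¹ * g * h, by
            have := hNn h⁻¹ (H.inv_mem hh) g g.2
            rwa [inv_inv] at this⟩
         invFun := fun g => ⟨h * g * h⁻¹, hNn h hh g g.2⟩
         left_inv := fun g => Subtype.ext (by simp only; group)
         right_inv := fun g => Subtype.ext (by simp only; group)
         map_mul' := fun a b => Subtype.ext (by simp only [Subgroup.coe_mul]; group) }, fun g => rfl⟩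
    have hfix := hchar.fixed φ
    have hmem : (⟨h * a * h⁻¹, hNn h hh a a.2⟩ : N) ∈ A := by
      rw [← hfix, Subgroup.mem_comap]
      have : φ.toMonoidHom ⟨h * a * h⁻¹, hNn h hh a a.2⟩ = a := by
        apply Subtype.ext
        show ((φ ⟨h * a * h⁻¹, hNn h hh a a.2⟩ : N) : GL (Fin n) F) = a
        rw [hφ]
        group
      rw [this]
      exact ha
    exact ⟨⟨h * a * h⁻¹, hNn h hh a a.2⟩, hmem, rfl⟩
  rcases hNmin A' hA'N hA'n with hsc | hAN
  · have hle : A ≤ Subgroup.zpowers (⟨z, D.hz⟩ : N) := by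
      intro a ha
      have h1 : (a : GL (Fin n) F) ∈ A' := by rw [hA']; exact ⟨a, ha, rfl⟩
      obtain ⟨c, hc⟩ := (scalar_mem_scalars_iff _).mp (hsc h1)
      obtain ⟨k, -, -, hk⟩ := scalar_eq_zpow D hn (a : GL (Fin n) F) a.2 c hc
      rw [Subgroup.mem_zpowers_iff]
      refine ⟨(k : ℤ), ?_⟩
      apply Subtype.ext
      rw [zpow_natCast, Subgroup.coe_pow, hk]
    exact Subgroup.isCyclic_of_le hle
  · exfalso
    have hxA : x ∈ A' := hAN ▸ D.hx
    have hyA : y ∈ A' := hAN ▸ D.hy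
    rw [hA'] at hxA hyA
    obtain ⟨a, ha, hax⟩ := hxA
    obtain ⟨c, hc, hcy⟩ := hyA
    have h1 := hcomm.is_comm.comm (⟨a, ha⟩ : A) ⟨c, hc⟩
    have h2 := congrArg (fun w : A => ((w : N) : GL (Fin n) F)) h1
    simp only [Subgroup.coe_mul] at h2
    apply xy_ne D hn
    rw [← hax, ← hcy]
    exact h2

end ExtraBasis

/-- The extraspecial case: the normaliser of `N` lies in a subfield group, or in a unitary similarity
group, or `N` is a class-6 group. -/
theorem extra_trichotomy [Fintype F] {p : ℕ} [Fact p.Prime] [CharP F p] (hn : n.Prime) (hodd : Odd n)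
    (H N : Subgroup (GL (Fin n) F))
    (hNSL : N ≤ specialLinear (Fin n) F)
    (hNn : ∀ h ∈ H, ∀ x ∈ N, h * x * h⁻¹ ∈ N) (hNZ : ¬ N ≤ scalars (Fin n) F)
    (hNmin : ∀ N' : Subgroup (GL (Fin n) F), N' ≤ N → (∀ h ∈ H, ∀ x ∈ N', h * x * h⁻¹ ∈ N') →
      N' ≤ scalars (Fin n) F ∨ N' = N)
    (hab : ∀ a ∈ N, ∀ b ∈ N, a * b * a⁻¹ * b⁻¹ ∈ scalars (Fin n) F)
    (habs : ActsAbsolutelyIrreducibly (matrixSet N)) :
    (∃ (F₁ : Subfield F) (r : ℕ) (B : GL (Fin n) F), r.Prime ∧ Fintype.card F = Nat.card F₁ ^ r ∧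
      ∀ h : GL (Fin n) F, (∀ x ∈ N, h * x * h⁻¹ ∈ N) → h ∈ subfieldSubgroup F₁ B) ∨
    (∃ (σ : F ≃+* F) (f : (Fin n → F) → (Fin n → F) → F), IsUnitaryForm σ f ∧
      ∀ h : GL (Fin n) F, (∀ x ∈ N, h * x * h⁻¹ ∈ N) → h ∈ similarityGroup f) ∨
    (IsLinearSymplecticTypeData n N ∧ ¬ specialLinear (Fin n) F ≤ subgroupNormalizer N ∧
      ∃ e : ℕ, Odd e ∧ Fintype.card F = p ^ e ∧ n ∣ p ^ e - 1 ∧
        ∀ d : ℕ, 0 < d → d < e → ¬ n ∣ p ^ d - 1) := by
  classical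
  have hp := (Fact.out : p.Prime)
  have hnz : NeZero n := ⟨hn.ne_zero⟩
  obtain ⟨x, y, z, ζ, D⟩ := extraData_exists hn hodd H N hNSL hNn hNZ hNmin hab habs
  obtain ⟨lam, ev, b, E⟩ := D.exists_extraBasis hn
  obtain ⟨e', -, hcard⟩ := FiniteField.card F p
  obtain ⟨e, he⟩ : ∃ e : ℕ, e = (e' : ℕ) := ⟨_, rfl⟩
  rw [← he] at hcard
  have he0 : 0 < e := he ▸ e'.pos
  have hζ0 : ζ ≠ 0 := D.hprim.ne_zero hn.ne_zero
  have hndvd : n ∣ p ^ e - 1 := by
    rw [← hcard, ← D.hprim.pow_eq_one_iff_dvd]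
    exact FiniteField.pow_card_sub_one_eq_one ζ hζ0
  by_cases hmin : ∃ d, 0 < d ∧ d < e ∧ n ∣ p ^ d - 1
  · -- (A) a proper subfield contains `ζ`
    left
    obtain ⟨d, hd0, hde, hdn⟩ := hmin
    obtain ⟨F₀, hF₀⟩ : ∃ F₀ : Subfield F,
        F₀ = RingHom.eqLocusField (iterateFrobenius F p d) (RingHom.id F) := ⟨_, rfl⟩
    have hmem : ∀ a : F, a ∈ F₀ ↔ a ^ p ^ d = a := by
      intro a
      rw [hF₀, RingHom.mem_eqLocusField, iterateFrobenius_def, RingHom.id_apply]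
    have hpd : 1 ≤ p ^ d := Nat.one_le_pow _ _ hp.pos
    have hζF₀ : ζ ∈ F₀ := by
      rw [hmem]
      have h1 : ζ ^ (p ^ d - 1) = 1 := (D.hprim.pow_eq_one_iff_dvd _).mpr hdn
      calc ζ ^ p ^ d = ζ ^ (p ^ d - 1 + 1) := by rw [Nat.sub_add_cancel hpd]
        _ = ζ := by rw [pow_succ, h1, one_mul]
    have hF₀top : F₀ ≠ ⊤ := by
      intro htop
      obtain ⟨g, hg⟩ := IsCyclic.exists_ofOrder_eq_natCard (α := Fˣ)
      rw [Nat.card_units, Nat.card_eq_fintype_card, hcard] at hg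
      have h1 : (g : F) ∈ F₀ := by rw [htop]; exact Subfield.mem_top _
      rw [hmem] at h1
      have h2 : (g : F) ^ (p ^ d - 1) = 1 := by
        have h3 : (g : F) ^ (p ^ d - 1) * (g : F) = 1 * (g : F) := by
          rw [← pow_succ, Nat.sub_add_cancel hpd, h1, one_mul]
        exact mul_right_cancel₀ g.ne_zero h3
      have h4 : g ^ (p ^ d - 1) = 1 := by
        apply Units.ext
        rw [Units.val_pow_eq_pow_val, h2, Units.val_one]
      have h5 := orderOf_dvd_of_pow_eq_one h4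
      rw [hg] at h5
      have h6 : p ^ d < p ^ e := Nat.pow_lt_pow_right hp.one_lt hde
      have h7 : 2 ≤ p ^ d := by
        calc 2 ≤ p := hp.two_le
          _ = p ^ 1 := (pow_one p).symm
          _ ≤ p ^ d := Nat.pow_le_pow_right hp.pos hd0
      have h8 := Nat.le_of_dvd (by omega) h5
      omega
    exact normalizer_le_subfield_of_realisable N habs F₀ hF₀top (E.realisable D hn F₀ hζF₀)
  · right
    have hmin' : ∀ d, 0 < d → d < e → ¬ n ∣ p ^ d - 1 := fun d h1 h2 h3 => hmin ⟨d, h1, h2, h3⟩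
    rcases Nat.even_or_odd e with heven | hodd_e
    · -- (B) a unitary form
      left
      obtain ⟨m, hm⟩ := heven
      have hm0 : 0 < m := by omega
      have hme : m < e := by omega
      obtain ⟨σ, hσ⟩ : ∃ σ : F ≃+* F, σ = iterateFrobeniusEquiv F p m := ⟨_, rfl⟩
      have hσa : ∀ a : F, σ a = a ^ p ^ m := by
        intro a
        rw [hσ, coe_iterateFrobeniusEquiv, iterateFrobenius_def]
      have hinv : ∀ a : F, σ (σ a) = a := by
        intro a
        rw [hσa, hσa, ← pow_mul, ← pow_add, ← hm, ← hcard, FiniteField.pow_card]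
      have hσζ : σ ζ = ζ⁻¹ := by
        have h1 : p ^ e - 1 = (p ^ m - 1) * (p ^ m + 1) := by
          rw [hm, pow_add]
          obtain ⟨q, hq⟩ : ∃ q, p ^ m = q + 1 :=
            ⟨p ^ m - 1, by have := Nat.one_le_pow m p hp.pos; omega⟩
          rw [hq, Nat.add_sub_cancel]
          have : (q + 1) * (q + 1) = q * (q + 1 + 1) + 1 := by ring
          rw [this, Nat.add_sub_cancel]
        have h2 : n ∣ p ^ m + 1 := by
          rw [h1] at hndvd
          exact (hn.dvd_mul.mp hndvd).resolve_left (hmin' m hm0 hme)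
        have h3 : ζ ^ (p ^ m + 1) = 1 := (D.hprim.pow_eq_one_iff_dvd _).mpr h2
        rw [hσa]
        rw [pow_succ] at h3
        exact eq_inv_of_mul_eq_one_left h3
      have hne : σ ≠ RingEquiv.refl F := by
        intro h
        have h1 : σ ζ = ζ := by rw [h]; rfl
        rw [hσζ] at h1
        have h2 : ζ ^ 2 = 1 := by
          rw [pow_two]
          nth_rewrite 1 [← h1]
          exact inv_mul_cancel₀ hζ0
        have h3 := (D.hprim.pow_eq_one_iff_dvd _).mp h2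
        have h4 := Nat.le_of_dvd (by norm_num) h3
        have h5 := hn.two_le
        have h6 : n = 2 := by omega
        rw [h6] at hodd
        exact absurd hodd (by decide)
      have hU := ExtraBasis.herm_unitary b σ hne hinv
      refine ⟨σ, ExtraBasis.herm b σ, hU, ?_⟩
      intro h hh
      exact normalizer_le_similarity N habs σ _ (isSesq_of_unitary hU)
        (fun v hv => (hU.nondegenerate v hv).1) (E.fixes_herm D hn σ hσζ) h hh
    · -- (C) the class-6 data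
      right
      have hnp : n ≠ p := by
        intro hnp
        rw [← hnp] at hndvd
        have h1 : n ∣ n ^ e := dvd_pow_self n (by omega)
        have h2 : n ∣ n ^ e - (n ^ e - 1) := Nat.dvd_sub h1 hndvd
        have h3 : n ^ e - (n ^ e - 1) = 1 := by have := Nat.one_le_pow e n hn.pos; omega
        rw [h3] at h2
        exact hn.one_lt.ne' (Nat.dvd_one.mp h2)
      have hpowN : ∀ g : N, g ^ n = 1 := by
        intro g
        apply Subtype.ext
        rw [Subgroup.coe_pow, D.hexp g g.2]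
        rfl
      refine ⟨⟨⟨hn, ?_, ?_, ?_⟩, habs, ?_⟩, E.notSL D hn, e, hodd_e, hcard, hndvd, hmin'⟩
      · intro g
        exact ⟨1, by rw [pow_one]; exact hpowN g⟩
      · exact ExtraBasis.char_cyclic D hn H hNn hNmin
      · have h1 : Monoid.exponent N ∣ n := Monoid.exponent_dvd_of_forall_pow_eq_one hpowN
        have h2 : Monoid.exponent N ≠ 1 := by
          intro h
          rw [Monoid.exp_eq_one_iff] at h
          have h3 := Subsingleton.elim (⟨z, D.hz⟩ : N) 1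
          exact ExtraBasis.z_ne_one D hn (congrArg Subtype.val h3)
        have h3 : Nat.gcd 2 n = 1 := Nat.coprime_two_left.mpr hodd
        rw [h3, mul_one]
        exact ((Nat.dvd_prime hn).mp h1).resolve_left h2
      · refine ⟨p, e, hnp, ⟨hp, inferInstance, hcard, ?_, ?_⟩,
          Or.inl ⟨hodd, hodd_e, E.card_center D hn, 1, le_refl 1, E.card_eq D hn⟩⟩
        · rw [E.card_center D hn]; exact hndvd
        · rw [E.card_center D hn]; exact hmin'

end Cfsg.Agent.Helper97
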