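-- helper97 library: decompositions into lines over the fields with 2, 3, 4 elements.
import Cfsg.Agent.Helper97.Extra3

set_option autoImplicit false
open Cfsg Cfsg.Geo Matrix

namespace Cfsg.Agent.Helper97

variable {F : Type*} [Field F] {n : ℕ}

theorem le_subspaceStabilizer (H : Subgroup (GL (Fin n) F)) (W : Submodule F (Fin n → F))
    (h : ∀ g ∈ H, ∀ v ∈ W, (g : Matrix (Fin n) (Fin n) F) *ᵥ v ∈ W) : H ≤ subspaceStabilizer W := by
  intro g hg
  rw [mem_subspaceStabilizer_iff]
  intro v
  constructor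
  · exact h g hg v
  · intro hv
    have := h g⁻¹ (H.inv_mem hg) _ hv
    rwa [mulVec_inv_cancel] at this

/-- A basis adapted to a decomposition into lines. -/
theorem exists_adapted_basis (D : Fin n → Submodule F (Fin n → F)) (hD : IsMDecomposition 1 D) :
    ∃ b : Module.Basis (Fin n) F (Fin n → F), ∀ g ∈ decompositionStabilizer D,
      ∃ (σ : Equiv.Perm (Fin n)) (c : Fin n → F), (∀ i, c i ≠ 0) ∧
        ∀ i, (g : Matrix (Fin n) (Fin n) F) *ᵥ b i = c i • b (σ i) := by
  classical
  have hex : ∀ i, ∃ v : Fin n → F, v ∈ D i ∧ v ≠ 0 ∧ ∀ w ∈ D i, ∃ c : F, w = c • v := by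
    intro i
    obtain ⟨v, hv0, hv⟩ := finrank_eq_one_iff'.mp (hD.finrank_eq i)
    refine ⟨v, v.2, fun h => hv0 (Subtype.ext h), fun w hw => ?_⟩
    obtain ⟨c, hc⟩ := hv ⟨w, hw⟩
    exact ⟨c, (congrArg Subtype.val hc).symm⟩
  choose e heD he0 hespan using hex
  have hne : Nonempty (Fin n) := ⟨⟨0, by have := hD.two_le; omega⟩⟩
  have hli : LinearIndependent F e := hD.indep.linearIndependent D heD he0
  have hcard : Fintype.card (Fin n) = Module.finrank F (Fin n → F) := by
    rw [Module.finrank_fin_fun, Fintype.card_fin]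
  obtain ⟨b, hb⟩ : ∃ b : Module.Basis (Fin n) F (Fin n → F), ∀ i, b i = e i :=
    ⟨basisOfLinearIndependentOfCardEqFinrank hli hcard,
      fun i => by rw [coe_basisOfLinearIndependentOfCardEqFinrank]⟩
  refine ⟨b, fun g hg => ?_⟩
  obtain ⟨σ, hσ⟩ := (mem_decompositionStabilizer_iff D g).mp hg
  have hmem : ∀ i, (g : Matrix (Fin n) (Fin n) F) *ᵥ e i ∈ D (σ i) := by
    intro i
    rw [← hσ i]
    exact ⟨e i, heD i, by rw [Matrix.toLin'_apply]⟩
  have hc : ∀ i, ∃ c : F, (g : Matrix (Fin n) (Fin n) F) *ᵥ e i = c • e (σ i) :=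
    fun i => hespan (σ i) _ (hmem i)
  choose c hc using hc
  refine ⟨σ, c, fun i h0 => ?_, fun i => by rw [hb, hb, hc]⟩
  have h1 := hc i
  rw [h0, zero_smul] at h1
  have h2 := mulVec_injective g (show (g : Matrix (Fin n) (Fin n) F) *ᵥ e i
      = (g : Matrix (Fin n) (Fin n) F) *ᵥ 0 by rw [h1, Matrix.mulVec_zero])
  exact he0 i h2

theorem repr_mono (b : Module.Basis (Fin n) F (Fin n → F)) (g : Matrix (Fin n) (Fin n) F)
    (σ : Equiv.Perm (Fin n)) (c : Fin n → F) (h : ∀ i, g *ᵥ b i = c i • b (σ i)) (v : Fin n → F)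
    (j : Fin n) : b.repr (g *ᵥ v) (σ j) = c j * b.repr v j := by
  classical
  have h' : (b.coord (σ j)).comp (Matrix.toLin' g) = c j • b.coord j := by
    apply b.ext
    intro i
    simp only [LinearMap.comp_apply, Matrix.toLin'_apply, LinearMap.smul_apply, Module.Basis.coord_apply,
      smul_eq_mul]
    rw [h, map_smul, Finsupp.smul_apply, Module.Basis.repr_self, Module.Basis.repr_self, smul_eq_mul]
    by_cases hij : i = j
    · subst hij; rw [Finsupp.single_eq_same, Finsupp.single_eq_same]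
    · rw [Finsupp.single_eq_of_ne (Ne.symm hij), mul_zero,
        Finsupp.single_eq_of_ne (fun h => hij (σ.injective h).symm), mul_zero]
  have := LinearMap.congr_fun h' v
  simpa using this

theorem exists_repr_ne_zero (b : Module.Basis (Fin n) F (Fin n → F)) {v : Fin n → F} (hv : v ≠ 0) :
    ∃ i, b.repr v i ≠ 0 := by
  by_contra hcon
  apply hv
  have h0 : b.repr v = 0 := by
    ext i
    by_contra h
    exact hcon ⟨i, h⟩
  exact b.repr.map_eq_zero_iff.mp h0

/-! ### Two elements: the sum vector -/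

theorem small_two [Fintype F] (hn : n.Prime) (hq : Fintype.card F = 2) (H : Subgroup (GL (Fin n) F))
    (D : Fin n → Submodule F (Fin n → F)) (hD : IsMDecomposition 1 D)
    (hH : H ≤ decompositionStabilizer D) :
    ∃ W : Submodule F (Fin n → F), W ≠ ⊥ ∧ W ≠ ⊤ ∧ H ≤ subspaceStabilizer W := by
  classical
  have hn0 : NeZero n := ⟨hn.ne_zero⟩
  obtain ⟨b, hb⟩ := exists_adapted_basis D hD
  obtain ⟨s, hs⟩ : ∃ s : Fin n → F, s = ∑ i, b i := ⟨_, rfl⟩
  have hs0 : s ≠ 0 := by
    intro h0
    have h1 : b.repr s (0 : Fin n) = 1 := by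
      rw [hs, map_sum, Finsupp.finsetSum_apply, Finset.sum_eq_single (0 : Fin n)]
      · rw [Module.Basis.repr_self, Finsupp.single_eq_same]
      · intro j _ hj
        rw [Module.Basis.repr_self, Finsupp.single_eq_of_ne (Ne.symm hj)]
      · intro h; exact absurd (Finset.mem_univ _) h
    rw [h0, LinearEquiv.map_zero, Finsupp.zero_apply] at h1
    exact zero_ne_one h1
  refine ⟨Submodule.span F {s}, ?_, ?_, ?_⟩
  · intro h
    apply hs0
    have : s ∈ Submodule.span F {s} := Submodule.mem_span_singleton_self s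
    rw [h] at this
    exact (Submodule.mem_bot F).mp this
  · intro h
    have h1 : Module.finrank F (Submodule.span F {s}) = 1 := finrank_span_singleton hs0
    rw [h, finrank_top, Module.finrank_fin_fun] at h1
    exact hn.one_lt.ne' h1
  · apply le_subspaceStabilizer
    intro g hg v hv
    obtain ⟨σ, c, hc0, hc⟩ := hb g (hH hg)
    have hc1 : ∀ i, c i = 1 := by
      intro i
      have := FiniteField.pow_card_sub_one_eq_one (c i) (hc0 i)
      rw [hq] at this
      simpa using this
    have hgs : (g : Matrix (Fin n) (Fin n) F) *ᵥ s = s := by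
      rw [hs, Matrix.mulVec_sum]
      simp_rw [hc, hc1, one_smul]
      exact Equiv.sum_comp σ (fun i => b i)
    obtain ⟨a, rfl⟩ := Submodule.mem_span_singleton.mp hv
    rw [Matrix.mulVec_smul, hgs]
    exact Submodule.smul_mem _ _ (Submodule.mem_span_singleton_self s)

/-! ### Three elements: the sum of squares -/

/-- The sum of squares of the coordinates. -/
noncomputable def sumSq (b : Module.Basis (Fin n) F (Fin n → F)) (v : Fin n → F) : F :=
  ∑ i, (b.repr v i) ^ 2

theorem sumSq_apply (b : Module.Basis (Fin n) F (Fin n → F)) (v : Fin n → F) :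
    sumSq b v = ∑ i, (b.repr v i) ^ 2 := rfl

theorem polar_sumSq (b : Module.Basis (Fin n) F (Fin n → F)) (u v : Fin n → F) :
    QuadraticMap.polar (sumSq b) u v = ∑ i, 2 * (b.repr u i * b.repr v i) := by
  simp only [QuadraticMap.polar, sumSq_apply, map_add, Finsupp.add_apply]
  rw [← Finset.sum_sub_distrib, ← Finset.sum_sub_distrib]
  apply Finset.sum_congr rfl
  intro i _
  ring

theorem sumSq_nondeg (b : Module.Basis (Fin n) F (Fin n → F)) (h2 : (2 : F) ≠ 0) :
    IsNondegenerateQuadraticForm (sumSq b) := by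
  classical
  refine ⟨?_, ⟨?_, ?_, ?_, ?_⟩, ?_⟩
  · intro c v
    rw [sumSq_apply, sumSq_apply, Finset.mul_sum]
    apply Finset.sum_congr rfl
    intro i _
    rw [map_smul, Finsupp.smul_apply, smul_eq_mul, mul_pow]
  · intro x y v
    rw [polar_sumSq, polar_sumSq, polar_sumSq, ← Finset.sum_add_distrib]
    apply Finset.sum_congr rfl
    intro i _
    rw [map_add, Finsupp.add_apply]
    ring
  · intro c x v
    rw [polar_sumSq, polar_sumSq, Finset.mul_sum]
    apply Finset.sum_congr rfl
    intro i _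
    rw [map_smul, Finsupp.smul_apply, smul_eq_mul]
    ring
  · intro v x y
    rw [polar_sumSq, polar_sumSq, polar_sumSq, ← Finset.sum_add_distrib]
    apply Finset.sum_congr rfl
    intro i _
    rw [map_add, Finsupp.add_apply]
    ring
  · intro c v x
    rw [polar_sumSq, polar_sumSq, Finset.mul_sum]
    apply Finset.sum_congr rfl
    intro i _
    rw [map_smul, Finsupp.smul_apply, smul_eq_mul]
    ring
  · intro v hv
    obtain ⟨i₀, hi₀⟩ := exists_repr_ne_zero b hv
    have key : ∀ w, QuadraticMap.polar (sumSq b) (b i₀) w = 2 * b.repr w i₀ := by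
      intro w
      rw [polar_sumSq, Finset.sum_eq_single i₀]
      · rw [Module.Basis.repr_self, Finsupp.single_eq_same, one_mul]
      · intro j _ hj
        rw [Module.Basis.repr_self, Finsupp.single_eq_of_ne hj, zero_mul, mul_zero]
      · intro h; exact absurd (Finset.mem_univ _) h
    have key' : ∀ w, QuadraticMap.polar (sumSq b) w (b i₀) = 2 * b.repr w i₀ := by
      intro w
      rw [polar_sumSq, Finset.sum_eq_single i₀]
      · rw [Module.Basis.repr_self, Finsupp.single_eq_same, mul_one]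
      · intro j _ hj
        rw [Module.Basis.repr_self, Finsupp.single_eq_of_ne hj, mul_zero, mul_zero]
      · intro h; exact absurd (Finset.mem_univ _) h
    exact ⟨⟨b i₀, by rw [key]; exact mul_ne_zero h2 hi₀⟩, ⟨b i₀, by rw [key']; exact mul_ne_zero h2 hi₀⟩⟩

theorem small_three [Fintype F] (hq : Fintype.card F = 3) (H : Subgroup (GL (Fin n) F))
    (D : Fin n → Submodule F (Fin n → F)) (hD : IsMDecomposition 1 D)
    (hH : H ≤ decompositionStabilizer D) :
    ∃ Q : (Fin n → F) → F, IsNondegenerateQuadraticForm Q ∧ H ≤ quadSimilarityGroup Q := by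
  classical
  obtain ⟨b, hb⟩ := exists_adapted_basis D hD
  have h2 : (2 : F) ≠ 0 := by
    intro h
    have h3 : ((Fintype.card F : ℕ) : F) = 0 := FiniteField.cast_card_eq_zero F
    rw [hq] at h3
    have h4 : (1 : F) = ((3 : ℕ) : F) - 2 := by push_cast; ring
    rw [h3, h, sub_zero] at h4
    exact one_ne_zero h4
  refine ⟨sumSq b, sumSq_nondeg b h2, fun g hg => ?_⟩
  obtain ⟨σ, c, hc0, hc⟩ := hb g (hH hg)
  rw [mem_quadSimilarityGroup_iff]
  refine ⟨1, fun v => ?_⟩
  rw [Units.val_one, one_mul, sumSq_apply, sumSq_apply,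
    ← Equiv.sum_comp σ (fun i => (b.repr ((g : Matrix (Fin n) (Fin n) F) *ᵥ v) i) ^ 2)]
  apply Finset.sum_congr rfl
  intro j _
  rw [repr_mono b _ σ c hc, mul_pow]
  have h3 := FiniteField.pow_card_sub_one_eq_one (c j) (hc0 j)
  rw [hq] at h3
  have h4 : c j ^ 2 = 1 := h3
  rw [h4, one_mul]

/-! ### Four elements: the hermitian form -/

theorem small_four [Fintype F] (hq : Fintype.card F = 4) (H : Subgroup (GL (Fin n) F))
    (D : Fin n → Submodule F (Fin n → F)) (hD : IsMDecomposition 1 D)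
    (hH : H ≤ decompositionStabilizer D) :
    ∃ (σ : F ≃+* F) (f : (Fin n → F) → (Fin n → F) → F), IsUnitaryForm σ f ∧
      H ≤ similarityGroup f := by
  classical
  obtain ⟨b, hb⟩ := exists_adapted_basis D hD
  have h2 : (2 : F) = 0 := by
    have h4 : ((Fintype.card F : ℕ) : F) = 0 := FiniteField.cast_card_eq_zero F
    rw [hq] at h4
    have h5 : (2 : F) * 2 = 0 := by rw [← h4]; push_cast; ring
    exact mul_self_eq_zero.mp h5
  have hchar : CharP F 2 := CharTwo.of_one_ne_zero_of_two_eq_zero one_ne_zero h2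
  have hfact : Fact (Nat.Prime 2) := ⟨Nat.prime_two⟩
  obtain ⟨τ, hτ⟩ : ∃ τ : F ≃+* F, τ = frobeniusEquiv F 2 := ⟨_, rfl⟩
  have hτa : ∀ a : F, τ a = a ^ 2 := by
    intro a
    rw [hτ, coe_frobeniusEquiv, frobenius_def]
  have hinv : ∀ a : F, τ (τ a) = a := by
    intro a
    rw [hτa, hτa, ← pow_mul]
    have := FiniteField.pow_card a
    rw [hq] at this
    exact this
  have hne : τ ≠ RingEquiv.refl F := by
    intro h
    obtain ⟨g, hg⟩ := IsCyclic.exists_ofOrder_eq_natCard (α := Fˣ)
    rw [Nat.card_units, Nat.card_eq_fintype_card, hq] at hg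
    have h1 : τ (g : F) = g := by rw [h]; rfl
    rw [hτa, pow_two] at h1
    have h3 : (g : F) = 1 := by
      have h4 : (g : F) * (g : F) = 1 * (g : F) := by rw [one_mul]; exact h1
      exact mul_right_cancel₀ g.ne_zero h4
    have h5 : g = 1 := Units.ext h3
    rw [h5, orderOf_one] at hg
    omega
  have hU := ExtraBasis.herm_unitary b τ hne hinv
  refine ⟨τ, ExtraBasis.herm b τ, hU, fun g hg => ?_⟩
  obtain ⟨σ, c, hc0, hc⟩ := hb g (hH hg)
  rw [mem_similarityGroup_iff]
  refine ⟨1, fun u v => ?_⟩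
  rw [Units.val_one, one_mul, ExtraBasis.herm_apply, ExtraBasis.herm_apply,
    ← Equiv.sum_comp σ (fun i => b.repr ((g : Matrix (Fin n) (Fin n) F) *ᵥ u) i
        * τ (b.repr ((g : Matrix (Fin n) (Fin n) F) *ᵥ v) i))]
  apply Finset.sum_congr rfl
  intro j _
  rw [repr_mono b _ σ c hc, repr_mono b _ σ c hc, map_mul, hτa (c j)]
  have h3 := FiniteField.pow_card_sub_one_eq_one (c j) (hc0 j)
  rw [hq] at h3
  have h4 : c j ^ 3 = 1 := h3
  have h5 : c j * b.repr u j * (c j ^ 2 * τ (b.repr v j)) = c j ^ 3 * (b.repr u j * τ (b.repr v j)) := by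
    ring
  rw [h5, h4, one_mul]

theorem not_all_scalar_of_finrank (K : Subalgebra F (Matrix (Fin n) (Fin n) F))
    (h : 2 ≤ Module.finrank F K) :
    ¬ ∀ k ∈ K, ∃ c : F, k = c • (1 : Matrix (Fin n) (Fin n) F) := by
  classical
  intro hall
  have hle : Subalgebra.toSubmodule K ≤ Submodule.span F {(1 : Matrix (Fin n) (Fin n) F)} := by
    intro k hk
    obtain ⟨c, hc⟩ := hall k hk
    rw [hc]
    exact Submodule.smul_mem _ _ (Submodule.mem_span_singleton_self _)
  have h1 := Submodule.finrank_mono hle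
  have h2 : Module.finrank F (Submodule.span F {(1 : Matrix (Fin n) (Fin n) F)}) ≤ 1 := by
    have := finrank_span_le_card (R := F) ({(1 : Matrix (Fin n) (Fin n) F)} : Set _)
    simpa using this
  have h3 : Module.finrank F K ≤ 1 := le_trans h1 h2
  omega

end Cfsg.Agent.Helper97
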