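-- helper97 library: maximal subgroups of SL_n(q) for n an odd prime (Aschbacher's theorem).
import Cfsg.Agent.Helper97.Small

set_option autoImplicit false
open Cfsg Cfsg.Geo Matrix

namespace Cfsg.Agent.Helper97

variable {F : Type*} [Field F] {n : ℕ}

/-- An irreducible group is not scalar (in dimension at least two). -/
theorem not_le_scalars_of_irreducible (hn : 2 ≤ n) (H : Subgroup (GL (Fin n) F))
    (hirr : ActsIrreducibly (matrixSet H)) : ¬ H ≤ scalars (Fin n) F := by
  classical
  intro hle
  obtain ⟨v, hv⟩ : ∃ v : Fin n → F, v = Pi.single (⟨0, by omega⟩ : Fin n) 1 := ⟨_, rfl⟩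
  have hv0 : v ≠ 0 := by
    intro h
    have := congrFun h ⟨0, by omega⟩
    rw [hv] at this
    simp at this
  have hinv : ∀ s ∈ matrixSet H,
      (Submodule.span F {v}).map (Matrix.toLin' s) ≤ Submodule.span F {v} := by
    rintro _ ⟨g, hg, rfl⟩ _ ⟨w, hw, rfl⟩
    obtain ⟨c, hc⟩ := (scalar_mem_scalars_iff g).mp (hle hg)
    rw [Matrix.toLin'_apply]
    show (g : Matrix (Fin n) (Fin n) F) *ᵥ w ∈ Submodule.span F {v}
    rw [hc, Matrix.smul_mulVec, Matrix.one_mulVec]
    exact Submodule.smul_mem _ _ hw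
  rcases hirr _ hinv with h | h
  · apply hv0
    have : v ∈ Submodule.span F {v} := Submodule.mem_span_singleton_self v
    rw [h] at this
    exact (Submodule.mem_bot F).mp this
  · have h1 : Module.finrank F (Submodule.span F {v}) = 1 := finrank_span_singleton hv0
    rw [h, finrank_top, Module.finrank_fin_fun] at h1
    omega

theorem le_subgroupNormalizer (H N : Subgroup (GL (Fin n) F))
    (hNn : ∀ h ∈ H, ∀ x ∈ N, h * x * h⁻¹ ∈ N) : H ≤ subgroupNormalizer N := by
  intro h hh
  show h ∈ Subgroup.normalizer (N : Set (GL (Fin n) F))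
  rw [Subgroup.mem_normalizer_iff]
  intro x
  constructor
  · exact hNn h hh x
  · intro hx
    have := hNn h⁻¹ (H.inv_mem hh) _ hx
    have h2 : h⁻¹ * (h * x * h⁻¹) * h⁻¹⁻¹ = x := by group
    rwa [h2] at this

/-- Aschbacher's theorem for `SL_n(q)`, `n` an odd prime. -/
theorem prime_dim_cases [Fintype F] (hn : n.Prime) (hodd : Odd n)
    (H : Subgroup (GL (Fin n) F)) (hH : IsMaximalIn (specialLinear (Fin n) F) H) :
    (∃ W : Submodule F (Fin n → F), W ≠ ⊥ ∧ W ≠ ⊤ ∧
      H = subspaceStabilizer W ⊓ specialLinear (Fin n) F) ∨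
    (5 ≤ Fintype.card F ∧ ∃ D : Fin n → Submodule F (Fin n → F), IsMDecomposition 1 D ∧
      H = decompositionStabilizer D ⊓ specialLinear (Fin n) F) ∨
    (∃ K : Subalgebra F (Matrix (Fin n) (Fin n) F), IsFieldSubalgebra n K ∧
      H = subalgebraNormalizer K ⊓ specialLinear (Fin n) F) ∨
    (∃ (F₀ : Subfield F) (r : ℕ) (P : GL (Fin n) F), r.Prime ∧ Fintype.card F = Nat.card F₀ ^ r ∧
      H = subfieldSubgroup F₀ P ⊓ specialLinear (Fin n) F) ∨
    ((∃ p e : ℕ, p.Prime ∧ CharP F p ∧ Odd e ∧ Fintype.card F = p ^ e ∧ n ∣ p ^ e - 1 ∧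
        ∀ d : ℕ, 0 < d → d < e → ¬ n ∣ p ^ d - 1) ∧
      ∃ R : Subgroup (GL (Fin n) F), IsLinearSymplecticTypeData n R ∧
        H = subgroupNormalizer R ⊓ specialLinear (Fin n) F) ∨
    (Odd (Fintype.card F) ∧ ∃ Q : (Fin n → F) → F, IsNondegenerateQuadraticForm Q ∧
      H = quadSimilarityGroup Q ⊓ specialLinear (Fin n) F) ∨
    (∃ (σ : F ≃+* F) (f : (Fin n → F) → (Fin n → F) → F), IsUnitaryForm σ f ∧
      H = similarityGroup f ⊓ specialLinear (Fin n) F) ∨
    InLinearResidualClass H := by
  classical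
  obtain ⟨p, hchar⟩ := CharP.exists F
  have hp : p.Prime := (CharP.char_is_prime_or_zero F p).resolve_right (CharP.char_ne_zero_of_finite F p)
  have hfact : Fact p.Prime := ⟨hp⟩
  have hn2 : 2 ≤ n := hn.two_le
  have hn3 : 3 ≤ n := by
    rcases hn.eq_two_or_odd' with h | _
    · rw [h] at hodd
      exact absurd hodd (by decide)
    · obtain ⟨k, hk⟩ := hodd
      omega
  have hnz : NeZero n := ⟨hn.ne_zero⟩
  have hHSL : H ≤ specialLinear (Fin n) F := hH.1.le
  have hZc : ∀ z ∈ scalars (Fin n) F, ∀ g : GL (Fin n) F, z * g = g * z :=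
    fun z hz g => scalars_comm hz g
  by_cases hirr : ActsIrreducibly (matrixSet H)
  swap
  · -- reducible: class 1
    have hex : ∃ W : Submodule F (Fin n → F),
        (∀ s ∈ matrixSet H, W.map (Matrix.toLin' s) ≤ W) ∧ W ≠ ⊥ ∧ W ≠ ⊤ := by
      by_contra hcon
      apply hirr
      intro W hW
      by_contra hW'
      rw [not_or] at hW'
      exact hcon ⟨W, hW, hW'.1, hW'.2⟩
    obtain ⟨W, hW, hW0, hW1⟩ := hex
    left
    have hle : H ≤ subspaceStabilizer W := le_subspaceStabilizer H W
      (fun g hg v hv => hW _ (coe_mem_matrixSet hg) ⟨v, hv, by rw [Matrix.toLin'_apply]⟩)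
    exact ⟨W, hW0, hW1, eq_inf_of_isMaximalIn hH hle (notSL_subspace hn2 W hW0 hW1)⟩
  -- irreducible
  have hHZ : ¬ H ≤ scalars (Fin n) F := not_le_scalars_of_irreducible hn2 H hirr
  obtain ⟨N, hNH, hNn, hNZ, hNmin⟩ := exists_minimal_normal (scalars (Fin n) F) H hHZ
  rcases clifford_dichotomy hn H N hirr hNn with h | ⟨-, h | h⟩ | habs
  · exact absurd h hNZ
  · -- a decomposition into lines
    obtain ⟨D, hD, hHD⟩ := h
    by_cases hq : 5 ≤ Fintype.card F
    · right; left
      exact ⟨hq, D, hD, eq_inf_of_isMaximalIn hH hHD (notSL_decomp D hD)⟩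
    · have hq1 : 1 < Fintype.card F := Fintype.one_lt_card
      have hq' : Fintype.card F = 2 ∨ Fintype.card F = 3 ∨ Fintype.card F = 4 := by omega
      rcases hq' with h2 | h3 | h4
      · obtain ⟨W, hW0, hW1, hle⟩ := small_two hn h2 H D hD hHD
        left
        exact ⟨W, hW0, hW1, eq_inf_of_isMaximalIn hH hle (notSL_subspace hn2 W hW0 hW1)⟩
      · obtain ⟨Q, hQ, hle⟩ := small_three h3 H D hD hHD
        right; right; right; right; right; left
        exact ⟨by rw [h3]; decide, Q, hQ,
          eq_inf_of_isMaximalIn hH hle (notSL_quadSimilarity (p := p) hn3 Q hQ)⟩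
      · obtain ⟨σ, f, hf, hle⟩ := small_four h4 H D hD hHD
        right; right; right; right; right; right; left
        exact ⟨σ, f, hf, eq_inf_of_isMaximalIn hH hle (notSL_unitary (p := p) hn3 σ f hf)⟩
  · -- an extension field
    obtain ⟨K, hK, hHK⟩ := h
    right; right; left
    exact ⟨K, hK, eq_inf_of_isMaximalIn hH hHK (notSL_fieldNormalizer hn3 K hK.inv
      (not_all_scalar_of_finrank K (by rw [hK.finrank_eq]; exact hn2)))⟩
  · -- `N` is absolutely irreducible
    have hNSL : N ≤ specialLinear (Fin n) F := hNH.trans hHSL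
    have hCN : ⁅N, N⁆ ≤ N := by
      rw [Subgroup.commutator_le]
      intro a ha b hb
      rw [commutatorElement_def]
      exact N.mul_mem (N.mul_mem (N.mul_mem ha hb) (N.inv_mem ha)) (N.inv_mem hb)
    rcases hNmin ⁅N, N⁆ hCN (commutator_normalized H N hNn) with hC | hC
    · -- class two modulo scalars: the extraspecial case
      have hab : ∀ a ∈ N, ∀ b ∈ N, a * b * a⁻¹ * b⁻¹ ∈ scalars (Fin n) F := by
        intro a ha b hb
        have := Subgroup.commutator_mem_commutator ha hb
        rw [commutatorElement_def] at this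
        exact hC this
      rcases extra_trichotomy (p := p) hn hodd H N hNSL hNn hNZ hNmin hab habs with hA | hB | hC'
      · obtain ⟨F₁, r, B, hr, hcard, hnorm'⟩ := hA
        right; right; right; left
        have hle : H ≤ subfieldSubgroup F₁ B := fun h hh => hnorm' h (hNn h hh)
        exact ⟨F₁, r, B, hr, hcard, eq_inf_of_isMaximalIn hH hle
          (notSL_subfield hn2 F₁ (subfield_ne_top_of_card F₁ r hr hcard) B)⟩
      · obtain ⟨σ, f, hf, hnorm'⟩ := hB
        right; right; right; right; right; right; left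
        have hle : H ≤ similarityGroup f := fun h hh => hnorm' h (hNn h hh)
        exact ⟨σ, f, hf, eq_inf_of_isMaximalIn hH hle (notSL_unitary (p := p) hn3 σ f hf)⟩
      · obtain ⟨hdata, hnotSL, e, he, hcard, hdvd, hmin⟩ := hC'
        right; right; right; right; left
        exact ⟨⟨p, e, hp, hchar, he, hcard, hdvd, hmin⟩, N, hdata,
          eq_inf_of_isMaximalIn hH (le_subgroupNormalizer H N hNn) hnotSL⟩
    · -- perfect: the residual case
      have hperf : ⁅N, N⁆ = N := hC
      have hirrN : ActsIrreducibly (matrixSet N) := habs.1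
      have hcentN : ∀ c : GL (Fin n) F, (∀ s ∈ N, c * s = s * c) → c ∈ scalars (Fin n) F := by
        intro c hc
        obtain ⟨a, ha⟩ := habs.2 (c : Matrix (Fin n) (Fin n) F) (by
          rintro _ ⟨s, hs, rfl⟩
          rw [← Units.val_mul, ← Units.val_mul, hc s hs])
        exact (scalar_mem_scalars_iff c).mpr ⟨a, ha⟩
      have hdich : ∀ S : Subgroup (GL (Fin n) F), S ≤ N → (∀ x ∈ N, ∀ s ∈ S, x * s * x⁻¹ ∈ S) →
          S ≤ scalars (Fin n) F ∨ (∀ a ∈ S, ∀ b ∈ S, a * b = b * a) ∨
            (∀ c : GL (Fin n) F, (∀ s ∈ S, c * s = s * c) → c ∈ scalars (Fin n) F) := by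
        intro S _ hSn
        rcases clifford_dichotomy hn N S hirrN hSn with h | ⟨h, -⟩ | h
        · exact Or.inl h
        · exact Or.inr (Or.inl h)
        · right; right
          intro c hc
          obtain ⟨a, ha⟩ := h.2 (c : Matrix (Fin n) (Fin n) F) (by
            rintro _ ⟨s, hs, rfl⟩
            rw [← Units.val_mul, ← Units.val_mul, hc s hs])
          exact (scalar_mem_scalars_iff c).mpr ⟨a, ha⟩
      have hsimple := simple_of_minimal (scalars (Fin n) F) H N hZc hNn hNZ hNmin hperf hdich
      by_cases hsub : ∃ F₀ : Subfield F, F₀ ≠ ⊤ ∧ RealisableOver F₀ (matrixSet N)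
      · obtain ⟨F₀, hF₀, hreal⟩ := hsub
        obtain ⟨F₁, r, B, hr, hcard, hnorm'⟩ :=
          normalizer_le_subfield_of_realisable N habs F₀ hF₀ hreal
        right; right; right; left
        have hle : H ≤ subfieldSubgroup F₁ B := fun h hh => hnorm' h (hNn h hh)
        exact ⟨F₁, r, B, hr, hcard, eq_inf_of_isMaximalIn hH hle
          (notSL_subfield hn2 F₁ (subfield_ne_top_of_card F₁ r hr hcard) B)⟩
      have hcore : IsResidualCore H N :=
        { le := hNH
          normal := hNn
          perfect := hperf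
          simple := isSimpleGroup_quot (scalars (Fin n) F) N hNZ hsimple
          nonabelian := not_commutative_quot (scalars (Fin n) F) N hNZ hperf
          centralizer_scalar := fun h _ hh =>
            mem_of_centralizes_mod (scalars (Fin n) F) N hZc hperf hcentN h hh
          absIrred := habs
          no_subfield := fun F₀ hF₀ hreal => hsub ⟨F₀, hF₀, hreal⟩ }
      by_cases hquad : ∃ Q : (Fin n → F) → F,
          IsNondegenerateQuadraticForm Q ∧ FixesQuadForm (matrixSet N) Q
      · obtain ⟨Q, hQ, hfix⟩ := hquad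
        have h2 : (2 : F) ≠ 0 := fun h2 => not_quadratic_char_two_of_odd hodd h2 Q hQ
        right; right; right; right; right; left
        have hle : H ≤ quadSimilarityGroup Q :=
          fun h hh => normalizer_le_quadSimilarity N habs Q hQ h2 hfix h (hNn h hh)
        refine ⟨?_, Q, hQ, eq_inf_of_isMaximalIn hH hle (notSL_quadSimilarity (p := p) hn3 Q hQ)⟩
        obtain ⟨e, -, hcard⟩ := FiniteField.card F p
        rw [hcard]
        apply Odd.pow
        rcases hp.eq_two_or_odd' with h | h
        · exfalso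
          apply h2
          have h3 := CharP.cast_eq_zero F p
          rw [h] at h3
          exact_mod_cast h3
        · exact h
      by_cases hsymp : ∃ f : (Fin n → F) → (Fin n → F) → F,
          IsSymplecticForm f ∧ FixesForm (matrixSet N) f
      · obtain ⟨f, hf, -⟩ := hsymp
        exact (not_symplectic_of_odd hodd f hf).elim
      by_cases hunit : ∃ (σ : F ≃+* F) (f : (Fin n → F) → (Fin n → F) → F),
          IsUnitaryForm σ f ∧ FixesForm (matrixSet N) f
      · obtain ⟨σ, f, hf, hfix⟩ := hunit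
        right; right; right; right; right; right; left
        have hle : H ≤ similarityGroup f := fun h hh =>
          normalizer_le_similarity N habs σ f (isSesq_of_unitary hf)
            (fun v hv => (hf.nondegenerate v hv).1) hfix h (hNn h hh)
        exact ⟨σ, f, hf, eq_inf_of_isMaximalIn hH hle (notSL_unitary (p := p) hn3 σ f hf)⟩
      right; right; right; right; right; right; right
      exact ⟨N, hcore, hquad, hsymp, hunit⟩

/-! ### The arithmetic of the class-6 condition -/

theorem dvd_pow_sub_one_iff {n p d : ℕ} (hn : 2 ≤ n) (hp : 0 < p) :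
    n ∣ p ^ d - 1 ↔ (p % n) ^ d % n = 1 := by
  have h1 : 1 ≤ p ^ d := Nat.one_le_pow _ _ hp
  rw [← Nat.modEq_iff_dvd' h1]
  show 1 % n = p ^ d % n ↔ _
  rw [Nat.pow_mod, Nat.mod_eq_of_lt (show 1 < n by omega)]
  exact eq_comm

theorem num_five (r e : ℕ) (hr : r < 5) (he : Odd e) (h1 : r ^ e % 5 = 1)
    (hmin : ∀ d, 0 < d → d < e → r ^ d % 5 ≠ 1) : e = 1 ∧ r = 1 := by
  have he0 : 0 < e := he.pos
  have hr0 : r ≠ 0 := by
    rintro rfl
    rw [zero_pow he0.ne'] at h1
    norm_num at h1
  have hele : e ≤ 4 := by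
    by_contra hgt
    have h2 := hmin 4 (by norm_num) (by omega)
    interval_cases r <;> simp_all
  interval_cases e <;> interval_cases r <;>
    first
    | decide
    | (exfalso; revert h1; decide)
    | (exfalso; revert he; decide)
    | (exfalso; exact hmin 1 (by norm_num) (by norm_num) (by norm_num))

theorem num_seven (r e : ℕ) (hr : r < 7) (he : Odd e) (h1 : r ^ e % 7 = 1)
    (hmin : ∀ d, 0 < d → d < e → r ^ d % 7 ≠ 1) :
    (e = 1 ∧ r = 1) ∨ (e = 3 ∧ (r = 2 ∨ r = 4)) := by
  have he0 : 0 < e := he.pos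
  have hr0 : r ≠ 0 := by
    rintro rfl
    rw [zero_pow he0.ne'] at h1
    norm_num at h1
  have hele : e ≤ 6 := by
    by_contra hgt
    have h2 := hmin 6 (by norm_num) (by omega)
    interval_cases r <;> simp_all
  interval_cases e <;> interval_cases r <;>
    first
    | decide
    | (exfalso; revert h1; decide)
    | (exfalso; revert he; decide)
    | (exfalso; exact hmin 1 (by norm_num) (by norm_num) (by norm_num))

theorem num_eleven (r e : ℕ) (hr : r < 11) (he : Odd e) (h1 : r ^ e % 11 = 1)
    (hmin : ∀ d, 0 < d → d < e → r ^ d % 11 ≠ 1) :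
    (e = 1 ∧ r = 1) ∨ (e = 5 ∧ (r = 3 ∨ r = 4 ∨ r = 5 ∨ r = 9)) := by
  have he0 : 0 < e := he.pos
  have hr0 : r ≠ 0 := by
    rintro rfl
    rw [zero_pow he0.ne'] at h1
    norm_num at h1
  have hele : e ≤ 10 := by
    by_contra hgt
    have h2 := hmin 10 (by norm_num) (by omega)
    interval_cases r <;> simp_all
  interval_cases e <;> interval_cases r <;>
    first
    | decide
    | (exfalso; revert h1; decide)
    | (exfalso; revert he; decide)
    | (exfalso; exact hmin 1 (by norm_num) (by norm_num) (by norm_num))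

end Cfsg.Agent.Helper97
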