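-- helper97 library: the special unitary group is not contained in members of the geometric classes.
import Cfsg.Agent.Helper97.UForm
import Cfsg.Agent.Helper97.PrimeDim

set_option autoImplicit false
open Cfsg Cfsg.Geo Matrix

namespace Cfsg.Agent.Helper97

variable {F : Type*} [Field F] {n : ℕ}

theorem eq_inf_of_isMaximalIn_gen {G₀ H M : Subgroup (GL (Fin n) F)}
    (hH : IsMaximalIn G₀ H) (hHM : H ≤ M) (hM : ¬ G₀ ≤ M) : H = M ⊓ G₀ := by
  rcases hH.2 (M ⊓ G₀) (le_inf hHM hH.1.le) inf_le_right with h | h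
  · exact h.symm
  · exact absurd (h ▸ inf_le_left) hM

theorem gl_ext {g h : GL (Fin n) F}
    (hgh : ∀ v, (g : Matrix (Fin n) (Fin n) F) *ᵥ v = (h : Matrix (Fin n) (Fin n) F) *ᵥ v) : g = h := by
  apply Units.ext
  have h1 : (g : Matrix (Fin n) (Fin n) F) - (h : Matrix (Fin n) (Fin n) F) = 0 :=
    eq_zero_of_mulVec_eq_zero (fun w => by rw [Matrix.sub_mulVec, hgh, sub_self])
  exact sub_eq_zero.mp h1

theorem exists_ne_zero_coord {v : Fin n → F} (hv : v ≠ 0) : ∃ i, v i ≠ 0 := by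
  by_contra hcon
  apply hv
  funext i
  by_contra hi
  exact hcon ⟨i, hi⟩

namespace IsSigma

variable {q : ℕ} {σ : F ≃+* F}

theorem herm_single_right (h : IsSigma q σ) (w : Fin n → F) (i : Fin n) :
    hermForm n F q w (Pi.single i 1) = w i := by
  classical
  rw [h.herm_eq, Finset.sum_eq_single i]
  · rw [Pi.single_eq_same, map_one, mul_one]
  · intro j _ hj
    rw [Pi.single_eq_of_ne hj, map_zero, mul_zero]
  · intro hni
    exact absurd (Finset.mem_univ i) hni

theorem herm_pair_right (h : IsSigma q σ) (w : Fin n → F) (i j : Fin n) (a : F) :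
    hermForm n F q w (Pi.single i 1 + a • Pi.single j 1) = w i + σ a * w j := by
  rw [h.isSesq.add_right, h.isSesq.smul_right, h.herm_single_right, h.herm_single_right]

theorem herm_pair_iso (h : IsSigma q σ) (i j : Fin n) (hij : j ≠ i) (l : F) (hl : l * σ l = -1) :
    hermForm n F q (Pi.single i 1 + l • Pi.single j 1 : Fin n → F)
      (Pi.single i 1 + l • Pi.single j 1) = 0 := by
  classical
  rw [h.herm_pair_right]
  simp only [Pi.add_apply, Pi.smul_apply, Pi.single_eq_same, Pi.single_eq_of_ne hij,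
    Pi.single_eq_of_ne hij.symm, smul_eq_mul, mul_zero, add_zero, zero_add, mul_one]
  linear_combination hl

theorem herm_pair_pair (h : IsSigma q σ) (i j : Fin n) (hij : j ≠ i) (l l' : F) :
    hermForm n F q (Pi.single i 1 + l • Pi.single j 1 : Fin n → F)
      (Pi.single i 1 + l' • Pi.single j 1) = 1 + σ l' * l := by
  classical
  rw [h.herm_pair_right]
  simp only [Pi.add_apply, Pi.smul_apply, Pi.single_eq_same, Pi.single_eq_of_ne hij,
    Pi.single_eq_of_ne hij.symm, smul_eq_mul, mul_zero, add_zero, zero_add, mul_one]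

/-- Two distinct elements of norm `-1`. -/
theorem exists_two_norm [Fintype F] (h : IsSigma q σ) (hF : Fintype.card F = q ^ 2) :
    ∃ l0 l1 : F, l0 * σ l0 = -1 ∧ l1 * σ l1 = -1 ∧ l1 ≠ l0 := by
  obtain ⟨l0, hl0⟩ := h.exists_norm_eq hF (-1) (by rw [map_neg, map_one]) (by simp)
  obtain ⟨m, hm, hm1, -⟩ := h.exists_norm_one
  have hl00 : l0 ≠ 0 := by
    rintro rfl
    simp at hl0
  refine ⟨l0, l0 * m, hl0, ?_, ?_⟩
  · calc l0 * m * σ (l0 * m) = (l0 * σ l0) * (m * σ m) := by rw [map_mul]; ring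
      _ = -1 := by rw [hl0, hm, mul_one]
  · intro h1
    apply hm1
    have h2 : l0 * m = l0 * 1 := by rw [h1, mul_one]
    exact mul_left_cancel₀ hl00 h2

/-- A hyperbolic pair. -/
theorem exists_hyperbolic_pair [Fintype F] (h : IsSigma q σ) (hF : Fintype.card F = q ^ 2) (hn : 2 ≤ n) :
    ∃ u u' : Fin n → F, hermForm n F q u u = 0 ∧ hermForm n F q u' u' = 0 ∧
      hermForm n F q u u' ≠ 0 := by
  obtain ⟨l0, l1, hl0, hl1, hne⟩ := h.exists_two_norm hF
  have h01 : (⟨1, by omega⟩ : Fin n) ≠ ⟨0, by omega⟩ := by simp [Fin.ext_iff]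
  refine ⟨_, _, h.herm_pair_iso ⟨0, by omega⟩ ⟨1, by omega⟩ h01 l0 hl0,
    h.herm_pair_iso ⟨0, by omega⟩ ⟨1, by omega⟩ h01 l1 hl1, ?_⟩
  rw [h.herm_pair_pair _ _ h01]
  intro h0
  apply hne
  have h1 : l1 - l0 = 0 := by linear_combination l1 * h0 - l0 * hl1
  exact sub_eq_zero.mp h1

theorem herm_zero_left (h : IsSigma q σ) (v : Fin n → F) : hermForm n F q 0 v = 0 :=
  h.isSesq.zero_left v

theorem exists_isotropic [Fintype F] (h : IsSigma q σ) (hF : Fintype.card F = q ^ 2) (hn : 2 ≤ n) :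
    ∃ u : Fin n → F, u ≠ 0 ∧ hermForm n F q u u = 0 := by
  obtain ⟨u, u', hu, -, huu'⟩ := h.exists_hyperbolic_pair hF hn
  refine ⟨u, ?_, hu⟩
  rintro rfl
  exact huu' (h.herm_zero_left u')

/-! ### Class 1 -/

theorem notSU_subspace [Fintype F] (h : IsSigma q σ) (hF : Fintype.card F = q ^ 2) (hn : 2 ≤ n)
    (W : Submodule F (Fin n → F)) (hW0 : W ≠ ⊥) (hW1 : W ≠ ⊤) :
    ¬ GU n F q ⊓ specialLinear (Fin n) F ≤ subspaceStabilizer W := by
  classical
  intro hle
  apply hW1
  obtain ⟨c, hc0, hc⟩ := h.exists_trace_zero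
  have hT : ∀ u : Fin n → F, hermForm n F q u u = 0 → ∀ w ∈ W, hermForm n F q w u ≠ 0 → u ∈ W := by
    intro u hu w hw hwu
    obtain ⟨t, htG, ht, -⟩ := h.exists_utv u hu c hc
    have h1 := ((mem_subspaceStabilizer_iff W t).mp (hle htG) w).mp hw
    rw [ht] at h1
    have h2 : (c * hermForm n F q w u) • u ∈ W := by
      have := W.sub_mem h1 hw
      simpa using this
    have h3 := W.smul_mem (c * hermForm n F q w u)⁻¹ h2
    rwa [smul_smul, inv_mul_cancel₀ (mul_ne_zero hc0 hwu), one_smul] at h3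
  obtain ⟨l0, l1, hl0, hl1, hl01⟩ := h.exists_two_norm hF
  obtain ⟨v, hvW, hv0⟩ := (Submodule.ne_bot_iff W).mp hW0
  obtain ⟨i, hi⟩ := exists_ne_zero_coord hv0
  have key : ∀ j, j ≠ i → (Pi.single j 1 : Fin n → F) ∈ W ∧ (Pi.single i 1 : Fin n → F) ∈ W := by
    intro j hj
    have hex : ∃ l l' : F, l * σ l = -1 ∧ l' * σ l' = -1 ∧ l ≠ l' ∧ v i + σ l * v j ≠ 0 := by
      by_cases h0 : v i + σ l0 * v j = 0
      · refine ⟨l1, l0, hl1, hl0, hl01, ?_⟩
        intro h1
        have h2 : (σ l1 - σ l0) * v j = 0 := by linear_combination h1 - h0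
        rcases mul_eq_zero.mp h2 with h3 | h3
        · exact hl01 (σ.injective (sub_eq_zero.mp h3))
        · rw [h3, mul_zero, add_zero] at h0
          exact hi h0
      · exact ⟨l0, l1, hl0, hl1, hl01.symm, h0⟩
    obtain ⟨l, l', hl, hl', hne, hv⟩ := hex
    have ha : (Pi.single i 1 + l • Pi.single j 1 : Fin n → F) ∈ W :=
      hT _ (h.herm_pair_iso i j hj l hl) v hvW (by rw [h.herm_pair_right]; exact hv)
    have ha' : (Pi.single i 1 + l' • Pi.single j 1 : Fin n → F) ∈ W := by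
      refine hT _ (h.herm_pair_iso i j hj l' hl') _ ha ?_
      rw [h.herm_pair_pair i j hj]
      intro h0
      apply hne
      have h1 : l' - l = 0 := by linear_combination l' * h0 - l * hl'
      exact (sub_eq_zero.mp h1).symm
    have hj' : (l - l') • (Pi.single j 1 : Fin n → F) ∈ W := by
      have h1 := W.sub_mem ha ha'
      have e : (Pi.single i 1 + l • Pi.single j 1 : Fin n → F) - (Pi.single i 1 + l' • Pi.single j 1)
          = (l - l') • (Pi.single j 1 : Fin n → F) := by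
        rw [sub_smul]; abel
      rwa [e] at h1
    have hj'' : (Pi.single j 1 : Fin n → F) ∈ W := by
      have h1 := W.smul_mem (l - l')⁻¹ hj'
      rwa [smul_smul, inv_mul_cancel₀ (sub_ne_zero.mpr hne), one_smul] at h1
    refine ⟨hj'', ?_⟩
    have h1 := W.sub_mem ha (W.smul_mem l hj'')
    simpa using h1
  have hall : ∀ k, (Pi.single k 1 : Fin n → F) ∈ W := by
    intro k
    by_cases hk : k = i
    · subst hk
      obtain ⟨j, hj⟩ : ∃ j : Fin n, j ≠ k := by
        by_cases h0 : k = ⟨0, by omega⟩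
        · exact ⟨⟨1, by omega⟩, by rw [h0]; simp [Fin.ext_iff]⟩
        · exact ⟨⟨0, by omega⟩, fun h => h0 h.symm⟩
      exact (key j hj).2
    · exact (key k hk).1
  rw [eq_top_iff]
  intro v _
  rw [vec_eq_sum_single v]
  exact W.sum_mem fun i _ => W.smul_mem _ (hall i)

end IsSigma

end Cfsg.Agent.Helper97
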