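import Mathlib
import Cfsg.Agent.Helper98.OPar
import Cfsg.Agent.Helper39.LawEmbed
import Cfsg.Agent.Helper44.OmegaPlus

set_option autoImplicit false

/-!
Helper library (helper97), definitions shared by the pieces of the two-generation of `PΩ⁺_{2m}(q)`
(S2414): the hyperbolic form as a bundled quadratic form, the standard hyperbolic basis, the Levi
embedding `A ↦ diag(A, A⁻ᵀ)` of `SL_m` into the isometry group, and the three auxiliary elements.
-/

universe u

namespace Cfsg.Agent.Helper97.TG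

open Cfsg Matrix Cfsg.Agent.Helper45 Cfsg.Agent.Helper98

variable (m : ℕ) (F : Type u) [Field F]

/-- the hyperbolic quadratic form `Σ x_i y_i`, bundled -/
abbrev QP : QuadraticForm F (Fin m ⊕ Fin m → F) := Helper43.plusQF m F

/-- the basis vector `e_i` -/
def eV (i : Fin m) : Fin m ⊕ Fin m → F := Pi.single (Sum.inl i) 1

/-- the basis vector `f_i` -/
def fV (i : Fin m) : Fin m ⊕ Fin m → F := Pi.single (Sum.inr i) 1

variable {m F}

theorem polar_eq (u v : Fin m ⊕ Fin m → F) :
    QuadraticMap.polar ⇑(QP m F) u v =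
      ∑ i, (u (Sum.inl i) * v (Sum.inr i) + u (Sum.inr i) * v (Sum.inl i)) := by
  rw [Helper44.plusQF_polar, Helper44.Jp_form]

theorem QP_apply (v : Fin m ⊕ Fin m → F) :
    QP m F v = ∑ i : Fin m, v (Sum.inl i) * v (Sum.inr i) := rfl

theorem polar_eV_left (i : Fin m) (v : Fin m ⊕ Fin m → F) :
    QuadraticMap.polar ⇑(QP m F) (eV m F i) v = v (Sum.inr i) := by
  rw [polar_eq]
  simp [eV, Pi.single_apply]

theorem polar_fV_left (i : Fin m) (v : Fin m ⊕ Fin m → F) :
    QuadraticMap.polar ⇑(QP m F) (fV m F i) v = v (Sum.inl i) := by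
  rw [polar_eq]
  simp [fV, Pi.single_apply]

theorem polar_eV_right (i : Fin m) (v : Fin m ⊕ Fin m → F) :
    QuadraticMap.polar ⇑(QP m F) v (eV m F i) = v (Sum.inr i) := by
  rw [QuadraticMap.polar_comm, polar_eV_left]

theorem polar_fV_right (i : Fin m) (v : Fin m ⊕ Fin m → F) :
    QuadraticMap.polar ⇑(QP m F) v (fV m F i) = v (Sum.inl i) := by
  rw [QuadraticMap.polar_comm, polar_fV_left]

@[simp] theorem eV_inl (i j : Fin m) : eV m F i (Sum.inl j) = if j = i then 1 else 0 := by
  simp [eV, Pi.single_apply]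

@[simp] theorem eV_inr (i j : Fin m) : eV m F i (Sum.inr j) = 0 := by
  simp [eV, Pi.single_apply]

@[simp] theorem fV_inl (i j : Fin m) : fV m F i (Sum.inl j) = 0 := by
  simp [fV, Pi.single_apply]

@[simp] theorem fV_inr (i j : Fin m) : fV m F i (Sum.inr j) = if j = i then 1 else 0 := by
  simp [fV, Pi.single_apply]

theorem QP_eV (i : Fin m) : QP m F (eV m F i) = 0 := by
  rw [QP_apply]
  simp

theorem QP_fV (i : Fin m) : QP m F (fV m F i) = 0 := by
  rw [QP_apply]
  simp

theorem QP_smul_eV (c : F) (i : Fin m) : QP m F (c • eV m F i) = 0 := by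
  rw [QuadraticMap.map_smul, QP_eV, smul_zero]

theorem QP_smul_fV (c : F) (i : Fin m) : QP m F (c • fV m F i) = 0 := by
  rw [QuadraticMap.map_smul, QP_fV, smul_zero]

/-- `e_i ⊥ c f_j` for `i ≠ j` -/
theorem polar_eV_smul_fV (i j : Fin m) (hij : i ≠ j) (c : F) :
    QuadraticMap.polar ⇑(QP m F) (eV m F i) (c • fV m F j) = 0 := by
  rw [polar_eV_left]
  simp [hij]

/-- `e_i ⊥ c e_j` -/
theorem polar_eV_smul_eV (i j : Fin m) (c : F) :
    QuadraticMap.polar ⇑(QP m F) (eV m F i) (c • eV m F j) = 0 := by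
  rw [polar_eV_left]
  simp

/-- `f_i ⊥ c f_j` -/
theorem polar_fV_smul_fV (i j : Fin m) (c : F) :
    QuadraticMap.polar ⇑(QP m F) (fV m F i) (c • fV m F j) = 0 := by
  rw [polar_fV_left]
  simp

variable (m F)

/-- the Levi embedding `A ↦ diag(A, A⁻ᵀ)` of `SL_m(F)` into the isometry group of the hyperbolic
form -/
noncomputable def iota :
    Matrix.SpecialLinearGroup (Fin m) F →* ↥(isometryGroup F ⇑(QP m F)) where
  toFun A := ⟨((Helper39.dblHom (Fin m) F).comp Matrix.SpecialLinearGroup.toGL).toHomUnits A,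
    fun u _ => Helper39.quadFormPlus_dbl _ u⟩
  map_one' := Subtype.ext
    (map_one ((Helper39.dblHom (Fin m) F).comp Matrix.SpecialLinearGroup.toGL).toHomUnits)
  map_mul' a b := Subtype.ext
    (map_mul ((Helper39.dblHom (Fin m) F).comp Matrix.SpecialLinearGroup.toGL).toHomUnits a b)

variable {m F}

theorem mv_iota (A : Matrix.SpecialLinearGroup (Fin m) F) (x : Fin m ⊕ Fin m → F) :
    mv ⇑(QP m F) (iota m F A) x =
      Sum.elim ((A : Matrix (Fin m) (Fin m) F) *ᵥ (x ∘ Sum.inl))
        (((A⁻¹ : Matrix.SpecialLinearGroup (Fin m) F) : Matrix (Fin m) (Fin m) F)ᵀ *ᵥ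
          (x ∘ Sum.inr)) := by
  show (Matrix.fromBlocks (A : Matrix (Fin m) (Fin m) F) 0 0 _) *ᵥ x = _
  rw [Matrix.fromBlocks_mulVec]
  simp only [Matrix.zero_mulVec, add_zero, zero_add]
  rfl

/-- the first auxiliary element (a long root element on the hyperbolic pairs `a`, `b`):
`E(e_a - f_b, e_b + f_a)` -/
noncomputable def sU (a b : Fin m) (hab : a ≠ b) : ↥(isometryGroup F ⇑(QP m F)) :=
  eichO (QP m F) (eV m F a - fV m F b) (eV m F b + fV m F a)
    (by
      rw [QP_apply]
      apply Finset.sum_eq_zero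
      intro i _
      by_cases h1 : i = a
      · subst h1
        simp [hab]
      · simp [h1])
    (by
      rw [polar_eq]
      have hba : b ≠ a := fun h => hab h.symm
      rw [Finset.sum_eq_add_of_mem a b (Finset.mem_univ _) (Finset.mem_univ _) hab]
      · simp [hab, hba]
      · intro i _ hi
        simp [hi.1, hi.2])

/-- the second auxiliary element (of order three in characteristic two):
`E(e_a, e_b) * E(f_a, f_b)` -/
noncomputable def s3 (a b : Fin m) : ↥(isometryGroup F ⇑(QP m F)) :=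
  eichO (QP m F) (eV m F a) (eV m F b) (QP_eV a)
      (by simpa using polar_eV_smul_eV (F := F) a b 1) *
    eichO (QP m F) (fV m F a) (fV m F b) (QP_fV a)
      (by simpa using polar_fV_smul_fV (F := F) a b 1)

theorem QP_eV_sub_fV (a : Fin m) : QP m F (eV m F a - fV m F a) = -1 := by
  rw [QP_apply, Finset.sum_eq_single a]
  · simp
  · intro i _ hi
    simp [hi]
  · intro h
    exact absurd (Finset.mem_univ a) h

theorem QP_eV_sub_fV_ne (a : Fin m) : QP m F (eV m F a - fV m F a) ≠ 0 := by
  rw [QP_eV_sub_fV]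
  exact neg_ne_zero.mpr one_ne_zero

/-- the third auxiliary element (a double swap `e_a ↔ f_a`, `e_b ↔ f_b`, an involution):
the product of the reflections in `e_a - f_a` and `e_b - f_b` -/
noncomputable def dS (a b : Fin m) : ↥(isometryGroup F ⇑(QP m F)) :=
  reflO (QP m F) (eV m F a - fV m F a) (QP_eV_sub_fV_ne a) *
    reflO (QP m F) (eV m F b - fV m F b) (QP_eV_sub_fV_ne b)

end Cfsg.Agent.Helper97.TG
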