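import Mathlib
import Cfsg.Prelude.Def_GeometricClasses
import Cfsg.Prelude.Def_Classical
import Cfsg.Agent.Helper65.S74Defs
import Cfsg.Agent.Helper96.OHDefs
import Cfsg.Agent.Helper31.OHOPERP
import Cfsg.Agent.Helper33.OType
import Cfsg.Agent.Helper65.OSubAll
import Cfsg.Agent.Helper35.TSSTDP
import Cfsg.Agent.Helper90.TSR2Main

set_option autoImplicit false
set_option linter.unusedSectionVars false
set_option linter.unusedVariables false

/-!
# CALL S74 (helper65; row S5974), stage T2G (helper97): `r = p = 2`, `⟸`.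

An involutory isometry `T` of a nondegenerate quadratic space in characteristic `2`: the space is
an orthogonal sum of `T`-invariant nondegenerate blocks - planes and `4`-spaces of plus type
(`t2_block`, `t2_profile`); sub-sums of blocks give invariant hyperbolic subspaces (`t2_arith`).
-/

namespace Cfsg.Agent.Helper97.S74

open Module Cfsg Cfsg.Geo Cfsg.Agent.Helper65.S74 Cfsg.Agent.Helper96.OH
open scoped MatrixGroups

section generic

variable {ι : Type} [Fintype ι] [DecidableEq ι] {F : Type*} [Field F] [Fintype F]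
  (Q : (ι → F) → F)

/-- characteristic 2: the polar form is alternating. -/
theorem t2_self (hQ : IsNondegenerateQuadraticForm Q) (h2 : (2 : F) = 0) (x : ι → F) :
    QuadraticMap.polar Q x x = 0 := by
  have h := pB_self Q hQ x
  rw [pB_apply, h2, zero_mul] at h
  exact h

/-- characteristic 2: two vectors with nonzero polar product span a nondegenerate plane. -/
theorem t2_plane (hQ : IsNondegenerateQuadraticForm Q) (h2 : (2 : F) = 0) (z x : ι → F)
    (hzx : QuadraticMap.polar Q z x ≠ 0) :
    ONd Q (Submodule.span F {z, x}) ∧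
      finrank F (Submodule.span F ({z, x} : Set (ι → F))) = 2 := by
  classical
  have hB := hQ.polar_bilinear
  have pl_comm : ∀ x y : ι → F, QuadraticMap.polar Q x y = QuadraticMap.polar Q y x :=
    fun x y => QuadraticMap.polar_comm Q x y
  have pl_self := t2_self Q hQ h2
  have hz : ∀ v : ι → F, QuadraticMap.polar Q 0 v = 0 := fun v => by
    have := hB.smul_left 0 0 v
    simpa using this
  have hxz : QuadraticMap.polar Q x z ≠ 0 := by rw [pl_comm]; exact hzx
  have hpol_z : ∀ α β : F, QuadraticMap.polar Q (α • z + β • x) z =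
      β * QuadraticMap.polar Q x z := by
    intro α β
    rw [hB.add_left, hB.smul_left, hB.smul_left, pl_self]; ring
  have hpol_x : ∀ α β : F, QuadraticMap.polar Q (α • z + β • x) x =
      α * QuadraticMap.polar Q z x := by
    intro α β
    rw [hB.add_left, hB.smul_left, hB.smul_left, pl_self]; ring
  have hzE : z ∈ Submodule.span F ({z, x} : Set (ι → F)) := Submodule.subset_span (by simp)
  have hxE : x ∈ Submodule.span F ({z, x} : Set (ι → F)) := Submodule.subset_span (by simp)
  refine ⟨?_, ?_⟩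
  · intro v hv hv0
    obtain ⟨α, β, rfl⟩ := Submodule.mem_span_pair.mp hv
    by_cases hβ : β = 0
    · have hα : α ≠ 0 := by
        rintro rfl
        apply hv0
        rw [hβ]; simp
      have h1 : QuadraticMap.polar Q (α • z + β • x) x ≠ 0 := by
        rw [hpol_x]
        exact mul_ne_zero hα hzx
      exact ⟨⟨x, hxE, by rw [pl_comm]; exact h1⟩, ⟨x, hxE, h1⟩⟩
    · have h1 : QuadraticMap.polar Q (α • z + β • x) z ≠ 0 := by
        rw [hpol_z]
        exact mul_ne_zero hβ hxz
      exact ⟨⟨z, hzE, by rw [pl_comm]; exact h1⟩, ⟨z, hzE, h1⟩⟩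
  · apply Cfsg.Agent.Helper70.OH5992.oh_finrank_span_pair
    intro α β hαβ
    have h1 := hpol_z α β
    have h2' := hpol_x α β
    rw [hαβ, hz] at h1 h2'
    refine ⟨?_, ?_⟩
    · rcases mul_eq_zero.mp h2'.symm with h | h
      · exact h
      · exact absurd h hzx
    · rcases mul_eq_zero.mp h1.symm with h | h
      · exact h
      · exact absurd h hxz

/-- such a plane is of plus type if the first vector is singular. -/
theorem t2_plane_plus (hQ : IsNondegenerateQuadraticForm Q) (h2 : (2 : F) = 0) (z x : ι → F)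
    (hzx : QuadraticMap.polar Q z x ≠ 0) (hz : Q z = 0) :
    OPl Q (Submodule.span F {z, x}) := by
  have hB := hQ.polar_bilinear
  have hz0 : z ≠ 0 := by
    rintro rfl
    apply hzx
    have := hB.smul_left 0 0 x
    simpa using this
  refine ⟨Submodule.span F {z}, Submodule.span_mono (by simp), ?_, ?_⟩
  · intro u hu
    obtain ⟨c, rfl⟩ := Submodule.mem_span_singleton.mp hu
    rw [hQ.smul, hz, mul_zero]
  · rw [finrank_span_singleton hz0, (t2_plane Q hQ h2 z x hzx).2]

/-- BLOCK: a nonzero invariant nondegenerate subspace contains an invariant nondegenerate plane or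
an invariant nondegenerate `4`-space of plus type. -/
theorem t2_block (hQ : IsNondegenerateQuadraticForm Q) (h2 : (2 : F) = 0)
    (T : Module.End F (ι → F)) (hT : OPres Q T) (hTT : ∀ v, T (T v) = v)
    (D : Submodule F (ι → F)) (hDT : D.map T ≤ D) (hD : ONd Q D) (hD0 : D ≠ ⊥) :
    ∃ E : Submodule F (ι → F), E ≤ D ∧ E.map T ≤ E ∧ ONd Q E ∧
      (finrank F E = 2 ∨ (finrank F E = 4 ∧ OPl Q E)) := by
  classical
  have hB := hQ.polar_bilinear
  have pl_comm : ∀ x y : ι → F, QuadraticMap.polar Q x y = QuadraticMap.polar Q y x :=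
    fun x y => QuadraticMap.polar_comm Q x y
  have pl_self := t2_self Q hQ h2
  have hpres : ∀ x y : ι → F, QuadraticMap.polar Q (T x) (T y) = QuadraticMap.polar Q x y := by
    intro x y
    unfold QuadraticMap.polar
    rw [← map_add, hT, hT, hT]
  have hTD : ∀ v ∈ D, T v ∈ D := fun v hv => hDT (Submodule.mem_map_of_mem hv)
  by_cases h1 : ∃ v ∈ D, QuadraticMap.polar Q v (T v) ≠ 0
  · obtain ⟨v, hv, hvT⟩ := h1
    obtain ⟨hnd, hdim⟩ := t2_plane Q hQ h2 v (T v) hvT
    refine ⟨Submodule.span F {v, T v}, ?_, ?_, hnd, Or.inl hdim⟩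
    · rw [Submodule.span_le]
      rintro x (rfl | rfl)
      · exact hv
      · exact hTD _ hv
    · rw [Submodule.map_span_le]
      rintro x (rfl | rfl)
      · exact Submodule.subset_span (by simp)
      · rw [hTT]
        exact Submodule.subset_span (by simp)
  · push Not at h1
    by_cases h3 : ∀ v ∈ D, T v = v
    · obtain ⟨E, hED, hEnd, hEdim⟩ := Cfsg.Agent.Helper65.OHAll.o_plane_char2 Q hQ h2 D hD hD0
      refine ⟨E, hED, ?_, hEnd, Or.inl hEdim⟩
      rintro _ ⟨x, hx, rfl⟩
      rw [h3 x (hED hx)]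
      exact hx
    · push Not at h3
      obtain ⟨v, hv, hvT⟩ := h3
      obtain ⟨u, hu⟩ : ∃ u : ι → F, u = v + T v := ⟨_, rfl⟩
      have hvv : v + v = 0 := by
        rw [← two_smul F v, h2, zero_smul]
      have hu0 : u ≠ 0 := by
        intro h0
        apply hvT
        rw [hu] at h0
        have h4 : T v = -v := by
          rw [add_comm] at h0
          exact eq_neg_of_add_eq_zero_left h0
        rw [h4]
        exact (eq_neg_of_add_eq_zero_left hvv).symm
      have huD : u ∈ D := by rw [hu]; exact D.add_mem hv (hTD v hv)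
      obtain ⟨-, w, hwD, huw⟩ := hD u huD hu0
      obtain ⟨u', hu'⟩ : ∃ u' : ι → F, u' = w + T w := ⟨_, rfl⟩
      obtain ⟨c, hc⟩ : ∃ c : F, c = QuadraticMap.polar Q v w / QuadraticMap.polar Q u w := ⟨_, rfl⟩
      obtain ⟨y, hy⟩ : ∃ y : ι → F, y = v + c • u := ⟨_, rfl⟩
      have hcu : c * QuadraticMap.polar Q u w = QuadraticMap.polar Q v w := by
        rw [hc, div_mul_cancel₀ _ huw]
      have hTu : T u = u := by rw [hu, map_add, hTT, add_comm]
      have hTu' : T u' = u' := by rw [hu', map_add, hTT, add_comm]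
      have hQu : Q u = 0 := by
        rw [hu, q_add Q, hT, h1 v hv, add_zero, ← two_mul, h2, zero_mul]
      have hQu' : Q u' = 0 := by
        rw [hu', q_add Q, hT, h1 w hwD, add_zero, ← two_mul, h2, zero_mul]
      -- polar products
      have e1 : QuadraticMap.polar Q u u' = 0 := by
        have h5 : QuadraticMap.polar Q u (T w) = QuadraticMap.polar Q u w := by
          have := hpres u w
          rw [hTu] at this
          exact this
        rw [hu', hB.add_right, h5, ← two_mul, h2, zero_mul]
      have e2 : QuadraticMap.polar Q u v = 0 := by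
        rw [hu, hB.add_left, pl_self, zero_add, pl_comm, h1 v hv]
      have e3 : QuadraticMap.polar Q u y = 0 := by
        rw [hy, hB.add_right, hB.smul_right, e2, pl_self, mul_zero, add_zero]
      have e4 : QuadraticMap.polar Q w u' = 0 := by
        rw [hu', hB.add_right, pl_self, h1 w hwD, add_zero]
      have e5 : QuadraticMap.polar Q w y = 0 := by
        rw [hy, hB.add_right, hB.smul_right, pl_comm w u, hcu, pl_comm w v, ← two_mul, h2,
          zero_mul]
      have e6 : QuadraticMap.polar Q u' y ≠ 0 := by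
        have h6 : QuadraticMap.polar Q u' u = 0 := by rw [pl_comm]; exact e1
        have h7 : QuadraticMap.polar Q u' v = QuadraticMap.polar Q u w := by
          have h8 : QuadraticMap.polar Q (T w) v = QuadraticMap.polar Q w (T v) := by
            have := hpres (T w) v
            rw [hTT] at this
            exact this.symm
          rw [hu', hB.add_left, h8, hu, hB.add_left, pl_comm v w, pl_comm (T v) w]
        rw [hy, hB.add_right, hB.smul_right, h6, mul_zero, add_zero, h7]
        exact huw
      obtain ⟨hH₁nd, hH₁dim⟩ := t2_plane Q hQ h2 u w huw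
      obtain ⟨hH₂nd, hH₂dim⟩ := t2_plane Q hQ h2 u' y e6
      have hH₁pl := t2_plane_plus Q hQ h2 u w huw hQu
      have hH₂pl := t2_plane_plus Q hQ h2 u' y e6 hQu'
      have horth : OOrth Q (Submodule.span F {u, w}) (Submodule.span F {u', y}) := by
        intro a ha b hb
        obtain ⟨α, β, rfl⟩ := Submodule.mem_span_pair.mp ha
        obtain ⟨γ, δ, rfl⟩ := Submodule.mem_span_pair.mp hb
        rw [hB.add_left, hB.smul_left, hB.smul_left, hB.add_right, hB.add_right, hB.smul_right,
          hB.smul_right, hB.smul_right, hB.smul_right, e1, e3, e4, e5]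
        ring
      have huE : u ∈ Submodule.span F ({u, w} : Set (ι → F)) ⊔ Submodule.span F {u', y} :=
        Submodule.mem_sup_left (Submodule.subset_span (by simp))
      have hwE : w ∈ Submodule.span F ({u, w} : Set (ι → F)) ⊔ Submodule.span F {u', y} :=
        Submodule.mem_sup_left (Submodule.subset_span (by simp))
      have hu'E : u' ∈ Submodule.span F ({u, w} : Set (ι → F)) ⊔ Submodule.span F {u', y} :=
        Submodule.mem_sup_right (Submodule.subset_span (by simp))
      have hyE : y ∈ Submodule.span F ({u, w} : Set (ι → F)) ⊔ Submodule.span F {u', y} :=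
        Submodule.mem_sup_right (Submodule.subset_span (by simp))
      have hvE : v ∈ Submodule.span F ({u, w} : Set (ι → F)) ⊔ Submodule.span F {u', y} := by
        have h9 : v = y - c • u := by rw [hy]; abel
        rw [h9]
        exact Submodule.sub_mem _ hyE (Submodule.smul_mem _ c huE)
      have hTw : T w = u' - w := by rw [hu']; abel
      have hTv : T v = u - v := by rw [hu]; abel
      have hTy : T y = u - v + c • u := by rw [hy, map_add, map_smul, hTu, hTv]
      have hu'D : u' ∈ D := by rw [hu']; exact D.add_mem hwD (hTD w hwD)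
      have hyD : y ∈ D := by rw [hy]; exact D.add_mem hv (D.smul_mem c huD)
      refine ⟨Submodule.span F {u, w} ⊔ Submodule.span F {u', y}, ?_, ?_,
        Cfsg.Agent.Helper33.OType.nondeg_sup Q hQ _ _ hH₁nd hH₂nd horth, Or.inr ⟨?_, ?_⟩⟩
      · refine sup_le ?_ ?_
        · rw [Submodule.span_le]
          rintro x (rfl | rfl)
          · exact huD
          · exact hwD
        · rw [Submodule.span_le]
          rintro x (rfl | rfl)
          · exact hu'D
          · exact hyD
      · rw [Submodule.map_sup]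
        refine sup_le ?_ ?_
        · rw [Submodule.map_span_le]
          rintro x (rfl | rfl)
          · rw [hTu]; exact huE
          · rw [hTw]; exact Submodule.sub_mem _ hu'E hwE
        · rw [Submodule.map_span_le]
          rintro x (rfl | rfl)
          · rw [hTu']; exact hu'E
          · rw [hTy]
            exact Submodule.add_mem _ (Submodule.sub_mem _ huE hvE) (Submodule.smul_mem _ c huE)
      · rw [Cfsg.Agent.Helper33.OType.finrank_sup_of_orth Q _ _ hH₁nd horth, hH₁dim, hH₂dim]
      · exact (Cfsg.Agent.Helper33.o_type_mul Q hQ _ _ hH₁nd hH₂nd horth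
          (by rw [hH₁dim]; exact even_two) (by rw [hH₂dim]; exact even_two)).mpr
          ⟨fun _ => hH₂pl, fun _ => hH₁pl⟩

/-- PROFILE: block decomposition, by strong induction on the dimension. -/
theorem t2_profile (hQ : IsNondegenerateQuadraticForm Q) (h2 : (2 : F) = 0)
    (T : Module.End F (ι → F)) (hT : OPres Q T) (hTT : ∀ v, T (T v) = v) :
    ∀ (n : ℕ) (D : Submodule F (ι → F)), finrank F D = n → D.map T ≤ D → ONd Q D →
      ∃ A h e : ℕ, finrank F D = 2 * (2 * A + h + e) ∧
        ∀ a', a' ≤ A → ∀ h', h' ≤ h → ∀ e', e' ≤ e → ∃ W : Submodule F (ι → F), W ≤ D ∧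
          W.map T ≤ W ∧ ONd Q W ∧ finrank F W = 2 * (2 * a' + h' + e') ∧
          (OPl Q W ↔ Even e') := by
  classical
  have hT2 : T ^ 2 = 1 := by
    apply LinearMap.ext
    intro v
    rw [pow_two, Module.End.mul_apply, hTT, Module.End.one_apply]
  have hQ0 : Q 0 = 0 := by
    have h := hQ.smul 0 0
    simpa using h
  intro n
  induction n using Nat.strong_induction_on with
  | _ n ih =>
    intro D hDn hDT hD
    by_cases hD0 : D = ⊥
    · subst hD0
      refine ⟨0, 0, 0, by simp, ?_⟩
      intro a' ha h' hh e' he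
      have ha0 : a' = 0 := by omega
      have hh0 : h' = 0 := by omega
      have he0 : e' = 0 := by omega
      subst ha0 hh0 he0
      refine ⟨⊥, le_rfl, by rw [Submodule.map_bot], ?_, by simp, ?_⟩
      · intro w hw hw0
        exact absurd ((Submodule.mem_bot F).mp hw) hw0
      · refine ⟨fun _ => ⟨0, rfl⟩, fun _ => ⟨⊥, le_rfl, ?_, by simp⟩⟩
        intro w hw
        rw [(Submodule.mem_bot F).mp hw]
        exact hQ0
    · obtain ⟨E, hED, hET, hEnd, hEdim⟩ := t2_block Q hQ h2 T hT hTT D hDT hD hD0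
      obtain ⟨P, hPD, hPT, hPnd, hinf, hsup, horth, hdim⟩ :=
        Cfsg.Agent.Helper31.OH5992.o_perp Q hQ T hT 2 (by norm_num) hT2 D E hD hEnd hED hDT hET
      have hEpos : 0 < finrank F E := by
        rcases hEdim with h | ⟨h, -⟩ <;> omega
      obtain ⟨A, h, e, hPdim, hP⟩ := ih (finrank F P) (by omega) P rfl hPT hPnd
      have hEW : ∀ W : Submodule F (ι → F), W ≤ P → OOrth Q E W :=
        fun W hW u hu v hv => horth u hu v (hW hv)
      have hsupW : ∀ W : Submodule F (ι → F), W ≤ P → W.map T ≤ W → ONd Q W →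
          (E ⊔ W ≤ D) ∧ ((E ⊔ W).map T ≤ E ⊔ W) ∧ ONd Q (E ⊔ W) ∧
            finrank F ↥(E ⊔ W) = finrank F E + finrank F W := by
        intro W hWP hWT hWnd
        refine ⟨sup_le hED (hWP.trans hPD), ?_,
          Cfsg.Agent.Helper33.OType.nondeg_sup Q hQ E W hEnd hWnd (hEW W hWP),
          Cfsg.Agent.Helper33.OType.finrank_sup_of_orth Q E W hEnd (hEW W hWP)⟩
        rw [Submodule.map_sup]
        exact sup_le_sup hET hWT
      rcases hEdim with hE2 | ⟨hE4, hEpl⟩
      · by_cases hEpl : OPl Q E
        · -- a hyperbolic plane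
          refine ⟨A, h + 1, e, by omega, ?_⟩
          intro a' ha h' hh e' he
          rcases Nat.eq_zero_or_pos h' with rfl | hpos
          · obtain ⟨W, hWP, hWT, hWnd, hWdim, hWty⟩ := hP a' ha 0 (by omega) e' he
            exact ⟨W, hWP.trans hPD, hWT, hWnd, hWdim, hWty⟩
          · obtain ⟨W, hWP, hWT, hWnd, hWdim, hWty⟩ := hP a' ha (h' - 1) (by omega) e' he
            obtain ⟨s1, s2, s3, s4⟩ := hsupW W hWP hWT hWnd
            refine ⟨E ⊔ W, s1, s2, s3, by rw [s4, hE2, hWdim]; omega, ?_⟩
            refine (Cfsg.Agent.Helper33.o_type_mul Q hQ E W hEnd hWnd (hEW W hWP)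
              (by rw [hE2]; exact even_two) (by rw [hWdim]; exact even_two_mul _)).trans ?_
            rw [show IsPlusTypeOn Q W ↔ _ from hWty]
            exact ⟨fun h => h.mp hEpl, fun h => ⟨fun _ => h, fun _ => hEpl⟩⟩
        · -- an elliptic plane
          refine ⟨A, h, e + 1, by omega, ?_⟩
          intro a' ha h' hh e' he
          rcases Nat.eq_zero_or_pos e' with rfl | hpos
          · obtain ⟨W, hWP, hWT, hWnd, hWdim, hWty⟩ := hP a' ha h' hh 0 (by omega)
            exact ⟨W, hWP.trans hPD, hWT, hWnd, hWdim, hWty⟩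
          · obtain ⟨W, hWP, hWT, hWnd, hWdim, hWty⟩ := hP a' ha h' hh (e' - 1) (by omega)
            obtain ⟨s1, s2, s3, s4⟩ := hsupW W hWP hWT hWnd
            refine ⟨E ⊔ W, s1, s2, s3, by rw [s4, hE2, hWdim]; omega, ?_⟩
            refine (Cfsg.Agent.Helper33.o_type_mul Q hQ E W hEnd hWnd (hEW W hWP)
              (by rw [hE2]; exact even_two) (by rw [hWdim]; exact even_two_mul _)).trans ?_
            rw [show IsPlusTypeOn Q W ↔ _ from hWty]
            have hpar : Even (e' - 1) ↔ ¬ Even e' := by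
              constructor
              · rintro ⟨j, hj⟩ ⟨k, hk⟩
                omega
              · intro hne
                rw [Nat.not_even_iff_odd] at hne
                obtain ⟨j, hj⟩ := hne
                exact ⟨j, by omega⟩
            constructor
            · intro hiff
              by_contra hne
              exact hEpl (hiff.mpr (hpar.mpr hne))
            · intro hev
              exact ⟨fun h => absurd h hEpl, fun h => absurd hev (hpar.mp h)⟩
      · -- a 4-block of plus type
        refine ⟨A + 1, h, e, by omega, ?_⟩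
        intro a' ha h' hh e' he
        rcases Nat.eq_zero_or_pos a' with rfl | hpos
        · obtain ⟨W, hWP, hWT, hWnd, hWdim, hWty⟩ := hP 0 (by omega) h' hh e' he
          exact ⟨W, hWP.trans hPD, hWT, hWnd, hWdim, hWty⟩
        · obtain ⟨W, hWP, hWT, hWnd, hWdim, hWty⟩ := hP (a' - 1) (by omega) h' hh e' he
          obtain ⟨s1, s2, s3, s4⟩ := hsupW W hWP hWT hWnd
          refine ⟨E ⊔ W, s1, s2, s3, by rw [s4, hE4, hWdim]; omega, ?_⟩
          refine (Cfsg.Agent.Helper33.o_type_mul Q hQ E W hEnd hWnd (hEW W hWP)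
            (by rw [hE4]; exact ⟨2, rfl⟩) (by rw [hWdim]; exact even_two_mul _)).trans ?_
          rw [show IsPlusTypeOn Q W ↔ _ from hWty]
          exact ⟨fun h => h.mp hEpl, fun h => ⟨fun _ => h, fun _ => hEpl⟩⟩

end generic

/-- ARITH: choice of the sub-profile. -/
theorem t2_arith (d A h e k : ℕ) (hd : d = 2 * A + h + e) (he : Even e) (hk : k < d)
    (hc : Odd d ∨ Even k) :
    ∃ a', a' ≤ A ∧ ∃ h', h' ≤ h ∧ ∃ e', e' ≤ e ∧ Even e' ∧ 2 * a' + h' + e' = k := by
  obtain ⟨e₁, he₁⟩ := he
  rcases Nat.even_or_odd k with ⟨k₁, hk₁⟩ | ⟨k₁, hk₁⟩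
  · refine ⟨min A k₁, Nat.min_le_left _ _,
      k - 2 * min A k₁ - 2 * min e₁ ((k - 2 * min A k₁) / 2), ?_,
      2 * min e₁ ((k - 2 * min A k₁) / 2), ?_, even_two_mul _, ?_⟩ <;> omega
  · have hdo : Odd d := by
      rcases hc with h | ⟨j, hj⟩
      · exact h
      · exfalso; omega
    obtain ⟨d₁, hd₁⟩ := hdo
    refine ⟨min A k₁, Nat.min_le_left _ _,
      1 + (k - 1 - 2 * min A k₁ - 2 * min e₁ ((k - 1 - 2 * min A k₁) / 2)), ?_,
      2 * min e₁ ((k - 1 - 2 * min A k₁) / 2), ?_, even_two_mul _, ?_⟩ <;> omega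

section stages

variable {F : Type*} [Field F] [Fintype F]

/-- T2G [BIG, NEW] (`r = p = 2`, `⟸`). -/
theorem s74_two_even_good {p : ℕ} [Fact p.Prime] [CharP F p] {q : ℕ} (hq : Fintype.card F = q)
    (d m : ℕ) (hd : 4 ≤ d) (hm : 2 ≤ m) (hme : Even m) (hmd : m < d) (hp2 : p = 2)
    (hcond : (2 * d) % 4 = 2 ∨ m % 4 = 0 ∨ q % 4 = 1) :
    AllHyp (Cfsg.quadFormPlus d F) 2 m := by
  classical
  subst hp2
  have h2 : (2 : F) = 0 := by
    have := CharP.cast_eq_zero F 2
    exact_mod_cast this
  obtain ⟨hQ, hplus⟩ := Cfsg.Agent.Helper35.TS5973.ts_std_plus (F := F) d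
  have hcard : Fintype.card (Fin d ⊕ Fin d) = 2 * d := by
    rw [Fintype.card_sum, Fintype.card_fin]
    omega
  have hne : Nonempty (Fin d ⊕ Fin d) := Fintype.card_pos_iff.mp (by omega)
  have hqe : Even q := by
    obtain ⟨n, hp, hc⟩ := FiniteField.card F 2
    rw [← hq, hc, Nat.even_pow]
    exact ⟨even_two, n.ne_zero⟩
  intro x hx hz hns
  obtain ⟨z, hz⟩ := hz
  obtain ⟨g, hgΩ, rfl⟩ := (Cfsg.Agent.Helper90.TS5973.r2a_mem_omegaGL _ x).mp hx
  have hM := Cfsg.Agent.Helper90.TS5973.r2a_iso (Cfsg.quadFormPlus d F) g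
  rw [Cfsg.Agent.Helper90.TS5973.r2a_sq] at hz
  have hz1 : ((g : GL (Fin d ⊕ Fin d) F) : Matrix (Fin d ⊕ Fin d) (Fin d ⊕ Fin d) F) *
      ((g : GL (Fin d ⊕ Fin d) F) : Matrix (Fin d ⊕ Fin d) (Fin d ⊕ Fin d) F) = 1 := by
    rcases Cfsg.Agent.Helper70.TSR2.r2_z _ hQ hne _ hM z hz with rfl | rfl
    · rwa [one_smul] at hz
    · have h11 : (-1 : F) = 1 := by linear_combination (-1 : F) * h2
      rw [hz, h11, one_smul]
  obtain ⟨T, hTdef⟩ : ∃ T : Module.End F (Fin d ⊕ Fin d → F), T = Matrix.toLin'
      ((g : GL (Fin d ⊕ Fin d) F) : Matrix (Fin d ⊕ Fin d) (Fin d ⊕ Fin d) F) := ⟨_, rfl⟩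
  have hT : OPres (Cfsg.quadFormPlus d F) T := by
    intro v
    rw [hTdef, Matrix.toLin'_apply]
    exact hM v
  have hTT : ∀ v, T (T v) = v := by
    intro v
    rw [hTdef, Matrix.toLin'_apply, Matrix.toLin'_apply, Matrix.mulVec_mulVec, hz1,
      Matrix.one_mulVec]
  obtain ⟨A, h, e, hdim, hprof⟩ := t2_profile (Cfsg.quadFormPlus d F) hQ h2 T hT hTT _ ⊤ rfl
    le_top (ond_top _ hQ)
  rw [finrank_top, Module.finrank_fintype_fun_eq_card, hcard] at hdim
  obtain ⟨W₀, -, -, hW₀nd, hW₀dim, hW₀ty⟩ := hprof A le_rfl h le_rfl e le_rfl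
  have hW₀top : W₀ = ⊤ := by
    apply Submodule.eq_top_of_finrank_eq
    rw [hW₀dim, Module.finrank_fintype_fun_eq_card, hcard]
    omega
  have hee : Even e := by
    rw [← hW₀ty, hW₀top]
    exact hplus
  obtain ⟨k, hk⟩ := hme
  have hc : Odd d ∨ Even k := by
    rcases hcond with h | h | h
    · left
      exact ⟨d / 2, by omega⟩
    · right
      exact ⟨k / 2, by omega⟩
    · exfalso
      obtain ⟨j, hj⟩ := hqe
      omega
  obtain ⟨a', ha', h', hh', e', he', hee', hsum⟩ :=
    t2_arith d A h e k (by omega) hee (by omega) hc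
  obtain ⟨W, -, hWT, hWnd, hWdim, hWty⟩ := hprof a' ha' h' hh' e' he'
  rw [invHyp_iff]
  rw [hTdef] at hWT
  exact ⟨W, ⟨by rw [hWdim]; omega, hWnd, hWty.mpr hee'⟩, hWT⟩

end stages

end Cfsg.Agent.Helper97.S74
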