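import Mathlib
import Cfsg.Agent.Helper98.OPar
import Cfsg.Agent.Helper39.LawEmbed
import Cfsg.Agent.Helper45.DicksonRank
import Cfsg.Agent.Helper43.OrthEven

set_option autoImplicit false

/-!
Helper library (helper97), definitions shared by the pieces of the two-generation of `PΩ⁻_{2m}(q)`
(S2415): the subspace `tD` of Eichler parameters of a subgroup at a singular vector, the minus-type
form as a bundled quadratic form, its standard basis, the Levi embedding of `SL_k`, and the two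
auxiliary elements.
-/

universe u

namespace Cfsg.Agent.Helper97.TM

open Cfsg Matrix Cfsg.Agent.Helper45 Cfsg.Agent.Helper98

section generic

variable {ι : Type} [Fintype ι] [DecidableEq ι] {F : Type u} [Field F]
  (Q : QuadraticForm F (ι → F))

theorem eichO_zero (u : ι → F) (hu : Q u = 0) (h0 : QuadraticMap.polar ⇑Q u 0 = 0) :
    eichO Q u 0 hu h0 = 1 := by
  apply ext_mv
  intro y
  rw [mv_eichO, eich_zero, mv_one]

theorem eichO_congr {u b b' : ι → F} (hu : Q u = 0) (hub : QuadraticMap.polar ⇑Q u b = 0)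
    (hub' : QuadraticMap.polar ⇑Q u b' = 0) (e : b = b') :
    eichO Q u b hu hub = eichO Q u b' hu hub' := by
  subst e
  rfl

/-- the vectors `y ⊥ u` such that all Eichler transformations `E(u, c y)`, `c ∈ F`, lie in `M`;
an `F`-subspace, stable under the elements of `M` fixing `u` -/
def tD (M : Subgroup ↥(isometryGroup F ⇑Q)) (u : ι → F) (hu : Q u = 0) : Submodule F (ι → F) where
  carrier := {y | ∃ h : QuadraticMap.polar ⇑Q u y = 0, ∀ c : F,
    eichO Q u (c • y) hu (by rw [QuadraticMap.polar_smul_right, h, smul_zero]) ∈ M}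
  add_mem' := by
    rintro y z ⟨hy, hyM⟩ ⟨hz, hzM⟩
    have hyz : QuadraticMap.polar ⇑Q u (y + z) = 0 := by
      rw [QuadraticMap.polar_add_right, hy, hz, add_zero]
    refine ⟨hyz, fun c => ?_⟩
    have h1 : QuadraticMap.polar ⇑Q u (c • y) = 0 := by
      rw [QuadraticMap.polar_smul_right, hy, smul_zero]
    have h2 : QuadraticMap.polar ⇑Q u (c • z) = 0 := by
      rw [QuadraticMap.polar_smul_right, hz, smul_zero]
    have h3 : QuadraticMap.polar ⇑Q u (c • y + c • z) = 0 := by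
      rw [QuadraticMap.polar_add_right, h1, h2, add_zero]
    have e := eichO_mul Q u (c • y) (c • z) hu h1 h2 h3
    rw [eichO_congr Q hu _ h3 (smul_add c y z), ← e]
    exact M.mul_mem (hyM c) (hzM c)
  zero_mem' := by
    refine ⟨QuadraticMap.polar_zero_right _ _, fun c => ?_⟩
    have h0 : QuadraticMap.polar ⇑Q u 0 = 0 := QuadraticMap.polar_zero_right _ _
    rw [eichO_congr Q hu _ h0 (smul_zero c), eichO_zero Q u hu h0]
    exact M.one_mem
  smul_mem' := by
    rintro r y ⟨hy, hyM⟩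
    have hry : QuadraticMap.polar ⇑Q u (r • y) = 0 := by
      rw [QuadraticMap.polar_smul_right, hy, smul_zero]
    refine ⟨hry, fun c => ?_⟩
    have h1 : QuadraticMap.polar ⇑Q u ((c * r) • y) = 0 := by
      rw [QuadraticMap.polar_smul_right, hy, smul_zero]
    rw [eichO_congr Q hu _ h1 (smul_smul c r y)]
    exact hyM (c * r)

theorem mem_tD_iff (M : Subgroup ↥(isometryGroup F ⇑Q)) (u : ι → F) (hu : Q u = 0) (y : ι → F) :
    y ∈ tD Q M u hu ↔ ∃ h : QuadraticMap.polar ⇑Q u y = 0, ∀ c : F,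
      eichO Q u (c • y) hu (by rw [QuadraticMap.polar_smul_right, h, smul_zero]) ∈ M :=
  Iff.rfl

end generic

section minus

variable (k : ℕ) (F : Type u) [Field F] (a b : F)

/-- the minus-type quadratic form, bundled -/
abbrev QM : QuadraticForm F ((Fin k ⊕ Fin k) ⊕ Fin 2 → F) := Helper43.minusQF k F a b

/-- the basis vector `e_i` -/
def eM (i : Fin k) : (Fin k ⊕ Fin k) ⊕ Fin 2 → F := Pi.single (Sum.inl (Sum.inl i)) 1

/-- the basis vector `f_i` -/
def fM (i : Fin k) : (Fin k ⊕ Fin k) ⊕ Fin 2 → F := Pi.single (Sum.inl (Sum.inr i)) 1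

/-- the basis vectors `z₁ = zM 0`, `z₂ = zM 1` of the anisotropic plane -/
def zM (j : Fin 2) : (Fin k ⊕ Fin k) ⊕ Fin 2 → F := Pi.single (Sum.inr j) 1

variable {k F}

@[simp] theorem eM_ee (i j : Fin k) : eM k F i (Sum.inl (Sum.inl j)) = if j = i then 1 else 0 := by
  simp [eM, Pi.single_apply]

@[simp] theorem eM_ff (i j : Fin k) : eM k F i (Sum.inl (Sum.inr j)) = 0 := by
  simp [eM]

@[simp] theorem eM_zz (i : Fin k) (j : Fin 2) : eM k F i (Sum.inr j) = 0 := by
  simp [eM]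

@[simp] theorem fM_ee (i j : Fin k) : fM k F i (Sum.inl (Sum.inl j)) = 0 := by
  simp [fM]

@[simp] theorem fM_ff (i j : Fin k) : fM k F i (Sum.inl (Sum.inr j)) = if j = i then 1 else 0 := by
  simp [fM, Pi.single_apply]

@[simp] theorem fM_zz (i : Fin k) (j : Fin 2) : fM k F i (Sum.inr j) = 0 := by
  simp [fM]

@[simp] theorem zM_ee (l : Fin 2) (j : Fin k) : zM k F l (Sum.inl (Sum.inl j)) = 0 := by
  simp [zM]

@[simp] theorem zM_ff (l : Fin 2) (j : Fin k) : zM k F l (Sum.inl (Sum.inr j)) = 0 := by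
  simp [zM]

@[simp] theorem zM_zz (l j : Fin 2) : zM k F l (Sum.inr j) = if j = l then 1 else 0 := by
  simp [zM, Pi.single_apply]

variable {a b}

theorem QM_apply (v : (Fin k ⊕ Fin k) ⊕ Fin 2 → F) :
    QM k F a b v = (∑ i : Fin k, v (Sum.inl (Sum.inl i)) * v (Sum.inl (Sum.inr i))) +
      (v (Sum.inr 0) ^ 2 + a * v (Sum.inr 0) * v (Sum.inr 1) + b * v (Sum.inr 1) ^ 2) := rfl

theorem polarM_eq (u v : (Fin k ⊕ Fin k) ⊕ Fin 2 → F) :
    QuadraticMap.polar ⇑(QM k F a b) u v =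
      ∑ i : Fin k, (u (Sum.inl (Sum.inl i)) * v (Sum.inl (Sum.inr i)) +
        v (Sum.inl (Sum.inl i)) * u (Sum.inl (Sum.inr i)))
      + (2 * u (Sum.inr 0) * v (Sum.inr 0) + a * (u (Sum.inr 0) * v (Sum.inr 1) +
          v (Sum.inr 0) * u (Sum.inr 1)) + 2 * b * u (Sum.inr 1) * v (Sum.inr 1)) :=
  Helper43.OrthEven.polar_minus k a b u v

theorem polar_eM_left (i : Fin k) (v : (Fin k ⊕ Fin k) ⊕ Fin 2 → F) :
    QuadraticMap.polar ⇑(QM k F a b) (eM k F i) v = v (Sum.inl (Sum.inr i)) := by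
  rw [polarM_eq]
  simp

theorem polar_fM_left (i : Fin k) (v : (Fin k ⊕ Fin k) ⊕ Fin 2 → F) :
    QuadraticMap.polar ⇑(QM k F a b) (fM k F i) v = v (Sum.inl (Sum.inl i)) := by
  rw [polarM_eq]
  simp

theorem polar_zM0_left (v : (Fin k ⊕ Fin k) ⊕ Fin 2 → F) :
    QuadraticMap.polar ⇑(QM k F a b) (zM k F 0) v = 2 * v (Sum.inr 0) + a * v (Sum.inr 1) := by
  rw [polarM_eq]
  simp

theorem polar_zM1_left (v : (Fin k ⊕ Fin k) ⊕ Fin 2 → F) :
    QuadraticMap.polar ⇑(QM k F a b) (zM k F 1) v = a * v (Sum.inr 0) + 2 * b * v (Sum.inr 1) := by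
  rw [polarM_eq]
  simp

theorem QM_eM (i : Fin k) : QM k F a b (eM k F i) = 0 := by
  rw [QM_apply]
  simp

theorem QM_fM (i : Fin k) : QM k F a b (fM k F i) = 0 := by
  rw [QM_apply]
  simp

theorem QM_zM0 : QM k F a b (zM k F 0) = 1 := by
  rw [QM_apply]
  simp

theorem QM_zM1 : QM k F a b (zM k F 1) = b := by
  rw [QM_apply]
  simp

theorem QM_smul_fM (c : F) (i : Fin k) : QM k F a b (c • fM k F i) = 0 := by
  rw [QuadraticMap.map_smul, QM_fM, smul_zero]

theorem QM_smul_eM (c : F) (i : Fin k) : QM k F a b (c • eM k F i) = 0 := by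
  rw [QuadraticMap.map_smul, QM_eM, smul_zero]

/-- `e_i ⊥ c f_j` for `i ≠ j` -/
theorem polar_eM_smul_fM (i j : Fin k) (hij : i ≠ j) (c : F) :
    QuadraticMap.polar ⇑(QM k F a b) (eM k F i) (c • fM k F j) = 0 := by
  rw [polar_eM_left]
  simp [hij]

variable (k F a b)

/-- the Levi embedding `A ↦ diag(A, A⁻ᵀ, 1)` of `SL_k(F)` into the isometry group of the minus-type
form -/
noncomputable def iotaM :
    Matrix.SpecialLinearGroup (Fin k) F →* ↥(isometryGroup F ⇑(QM k F a b)) where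
  toFun A := ⟨((Helper39.leftBlockHom (Fin k ⊕ Fin k) (Fin 2) F).comp
      ((Helper39.dblHom (Fin k) F).comp Matrix.SpecialLinearGroup.toGL)).toHomUnits A,
    fun u _ => Helper39.quadFormMinus_dbl _ a b u⟩
  map_one' := Subtype.ext (map_one ((Helper39.leftBlockHom (Fin k ⊕ Fin k) (Fin 2) F).comp
      ((Helper39.dblHom (Fin k) F).comp Matrix.SpecialLinearGroup.toGL)).toHomUnits)
  map_mul' x y := Subtype.ext (map_mul ((Helper39.leftBlockHom (Fin k ⊕ Fin k) (Fin 2) F).comp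
      ((Helper39.dblHom (Fin k) F).comp Matrix.SpecialLinearGroup.toGL)).toHomUnits x y)

variable {k F a b}

theorem mv_iotaM (A : Matrix.SpecialLinearGroup (Fin k) F)
    (x : (Fin k ⊕ Fin k) ⊕ Fin 2 → F) :
    mv ⇑(QM k F a b) (iotaM k F a b A) x =
      Sum.elim (Sum.elim ((A : Matrix (Fin k) (Fin k) F) *ᵥ (x ∘ Sum.inl ∘ Sum.inl))
        (((A⁻¹ : Matrix.SpecialLinearGroup (Fin k) F) : Matrix (Fin k) (Fin k) F)ᵀ *ᵥ
          (x ∘ Sum.inl ∘ Sum.inr))) (x ∘ Sum.inr) := by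
  show (Matrix.fromBlocks (Matrix.fromBlocks (A : Matrix (Fin k) (Fin k) F) 0 0 _) 0 0 1) *ᵥ x = _
  rw [Matrix.fromBlocks_mulVec, Matrix.fromBlocks_mulVec]
  simp only [Matrix.zero_mulVec, add_zero, zero_add, Matrix.one_mulVec]
  rfl

variable (a b)

theorem QM_uvec (i : Fin k) : QM k F a b (eM k F i + zM k F 0 - fM k F i) = 0 := by
  rw [QM_apply, Finset.sum_eq_single i]
  · simp
  · intro j _ hj
    simp [hj]
  · intro h
    exact absurd (Finset.mem_univ i) h

theorem polar_uvec (i : Fin k) :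
    QuadraticMap.polar ⇑(QM k F a b) (eM k F i + zM k F 0 - fM k F i)
      (zM k F 1 - a • fM k F i) = 0 := by
  rw [QuadraticMap.polar_sub_left, QuadraticMap.polar_add_left, polar_eM_left, polar_zM0_left,
    polar_fM_left]
  simp

/-- the first auxiliary element (unipotent, used for `q > 3`):
`E(e_i + z₁ - f_i, z₂ - a f_i)` -/
noncomputable def gU (i : Fin k) : ↥(isometryGroup F ⇑(QM k F a b)) :=
  eichO (QM k F a b) (eM k F i + zM k F 0 - fM k F i) (zM k F 1 - a • fM k F i)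
    (QM_uvec a b i) (polar_uvec a b i)

theorem polar_eM_zM (i : Fin k) (w : (Fin k ⊕ Fin k) ⊕ Fin 2 → F)
    (hw : w (Sum.inl (Sum.inr i)) = 0) : QuadraticMap.polar ⇑(QM k F a b) (eM k F i) w = 0 := by
  rw [polar_eM_left, hw]

theorem polar_fM_zM (i : Fin k) (w : (Fin k ⊕ Fin k) ⊕ Fin 2 → F)
    (hw : w (Sum.inl (Sum.inl i)) = 0) : QuadraticMap.polar ⇑(QM k F a b) (fM k F i) w = 0 := by
  rw [polar_fM_left, hw]

/-- the second auxiliary element (of order five for `q ≤ 3`):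
`E(e_i, z₂) * E(f_i, z₁ + z₂)` -/
noncomputable def g5 (i : Fin k) : ↥(isometryGroup F ⇑(QM k F a b)) :=
  eichO (QM k F a b) (eM k F i) (zM k F 1) (QM_eM i) (polar_eM_zM a b i _ (by simp)) *
    eichO (QM k F a b) (fM k F i) (zM k F 0 + zM k F 1) (QM_fM i)
      (polar_fM_zM a b i _ (by simp))

end minus

end Cfsg.Agent.Helper97.TM
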