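import Mathlib
import Cfsg.Agent.Helper97.TMDefs
import Cfsg.Agent.Helper43.Spinor2

set_option autoImplicit false

/-!
Helper library (helper97), definitions shared by the pieces of the two-generation of `PΩ_{2m+1}(q)`
(S2413): the odd-dimensional form as a bundled quadratic form, its standard basis, the Levi embedding
of `SL_m`, a torus element and a Weyl element.
-/

universe u

namespace Cfsg.Agent.Helper97.TN

open Cfsg Matrix Cfsg.Agent.Helper45 Cfsg.Agent.Helper98 Cfsg.Agent.Helper97.TM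

section generic

variable {ι : Type} [Fintype ι] [DecidableEq ι] {F : Type u} [Field F]
  (Q : QuadraticForm F (ι → F))

/-- `E(s u, b) = E(u, s b)` -/
theorem eichO_smul_left (s : F) (u b : ι → F) (hu : Q u = 0)
    (hsu : Q (s • u) = 0) (hsub : QuadraticMap.polar ⇑Q (s • u) b = 0)
    (hub' : QuadraticMap.polar ⇑Q u (s • b) = 0) :
    eichO Q (s • u) b hsu hsub = eichO Q u (s • b) hu hub' := by
  apply ext_mv
  intro x
  rw [mv_eichO, mv_eichO]
  unfold Helper44.eich
  rw [QuadraticMap.polar_smul_left, QuadraticMap.polar_smul_left, QuadraticMap.map_smul]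
  simp only [smul_eq_mul]
  module

end generic

section odd

variable (m : ℕ) (F : Type u) [Field F]

/-- the odd-dimensional quadratic form `z² + Σ x_i y_i`, bundled -/
abbrev QO : QuadraticForm F (Unit ⊕ (Fin m ⊕ Fin m) → F) := Helper43.oddQF m F

/-- the basis vector `e_i` -/
def eO (i : Fin m) : Unit ⊕ (Fin m ⊕ Fin m) → F := Pi.single (Sum.inr (Sum.inl i)) 1

/-- the basis vector `f_i` -/
def fO (i : Fin m) : Unit ⊕ (Fin m ⊕ Fin m) → F := Pi.single (Sum.inr (Sum.inr i)) 1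

/-- the anisotropic basis vector `z` -/
def zO : Unit ⊕ (Fin m ⊕ Fin m) → F := Pi.single (Sum.inl ()) 1

variable {m F}

@[simp] theorem eO_ee (i j : Fin m) : eO m F i (Sum.inr (Sum.inl j)) = if j = i then 1 else 0 := by
  simp [eO, Pi.single_apply]

@[simp] theorem eO_ff (i j : Fin m) : eO m F i (Sum.inr (Sum.inr j)) = 0 := by
  simp [eO]

@[simp] theorem eO_z (i : Fin m) : eO m F i (Sum.inl ()) = 0 := by
  simp [eO]

@[simp] theorem fO_ee (i j : Fin m) : fO m F i (Sum.inr (Sum.inl j)) = 0 := by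
  simp [fO]

@[simp] theorem fO_ff (i j : Fin m) : fO m F i (Sum.inr (Sum.inr j)) = if j = i then 1 else 0 := by
  simp [fO, Pi.single_apply]

@[simp] theorem fO_z (i : Fin m) : fO m F i (Sum.inl ()) = 0 := by
  simp [fO]

@[simp] theorem zO_ee (j : Fin m) : zO m F (Sum.inr (Sum.inl j)) = 0 := by
  simp [zO]

@[simp] theorem zO_ff (j : Fin m) : zO m F (Sum.inr (Sum.inr j)) = 0 := by
  simp [zO]

@[simp] theorem zO_z : zO m F (Sum.inl ()) = 1 := by
  simp [zO]

theorem QO_apply (v : Unit ⊕ (Fin m ⊕ Fin m) → F) :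
    QO m F v = v (Sum.inl ()) ^ 2 + ∑ i : Fin m, v (Sum.inr (Sum.inl i)) * v (Sum.inr (Sum.inr i)) :=
  rfl

theorem polarO_eq (u v : Unit ⊕ (Fin m ⊕ Fin m) → F) :
    QuadraticMap.polar ⇑(QO m F) u v = 2 * u (Sum.inl ()) * v (Sum.inl ())
      + ∑ i : Fin m, (u (Sum.inr (Sum.inl i)) * v (Sum.inr (Sum.inr i))
          + v (Sum.inr (Sum.inl i)) * u (Sum.inr (Sum.inr i))) := by
  have h1 : ∑ i : Fin m, (u (Sum.inr (Sum.inl i)) + v (Sum.inr (Sum.inl i)))
        * (u (Sum.inr (Sum.inr i)) + v (Sum.inr (Sum.inr i)))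
      = ∑ i : Fin m, u (Sum.inr (Sum.inl i)) * u (Sum.inr (Sum.inr i))
        + ∑ i : Fin m, v (Sum.inr (Sum.inl i)) * v (Sum.inr (Sum.inr i))
        + ∑ i : Fin m, (u (Sum.inr (Sum.inl i)) * v (Sum.inr (Sum.inr i))
          + v (Sum.inr (Sum.inl i)) * u (Sum.inr (Sum.inr i))) := by
    rw [← Finset.sum_add_distrib, ← Finset.sum_add_distrib]
    apply Finset.sum_congr rfl
    intro i _
    ring
  unfold QuadraticMap.polar
  rw [QO_apply, QO_apply, QO_apply]
  simp only [Pi.add_apply]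
  rw [h1]
  ring

theorem polar_eO_left (i : Fin m) (v : Unit ⊕ (Fin m ⊕ Fin m) → F) :
    QuadraticMap.polar ⇑(QO m F) (eO m F i) v = v (Sum.inr (Sum.inr i)) := by
  rw [polarO_eq]
  simp

theorem polar_fO_left (i : Fin m) (v : Unit ⊕ (Fin m ⊕ Fin m) → F) :
    QuadraticMap.polar ⇑(QO m F) (fO m F i) v = v (Sum.inr (Sum.inl i)) := by
  rw [polarO_eq]
  simp

theorem polar_zO_left (v : Unit ⊕ (Fin m ⊕ Fin m) → F) :
    QuadraticMap.polar ⇑(QO m F) (zO m F) v = 2 * v (Sum.inl ()) := by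
  rw [polarO_eq]
  simp

theorem QO_eO (i : Fin m) : QO m F (eO m F i) = 0 := by
  rw [QO_apply]
  simp

theorem QO_fO (i : Fin m) : QO m F (fO m F i) = 0 := by
  rw [QO_apply]
  simp

theorem QO_zO : QO m F (zO m F) = 1 := by
  rw [QO_apply]
  simp

theorem QO_smul_fO (c : F) (i : Fin m) : QO m F (c • fO m F i) = 0 := by
  rw [QuadraticMap.map_smul, QO_fO, smul_zero]

theorem QO_smul_eO (c : F) (i : Fin m) : QO m F (c • eO m F i) = 0 := by
  rw [QuadraticMap.map_smul, QO_eO, smul_zero]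

theorem QO_smul_zO (c : F) : QO m F (c • zO m F) = c ^ 2 := by
  rw [QuadraticMap.map_smul, QO_zO, smul_eq_mul, mul_one, pow_two]

/-- `e_i ⊥ c f_j` for `i ≠ j` -/
theorem polar_eO_smul_fO (i j : Fin m) (hij : i ≠ j) (c : F) :
    QuadraticMap.polar ⇑(QO m F) (eO m F i) (c • fO m F j) = 0 := by
  rw [polar_eO_left]
  simp [hij]

theorem polar_eO_zO (i : Fin m) : QuadraticMap.polar ⇑(QO m F) (eO m F i) (zO m F) = 0 := by
  rw [polar_eO_left]
  simp

theorem polar_fO_zO (i : Fin m) : QuadraticMap.polar ⇑(QO m F) (fO m F i) (zO m F) = 0 := by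
  rw [polar_fO_left]
  simp

theorem polar_eO_smul_zO (i : Fin m) (c : F) :
    QuadraticMap.polar ⇑(QO m F) (eO m F i) (c • zO m F) = 0 := by
  rw [polar_eO_left]
  simp

theorem polar_fO_smul_zO (i : Fin m) (c : F) :
    QuadraticMap.polar ⇑(QO m F) (fO m F i) (c • zO m F) = 0 := by
  rw [polar_fO_left]
  simp

variable (m F)

/-- the Levi embedding `A ↦ diag(1, A, A⁻ᵀ)` of `SL_m(F)` into the isometry group of the
odd-dimensional form -/
noncomputable def iotaO :
    Matrix.SpecialLinearGroup (Fin m) F →* ↥(isometryGroup F ⇑(QO m F)) where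
  toFun A := ⟨((Helper39.rightBlockHom (Fin m ⊕ Fin m) Unit F).comp
      ((Helper39.dblHom (Fin m) F).comp Matrix.SpecialLinearGroup.toGL)).toHomUnits A,
    fun u _ => Helper39.quadFormOdd_dbl _ u⟩
  map_one' := Subtype.ext (map_one ((Helper39.rightBlockHom (Fin m ⊕ Fin m) Unit F).comp
      ((Helper39.dblHom (Fin m) F).comp Matrix.SpecialLinearGroup.toGL)).toHomUnits)
  map_mul' x y := Subtype.ext (map_mul ((Helper39.rightBlockHom (Fin m ⊕ Fin m) Unit F).comp
      ((Helper39.dblHom (Fin m) F).comp Matrix.SpecialLinearGroup.toGL)).toHomUnits x y)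

variable {m F}

theorem mv_iotaO (A : Matrix.SpecialLinearGroup (Fin m) F)
    (x : Unit ⊕ (Fin m ⊕ Fin m) → F) :
    mv ⇑(QO m F) (iotaO m F A) x =
      Sum.elim (x ∘ Sum.inl) (Sum.elim ((A : Matrix (Fin m) (Fin m) F) *ᵥ (x ∘ Sum.inr ∘ Sum.inl))
        (((A⁻¹ : Matrix.SpecialLinearGroup (Fin m) F) : Matrix (Fin m) (Fin m) F)ᵀ *ᵥ
          (x ∘ Sum.inr ∘ Sum.inr))) := by
  show (Matrix.fromBlocks 1 0 0 (Matrix.fromBlocks (A : Matrix (Fin m) (Fin m) F) 0 0 _)) *ᵥ x = _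
  rw [Matrix.fromBlocks_mulVec, Matrix.fromBlocks_mulVec]
  simp only [Matrix.zero_mulVec, add_zero, zero_add, Matrix.one_mulVec]
  rfl

theorem QO_tor1 (i : Fin m) (l : Fˣ) :
    QO m F ((l : F) • eO m F i - ((l⁻¹ : Fˣ) : F) • fO m F i) = -1 := by
  rw [QO_apply, Finset.sum_eq_single i]
  · simp
  · intro j _ hj
    simp [hj]
  · intro h
    exact absurd (Finset.mem_univ i) h

theorem QO_tor2 (i : Fin m) : QO m F (eO m F i - fO m F i) = -1 := by
  rw [QO_apply, Finset.sum_eq_single i]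
  · simp
  · intro j _ hj
    simp [hj]
  · intro h
    exact absurd (Finset.mem_univ i) h

/-- the torus element `e_i ↦ l² e_i`, `f_i ↦ l⁻² f_i` (identity on the other basis vectors), as a
product of two reflections of equal norm -/
noncomputable def tor (i : Fin m) (l : Fˣ) : ↥(isometryGroup F ⇑(QO m F)) :=
  reflO (QO m F) ((l : F) • eO m F i - ((l⁻¹ : Fˣ) : F) • fO m F i)
      (by rw [QO_tor1]; exact neg_ne_zero.mpr one_ne_zero) *
    reflO (QO m F) (eO m F i - fO m F i) (by rw [QO_tor2]; exact neg_ne_zero.mpr one_ne_zero)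

/-- the Weyl element `E(e_i, z) E(f_i, z) E(e_i, z)`: `e_i ↦ -f_i`, `f_i ↦ -e_i`, `z ↦ -z` -/
noncomputable def n0 (i : Fin m) : ↥(isometryGroup F ⇑(QO m F)) :=
  eichO (QO m F) (eO m F i) (zO m F) (QO_eO i) (polar_eO_zO i) *
    eichO (QO m F) (fO m F i) (zO m F) (QO_fO i) (polar_fO_zO i) *
    eichO (QO m F) (eO m F i) (zO m F) (QO_eO i) (polar_eO_zO i)

end odd

end Cfsg.Agent.Helper97.TN
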