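import Mathlib
import Cfsg.Agent.Helper97.TGDefs

set_option autoImplicit false

/-!
Helper library (helper97), piece TV of CALL S2414 (doubled): the Levi image of a transvection is an
Eichler transformation.
-/

universe u

namespace Cfsg.Agent.Helper97

open Cfsg Matrix Cfsg.Agent.Helper45 Cfsg.Agent.Helper98 Cfsg.Agent.Helper97.TG

variable {m : ℕ} {F : Type u} [Field F]

theorem tg_tv_mulVec (i j : Fin m) (c : F) (v : Fin m → F) (k : Fin m) :
    (Matrix.transvection i j c *ᵥ v) k = v k + if k = i then c * v j else 0 := by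
  rw [Matrix.transvection, Matrix.add_mulVec, Matrix.one_mulVec, Pi.add_apply]
  congr 1
  simp only [Matrix.mulVec, dotProduct, Matrix.single_apply]
  by_cases hk : k = i
  · subst hk
    simp
  · rw [if_neg hk]
    apply Finset.sum_eq_zero
    intro l _
    rw [if_neg]
    · exact zero_mul _
    · rintro ⟨h, _⟩
      exact hk h.symm

theorem tg_tv_transpose_mulVec (i j : Fin m) (c : F) (v : Fin m → F) (k : Fin m) :
    ((Matrix.transvection i j c)ᵀ *ᵥ v) k = v k + if k = j then c * v i else 0 := by
  rw [Matrix.transvection, Matrix.transpose_add, Matrix.transpose_one, Matrix.add_mulVec,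
    Matrix.one_mulVec, Pi.add_apply]
  congr 1
  simp only [Matrix.mulVec, dotProduct, Matrix.transpose_apply, Matrix.single_apply]
  by_cases hk : k = j
  · subst hk
    simp
  · rw [if_neg hk]
    apply Finset.sum_eq_zero
    intro l _
    rw [if_neg]
    · exact zero_mul _
    · rintro ⟨_, h⟩
      exact hk h.symm

theorem tg_iota_transvection (T : Matrix.SpecialLinearGroup (Fin m) F) (i j : Fin m) (hij : i ≠ j)
    (c : F) (hT : (T : Matrix (Fin m) (Fin m) F) = Matrix.transvection i j c) :
    iota m F T = eichO (QP m F) (eV m F i) (c • fV m F j) (QP_eV i)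
      (polar_eV_smul_fV i j hij c) := by
  have hinv : ((T⁻¹ : Matrix.SpecialLinearGroup (Fin m) F) : Matrix (Fin m) (Fin m) F) =
      Matrix.transvection i j (-c) := by
    have h1 : ((T⁻¹ : Matrix.SpecialLinearGroup (Fin m) F) : Matrix (Fin m) (Fin m) F) *
        (T : Matrix (Fin m) (Fin m) F) = 1 := by
      rw [← Matrix.SpecialLinearGroup.coe_mul, inv_mul_cancel, Matrix.SpecialLinearGroup.coe_one]
    have h2 : Matrix.transvection i j c * Matrix.transvection i j (-c) = (1 : Matrix (Fin m) (Fin m) F) := by
      rw [Matrix.transvection_mul_transvection_same i j hij, add_neg_cancel, Matrix.transvection_zero]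
    calc ((T⁻¹ : Matrix.SpecialLinearGroup (Fin m) F) : Matrix (Fin m) (Fin m) F)
        = ((T⁻¹ : Matrix.SpecialLinearGroup (Fin m) F) : Matrix (Fin m) (Fin m) F) *
            (Matrix.transvection i j c * Matrix.transvection i j (-c)) := by rw [h2, Matrix.mul_one]
      _ = Matrix.transvection i j (-c) := by rw [← Matrix.mul_assoc, ← hT, h1, Matrix.one_mul]
  apply ext_mv
  intro x
  rw [mv_iota, hinv, hT, mv_eichO]
  unfold Helper44.eich
  rw [QP_smul_fV, QuadraticMap.polar_smul_left, polar_fV_left, polar_eV_left]
  funext idx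
  rcases idx with k | k
  · simp only [Sum.elim_inl, tg_tv_mulVec, Function.comp_apply, Pi.add_apply, Pi.sub_apply,
      Pi.smul_apply, eV_inl, fV_inl, smul_eq_mul, zero_mul, sub_zero, mul_zero]
    by_cases hk : k = i
    · simp [hk]
    · simp [hk]
  · simp only [Sum.elim_inr, tg_tv_transpose_mulVec, Function.comp_apply, Pi.add_apply,
      Pi.sub_apply, Pi.smul_apply, eV_inr, fV_inr, smul_eq_mul, zero_mul, sub_zero, mul_zero,
      add_zero]
    by_cases hk : k = j
    · simp [hk]
      ring
    · simp [hk]

end Cfsg.Agent.Helper97
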