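import Mathlib
import Cfsg.Agent.Helper97.TMDefs

set_option autoImplicit false

/-!
Helper library (helper97), piece G5MV of CALL S2415: the action of the auxiliary element
`g5 a b i = E(e_i, z₂) E(f_i, z₁ + z₂)` of the minus-type form, in coordinates.
-/

universe u

namespace Cfsg.Agent.Helper97

open Cfsg Matrix Cfsg.Agent.Helper45 Cfsg.Agent.Helper98 Cfsg.Agent.Helper97.TM

variable {k : ℕ} {F : Type u} [Field F]

theorem tm_QM_z01 (a b : F) : QM k F a b (zM k F 0 + zM k F 1) = 1 + a + b := by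
  rw [QM_apply]
  simp

theorem tm_mv_g5 (a b : F) (i : Fin k) (x : (Fin k ⊕ Fin k) ⊕ Fin 2 → F) :
    mv ⇑(QM k F a b) (g5 a b i) x =
      x + (((1 + a + b) * b - a - 2 * b) * x (Sum.inl (Sum.inl i)) - b * x (Sum.inl (Sum.inr i))
            + (a - (2 + a) * b) * x (Sum.inr 0) + (2 * b - (a + 2 * b) * b) * x (Sum.inr 1)) • eM k F i
        + (-(1 + a + b) * x (Sum.inl (Sum.inl i)) + (2 + a) * x (Sum.inr 0)
            + (a + 2 * b) * x (Sum.inr 1)) • fM k F i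
        + (-x (Sum.inl (Sum.inl i))) • zM k F 0
        + ((a + b) * x (Sum.inl (Sum.inl i)) - x (Sum.inl (Sum.inr i)) - (2 + a) * x (Sum.inr 0)
            - (a + 2 * b) * x (Sum.inr 1)) • zM k F 1 := by
  unfold g5
  rw [mv_mul, mv_eichO, mv_eichO]
  unfold Helper44.eich
  rw [tm_QM_z01, QM_zM1]
  simp only [polar_eM_left, polar_fM_left, polar_zM1_left, QuadraticMap.polar_add_left,
    polar_zM0_left]
  funext idx
  rcases idx with (j | j) | j
  · by_cases hj : j = i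
    · subst hj
      simp
      ring
    · simp [hj]
  · by_cases hj : j = i
    · subst hj
      simp
      ring
    · simp [hj]
  · fin_cases j
    · simp
      ring
    · simp
      ring

theorem tm_g5_ee (a b : F) (i : Fin k) (x : (Fin k ⊕ Fin k) ⊕ Fin 2 → F) :
    mv ⇑(QM k F a b) (g5 a b i) x (Sum.inl (Sum.inl i)) =
      x (Sum.inl (Sum.inl i)) + (((1 + a + b) * b - a - 2 * b) * x (Sum.inl (Sum.inl i))
        - b * x (Sum.inl (Sum.inr i)) + (a - (2 + a) * b) * x (Sum.inr 0)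
        + (2 * b - (a + 2 * b) * b) * x (Sum.inr 1)) := by
  rw [tm_mv_g5]
  simp

theorem tm_g5_ff (a b : F) (i : Fin k) (x : (Fin k ⊕ Fin k) ⊕ Fin 2 → F) :
    mv ⇑(QM k F a b) (g5 a b i) x (Sum.inl (Sum.inr i)) =
      x (Sum.inl (Sum.inr i)) + (-(1 + a + b) * x (Sum.inl (Sum.inl i)) + (2 + a) * x (Sum.inr 0)
        + (a + 2 * b) * x (Sum.inr 1)) := by
  rw [tm_mv_g5]
  simp

theorem tm_g5_z0 (a b : F) (i : Fin k) (x : (Fin k ⊕ Fin k) ⊕ Fin 2 → F) :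
    mv ⇑(QM k F a b) (g5 a b i) x (Sum.inr 0) = x (Sum.inr 0) + -x (Sum.inl (Sum.inl i)) := by
  rw [tm_mv_g5]
  simp

theorem tm_g5_z1 (a b : F) (i : Fin k) (x : (Fin k ⊕ Fin k) ⊕ Fin 2 → F) :
    mv ⇑(QM k F a b) (g5 a b i) x (Sum.inr 1) =
      x (Sum.inr 1) + ((a + b) * x (Sum.inl (Sum.inl i)) - x (Sum.inl (Sum.inr i))
        - (2 + a) * x (Sum.inr 0) - (a + 2 * b) * x (Sum.inr 1)) := by
  rw [tm_mv_g5]
  simp

theorem tm_g5_ee_other (a b : F) (i c : Fin k) (hc : c ≠ i) (x : (Fin k ⊕ Fin k) ⊕ Fin 2 → F) :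
    mv ⇑(QM k F a b) (g5 a b i) x (Sum.inl (Sum.inl c)) = x (Sum.inl (Sum.inl c)) := by
  rw [tm_mv_g5]
  simp [hc]

theorem tm_g5_ff_other (a b : F) (i c : Fin k) (hc : c ≠ i) (x : (Fin k ⊕ Fin k) ⊕ Fin 2 → F) :
    mv ⇑(QM k F a b) (g5 a b i) x (Sum.inl (Sum.inr c)) = x (Sum.inl (Sum.inr c)) := by
  rw [tm_mv_g5]
  simp [hc]

end Cfsg.Agent.Helper97
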