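-- helper97 library: maximal subgroups of the commutator subgroup of an odd-dimensional orthogonal
-- group in prime dimension at least 5 (Aschbacher's theorem), for a general index type.
import Cfsg.Agent.Helper97.OResidual

set_option autoImplicit false
open Cfsg Cfsg.Geo Matrix

namespace Cfsg.Agent.Helper97.Gen

variable {κ : Type} [Fintype κ] [DecidableEq κ] {F : Type*} [Field F]

theorem eq_inf_of_maxIn {G₀ H M : Subgroup (GL κ F)}
    (hH : IsMaximalIn G₀ H) (hHM : H ≤ M) (hM : ¬ G₀ ≤ M) : H = M ⊓ G₀ := by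
  rcases hH.2 (M ⊓ G₀) (le_inf hHM hH.1.le) inf_le_right with h | h
  · exact h.symm
  · exact absurd (h ▸ inf_le_left) hM

theorem not_le_scalars_of_irred (hκ : 2 ≤ Fintype.card κ) (H : Subgroup (GL κ F))
    (hirr : ActsIrreducibly (matrixSet H)) : ¬ H ≤ scalars κ F := by
  classical
  intro hle
  have hne : Nonempty κ := by
    rw [← Fintype.card_pos_iff]
    omega
  obtain ⟨i₀⟩ := hne
  obtain ⟨v, hv⟩ : ∃ v : κ → F, v = Pi.single i₀ 1 := ⟨_, rfl⟩
  have hv0 : v ≠ 0 := by
    intro h
    have := congrFun h i₀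
    rw [hv] at this
    simp at this
  have hinv : ∀ s ∈ matrixSet H,
      (Submodule.span F {v}).map (Matrix.toLin' s) ≤ Submodule.span F {v} := by
    rintro _ ⟨g, hg, rfl⟩ _ ⟨w, hw, rfl⟩
    obtain ⟨c, hc⟩ := (scalar_mem_scalars_iff g).mp (hle hg)
    rw [Matrix.toLin'_apply]
    show (g : Matrix κ κ F) *ᵥ w ∈ Submodule.span F {v}
    rw [hc, Matrix.smul_mulVec, Matrix.one_mulVec]
    exact Submodule.smul_mem _ _ hw
  rcases hirr _ hinv with h | h
  · apply hv0
    have : v ∈ Submodule.span F {v} := Submodule.mem_span_singleton_self v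
    rw [h] at this
    exact (Submodule.mem_bot F).mp this
  · have h1 : Module.finrank F (Submodule.span F {v}) = 1 := finrank_span_singleton hv0
    rw [h, finrank_top, Module.finrank_fintype_fun_eq_card] at h1
    omega

namespace IsOQ

variable {Q : (κ → F) → F}

theorem exists_nonsing (hQ : IsOQ Q) : ∃ v, Q v ≠ 0 := by
  obtain ⟨u, hu0, -⟩ := hQ.isotropic
  obtain ⟨v, -, hv⟩ := hQ.exists_nonsing_perp u hu0
  exact ⟨v, hv⟩

/-- Two elements of the isometry group whose commutator is a scalar commute, in odd dimension. -/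
theorem comm_of_scalar_comm (hQ : IsOQ Q) (hodd : Odd (Fintype.card κ)) (a b : GL κ F)
    (ha : a ∈ isometryGroup F Q) (hb : b ∈ isometryGroup F Q)
    (hab : a * b * a⁻¹ * b⁻¹ ∈ scalars κ F) : a * b = b * a := by
  classical
  obtain ⟨c, hc⟩ : ∃ c : GL κ F, c = a * b * a⁻¹ * b⁻¹ := ⟨_, rfl⟩
  rw [← hc] at hab
  obtain ⟨ε, hε⟩ := (scalar_mem_scalars_iff c).mp hab
  have hcO : c ∈ isometryGroup F Q := by
    rw [hc]
    exact Subgroup.mul_mem _ (Subgroup.mul_mem _ (Subgroup.mul_mem _ ha hb)
      (Subgroup.inv_mem _ ha)) (Subgroup.inv_mem _ hb)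
  obtain ⟨v, hv⟩ := hQ.exists_nonsing
  have h1 := (mem_isometryGroup_iff Q c).mp hcO v
  rw [hε, Matrix.smul_mulVec, Matrix.one_mulVec, hQ.smul] at h1
  have hε2 : ε ^ 2 = 1 := by
    have h2 : (ε ^ 2 - 1) * Q v = 0 := by
      rw [sub_mul, h1, one_mul, sub_self]
    rcases mul_eq_zero.mp h2 with h3 | h3
    · exact sub_eq_zero.mp h3
    · exact absurd h3 hv
  have hdet : (c : Matrix κ κ F).det = 1 := by
    have h3 : Matrix.GeneralLinearGroup.det c = 1 := by
      rw [hc]
      simp only [map_mul, map_inv]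
      rw [mul_comm (Matrix.GeneralLinearGroup.det a), mul_assoc (Matrix.GeneralLinearGroup.det b),
        mul_inv_cancel, mul_one, mul_inv_cancel]
    have h4 := congrArg Units.val h3
    rwa [Matrix.GeneralLinearGroup.val_det_apply, Units.val_one] at h4
  rw [hε, Matrix.det_smul, Matrix.det_one, mul_one] at hdet
  obtain ⟨k, hk⟩ := hodd
  rw [hk, pow_succ, pow_mul, hε2, one_pow, one_mul] at hdet
  have hc1 : c = 1 := by
    apply Units.ext
    rw [hε, hdet, one_smul, Units.val_one]
  rw [hc] at hc1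
  calc a * b = (a * b * a⁻¹ * b⁻¹) * (b * a) := by group
    _ = b * a := by rw [hc1, one_mul]

/-- Aschbacher's theorem for the commutator subgroup of an odd-dimensional orthogonal group in prime
dimension at least five. -/
theorem orth_prime_dim_cases [Fintype F] {n : ℕ} [hcard : Fact (Fintype.card κ = n)] (hQ : IsOQ Q)
    (hn : n.Prime) (hn5 : 5 ≤ n)
    (hG : ∀ (F₁ : Subfield F) (i j : κ), gram (QuadraticMap.polar Q) i j ∈ F₁)
    (H : Subgroup (GL κ F)) (hH : IsMaximalIn (omegaGL Q) H) :
    (∃ W : Submodule F (κ → F), W ≠ ⊥ ∧ IsTotallySingularQuad Q W ∧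
      H = subspaceStabilizer W ⊓ omegaGL Q) ∨
    (∃ W : Submodule F (κ → F), W ≠ ⊥ ∧ Even (Module.finrank F W) ∧
      IsNondegenerateOn (QuadraticMap.polar Q) W ∧
      ¬ (Fintype.card F = 3 ∧ Module.finrank F W = 2 ∧ IsPlusTypeOn Q W) ∧
      H = subspaceStabilizer W ⊓ omegaGL Q) ∨
    ((Fintype.card F).Prime ∧ ∃ D : Fin n → Submodule F (κ → F),
      IsOrthogonalMDecomposition Q 1 D ∧ H = decompositionStabilizer D ⊓ omegaGL Q) ∨
    (∃ (F₀ : Subfield F) (r : ℕ) (P : GL κ F), r.Prime ∧ Fintype.card F = Nat.card F₀ ^ r ∧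
      IsQuadFormRationalStructure Q F₀ P ∧ H = subfieldSubgroup F₀ P ⊓ omegaGL Q) ∨
    InOrthogonalResidualClass H := by
  classical
  have hcardκ : Fintype.card κ = n := hcard.out
  obtain ⟨p, hchar⟩ := CharP.exists F
  have hp : p.Prime :=
    (CharP.char_is_prime_or_zero F p).resolve_right (CharP.char_ne_zero_of_finite F p)
  have hfact : Fact p.Prime := ⟨hp⟩
  have hodd : Odd n := by
    rcases hn.eq_two_or_odd' with h | h
    · omega
    · exact h
  have hoddκ : Odd (Fintype.card κ) := by rw [hcardκ]; exact hodd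
  have hHΩ : H ≤ omegaGL Q := hH.1.le
  have hHO : H ≤ isometryGroup F Q := hHΩ.trans (omegaGL_le Q)
  have hZc : ∀ z ∈ scalars κ F, ∀ g : GL κ F, z * g = g * z :=
    fun z hz g => scalars_comm hz g
  by_cases hirr : ActsIrreducibly (matrixSet H)
  swap
  · -- reducible: classes 1 and 2
    rcases hQ.reducible_cases hoddκ H hHO hirr with
      ⟨W, hW0, hW1, hts, hle⟩ | ⟨W, hW0, hW1, hnd, heven, hle⟩
    · left
      exact ⟨W, hW0, hts, eq_inf_of_maxIn hH hle (hQ.notOmega_subspace W hW0 hW1)⟩
    · right; left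
      by_cases hbad : Fintype.card F = 3 ∧ Module.finrank F W = 2 ∧ IsPlusTypeOn Q W
      · obtain ⟨W', hdim', hnd', hle'⟩ :=
          hQ.plus_plane_three hbad.1 H hHO W hle hnd hbad.2.1 hbad.2.2
        rw [hcardκ] at hdim'
        have hW'0 : W' ≠ ⊥ := by
          rintro rfl
          rw [finrank_bot] at hdim'
          omega
        have hW'1 : W' ≠ ⊤ := by
          rintro rfl
          rw [finrank_top, Module.finrank_fintype_fun_eq_card, hcardκ] at hdim'
          omega
        have heven' : Even (Module.finrank F W') := by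
          obtain ⟨k, hk⟩ := hodd
          exact ⟨k, by omega⟩
        exact ⟨W', hW'0, heven', hnd', fun h => by omega,
          eq_inf_of_maxIn hH hle' (hQ.notOmega_subspace W' hW'0 hW'1)⟩
      · exact ⟨W, hW0, heven, hnd, hbad,
          eq_inf_of_maxIn hH hle (hQ.notOmega_subspace W hW0 hW1)⟩
  -- irreducible
  have hHZ : ¬ H ≤ scalars κ F := not_le_scalars_of_irred (by omega) H hirr
  obtain ⟨N, hNH, hNn, hNZ, hNmin⟩ := exists_minimal_normal (scalars κ F) H hHZ
  have hNO : N ≤ isometryGroup F Q := hNH.trans hHO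
  by_cases hNab : ∀ a ∈ N, ∀ b ∈ N, a * b = b * a
  · rcases abelian_normal_cases_sep hn H N hirr hNn hNab with h | ⟨K, hKdef, h | h⟩
    · exact absurd h hNZ
    · -- an orthogonal decomposition into non-degenerate lines
      obtain ⟨D, hD, hHD, hKD, hsep⟩ := h
      have hDnd := hQ.decomp_orthogonal hodd H hirr hHO (K : Set (Matrix κ κ F))
        (fun k hk => hQ.double_centralizer_adj N hNO (K : Set (Matrix κ κ F)) hKdef k hk)
        D hD hHD hKD hsep
      have hDorth : IsOrthogonalMDecomposition Q 1 D :=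
        ⟨hDnd, fun i j => hQ.decomp_isometric H hirr hHO D hD hHD i j⟩
      by_cases hprime : (Fintype.card F).Prime
      · right; right; left
        exact ⟨hprime, D, hDorth,
          eq_inf_of_maxIn hH hHD (hQ.notOmega_decomp (by omega) D hDnd)⟩
      · right; right; right; left
        have hbot : (⊥ : Subfield F) ≠ ⊤ := by
          intro hbt
          apply hprime
          have h1 : Nat.card (⊥ : Subfield F) = p := Subfield.card_bot F p
          rw [hbt] at h1
          have h2 : Nat.card (⊤ : Subfield F) = Nat.card F :=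
            Nat.card_congr (Subfield.topEquiv (K := F)).toEquiv
          rw [h2, Nat.card_eq_fintype_card] at h1
          rw [h1]
          exact hp
        obtain ⟨F₁, r, -, hr, hcardr⟩ := exists_prime_index_subfield (⊥ : Subfield F) hbot
        obtain ⟨P', hrat, hle⟩ := hQ.decomp_subfield hcardκ hodd F₁ (hG F₁) D hDorth
        exact ⟨F₁, r, P', hr, hcardr, hrat,
          eq_inf_of_maxIn hH ((le_inf hHD hHO).trans hle)
            (hQ.notOmega_subfield F₁ (subfield_ne_top_of_card F₁ r hr hcardr) P')⟩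
    · -- an extension field: impossible
      obtain ⟨hK, -⟩ := h
      exact absurd (hQ.field_contra hoddκ N hNO K hK.inv
        (fun g hg => (hKdef _).mpr (fun c hc => (hc g hg).symm))) hNZ
  rcases clifford_dichotomy hn H N hirr hNn with h | ⟨hab, -⟩ | habs
  · exact absurd h hNZ
  · exact absurd hab hNab
  -- `N` is absolutely irreducible
  have hCN : ⁅N, N⁆ ≤ N := by
    rw [Subgroup.commutator_le]
    intro a ha b hb
    rw [commutatorElement_def]
    exact N.mul_mem (N.mul_mem (N.mul_mem ha hb) (N.inv_mem ha)) (N.inv_mem hb)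
  rcases hNmin ⁅N, N⁆ hCN (commutator_normalized H N hNn) with hC | hC
  · -- class two modulo scalars: impossible in odd dimension
    exfalso
    apply hNab
    intro a ha b hb
    apply hQ.comm_of_scalar_comm hoddκ a b (hNO ha) (hNO hb)
    have := Subgroup.commutator_mem_commutator ha hb
    rw [commutatorElement_def] at this
    exact hC this
  · -- perfect
    have hperf : ⁅N, N⁆ = N := hC
    have hirrN : ActsIrreducibly (matrixSet N) := habs.1
    have hcentN : ∀ c : GL κ F, (∀ s ∈ N, c * s = s * c) → c ∈ scalars κ F := by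
      intro c hc
      obtain ⟨a, ha⟩ := habs.2 (c : Matrix κ κ F) (by
        rintro _ ⟨s, hs, rfl⟩
        rw [← Units.val_mul, ← Units.val_mul, hc s hs])
      exact (scalar_mem_scalars_iff c).mpr ⟨a, ha⟩
    have hdich : ∀ S : Subgroup (GL κ F), S ≤ N → (∀ x ∈ N, ∀ s ∈ S, x * s * x⁻¹ ∈ S) →
        S ≤ scalars κ F ∨ (∀ a ∈ S, ∀ b ∈ S, a * b = b * a) ∨
          (∀ c : GL κ F, (∀ s ∈ S, c * s = s * c) → c ∈ scalars κ F) := by
      intro S _ hSn
      rcases clifford_dichotomy hn N S hirrN hSn with h | ⟨h, -⟩ | h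
      · exact Or.inl h
      · exact Or.inr (Or.inl h)
      · right; right
        intro c hc
        obtain ⟨a, ha⟩ := h.2 (c : Matrix κ κ F) (by
          rintro _ ⟨s, hs, rfl⟩
          rw [← Units.val_mul, ← Units.val_mul, hc s hs])
        exact (scalar_mem_scalars_iff c).mpr ⟨a, ha⟩
    have hsimple := simple_of_minimal (scalars κ F) H N hZc hNn hNZ hNmin hperf hdich
    by_cases hsub : ∃ F₀ : Subfield F, F₀ ≠ ⊤ ∧ RealisableOver F₀ (matrixSet N)
    · obtain ⟨F₀, hF₀, hreal⟩ := hsub
      obtain ⟨F₁, r, hle, hr, hcardr⟩ := exists_prime_index_subfield F₀ hF₀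
      obtain ⟨B, hB⟩ := hreal
      obtain ⟨P', hnorm, hrat⟩ := hQ.orth_subfield_structure hoddκ F₁ (hG F₁) N hNO habs B
        (fun s hs i j => hle (hB s hs i j))
      right; right; right; left
      exact ⟨F₁, r, P', hr, hcardr, hrat,
        eq_inf_of_maxIn hH (fun g hg => hnorm g (hNn g hg))
          (hQ.notOmega_subfield F₁ (subfield_ne_top_of_card F₁ r hr hcardr) P')⟩
    have hcore : IsResidualCore H N :=
      { le := hNH
        normal := hNn
        perfect := hperf
        simple := isSimpleGroup_quot (scalars κ F) N hNZ hsimple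
        nonabelian := not_commutative_quot (scalars κ F) N hNZ hperf
        centralizer_scalar := fun h _ hh =>
          mem_of_centralizes_mod (scalars κ F) N hZc hperf hcentN h hh
        absIrred := habs
        no_subfield := fun F₀ hF₀ hreal => hsub ⟨F₀, hF₀, hreal⟩ }
    right; right; right; right
    refine ⟨N, hcore, ?_⟩
    rintro ⟨σ, f, hf, hfix⟩
    exact hsub (hQ.realisable_of_fixes_unitary N hNO habs σ f hf hfix)

end IsOQ

end Cfsg.Agent.Helper97.Gen
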