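-- helper97 library: the standard quadratic form in odd dimension satisfies the hypotheses of the
-- orthogonal Aschbacher theorem.
import Cfsg.Agent.Helper97.OPrimeDim

set_option autoImplicit false
open Cfsg Cfsg.Geo Matrix

namespace Cfsg.Agent.Helper97.Gen

variable {F : Type*} [Field F] {m : ℕ}

theorem polar_quadFormOdd (u v : Unit ⊕ (Fin m ⊕ Fin m) → F) :
    QuadraticMap.polar (quadFormOdd m F) u v = 2 * u (.inl ()) * v (.inl ())
      + ∑ i : Fin m, (u (.inr (.inl i)) * v (.inr (.inr i))
          + u (.inr (.inr i)) * v (.inr (.inl i))) := by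
  have h1 : ∑ i : Fin m, (u (.inr (.inl i)) + v (.inr (.inl i)))
        * (u (.inr (.inr i)) + v (.inr (.inr i)))
      = ∑ i : Fin m, u (.inr (.inl i)) * u (.inr (.inr i))
        + ∑ i : Fin m, v (.inr (.inl i)) * v (.inr (.inr i))
        + ∑ i : Fin m, (u (.inr (.inl i)) * v (.inr (.inr i))
          + u (.inr (.inr i)) * v (.inr (.inl i))) := by
    rw [← Finset.sum_add_distrib, ← Finset.sum_add_distrib]
    apply Finset.sum_congr rfl
    intro i _
    ring
  unfold QuadraticMap.polar quadFormOdd
  simp only [Pi.add_apply]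
  rw [h1]
  ring

theorem polar_single_zero (v : Unit ⊕ (Fin m ⊕ Fin m) → F) :
    QuadraticMap.polar (quadFormOdd m F) (Pi.single (Sum.inl ()) 1) v = 2 * v (.inl ()) := by
  rw [polar_quadFormOdd]
  simp

theorem polar_single_inl (i : Fin m) (v : Unit ⊕ (Fin m ⊕ Fin m) → F) :
    QuadraticMap.polar (quadFormOdd m F) (Pi.single (Sum.inr (Sum.inl i)) 1) v
      = v (.inr (.inr i)) := by
  classical
  rw [polar_quadFormOdd]
  simp [Pi.single_apply]

theorem polar_single_inr (i : Fin m) (v : Unit ⊕ (Fin m ⊕ Fin m) → F) :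
    QuadraticMap.polar (quadFormOdd m F) (Pi.single (Sum.inr (Sum.inr i)) 1) v
      = v (.inr (.inl i)) := by
  classical
  rw [polar_quadFormOdd]
  simp [Pi.single_apply]

theorem polar_quadFormOdd_comm (u v : Unit ⊕ (Fin m ⊕ Fin m) → F) :
    QuadraticMap.polar (quadFormOdd m F) u v = QuadraticMap.polar (quadFormOdd m F) v u := by
  unfold QuadraticMap.polar
  rw [add_comm u v]
  ring

theorem isOQ_quadFormOdd (h2 : (2 : F) ≠ 0) (hm : 1 ≤ m) : IsOQ (quadFormOdd m F) := by
  classical
  have hbl : ∀ x y v : Unit ⊕ (Fin m ⊕ Fin m) → F,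
      QuadraticMap.polar (quadFormOdd m F) (x + y) v
        = QuadraticMap.polar (quadFormOdd m F) x v + QuadraticMap.polar (quadFormOdd m F) y v := by
    intro x y v
    rw [polar_quadFormOdd, polar_quadFormOdd, polar_quadFormOdd]
    simp only [Pi.add_apply]
    rw [add_add_add_comm, ← Finset.sum_add_distrib]
    congr 1
    · ring
    · apply Finset.sum_congr rfl
      intro i _
      ring
  have hsl : ∀ (c : F) (x v : Unit ⊕ (Fin m ⊕ Fin m) → F),
      QuadraticMap.polar (quadFormOdd m F) (c • x) v
        = c * QuadraticMap.polar (quadFormOdd m F) x v := by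
    intro c x v
    rw [polar_quadFormOdd, polar_quadFormOdd]
    simp only [Pi.smul_apply, smul_eq_mul]
    rw [mul_add, Finset.mul_sum]
    congr 1
    · ring
    · apply Finset.sum_congr rfl
      intro i _
      ring
  refine ⟨h2, ⟨?_, ⟨hbl, hsl, ?_, ?_⟩, ?_⟩, ?_, ?_⟩
  · intro c v
    unfold quadFormOdd
    simp only [Pi.smul_apply, smul_eq_mul]
    rw [mul_add, Finset.mul_sum]
    congr 1
    · ring
    · apply Finset.sum_congr rfl
      intro i _
      ring
  · intro v x y
    rw [polar_quadFormOdd_comm v (x + y), hbl, polar_quadFormOdd_comm x v,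
      polar_quadFormOdd_comm y v]
  · intro c v x
    rw [polar_quadFormOdd_comm v (c • x), hsl, polar_quadFormOdd_comm x v]
  · intro v hv
    have key : ∃ x, QuadraticMap.polar (quadFormOdd m F) x v ≠ 0 := by
      by_contra hcon
      apply hv
      have hall : ∀ x, QuadraticMap.polar (quadFormOdd m F) x v = 0 := by
        intro x
        by_contra hx
        exact hcon ⟨x, hx⟩
      funext a
      rcases a with ⟨⟩ | i | i
      · have h1 := hall (Pi.single (Sum.inl ()) 1)
        rw [polar_single_zero] at h1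
        rcases mul_eq_zero.mp h1 with h3 | h3
        · exact absurd h3 h2
        · exact h3
      · have h1 := hall (Pi.single (Sum.inr (Sum.inr i)) 1)
        rw [polar_single_inr] at h1
        exact h1
      · have h1 := hall (Pi.single (Sum.inr (Sum.inl i)) 1)
        rw [polar_single_inl] at h1
        exact h1
    obtain ⟨x, hx⟩ := key
    exact ⟨⟨x, hx⟩, ⟨x, by rwa [polar_quadFormOdd_comm]⟩⟩
  · simp only [Fintype.card_sum, Fintype.card_unit, Fintype.card_fin]
    omega
  · refine ⟨Pi.single (Sum.inr (Sum.inl ⟨0, by omega⟩)) 1, ?_, ?_⟩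
    · intro h
      have := congrFun h (Sum.inr (Sum.inl ⟨0, by omega⟩))
      simp at this
    · unfold quadFormOdd
      simp [Pi.single_apply]

theorem gram_quadFormOdd_mem (F₁ : Subfield F) (a b : Unit ⊕ (Fin m ⊕ Fin m)) :
    gram (QuadraticMap.polar (quadFormOdd m F)) a b ∈ F₁ := by
  classical
  rw [gram_apply]
  have hv : ∀ c, (Pi.single b 1 : Unit ⊕ (Fin m ⊕ Fin m) → F) c ∈ F₁ := by
    intro c
    rw [Pi.single_apply]
    split_ifs
    · exact one_mem F₁
    · exact zero_mem F₁
  rcases a with ⟨⟩ | i | i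
  · rw [polar_single_zero]
    exact mul_mem (by
      have : (2 : F) = 1 + 1 := by norm_num
      rw [this]
      exact add_mem (one_mem F₁) (one_mem F₁)) (hv _)
  · rw [polar_single_inl]
    exact hv _
  · rw [polar_single_inr]
    exact hv _

theorem two_ne_zero_of_odd_card [Fintype F] (hodd : Odd (Fintype.card F)) : (2 : F) ≠ 0 := by
  intro h2
  have hchar : ringChar F = 2 :=
    CharP.ringChar_of_prime_eq_zero Nat.prime_two (by exact_mod_cast h2)
  have h1 := FiniteField.even_card_of_char_two hchar
  obtain ⟨k, hk⟩ := hodd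
  omega

theorem card_index_seven : Fintype.card (Unit ⊕ (Fin 3 ⊕ Fin 3)) = 7 := by
  simp only [Fintype.card_sum, Fintype.card_unit, Fintype.card_fin]

theorem card_index_eleven : Fintype.card (Unit ⊕ (Fin 5 ⊕ Fin 5)) = 11 := by
  simp only [Fintype.card_sum, Fintype.card_unit, Fintype.card_fin]

end Cfsg.Agent.Helper97.Gen
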