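-- helper97 library: abelian normal subgroups of irreducible unitary groups in odd prime dimension.
import Cfsg.Agent.Helper97.Clifford2

set_option autoImplicit false
open Cfsg Cfsg.Geo Matrix

namespace Cfsg.Agent.Helper97

variable {F : Type*} [Field F] {n : ℕ}

namespace IsSigma

variable {q : ℕ} {σ : F ≃+* F}

/-- The adjoint of a matrix for the standard unitary form is its conjugate transpose. -/
theorem herm_adj (h : IsSigma q σ) (k : Matrix (Fin n) (Fin n) F) (u v : Fin n → F) :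
    hermForm n F q (k *ᵥ u) v = hermForm n F q u ((k.map σ)ᵀ *ᵥ v) := by
  have e1 : ∀ a b : Fin n → F, hermForm n F q a b = a ⬝ᵥ (fun i => σ (b i)) := fun a b => h.herm_eq a b
  rw [e1, e1]
  have e2 : (fun i => σ (((k.map σ)ᵀ *ᵥ v) i)) = kᵀ *ᵥ (fun i => σ (v i)) := by
    funext i
    simp [Matrix.mulVec, dotProduct, map_sum, map_mul, h.inv]
  rw [e2, Matrix.dotProduct_mulVec, Matrix.vecMul_transpose]

theorem adj_adj (h : IsSigma q σ) (k : Matrix (Fin n) (Fin n) F) :
    (((k.map σ)ᵀ).map σ)ᵀ = k := by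
  ext i j
  simp [h.inv]

theorem adj_mul (a b : Matrix (Fin n) (Fin n) F) :
    ((a * b).map σ)ᵀ = (b.map σ)ᵀ * (a.map σ)ᵀ := by
  rw [map_mul_equiv, Matrix.transpose_mul]

theorem adj_GU (h : IsSigma q σ) (g : GL (Fin n) F) (hg : g ∈ GU n F q) :
    ((g : Matrix (Fin n) (Fin n) F).map σ)ᵀ = ((g⁻¹ : GL (Fin n) F) : Matrix (Fin n) (Fin n) F) := by
  have h1 := h.GU_matrix g hg
  have h2 : ((g : Matrix (Fin n) (Fin n) F).map σ)ᵀ * (g : Matrix (Fin n) (Fin n) F) = 1 := by
    have h3 := congrArg Matrix.transpose h1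
    rwa [Matrix.transpose_mul, Matrix.transpose_transpose, Matrix.transpose_one] at h3
  calc ((g : Matrix (Fin n) (Fin n) F).map σ)ᵀ
      = ((g : Matrix (Fin n) (Fin n) F).map σ)ᵀ * ((g : Matrix (Fin n) (Fin n) F)
        * ((g⁻¹ : GL (Fin n) F) : Matrix (Fin n) (Fin n) F)) := by rw [val_mul_val_inv, mul_one]
    _ = ((g⁻¹ : GL (Fin n) F) : Matrix (Fin n) (Fin n) F) := by rw [← mul_assoc, h2, one_mul]

/-- The double centraliser of a subgroup of the unitary group is closed under adjoints. -/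
theorem double_centralizer_adj (h : IsSigma q σ) (S : Subgroup (GL (Fin n) F)) (hS : S ≤ GU n F q)
    (K : Set (Matrix (Fin n) (Fin n) F))
    (hK : ∀ a : Matrix (Fin n) (Fin n) F, a ∈ K ↔ ∀ c : Matrix (Fin n) (Fin n) F,
      (∀ s ∈ S, (s : Matrix (Fin n) (Fin n) F) * c = c * (s : Matrix (Fin n) (Fin n) F)) →
        c * a = a * c)
    (k : Matrix (Fin n) (Fin n) F) (hk : k ∈ K) : (k.map σ)ᵀ ∈ K := by
  rw [hK]
  intro c hc
  have hc' : ∀ s ∈ S, (s : Matrix (Fin n) (Fin n) F) * (c.map σ)ᵀ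
      = (c.map σ)ᵀ * (s : Matrix (Fin n) (Fin n) F) := by
    intro s hs
    have h1 := hc s⁻¹ (S.inv_mem hs)
    have h2 := congrArg (fun M : Matrix (Fin n) (Fin n) F => (M.map σ)ᵀ) h1
    simp only [adj_mul] at h2
    rw [h.adj_GU s⁻¹ (hS (S.inv_mem hs)), inv_inv] at h2
    exact h2.symm
  have h3 := (hK k).mp hk _ hc'
  have h4 := congrArg (fun M : Matrix (Fin n) (Fin n) F => (M.map σ)ᵀ) h3
  simp only [adj_mul, h.adj_adj] at h4
  exact h4.symm

/-- A decomposition into lines normalised by an irreducible unitary group, whose lines are separated by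
an adjoint-closed commutative family, is an orthogonal decomposition into non-degenerate lines. -/
theorem decomp_orthogonal (h : IsSigma q σ) (hodd : Odd n) (H : Subgroup (GL (Fin n) F))
    (hirr : ActsIrreducibly (matrixSet H)) (hHGU : H ≤ GU n F q)
    (K : Set (Matrix (Fin n) (Fin n) F))
    (hKadj : ∀ k ∈ K, (k.map σ)ᵀ ∈ K)
    (D : Fin n → Submodule F (Fin n → F)) (hD : IsMDecomposition 1 D)
    (hHD : H ≤ decompositionStabilizer D)
    (hKD : ∀ k ∈ K, ∀ i, ∀ w ∈ D i, k *ᵥ w ∈ D i)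
    (hsep : ∀ i j, i ≠ j → ∃ k ∈ K, (∀ w ∈ D i, k *ᵥ w = 0) ∧ (∀ w ∈ D j, k *ᵥ w = 0 → w = 0)) :
    IsNondegenerateMDecomposition (hermForm n F q) 1 D := by
  classical
  have hS := h.isSesq (n := n)
  have hex : ∀ i, ∃ d : Fin n → F, d ∈ D i ∧ d ≠ 0 ∧ ∀ w ∈ D i, ∃ c : F, w = c • d := by
    intro i
    obtain ⟨d, hd0, hd⟩ := finrank_eq_one_iff'.mp (hD.finrank_eq i)
    refine ⟨d, d.2, fun h0 => hd0 (Subtype.ext h0), fun w hw => ?_⟩
    obtain ⟨c, hc⟩ := hd ⟨w, hw⟩
    exact ⟨c, (congrArg Subtype.val hc).symm⟩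
  choose d hdD hd0 hdgen using hex
  have hb : ∀ i j l, i ≠ j → hermForm n F q (d i) (d l) ≠ 0 → hermForm n F q (d j) (d l) ≠ 0 →
      False := by
    intro i j l hij hil hjl
    obtain ⟨k, hkK, hki, hkj⟩ := hsep i j hij
    obtain ⟨e, he⟩ := hdgen l _ (hKD _ (hKadj k hkK) l (d l) (hdD l))
    have h1 : hermForm n F q (k *ᵥ d i) (d l) = hermForm n F q (d i) ((k.map σ)ᵀ *ᵥ d l) :=
      h.herm_adj k _ _
    rw [hki (d i) (hdD i), hS.zero_left, he, hS.smul_right] at h1
    have he0 : e = 0 := by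
      rcases mul_eq_zero.mp h1.symm with h2 | h2
      · exact (map_eq_zero σ).mp h2
      · exact absurd h2 hil
    obtain ⟨c, hc⟩ := hdgen j _ (hKD k hkK j (d j) (hdD j))
    have hc0 : c ≠ 0 := by
      rintro rfl
      rw [zero_smul] at hc
      exact hd0 j (hkj (d j) (hdD j) hc)
    have h2 : hermForm n F q (k *ᵥ d j) (d l) = hermForm n F q (d j) ((k.map σ)ᵀ *ᵥ d l) :=
      h.herm_adj k _ _
    rw [hc, hS.smul_left, he, he0, zero_smul, hS.zero_right] at h2
    rcases mul_eq_zero.mp h2 with h3 | h3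
    · exact hc0 h3
    · exact hjl h3
  have hc : ∀ l, ∃ i, hermForm n F q (d i) (d l) ≠ 0 := by
    intro l
    by_contra hcon
    have hall : ∀ i, hermForm n F q (d i) (d l) = 0 := by
      intro i
      by_contra hi
      exact hcon ⟨i, hi⟩
    obtain ⟨⟨x, hx⟩, -⟩ := h.isUnitaryForm.nondegenerate (d l) (hd0 l)
    apply hx
    have hxtop : x ∈ ⨆ i, D i := by
      rw [hD.iSup_eq_top]
      exact Submodule.mem_top
    refine Submodule.iSup_induction D (motive := fun x => hermForm n F q x (d l) = 0) hxtop ?_ ?_ ?_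
    · intro i w hw
      obtain ⟨c, hc⟩ := hdgen i w hw
      rw [hc, hS.smul_left, hall i, mul_zero]
    · exact hS.zero_left _
    · intro a b ha hb
      rw [hS.add_left, ha, hb, add_zero]
  choose τ hτ using hc
  have hτuniq : ∀ l i, hermForm n F q (d i) (d l) ≠ 0 → i = τ l := by
    intro l i hi
    by_contra hne
    exact hb i (τ l) l hne hi (hτ l)
  have hτinv : Function.Involutive τ := by
    intro l
    have h1 : hermForm n F q (d l) (d (τ l)) ≠ 0 := by
      rw [h.herm_symm]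
      exact (map_ne_zero σ).mpr (hτ l)
    exact (hτuniq (τ l) l h1).symm
  obtain ⟨l₀, hl₀⟩ : ∃ l, τ l = l := by
    by_contra hcon
    have hsq : (Function.Involutive.toPerm τ hτinv) ^ 2 = 1 := by
      ext x
      simp [pow_two, hτinv x]
    have h2 := Equiv.Perm.two_dvd_card_support hsq
    have hsupp : (Function.Involutive.toPerm τ hτinv).support = Finset.univ := by
      ext i
      simp only [Equiv.Perm.mem_support, Finset.mem_univ, iff_true, Function.Involutive.coe_toPerm]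
      exact fun h => hcon ⟨i, h⟩
    rw [hsupp, Finset.card_univ, Fintype.card_fin] at h2
    exact (Nat.not_even_iff_odd.mpr hodd) (even_iff_two_dvd.mpr h2)
  have hJ0 : hermForm n F q (d l₀) (d l₀) ≠ 0 := by
    have h1 := hτ l₀
    rwa [hl₀] at h1
  have hperm : ∀ g ∈ H, ∀ l, hermForm n F q (d l) (d l) ≠ 0 → ∃ l',
      D l' = (D l).map (Matrix.toLin' (g : Matrix (Fin n) (Fin n) F)) ∧
        hermForm n F q (d l') (d l') ≠ 0 := by
    intro g hg l hl
    obtain ⟨π, hπ⟩ := (mem_decompositionStabilizer_iff D g).mp (hHD hg)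
    refine ⟨π l, (hπ l).symm, ?_⟩
    have hmem : (g : Matrix (Fin n) (Fin n) F) *ᵥ d l ∈ D (π l) := by
      rw [← hπ l]
      exact ⟨d l, hdD l, by rw [Matrix.toLin'_apply]⟩
    obtain ⟨c, hc⟩ := hdgen (π l) _ hmem
    have h1 := hHGU hg (d l) (d l)
    change hermForm n F q ((g : Matrix (Fin n) (Fin n) F) *ᵥ d l)
      ((g : Matrix (Fin n) (Fin n) F) *ᵥ d l) = hermForm n F q (d l) (d l) at h1
    rw [hc, hS.smul_left, hS.smul_right] at h1
    intro h0
    rw [h0, mul_zero, mul_zero] at h1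
    exact hl h1.symm
  obtain ⟨W₀, hW₀⟩ : ∃ W₀ : Submodule F (Fin n → F),
      W₀ = ⨆ l : {l // hermForm n F q (d l) (d l) ≠ 0}, D l.1 := ⟨_, rfl⟩
  have hW₀inv : ∀ s ∈ matrixSet H, W₀.map (Matrix.toLin' s) ≤ W₀ := by
    rintro _ ⟨g, hg, rfl⟩
    rw [hW₀, Submodule.map_iSup]
    refine iSup_le fun l => ?_
    obtain ⟨l', hl', hl'0⟩ := hperm g hg l.1 l.2
    rw [← hl']
    exact le_iSup (fun l : {l // hermForm n F q (d l) (d l) ≠ 0} => D l.1) ⟨l', hl'0⟩
  have hW₀top : W₀ = ⊤ := by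
    rcases hirr W₀ hW₀inv with h0 | h0
    · exfalso
      have h1 : D l₀ ≤ W₀ := by
        rw [hW₀]
        exact le_iSup (fun l : {l // hermForm n F q (d l) (d l) ≠ 0} => D l.1) ⟨l₀, hJ0⟩
      rw [h0] at h1
      exact hd0 l₀ ((Submodule.mem_bot F).mp (h1 (hdD l₀)))
    · exact h0
  have hall : ∀ l, hermForm n F q (d l) (d l) ≠ 0 := by
    intro l
    by_contra hl
    have hle : W₀ ≤ ⨆ j, ⨆ (_ : j ≠ l), D j := by
      rw [hW₀]
      refine iSup_le fun l' => ?_
      exact le_iSup₂_of_le l'.1 (fun h => l'.2 (by rw [h]; exact hl)) le_rfl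
    have hdis := hD.indep l
    have h1 : d l ∈ ⨆ j, ⨆ (_ : j ≠ l), D j := hle (by rw [hW₀top]; exact Submodule.mem_top)
    exact hd0 l ((Submodule.disjoint_def.mp hdis) _ (hdD l) h1)
  have hort : ∀ i j, i ≠ j → hermForm n F q (d i) (d j) = 0 := by
    intro i j hij
    by_contra hne
    have h1 := hτuniq j i hne
    have h2 := hτuniq j j (hall j)
    exact hij (h1.trans h2.symm)
  refine ⟨hD, ?_, ?_⟩
  · intro i w hw hw0
    obtain ⟨c, hc⟩ := hdgen i w hw
    have hc0 : c ≠ 0 := by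
      rintro rfl
      rw [zero_smul] at hc
      exact hw0 hc
    have hww : hermForm n F q w w ≠ 0 := by
      rw [hc, hS.smul_left, hS.smul_right]
      exact mul_ne_zero hc0 (mul_ne_zero ((map_ne_zero σ).mpr hc0) (hall i))
    exact ⟨⟨w, hw, hww⟩, ⟨w, hw, hww⟩⟩
  · intro i j hij u hu v hv
    obtain ⟨a, ha⟩ := hdgen i u hu
    obtain ⟨b, hb'⟩ := hdgen j v hv
    rw [ha, hb', hS.smul_left, hS.smul_right, hort i j hij, mul_zero, mul_zero]

end IsSigma

end Cfsg.Agent.Helper97
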