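-- helper97 library: reducible subgroups of the unitary group.
import Cfsg.Agent.Helper97.UAbelian

set_option autoImplicit false
open Cfsg Cfsg.Geo Matrix

namespace Cfsg.Agent.Helper97

variable {F : Type*} [Field F] {n : ℕ}

namespace IsSigma

variable {q : ℕ} {σ : F ≃+* F}

/-- The orthogonal complement of a subspace for the standard unitary form. -/
def perp (h : IsSigma q σ) (U : Submodule F (Fin n → F)) : Submodule F (Fin n → F) where
  carrier := {u | ∀ v ∈ U, hermForm n F q u v = 0}
  add_mem' := by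
    intro a b ha hb v hv
    rw [h.isSesq.add_left, ha v hv, hb v hv, add_zero]
  zero_mem' := by
    intro v _
    exact h.isSesq.zero_left v
  smul_mem' := by
    intro c a ha v hv
    rw [h.isSesq.smul_left, ha v hv, mul_zero]

theorem mem_perp (h : IsSigma q σ) (U : Submodule F (Fin n → F)) (u : Fin n → F) :
    u ∈ h.perp U ↔ ∀ v ∈ U, hermForm n F q u v = 0 := Iff.rfl

theorem isInv_perp (h : IsSigma q σ) (H : Subgroup (GL (Fin n) F)) (hH : H ≤ GU n F q)
    (U : Submodule F (Fin n → F)) (hU : IsInv (matrixSet H) U) : IsInv (matrixSet H) (h.perp U) := by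
  rintro _ ⟨g, hg, rfl⟩ u hu
  rw [h.mem_perp]
  intro v hv
  have h1 := hH hg u (((g⁻¹ : GL (Fin n) F) : Matrix (Fin n) (Fin n) F) *ᵥ v)
  change hermForm n F q ((g : Matrix (Fin n) (Fin n) F) *ᵥ u)
    ((g : Matrix (Fin n) (Fin n) F) *ᵥ (((g⁻¹ : GL (Fin n) F) : Matrix (Fin n) (Fin n) F) *ᵥ v))
      = hermForm n F q u (((g⁻¹ : GL (Fin n) F) : Matrix (Fin n) (Fin n) F) *ᵥ v) at h1
  rw [mulVec_cancel_inv] at h1
  rw [h1]
  exact hu _ (hU _ (coe_mem_matrixSet (H.inv_mem hg)) v hv)

theorem finrank_perp_ge (h : IsSigma q σ) (U : Submodule F (Fin n → F)) :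
    n ≤ Module.finrank F U + Module.finrank F (h.perp U) := by
  classical
  have hS := h.isSesq (n := n)
  obtain ⟨d, hd⟩ : ∃ d, d = Module.finrank F U := ⟨_, rfl⟩
  let b : Module.Basis (Fin d) F U := (Module.finBasis F U).reindex (finCongr hd.symm)
  let L : (Fin n → F) →ₗ[F] (Fin d → F) :=
    { toFun := fun u j => hermForm n F q u (b j)
      map_add' := by
        intro u v
        funext j
        exact hS.add_left u v _
      map_smul' := by
        intro c u
        funext j
        exact hS.smul_left c u _ }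
  have hker : LinearMap.ker L ≤ h.perp U := by
    intro u hu
    rw [LinearMap.mem_ker] at hu
    rw [h.mem_perp]
    intro v hv
    have e : v = ∑ j, (b.repr ⟨v, hv⟩ j) • (b j : Fin n → F) := by
      have h1 := congrArg Subtype.val (b.sum_repr ⟨v, hv⟩)
      simp only [AddSubmonoidClass.coe_finsetSum, Submodule.coe_smul] at h1
      exact h1.symm
    rw [e, hS.sum_right]
    apply Finset.sum_eq_zero
    intro j _
    rw [hS.smul_right]
    have h2 : L u j = 0 := by rw [hu]; rfl
    have h3 : hermForm n F q u (b j) = 0 := h2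
    rw [h3, mul_zero]
  have h1 := LinearMap.finrank_range_add_finrank_ker L
  rw [Module.finrank_fin_fun] at h1
  have h2 : Module.finrank F (LinearMap.range L) ≤ d := by
    have := Submodule.finrank_le (LinearMap.range L)
    rwa [Module.finrank_fin_fun] at this
  have h3 := Submodule.finrank_mono hker
  omega

/-- A reducible subgroup of the unitary group in odd dimension stabilises a totally singular subspace
or a non-degenerate subspace of less than half the dimension. -/
theorem reducible_cases [Finite F] (h : IsSigma q σ) (hodd : Odd n) (H : Subgroup (GL (Fin n) F))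
    (hH : H ≤ GU n F q) (hred : ¬ ActsIrreducibly (matrixSet H)) :
    (∃ W : Submodule F (Fin n → F), W ≠ ⊥ ∧ W ≠ ⊤ ∧ IsTotallySingularFor (hermForm n F q) W ∧
      H ≤ subspaceStabilizer W) ∨
    (∃ W : Submodule F (Fin n → F), W ≠ ⊥ ∧ W ≠ ⊤ ∧ IsNondegenerateOn (hermForm n F q) W ∧
      2 * Module.finrank F W < n ∧ H ≤ subspaceStabilizer W) := by
  classical
  have hS := h.isSesq (n := n)
  have hex : ∃ W : Submodule F (Fin n → F),
      (∀ s ∈ matrixSet H, W.map (Matrix.toLin' s) ≤ W) ∧ W ≠ ⊥ ∧ W ≠ ⊤ := by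
    by_contra hcon
    apply hred
    intro W hW
    by_contra hW'
    rw [not_or] at hW'
    exact hcon ⟨W, hW, hW'.1, hW'.2⟩
  obtain ⟨W, hW, hW0, hW1⟩ := hex
  obtain ⟨U, hUW, hUmin⟩ := exists_minInv (matrixSet H) W hW0 (isInv_iff_map.mpr hW)
  have hU0 : U ≠ ⊥ := hUmin.1
  have hU1 : U ≠ ⊤ := by
    rintro rfl
    exact hW1 (top_le_iff.mp hUW)
  have hUinv : IsInv (matrixSet H) U := hUmin.2.1
  have hPinv := h.isInv_perp H hH U hUinv
  have hstab : ∀ V : Submodule F (Fin n → F), IsInv (matrixSet H) V → H ≤ subspaceStabilizer V :=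
    fun V hV => le_subspaceStabilizer H V (fun g hg v hv => hV _ (coe_mem_matrixSet hg) v hv)
  rcases hUmin.inf_eq_bot_or_le hPinv with hbot | hle
  swap
  · left
    exact ⟨U, hU0, hU1, fun u hu v hv => hle hu v hv, hstab U hUinv⟩
  right
  have hndU : IsNondegenerateOn (hermForm n F q) U := by
    intro w hw hw0
    have hex : ∃ v ∈ U, hermForm n F q w v ≠ 0 := by
      by_contra hcon
      apply hw0
      have hwp : w ∈ h.perp U := by
        rw [h.mem_perp]
        intro v hv
        by_contra hne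
        exact hcon ⟨v, hv, hne⟩
      have : w ∈ U ⊓ h.perp U := ⟨hw, hwp⟩
      rw [hbot] at this
      exact (Submodule.mem_bot F).mp this
    obtain ⟨v, hv, hwv⟩ := hex
    refine ⟨⟨v, hv, ?_⟩, ⟨v, hv, hwv⟩⟩
    rw [h.herm_symm]
    exact (map_ne_zero σ).mpr hwv
  by_cases hdim : 2 * Module.finrank F U < n
  · exact ⟨U, hU0, hU1, hndU, hdim, hstab U hUinv⟩
  have h1 := h.finrank_perp_ge U
  have h2 := Submodule.finrank_sup_add_finrank_inf_eq U (h.perp U)
  rw [hbot, finrank_bot, add_zero] at h2
  have h3 : Module.finrank F (U ⊔ h.perp U : Submodule F (Fin n → F)) ≤ n := by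
    have := Submodule.finrank_le (U ⊔ h.perp U)
    rwa [Module.finrank_fin_fun] at this
  have hsum : Module.finrank F U + Module.finrank F (h.perp U) = n := by omega
  have htop : U ⊔ h.perp U = ⊤ := by
    apply Submodule.eq_top_of_finrank_eq
    rw [Module.finrank_fin_fun, h2, hsum]
  have hUpos : 0 < Module.finrank F U := by
    rw [Module.finrank_pos_iff]
    exact (Submodule.nontrivial_iff_ne_bot).mpr hU0
  have hUlt : Module.finrank F U < n := by
    by_contra hge
    apply hU1
    apply Submodule.eq_top_of_finrank_eq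
    rw [Module.finrank_fin_fun]
    have := Submodule.finrank_le U
    rw [Module.finrank_fin_fun] at this
    omega
  have hne : 2 * Module.finrank F U ≠ n := by
    intro he
    rw [← he] at hodd
    exact (Nat.not_even_iff_odd.mpr hodd) (even_two_mul _)
  refine ⟨h.perp U, ?_, ?_, ?_, by omega, hstab _ hPinv⟩
  · intro hb
    rw [hb, finrank_bot] at hsum
    omega
  · intro ht
    rw [ht, finrank_top, Module.finrank_fin_fun] at hsum
    omega
  · intro w hw hw0
    obtain ⟨⟨y, hy⟩, -⟩ := h.isUnitaryForm.nondegenerate w hw0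
    have hytop : y ∈ U ⊔ h.perp U := by
      rw [htop]
      exact Submodule.mem_top
    obtain ⟨y₁, hy₁, y₂, hy₂, rfl⟩ := Submodule.mem_sup.mp hytop
    have h4 : hermForm n F q y₁ w = 0 := by
      rw [h.herm_symm, hw y₁ hy₁, map_zero]
    rw [hS.add_left, h4, zero_add] at hy
    refine ⟨⟨y₂, hy₂, hy⟩, ⟨y₂, hy₂, ?_⟩⟩
    rw [h.herm_symm]
    exact (map_ne_zero σ).mpr hy

end IsSigma

end Cfsg.Agent.Helper97
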