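-- helper97 library: subfield structures of unitary groups, auxiliary results.
import Cfsg.Agent.Helper97.UReducible

set_option autoImplicit false
open Cfsg Cfsg.Geo Matrix

namespace Cfsg.Agent.Helper97

variable {F : Type*} [Field F] {n : ℕ}

namespace IsSigma

variable {q : ℕ} {σ : F ≃+* F}

/-- A subfield of odd index is not fixed pointwise by `σ`. -/
theorem exists_not_fixed [Fintype F] (h : IsSigma q σ) (hF : Fintype.card F = q ^ 2) (F₁ : Subfield F)
    (r : ℕ) (hodd : Odd r) (hcard : Fintype.card F = Nat.card F₁ ^ r) : ∃ c ∈ F₁, σ c ≠ c := by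
  classical
  by_contra hcon
  have hfix : ∀ c ∈ F₁, σ c = c := by
    intro c hc
    by_contra hne
    exact hcon ⟨c, hc, hne⟩
  have hq2 := two_le_of_card hF
  obtain ⟨s, hs⟩ : ∃ s, s = Nat.card F₁ := ⟨_, rfl⟩
  have hs1 : 1 < s := by
    rw [hs]
    exact Finite.one_lt_card
  obtain ⟨g, hg⟩ := IsCyclic.exists_ofOrder_eq_natCard (α := F₁ˣ)
  rw [Nat.card_units, ← hs] at hg
  have h1 : ((g : F₁) : F) ^ q = ((g : F₁) : F) := by
    rw [← h.pow]
    exact hfix _ (SetLike.coe_mem _)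
  have h2 : (g : F₁) ^ (q - 1) = 1 := by
    have h3 : (g : F₁) ^ (q - 1) * (g : F₁) = 1 * (g : F₁) := by
      rw [← pow_succ, Nat.sub_add_cancel (by omega), one_mul]
      apply Subtype.ext
      rw [SubmonoidClass.coe_pow]
      exact h1
    exact mul_right_cancel₀ g.ne_zero h3
  have h4 : g ^ (q - 1) = 1 := by
    apply Units.ext
    rw [Units.val_pow_eq_pow_val, h2, Units.val_one]
  have h5 := orderOf_dvd_of_pow_eq_one h4
  rw [hg] at h5
  -- arithmetic
  obtain ⟨p, hchar⟩ := CharP.exists F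
  have hp : p.Prime := (CharP.char_is_prime_or_zero F p).resolve_right (CharP.char_ne_zero_of_finite F p)
  have : Fact p.Prime := ⟨hp⟩
  obtain ⟨e, -, he⟩ := FiniteField.card F p
  have hqd : q ∣ p ^ (e : ℕ) := by
    rw [← he, hF]
    exact dvd_pow_self q (by norm_num)
  obtain ⟨a, -, ha⟩ := (Nat.dvd_prime_pow hp).mp hqd
  have hr0 : r ≠ 0 := by
    rintro rfl
    exact absurd hodd (by decide)
  have hsd : s ∣ p ^ (e : ℕ) := by
    rw [← he, hcard, ← hs]
    exact dvd_pow_self s hr0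
  obtain ⟨b, -, hb⟩ := (Nat.dvd_prime_pow hp).mp hsd
  have hab : 2 * a = r * b := by
    have h6 : p ^ (2 * a) = p ^ (r * b) := by
      rw [mul_comm 2 a, pow_mul, ← ha, mul_comm r b, pow_mul, ← hb, ← hF, hcard, hs]
    exact Nat.pow_right_injective hp.two_le h6
  have hb2 : 2 ∣ b := by
    have h6 : 2 ∣ r * b := ⟨a, hab.symm⟩
    exact (Nat.Coprime.dvd_mul_left (Nat.coprime_two_left.mpr hodd)).mp h6
  obtain ⟨b', hb'⟩ := hb2
  have ha' : a = r * b' := by
    rw [hb'] at hab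
    have : 2 * a = 2 * (r * b') := by rw [hab]; ring
    omega
  obtain ⟨t, ht⟩ : ∃ t, t = p ^ b' := ⟨_, rfl⟩
  have hst : s = t ^ 2 := by rw [hb, hb', ht, ← pow_mul, mul_comm]
  have hqt : q = t ^ r := by rw [ha, ha', ht, ← pow_mul, mul_comm]
  have ht2 : 2 ≤ t := by
    by_contra hlt
    have h6 : t ≤ 1 := by omega
    have h7 : t ^ 2 ≤ 1 ^ 2 := Nat.pow_le_pow_left h6 2
    omega
  have h6 : t + 1 ∣ t ^ r + 1 := by
    have := Odd.nat_add_dvd_pow_add_pow t 1 hodd
    rwa [one_pow] at this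
  have h7 : t + 1 ∣ t ^ r - 1 := by
    rw [← hqt]
    refine dvd_trans ?_ h5
    rw [hst, sq_sub_one_eq t (by omega)]
    exact dvd_mul_right _ _
  have h8 : 1 ≤ t ^ r := Nat.one_le_pow _ _ (by omega)
  have h9 : t + 1 ∣ (t ^ r + 1) - (t ^ r - 1) := Nat.dvd_sub h6 h7
  have h10 : (t ^ r + 1) - (t ^ r - 1) = 2 := by omega
  rw [h10] at h9
  have := Nat.le_of_dvd (by norm_num) h9
  omega

end IsSigma

/-- In characteristic two and odd dimension, an irreducible group does not preserve a non-degenerate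
symmetric bilinear form (after a change of basis). -/
theorem symm_char_two_contra [Finite F] (hn2 : 2 ≤ n) (hodd : Odd n) (h2 : (2 : F) = 0)
    (A : Matrix (Fin n) (Fin n) F) (hA : Aᵀ = A) (hdet : A.det ≠ 0)
    (N : Subgroup (GL (Fin n) F)) (hirr : ActsIrreducibly (matrixSet N)) (B : GL (Fin n) F)
    (hinv : ∀ g ∈ N, ((B * g * B⁻¹ : GL (Fin n) F) : Matrix (Fin n) (Fin n) F)ᵀ * A
      * ((B * g * B⁻¹ : GL (Fin n) F) : Matrix (Fin n) (Fin n) F) = A) : False := by
  classical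
  have hneg : ∀ x : F, -x = x := by
    intro x
    have h1 : x + x = 0 := by rw [← two_mul, h2, zero_mul]
    exact neg_eq_of_add_eq_zero_left h1
  obtain ⟨Q, hQ⟩ : ∃ Q : (Fin n → F) → F, ∀ x, Q x = x ⬝ᵥ (A *ᵥ x) := ⟨_, fun _ => rfl⟩
  have hcross : ∀ x y : Fin n → F, y ⬝ᵥ (A *ᵥ x) = x ⬝ᵥ (A *ᵥ y) := by
    intro x y
    rw [Matrix.dotProduct_mulVec, ← hA, Matrix.vecMul_transpose, hA, dotProduct_comm]
  have hQadd : ∀ x y, Q (x + y) = Q x + Q y := by
    intro x y
    rw [hQ, hQ, hQ, Matrix.mulVec_add, dotProduct_add, add_dotProduct, add_dotProduct, hcross x y]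
    have h1 : x ⬝ᵥ (A *ᵥ y) + x ⬝ᵥ (A *ᵥ y) = 0 := by rw [← two_mul, h2, zero_mul]
    linear_combination h1
  have hQsmul : ∀ (c : F) x, Q (c • x) = c ^ 2 * Q x := by
    intro c x
    rw [hQ, hQ, Matrix.mulVec_smul, smul_dotProduct, dotProduct_smul, smul_eq_mul, smul_eq_mul]
    ring
  have hQzero : Q 0 = 0 := by rw [hQ, zero_dotProduct]
  have hQinv : ∀ g ∈ N, ∀ v, Q ((B : Matrix (Fin n) (Fin n) F) *ᵥ ((g : Matrix (Fin n) (Fin n) F) *ᵥ v))
      = Q ((B : Matrix (Fin n) (Fin n) F) *ᵥ v) := by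
    intro g hg v
    obtain ⟨s, hs⟩ : ∃ s : Matrix (Fin n) (Fin n) F,
        s = ((B * g * B⁻¹ : GL (Fin n) F) : Matrix (Fin n) (Fin n) F) := ⟨_, rfl⟩
    have e1 : (B : Matrix (Fin n) (Fin n) F) *ᵥ ((g : Matrix (Fin n) (Fin n) F) *ᵥ v)
        = s *ᵥ ((B : Matrix (Fin n) (Fin n) F) *ᵥ v) := by
      rw [hs, Matrix.mulVec_mulVec, Matrix.mulVec_mulVec, ← Units.val_mul, ← Units.val_mul]
      congr 2
      group
    have e2 : ∀ w, Q (s *ᵥ w) = Q w := by
      intro w
      have h1 := hinv g hg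
      rw [← hs] at h1
      rw [hQ, hQ]
      conv_rhs => rw [← h1]
      rw [← Matrix.mulVec_mulVec, ← Matrix.mulVec_mulVec, Matrix.dotProduct_mulVec w,
        Matrix.vecMul_transpose]
    rw [e1, e2]
  let W' : Submodule F (Fin n → F) :=
    { carrier := {v | Q ((B : Matrix (Fin n) (Fin n) F) *ᵥ v) = 0}
      add_mem' := by
        intro a b ha hb
        show Q ((B : Matrix (Fin n) (Fin n) F) *ᵥ (a + b)) = 0
        rw [Matrix.mulVec_add, hQadd, ha, hb, add_zero]
      zero_mem' := by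
        show Q ((B : Matrix (Fin n) (Fin n) F) *ᵥ 0) = 0
        rw [Matrix.mulVec_zero, hQzero]
      smul_mem' := by
        intro c a ha
        show Q ((B : Matrix (Fin n) (Fin n) F) *ᵥ (c • a)) = 0
        rw [Matrix.mulVec_smul, hQsmul, ha, mul_zero] }
  have hW'mem : ∀ v, v ∈ W' ↔ Q ((B : Matrix (Fin n) (Fin n) F) *ᵥ v) = 0 := fun v => Iff.rfl
  have hW'inv : ∀ s ∈ matrixSet N, W'.map (Matrix.toLin' s) ≤ W' := by
    rintro _ ⟨g, hg, rfl⟩ _ ⟨v, hv, rfl⟩
    rw [hW'mem, Matrix.toLin'_apply, hQinv g hg]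
    exact hv
  have hQe : ∀ i, Q (Pi.single i 1) = A i i := by
    intro i
    rw [hQ, single_one_dotProduct, Matrix.mulVec_single_one]
    rfl
  rcases hirr W' hW'inv with hbot | htop
  · have hQ0 : ∀ x, Q x = 0 → x = 0 := by
      intro x hx
      have h1 : ((B⁻¹ : GL (Fin n) F) : Matrix (Fin n) (Fin n) F) *ᵥ x ∈ W' := by
        rw [hW'mem, mulVec_cancel_inv]
        exact hx
      rw [hbot] at h1
      have h3 := mulVec_cancel_inv B x
      rw [(Submodule.mem_bot F).mp h1, Matrix.mulVec_zero] at h3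
      exact h3.symm
    have hchar : ringChar F = 2 := CharP.ringChar_of_prime_eq_zero Nat.prime_two (by exact_mod_cast h2)
    obtain ⟨i1, hi1⟩ : ∃ i : Fin n, i = ⟨0, by omega⟩ := ⟨_, rfl⟩
    obtain ⟨i2, hi2⟩ : ∃ i : Fin n, i = ⟨1, by omega⟩ := ⟨_, rfl⟩
    have h12 : i1 ≠ i2 := by simp [hi1, hi2, Fin.ext_iff]
    obtain ⟨a, ha⟩ := FiniteField.isSquare_of_char_two hchar (A i2 i2)
    obtain ⟨b, hb⟩ := FiniteField.isSquare_of_char_two hchar (A i1 i1)
    have hz : Q (a • Pi.single i1 1 + b • Pi.single i2 1) = 0 := by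
      rw [hQadd, hQsmul, hQsmul, hQe, hQe, ha, hb]
      have h1 : a * a * (b * b) + a * a * (b * b) = 0 := by rw [← two_mul, h2, zero_mul]
      linear_combination h1
    have hz0 := hQ0 _ hz
    have h1 := congrFun hz0 i2
    simp only [Pi.add_apply, Pi.smul_apply, Pi.single_eq_same, Pi.single_eq_of_ne h12.symm, smul_eq_mul,
      mul_zero, zero_add, mul_one, Pi.zero_apply] at h1
    have h3 : Q (Pi.single i1 1) = 0 := by rw [hQe, hb, h1, mul_zero]
    have h4 := congrFun (hQ0 _ h3) i1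
    simp at h4
  · have hall : ∀ x, Q x = 0 := by
      intro x
      have h1 : ((B⁻¹ : GL (Fin n) F) : Matrix (Fin n) (Fin n) F) *ᵥ x ∈ W' := by
        rw [htop]
        exact Submodule.mem_top
      rwa [hW'mem, mulVec_cancel_inv] at h1
    apply hdet
    refine det_eq_zero_of_alt_odd A (fun i j => ?_) (fun i => ?_) hodd
    · rw [hneg]
      have h1 := congrFun (congrFun hA j) i
      rw [Matrix.transpose_apply] at h1
      exact h1
    · rw [← hQe, hall]

end Cfsg.Agent.Helper97
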