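-- helper97 library: an absolutely irreducible unitary group fixing a non-degenerate bilinear form is
-- realisable over the fixed field of the involution.
import Cfsg.Agent.Helper97.USubfield2

set_option autoImplicit false
open Cfsg Cfsg.Geo Matrix

namespace Cfsg.Agent.Helper97

variable {F : Type*} [Field F] {n : ℕ}

theorem sigma_mulVec (σ : F ≃+* F) (M : Matrix (Fin n) (Fin n) F) (v : Fin n → F) :
    (fun i => σ ((M *ᵥ v) i)) = M.map σ *ᵥ (fun i => σ (v i)) := by
  funext j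
  simp [Matrix.mulVec, dotProduct, map_sum, map_mul]

theorem map_refl (M : Matrix (Fin n) (Fin n) F) : M.map (RingEquiv.refl F) = M := by
  ext i j
  rfl

namespace IsSigma

variable {q : ℕ} {σ : F ≃+* F}

theorem realisable_of_fixes_quad [Fintype F] (h : IsSigma q σ) (hF : Fintype.card F = q ^ 2) [NeZero n]
    (N : Subgroup (GL (Fin n) F)) (hNGU : N ≤ GU n F q)
    (habs : ActsAbsolutelyIrreducibly (matrixSet N))
    (Q : (Fin n → F) → F) (hQ : IsNondegenerateQuadraticForm Q)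
    (hfix : FixesQuadForm (matrixSet N) Q) :
    ∃ F₀ : Subfield F, F₀ ≠ ⊤ ∧ RealisableOver F₀ (matrixSet N) := by
  classical
  have hβ : IsSesq (RingEquiv.refl F) (QuadraticMap.polar Q) := isSesq_of_bilinear hQ.polar_bilinear
  obtain ⟨A, hA⟩ : ∃ A : Matrix (Fin n) (Fin n) F, A = gram (QuadraticMap.polar Q) := ⟨_, rfl⟩
  have hdetA : A.det ≠ 0 := hA ▸ hβ.det_gram_ne_zero (fun v hv => (hQ.nondegenerate v hv).1)
  have hAu : IsUnit A.det := isUnit_iff_ne_zero.mpr hdetA
  obtain ⟨C, hC⟩ : ∃ C : Matrix (Fin n) (Fin n) F, C = A⁻¹ := ⟨_, rfl⟩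
  have hAC : A * C = 1 := by rw [hC, Matrix.mul_nonsing_inv A hAu]
  have hCA : C * A = 1 := by rw [hC, Matrix.nonsing_inv_mul A hAu]
  have hσ1 : (1 : Matrix (Fin n) (Fin n) F).map σ = 1 := Matrix.map_one _ (map_zero σ) (map_one σ)
  -- the basic intertwining relation
  have hCg : ∀ g ∈ N, C * (g : Matrix (Fin n) (Fin n) F).map σ = (g : Matrix (Fin n) (Fin n) F) * C := by
    intro g hg
    have h1 := hβ.gram_of_similar (g : Matrix (Fin n) (Fin n) F) 1
      (fun u v => by rw [one_mul]; exact fixesForm_polar _ Q hfix _ (coe_mem_matrixSet hg) u v)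
    rw [one_smul, map_refl, ← hA] at h1
    have h2 := h.GU_matrix g (hNGU hg)
    have h3 : (g : Matrix (Fin n) (Fin n) F).map σ * (g : Matrix (Fin n) (Fin n) F)ᵀ = 1 :=
      mul_eq_one_comm.mp h2
    have h4 : A * (g : Matrix (Fin n) (Fin n) F) = (g : Matrix (Fin n) (Fin n) F).map σ * A := by
      calc A * (g : Matrix (Fin n) (Fin n) F)
          = ((g : Matrix (Fin n) (Fin n) F).map σ * (g : Matrix (Fin n) (Fin n) F)ᵀ) * A
            * (g : Matrix (Fin n) (Fin n) F) := by rw [h3, one_mul]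
        _ = (g : Matrix (Fin n) (Fin n) F).map σ * ((g : Matrix (Fin n) (Fin n) F)ᵀ * A
            * (g : Matrix (Fin n) (Fin n) F)) := by simp only [mul_assoc]
        _ = (g : Matrix (Fin n) (Fin n) F).map σ * A := by rw [h1]
    calc C * (g : Matrix (Fin n) (Fin n) F).map σ
        = C * ((g : Matrix (Fin n) (Fin n) F).map σ * A) * C := by
          rw [mul_assoc, mul_assoc, hAC, mul_one]
      _ = C * (A * (g : Matrix (Fin n) (Fin n) F)) * C := by rw [h4]
      _ = (g : Matrix (Fin n) (Fin n) F) * C := by rw [← mul_assoc C A, hCA, one_mul]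
  have hCσg : ∀ g ∈ N, C.map σ * (g : Matrix (Fin n) (Fin n) F)
      = (g : Matrix (Fin n) (Fin n) F).map σ * C.map σ := by
    intro g hg
    have h1 := congrArg (fun X : Matrix (Fin n) (Fin n) F => X.map σ) (hCg g hg)
    simp only [map_mul_equiv, h.map_sigma_sigma] at h1
    exact h1
  -- `C * σ(C)` is a scalar
  have hDcomm : ∀ s ∈ matrixSet N, (C * C.map σ) * s = s * (C * C.map σ) := by
    rintro _ ⟨g, hg, rfl⟩
    calc C * C.map σ * (g : Matrix (Fin n) (Fin n) F)
        = C * (C.map σ * (g : Matrix (Fin n) (Fin n) F)) := mul_assoc _ _ _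
      _ = C * ((g : Matrix (Fin n) (Fin n) F).map σ * C.map σ) := by rw [hCσg g hg]
      _ = (C * (g : Matrix (Fin n) (Fin n) F).map σ) * C.map σ := (mul_assoc _ _ _).symm
      _ = (g : Matrix (Fin n) (Fin n) F) * (C * C.map σ) := by rw [hCg g hg, mul_assoc]
  obtain ⟨c, hc⟩ := habs.2 _ hDcomm
  have hc0 : c ≠ 0 := by
    rintro rfl
    rw [zero_smul] at hc
    have h1 : C.map σ = 0 := by
      calc C.map σ = (A * C) * C.map σ := by rw [hAC, one_mul]
        _ = A * (C * C.map σ) := mul_assoc _ _ _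
        _ = 0 := by rw [hc, mul_zero]
    have h2 : C = 0 := by
      have h3 := congrArg (fun X : Matrix (Fin n) (Fin n) F => X.map σ) h1
      simp only [h.map_sigma_sigma] at h3
      rw [h3]
      ext i j
      simp
    rw [h2, mul_zero] at hAC
    have h4 := congrFun (congrFun hAC 0) 0
    simp at h4
  have hσc : σ c = c := by
    have h1 : C.map σ * C = σ c • (1 : Matrix (Fin n) (Fin n) F) := by
      have h2 := congrArg (fun X : Matrix (Fin n) (Fin n) F => X.map σ) hc
      simp only [map_mul_equiv, h.map_sigma_sigma, map_smul_sigma, hσ1] at h2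
      exact h2
    have h3 : C.map σ * C = c • (1 : Matrix (Fin n) (Fin n) F) := by
      calc C.map σ * C = (A * C) * C.map σ * C := by rw [hAC, one_mul]
        _ = A * (C * C.map σ) * C := by simp only [mul_assoc]
        _ = c • (1 : Matrix (Fin n) (Fin n) F) := by
            rw [hc, Matrix.mul_smul, Matrix.smul_mul, mul_one, hAC]
    rw [h3] at h1
    have h4 := congrFun (congrFun h1 0) 0
    simp only [Matrix.smul_apply, Matrix.one_apply_eq, smul_eq_mul, mul_one] at h4
    exact h4.symm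
  obtain ⟨lam, hlam⟩ := h.exists_norm_eq hF c⁻¹ (by rw [map_inv₀, hσc]) (inv_ne_zero hc0)
  obtain ⟨C', hC'⟩ : ∃ C' : Matrix (Fin n) (Fin n) F, C' = lam • C := ⟨_, rfl⟩
  have hC'1 : C' * C'.map σ = 1 := by
    rw [hC', map_smul_sigma, Matrix.smul_mul, Matrix.mul_smul, smul_smul, hc, smul_smul]
    rw [hlam, inv_mul_cancel₀ hc0, one_smul]
  have hC'2 : C'.map σ * C' = 1 := mul_eq_one_comm.mp hC'1
  have hC'g : ∀ g ∈ N, C' * (g : Matrix (Fin n) (Fin n) F).map σ = (g : Matrix (Fin n) (Fin n) F) * C' := by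
    intro g hg
    rw [hC', Matrix.smul_mul, hCg g hg, Matrix.mul_smul]
  -- the semilinear involution
  obtain ⟨J, hJ⟩ : ∃ J : (Fin n → F) → (Fin n → F), ∀ v, J v = C' *ᵥ (fun i => σ (v i)) :=
    ⟨_, fun _ => rfl⟩
  have hJJ : ∀ v, J (J v) = v := by
    intro v
    rw [hJ, hJ, sigma_mulVec, Matrix.mulVec_mulVec, hC'1]
    simp [h.inv]
  have hJadd : ∀ v w, J (v + w) = J v + J w := by
    intro v w
    rw [hJ, hJ, hJ, ← Matrix.mulVec_add]
    congr 1
    funext i
    simp
  have hJsmul : ∀ (a : F) v, J (a • v) = σ a • J v := by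
    intro a v
    rw [hJ, hJ, ← Matrix.mulVec_smul]
    congr 1
    funext i
    simp
  obtain ⟨θ, hθ⟩ := h.exists_ne
  obtain ⟨Vfix, hVfix⟩ : ∃ Vfix : Set (Fin n → F), ∀ v, v ∈ Vfix ↔ J v = v :=
    ⟨{v | J v = v}, fun _ => Iff.rfl⟩
  have hspan : Submodule.span F Vfix = ⊤ := by
    rw [eq_top_iff]
    intro v _
    have ha : v + J v ∈ Vfix := by
      rw [hVfix, hJadd, hJJ, add_comm]
    have hb : θ • v + σ θ • J v ∈ Vfix := by
      rw [hVfix, hJadd, hJsmul, hJsmul, hJJ, h.inv, add_comm]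
    have hne : σ θ - θ ≠ 0 := sub_ne_zero.mpr hθ
    have e : v = (σ θ - θ)⁻¹ • (σ θ • (v + J v) - (θ • v + σ θ • J v)) := by
      have e1 : σ θ • (v + J v) - (θ • v + σ θ • J v) = (σ θ - θ) • v := by
        rw [smul_add, sub_smul]
        abel
      rw [e1, smul_smul, inv_mul_cancel₀ hne, one_smul]
    rw [e]
    exact Submodule.smul_mem _ _ (Submodule.sub_mem _
      (Submodule.smul_mem _ _ (Submodule.subset_span ha)) (Submodule.subset_span hb))
  obtain ⟨f, hf, -, hli⟩ := Submodule.exists_fun_fin_finrank_span_eq F Vfix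
  have hd : Module.finrank F (Submodule.span F Vfix) = n := by
    rw [hspan, finrank_top, Module.finrank_fin_fun]
  obtain ⟨f', hf'⟩ : ∃ f' : Fin n → (Fin n → F), f' = fun i => f (Fin.cast hd.symm i) := ⟨_, rfl⟩
  have hli' : LinearIndependent F f' := by
    rw [hf']
    exact hli.comp _ (Fin.cast_injective _)
  have hf'fix : ∀ j, J (f' j) = f' j := by
    intro j
    have h1 := (hVfix _).mp (hf (Fin.cast hd.symm j))
    rw [hf']
    exact h1
  obtain ⟨Pmat, hPmat⟩ : ∃ Pmat : Matrix (Fin n) (Fin n) F, Pmat = Matrix.of (fun i j => f' j i) :=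
    ⟨_, rfl⟩
  have hcol : Pmat.col = f' := by
    funext j i
    rw [hPmat]
    rfl
  have hPu : IsUnit Pmat := by
    rw [← Matrix.linearIndependent_cols_iff_isUnit, hcol]
    exact hli'
  have hPdet : Pmat.det ≠ 0 := ((Matrix.isUnit_iff_isUnit_det Pmat).mp hPu).ne_zero
  obtain ⟨PG, hPG⟩ : ∃ PG : GL (Fin n) F, PG = Matrix.GeneralLinearGroup.mkOfDetNeZero Pmat hPdet :=
    ⟨_, rfl⟩
  have hPGval : (PG : Matrix (Fin n) (Fin n) F) = Pmat := by
    rw [hPG]
    rfl
  obtain ⟨Pinv, hPinv⟩ : ∃ Pinv : Matrix (Fin n) (Fin n) F,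
      Pinv = ((PG⁻¹ : GL (Fin n) F) : Matrix (Fin n) (Fin n) F) := ⟨_, rfl⟩
  have hPP : Pmat * Pinv = 1 := by rw [← hPGval, hPinv, val_mul_val_inv]
  have hPP' : Pinv * Pmat = 1 := by rw [← hPGval, hPinv, val_inv_mul_val]
  have hCP : C' * Pmat.map σ = Pmat := by
    ext i j
    have h1 := congrFun (hf'fix j) i
    rw [hJ] at h1
    have e : (C' * Pmat.map σ) i j = (C' *ᵥ (fun k => σ (f' j k))) i := by
      rw [hPmat]
      rfl
    rw [e, h1, hPmat]
    rfl
  have hPσ : Pmat.map σ = C'.map σ * Pmat := by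
    calc Pmat.map σ = (C'.map σ * C') * Pmat.map σ := by rw [hC'2, one_mul]
      _ = C'.map σ * (C' * Pmat.map σ) := mul_assoc _ _ _
      _ = C'.map σ * Pmat := by rw [hCP]
  have hPiσ : Pinv.map σ = Pinv * C' := by
    have h1 : Pmat.map σ * Pinv.map σ = 1 := by rw [← map_mul_equiv, hPP, hσ1]
    calc Pinv.map σ = (Pinv * Pmat) * Pinv.map σ := by rw [hPP', one_mul]
      _ = Pinv * (C' * Pmat.map σ) * Pinv.map σ := by rw [hCP]
      _ = Pinv * C' * (Pmat.map σ * Pinv.map σ) := by simp only [mul_assoc]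
      _ = Pinv * C' := by rw [h1, mul_one]
  obtain ⟨F₀, hF₀⟩ : ∃ F₀ : Subfield F,
      F₀ = RingHom.eqLocusField (σ : F →+* F) (RingHom.id F) := ⟨_, rfl⟩
  have hmem : ∀ a : F, a ∈ F₀ ↔ σ a = a := by
    intro a
    rw [hF₀, RingHom.mem_eqLocusField, RingHom.id_apply]
    rfl
  refine ⟨F₀, ?_, PG⁻¹, ?_⟩
  · intro htop
    apply hθ
    rw [← hmem, htop]
    exact Subfield.mem_top _
  · rintro _ ⟨g, hg, rfl⟩ i j
    rw [inv_inv, hPGval, ← hPinv, hmem]
    have hX : (Pinv * (g : Matrix (Fin n) (Fin n) F) * Pmat).map σ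
        = Pinv * (g : Matrix (Fin n) (Fin n) F) * Pmat := by
      rw [map_mul_equiv, map_mul_equiv, hPσ, hPiσ]
      calc Pinv * C' * (g : Matrix (Fin n) (Fin n) F).map σ * (C'.map σ * Pmat)
          = Pinv * (C' * (g : Matrix (Fin n) (Fin n) F).map σ) * C'.map σ * Pmat := by
            simp only [mul_assoc]
        _ = Pinv * ((g : Matrix (Fin n) (Fin n) F) * C') * C'.map σ * Pmat := by rw [hC'g g hg]
        _ = Pinv * (g : Matrix (Fin n) (Fin n) F) * (C' * C'.map σ) * Pmat := by simp only [mul_assoc]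
        _ = Pinv * (g : Matrix (Fin n) (Fin n) F) * Pmat := by rw [hC'1, mul_one]
    have h1 := congrFun (congrFun hX i) j
    rw [Matrix.map_apply] at h1
    exact h1

end IsSigma

end Cfsg.Agent.Helper97
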