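-- helper97 library: maximal subgroups of SU_n(q) for n a prime at least 5 (Aschbacher's theorem).
import Cfsg.Agent.Helper97.UExtra

set_option autoImplicit false
open Cfsg Cfsg.Geo Matrix

namespace Cfsg.Agent.Helper97

variable {F : Type*} [Field F] {n : ℕ}

/-- The subfield branch: an absolutely irreducible unitary subgroup realisable over a proper subfield
puts its normaliser into a subfield group carrying the form. -/
theorem unitary_subfield_branch [Fintype F] {q : ℕ} {σ : F ≃+* F} (h : IsSigma q σ)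
    (hF : Fintype.card F = q ^ 2) (hn3 : 3 ≤ n) (hodd : Odd n) (H N : Subgroup (GL (Fin n) F))
    (hH : IsMaximalIn (GU n F q ⊓ specialLinear (Fin n) F) H)
    (hNn : ∀ h ∈ H, ∀ x ∈ N, h * x * h⁻¹ ∈ N)
    (hNGU : N ≤ GU n F q) (habs : ActsAbsolutelyIrreducibly (matrixSet N))
    (F₀ : Subfield F) (hF₀ : F₀ ≠ ⊤) (hreal : RealisableOver F₀ (matrixSet N)) :
    (∃ (F₀ : Subfield F) (r : ℕ) (P : GL (Fin n) F), r.Prime ∧ Odd r ∧
      Fintype.card F = Nat.card F₀ ^ r ∧ IsFormRationalStructure (hermForm n F q) F₀ 1 P ∧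
      H = subfieldSubgroup F₀ P ⊓ (GU n F q ⊓ specialLinear (Fin n) F)) ∨
    (Odd q ∧ ∃ (F₀ : Subfield F) (P : GL (Fin n) F), Fintype.card F = Nat.card F₀ ^ 2 ∧
      IsFormRationalStructure (hermForm n F q) F₀ 1 P ∧
      H = subfieldSubgroup F₀ P ⊓ (GU n F q ⊓ specialLinear (Fin n) F)) := by
  obtain ⟨F₁, r, hle, hr, hcard⟩ := exists_prime_index_subfield F₀ hF₀
  obtain ⟨B, hB⟩ := hreal
  obtain ⟨P', hnorm, hform, hcase⟩ := h.unitary_subfield_structure hF hn3 hodd N hNGU habs F₁ r hr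
    hcard B (fun s hs i j => hle (hB s hs i j))
  have hle' : H ≤ subfieldSubgroup F₁ P' := fun g hg => hnorm g (hNn g hg)
  rcases hcase with hro | ⟨rfl, hq⟩
  · left
    have hr3 : 3 ≤ r := by
      have h2 := hr.two_le
      obtain ⟨k, hk⟩ := hro
      omega
    exact ⟨F₁, r, P', hr, hro, hcard, hform, eq_inf_of_isMaximalIn_gen hH hle'
      (h.notSU_subfield_odd hF (by omega) F₁ r hr3 hcard P')⟩
  · right
    exact ⟨hq, F₁, P', hcard, hform, eq_inf_of_isMaximalIn_gen hH hle'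
      (h.notSU_subfield_two hF (by omega) hq F₁ hcard P' hform)⟩

/-- Aschbacher's theorem for `SU_n(q)`, `n` a prime at least five. -/
theorem unitary_prime_dim_cases [Fintype F] (hn : n.Prime) (hn5 : 5 ≤ n) (q : ℕ)
    (hF : Fintype.card F = q ^ 2) (H : Subgroup (GL (Fin n) F))
    (hH : IsMaximalIn (GU n F q ⊓ specialLinear (Fin n) F) H) :
    (∃ W : Submodule F (Fin n → F), W ≠ ⊥ ∧ IsTotallySingularFor (hermForm n F q) W ∧
      H = subspaceStabilizer W ⊓ (GU n F q ⊓ specialLinear (Fin n) F)) ∨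
    (∃ W : Submodule F (Fin n → F), W ≠ ⊥ ∧ IsNondegenerateOn (hermForm n F q) W ∧
      2 * Module.finrank F W < n ∧
      H = subspaceStabilizer W ⊓ (GU n F q ⊓ specialLinear (Fin n) F)) ∨
    (∃ D : Fin n → Submodule F (Fin n → F), IsNondegenerateMDecomposition (hermForm n F q) 1 D ∧
      H = decompositionStabilizer D ⊓ (GU n F q ⊓ specialLinear (Fin n) F)) ∨
    (∃ K : Subalgebra F (Matrix (Fin n) (Fin n) F), IsFieldSubalgebra n K ∧
      IsAdjointClosedFor (hermForm n F q) K ∧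
      H = subalgebraNormalizer K ⊓ (GU n F q ⊓ specialLinear (Fin n) F)) ∨
    (∃ (F₀ : Subfield F) (r : ℕ) (P : GL (Fin n) F), r.Prime ∧ Odd r ∧
      Fintype.card F = Nat.card F₀ ^ r ∧ IsFormRationalStructure (hermForm n F q) F₀ 1 P ∧
      H = subfieldSubgroup F₀ P ⊓ (GU n F q ⊓ specialLinear (Fin n) F)) ∨
    (Odd q ∧ ∃ (F₀ : Subfield F) (P : GL (Fin n) F), Fintype.card F = Nat.card F₀ ^ 2 ∧
      IsFormRationalStructure (hermForm n F q) F₀ 1 P ∧
      H = subfieldSubgroup F₀ P ⊓ (GU n F q ⊓ specialLinear (Fin n) F)) ∨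
    (∃ (p a : ℕ) (R : Subgroup (GL (Fin n) F)), p.Prime ∧ CharP F p ∧ q = p ^ a ∧
      n ∣ p ^ (2 * a) - 1 ∧ (∀ d : ℕ, 0 < d → d < 2 * a → ¬ n ∣ p ^ d - 1) ∧
      IsSymplecticTypeGroup n R ∧ ActsAbsolutelyIrreducibly (matrixSet R) ∧ R ≤ GU n F q ∧
      Nat.card R = n ^ 3 ∧ Nat.card (Subgroup.center R) = n ∧
      H = subgroupNormalizer R ⊓ (GU n F q ⊓ specialLinear (Fin n) F)) ∨
    InUnitaryResidualClass H := by
  classical
  obtain ⟨σ, hσ⟩ := exists_sigma hF
  obtain ⟨p, hchar⟩ := CharP.exists F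
  have hp : p.Prime :=
    (CharP.char_is_prime_or_zero F p).resolve_right (CharP.char_ne_zero_of_finite F p)
  have hfact : Fact p.Prime := ⟨hp⟩
  have hn2 : 2 ≤ n := hn.two_le
  have hodd : Odd n := by
    rcases hn.eq_two_or_odd' with h | h
    · omega
    · exact h
  have hn3 : 3 ≤ n := by omega
  have hnz : NeZero n := ⟨hn.ne_zero⟩
  have hHG : H ≤ GU n F q ⊓ specialLinear (Fin n) F := hH.1.le
  have hHGU : H ≤ GU n F q := hHG.trans inf_le_left
  have hHSL : H ≤ specialLinear (Fin n) F := hHG.trans inf_le_right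
  have hZc : ∀ z ∈ scalars (Fin n) F, ∀ g : GL (Fin n) F, z * g = g * z :=
    fun z hz g => scalars_comm hz g
  by_cases hirr : ActsIrreducibly (matrixSet H)
  swap
  · -- reducible: classes 1 and 2
    rcases hσ.reducible_cases hodd H hHGU hirr with
      ⟨W, hW0, hW1, hts, hle⟩ | ⟨W, hW0, hW1, hnd, hdim, hle⟩
    · left
      exact ⟨W, hW0, hts, eq_inf_of_isMaximalIn_gen hH hle (hσ.notSU_subspace hF hn2 W hW0 hW1)⟩
    · right; left
      exact ⟨W, hW0, hnd, hdim,
        eq_inf_of_isMaximalIn_gen hH hle (hσ.notSU_subspace hF hn2 W hW0 hW1)⟩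
  -- irreducible
  have hHZ : ¬ H ≤ scalars (Fin n) F := not_le_scalars_of_irreducible hn2 H hirr
  obtain ⟨N, hNH, hNn, hNZ, hNmin⟩ := exists_minimal_normal (scalars (Fin n) F) H hHZ
  have hNGU : N ≤ GU n F q := hNH.trans hHGU
  have hNSL : N ≤ specialLinear (Fin n) F := hNH.trans hHSL
  by_cases hNab : ∀ a ∈ N, ∀ b ∈ N, a * b = b * a
  · rcases abelian_normal_cases_sep hn H N hirr hNn hNab with h | ⟨K, hKdef, h | h⟩
    · exact absurd h hNZ
    · -- an orthogonal decomposition into non-degenerate lines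
      obtain ⟨D, hD, hHD, hKD, hsep⟩ := h
      right; right; left
      have hDnd := hσ.decomp_orthogonal hodd H hirr hHGU (K : Set (Matrix (Fin n) (Fin n) F))
        (fun k hk => hσ.double_centralizer_adj N hNGU (K : Set (Matrix (Fin n) (Fin n) F)) hKdef k hk)
        D hD hHD hKD hsep
      exact ⟨D, hDnd, eq_inf_of_isMaximalIn_gen hH hHD (hσ.notSU_decomp hF (by omega) D hDnd)⟩
    · -- an extension field
      obtain ⟨hK, hHK⟩ := h
      right; right; right; left
      refine ⟨K, hK, ?_, eq_inf_of_isMaximalIn_gen hH hHK (hσ.notSU_fieldNormalizer hF hn3 K hK.inv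
        (not_all_scalar_of_finrank K (by rw [hK.finrank_eq]; exact hn2)))⟩
      intro k hk
      exact ⟨(k.map σ)ᵀ,
        hσ.double_centralizer_adj N hNGU (K : Set (Matrix (Fin n) (Fin n) F)) hKdef k hk,
        fun u v => hσ.herm_adj k u v⟩
  rcases clifford_dichotomy hn H N hirr hNn with h | ⟨hab, -⟩ | habs
  · exact absurd h hNZ
  · exact absurd hab hNab
  -- `N` is absolutely irreducible
  have hCN : ⁅N, N⁆ ≤ N := by
    rw [Subgroup.commutator_le]
    intro a ha b hb
    rw [commutatorElement_def]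
    exact N.mul_mem (N.mul_mem (N.mul_mem ha hb) (N.inv_mem ha)) (N.inv_mem hb)
  rcases hNmin ⁅N, N⁆ hCN (commutator_normalized H N hNn) with hC | hC
  · -- class two modulo scalars: the extraspecial case
    have hab : ∀ a ∈ N, ∀ b ∈ N, a * b * a⁻¹ * b⁻¹ ∈ scalars (Fin n) F := by
      intro a ha b hb
      have := Subgroup.commutator_mem_commutator ha hb
      rw [commutatorElement_def] at this
      exact hC this
    rcases extra_unitary (p := p) hσ hF hn hodd (by omega) H N hNGU hNSL hNn hNZ hNmin hab habs with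
      ⟨F₀, hF₀, hreal⟩ | ⟨hsymp, hcard, hcent, hnot, a, hqa, hdvd, hmin⟩
    · rcases unitary_subfield_branch hσ hF hn3 hodd H N hH hNn hNGU habs F₀ hF₀ hreal with h5 | h6
      · right; right; right; right; left
        exact h5
      · right; right; right; right; right; left
        exact h6
    · right; right; right; right; right; right; left
      exact ⟨p, a, N, hp, hchar, hqa, hdvd, hmin, hsymp, habs, hNGU, hcard, hcent,
        eq_inf_of_isMaximalIn_gen hH (le_subgroupNormalizer H N hNn) hnot⟩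
  · -- perfect: the residual case
    have hperf : ⁅N, N⁆ = N := hC
    have hirrN : ActsIrreducibly (matrixSet N) := habs.1
    have hcentN : ∀ c : GL (Fin n) F, (∀ s ∈ N, c * s = s * c) → c ∈ scalars (Fin n) F := by
      intro c hc
      obtain ⟨a, ha⟩ := habs.2 (c : Matrix (Fin n) (Fin n) F) (by
        rintro _ ⟨s, hs, rfl⟩
        rw [← Units.val_mul, ← Units.val_mul, hc s hs])
      exact (scalar_mem_scalars_iff c).mpr ⟨a, ha⟩
    have hdich : ∀ S : Subgroup (GL (Fin n) F), S ≤ N → (∀ x ∈ N, ∀ s ∈ S, x * s * x⁻¹ ∈ S) →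
        S ≤ scalars (Fin n) F ∨ (∀ a ∈ S, ∀ b ∈ S, a * b = b * a) ∨
          (∀ c : GL (Fin n) F, (∀ s ∈ S, c * s = s * c) → c ∈ scalars (Fin n) F) := by
      intro S _ hSn
      rcases clifford_dichotomy hn N S hirrN hSn with h | ⟨h, -⟩ | h
      · exact Or.inl h
      · exact Or.inr (Or.inl h)
      · right; right
        intro c hc
        obtain ⟨a, ha⟩ := h.2 (c : Matrix (Fin n) (Fin n) F) (by
          rintro _ ⟨s, hs, rfl⟩
          rw [← Units.val_mul, ← Units.val_mul, hc s hs])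
        exact (scalar_mem_scalars_iff c).mpr ⟨a, ha⟩
    have hsimple := simple_of_minimal (scalars (Fin n) F) H N hZc hNn hNZ hNmin hperf hdich
    by_cases hsub : ∃ F₀ : Subfield F, F₀ ≠ ⊤ ∧ RealisableOver F₀ (matrixSet N)
    · obtain ⟨F₀, hF₀, hreal⟩ := hsub
      rcases unitary_subfield_branch hσ hF hn3 hodd H N hH hNn hNGU habs F₀ hF₀ hreal with h5 | h6
      · right; right; right; right; left
        exact h5
      · right; right; right; right; right; left
        exact h6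
    have hcore : IsResidualCore H N :=
      { le := hNH
        normal := hNn
        perfect := hperf
        simple := isSimpleGroup_quot (scalars (Fin n) F) N hNZ hsimple
        nonabelian := not_commutative_quot (scalars (Fin n) F) N hNZ hperf
        centralizer_scalar := fun h _ hh =>
          mem_of_centralizes_mod (scalars (Fin n) F) N hZc hperf hcentN h hh
        absIrred := habs
        no_subfield := fun F₀ hF₀ hreal => hsub ⟨F₀, hF₀, hreal⟩ }
    right; right; right; right; right; right; right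
    refine ⟨N, hcore, ?_, ?_⟩
    · rintro ⟨Q, hQ, hfix⟩
      exact hsub (hσ.realisable_of_fixes_quad hF N hNGU habs Q hQ hfix)
    · rintro ⟨f, hf, -⟩
      exact not_symplectic_of_odd hodd f hf

/-! ### The arithmetic of the class-7 condition -/

theorem unum_bound {n p a : ℕ} (hn : n.Prime) (hp : 0 < p) (hdvd : n ∣ p ^ (2 * a) - 1)
    (hmin : ∀ d : ℕ, 0 < d → d < 2 * a → ¬ n ∣ p ^ d - 1) : 2 * a ≤ n - 1 := by
  by_contra hgt
  have hn2 := hn.two_le
  apply hmin (n - 1) (by omega) (by omega)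
  -- Fermat's little theorem
  have hcop : Nat.Coprime p n := by
    rw [Nat.coprime_comm, hn.coprime_iff_not_dvd]
    intro hnp
    have h1 : n ∣ p ^ (2 * a) := dvd_pow hnp (by omega)
    have h2 : 1 ≤ p ^ (2 * a) := Nat.one_le_pow _ _ hp
    have h3 : n ∣ 1 := by
      have := Nat.dvd_sub h1 hdvd
      rwa [Nat.sub_sub_self h2] at this
    have := Nat.le_of_dvd (by norm_num) h3
    omega
  have h1 : p ^ (n - 1) ≡ 1 [MOD n] := by
    have := Nat.ModEq.pow_totient hcop
    rwa [Nat.totient_prime hn] at this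
  exact (Nat.modEq_iff_dvd' (Nat.one_le_pow _ _ hp)).mp h1.symm

theorem unum_seven (r a : ℕ) (hr : r < 7) (ha : 0 < a) (h1 : r ^ (2 * a) % 7 = 1)
    (hmin : ∀ d, 0 < d → d < 2 * a → r ^ d % 7 ≠ 1) :
    (a = 1 ∧ r = 6) ∨ (a = 3 ∧ (r = 3 ∨ r = 5)) := by
  have hr0 : r ≠ 0 := by
    rintro rfl
    rw [zero_pow (by omega)] at h1
    norm_num at h1
  have hele : a ≤ 3 := by
    by_contra hgt
    have h2 := hmin 6 (by norm_num) (by omega)
    interval_cases r <;> simp_all
  interval_cases a <;> interval_cases r <;>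
    first
    | decide
    | (exfalso; revert h1; decide)
    | (exfalso; apply hmin 1 <;> decide)
    | (exfalso; apply hmin 2 <;> decide)
    | (exfalso; apply hmin 3 <;> decide)

theorem unum_eleven (r a : ℕ) (hr : r < 11) (ha : 0 < a) (h1 : r ^ (2 * a) % 11 = 1)
    (hmin : ∀ d, 0 < d → d < 2 * a → r ^ d % 11 ≠ 1) :
    (a = 1 ∧ r = 10) ∨ (a = 5 ∧ (r = 2 ∨ r = 6 ∨ r = 7 ∨ r = 8)) := by
  have hr0 : r ≠ 0 := by
    rintro rfl
    rw [zero_pow (by omega)] at h1
    norm_num at h1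
  have hele : a ≤ 5 := by
    by_contra hgt
    have h2 := hmin 10 (by norm_num) (by omega)
    interval_cases r <;> simp_all
  interval_cases a <;> interval_cases r <;>
    first
    | decide
    | (exfalso; revert h1; decide)
    | (exfalso; apply hmin 1 <;> decide)
    | (exfalso; apply hmin 2 <;> decide)
    | (exfalso; apply hmin 5 <;> decide)

/-- The class-7 arithmetic in dimension seven. -/
theorem unum_seven_q [Fintype F] {p a q : ℕ} (hp : p.Prime) (hF : Fintype.card F = q ^ 2)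
    (hqa : q = p ^ a) (hdvd : 7 ∣ p ^ (2 * a) - 1)
    (hmin : ∀ d : ℕ, 0 < d → d < 2 * a → ¬ 7 ∣ p ^ d - 1) :
    (q = p ∧ p % 7 = 6) ∨ (q = p ^ 3 ∧ (p % 7 = 3 ∨ p % 7 = 5)) := by
  have hq2 := two_le_of_card hF
  have ha : 0 < a := by
    rcases Nat.eq_zero_or_pos a with h | h
    · rw [h, pow_zero] at hqa
      omega
    · exact h
  have h1 := (dvd_pow_sub_one_iff (n := 7) (by norm_num) hp.pos).mp hdvd
  have h2 : ∀ d, 0 < d → d < 2 * a → (p % 7) ^ d % 7 ≠ 1 := fun d hd0 hd h =>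
    hmin d hd0 hd ((dvd_pow_sub_one_iff (n := 7) (by norm_num) hp.pos).mpr h)
  rcases unum_seven (p % 7) a (Nat.mod_lt _ (by norm_num)) ha h1 h2 with ⟨rfl, hr⟩ | ⟨rfl, hr⟩
  · left
    exact ⟨by rw [hqa, pow_one], hr⟩
  · right
    exact ⟨hqa, hr⟩

/-- The class-7 arithmetic in dimension eleven. -/
theorem unum_eleven_q [Fintype F] {p a q : ℕ} (hp : p.Prime) (hF : Fintype.card F = q ^ 2)
    (hqa : q = p ^ a) (hdvd : 11 ∣ p ^ (2 * a) - 1)
    (hmin : ∀ d : ℕ, 0 < d → d < 2 * a → ¬ 11 ∣ p ^ d - 1) :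
    (q = p ∧ p % 11 = 10) ∨
      (q = p ^ 5 ∧ (p % 11 = 2 ∨ p % 11 = 6 ∨ p % 11 = 7 ∨ p % 11 = 8)) := by
  have hq2 := two_le_of_card hF
  have ha : 0 < a := by
    rcases Nat.eq_zero_or_pos a with h | h
    · rw [h, pow_zero] at hqa
      omega
    · exact h
  have h1 := (dvd_pow_sub_one_iff (n := 11) (by norm_num) hp.pos).mp hdvd
  have h2 : ∀ d, 0 < d → d < 2 * a → (p % 11) ^ d % 11 ≠ 1 := fun d hd0 hd h =>
    hmin d hd0 hd ((dvd_pow_sub_one_iff (n := 11) (by norm_num) hp.pos).mpr h)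
  rcases unum_eleven (p % 11) a (Nat.mod_lt _ (by norm_num)) ha h1 h2 with ⟨rfl, hr⟩ | ⟨rfl, hr⟩
  · left
    exact ⟨by rw [hqa, pow_one], hr⟩
  · right
    exact ⟨hqa, hr⟩

end Cfsg.Agent.Helper97
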