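import Mathlib
import Cfsg.Prelude.Def_GeometricClasses
import Cfsg.Prelude.Def_Classical
import Cfsg.Agent.Helper65.S74Defs
import Cfsg.Agent.Helper35.TSSTDP
import Cfsg.Agent.Helper90.TSR2Main
import Cfsg.Agent.Helper70.OHOSUB
import Cfsg.Agent.Helper80.S88R2EIGHYP
import Cfsg.Agent.Helper80.S88R2SKND
import Cfsg.Agent.Helper90.S88R2EIGOMEGA
import Cfsg.Agent.Helper20.S88R2SKSUBTYPE

set_option autoImplicit false
set_option linter.unusedSectionVars false
set_option linter.unusedVariables false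

/-!
# CALL S74 (helper65; row S5974), stage R2G (helper97): `r = 2 ≠ p`, `⟸`.

Port of helper90's S88 stage `s88_two_good` (elliptic -> hyperbolic).  `s74_skew_nd_gen` is helper80's
proof of the S88R2 piece SKND with `Helper90.S88R2.r2e_skew_basis_gen` instead of
`Helper6.TSR2.r2_skew_basis` (so without the hypothesis that `-1` is a nonsquare).
-/

namespace Cfsg.Agent.Helper97.S74

open Module Cfsg Cfsg.Geo Cfsg.Agent.Helper65.S74
open scoped MatrixGroups

section pieces

variable {ι : Type} [Fintype ι] [DecidableEq ι] {F : Type*} [Field F] [Fintype F]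

/-- SKND for every isometry with square `-1` (`2 ≠ 0`): invariant nondegenerate subspaces of every
even dimension `2 e`, `e ≤ d`. -/
theorem s74_skew_nd_gen (Q : (ι → F) → F) (hQ : IsNondegenerateQuadraticForm Q) (h2 : (2 : F) ≠ 0)
    (d : ℕ) (hcard : Fintype.card ι = 2 * d) (M : Matrix ι ι F) (hM : ∀ v, Q (M.mulVec v) = Q v)
    (hM2 : M * M = -1) (e : ℕ) (he : e ≤ d) :
    ∃ W : Submodule F (ι → F), W.map (Matrix.toLin' M) ≤ W ∧
      IsNondegenerateOn (QuadraticMap.polar Q) W ∧ finrank F W = 2 * e := by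
  obtain ⟨v, hv0, hvo⟩ := Cfsg.Agent.Helper90.S88R2.r2e_skew_basis_gen Q hQ h2 d hcard M hM hM2
  have hB := hQ.polar_bilinear
  have hsymm : ∀ x y : ι → F, QuadraticMap.polar Q x y = QuadraticMap.polar Q y x :=
    fun x y => QuadraticMap.polar_comm Q x y
  have hTT : ∀ x : ι → F, M.mulVec (M.mulVec x) = -x := by
    intro x
    rw [Matrix.mulVec_mulVec, hM2, Matrix.neg_mulVec, Matrix.one_mulVec]
  have hpres := Cfsg.Agent.Helper80.TSR2.r2_polar_pres Q M hM
  have h01 : ∀ x : ι → F, QuadraticMap.polar Q x (M.mulVec x) = 0 := by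
    intro x
    have e1 : QuadraticMap.polar Q x (M.mulVec x) =
        QuadraticMap.polar Q (M.mulVec x) (M.mulVec (M.mulVec x)) := (hpres x (M.mulVec x)).symm
    rw [hTT] at e1
    have e2 : QuadraticMap.polar Q (M.mulVec x) (-x) = -QuadraticMap.polar Q (M.mulVec x) x := by
      have h := hB.smul_right (-1 : F) (M.mulVec x) x
      rw [neg_smul, one_smul] at h
      rw [h]; ring
    rw [e2, hsymm (M.mulVec x) x] at e1
    have e3 : (2 : F) * QuadraticMap.polar Q x (M.mulVec x) = 0 := by linear_combination e1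
    rcases mul_eq_zero.mp e3 with e4 | e4
    · exact absurd e4 h2
    · exact e4
  have hp0 : ∀ y : ι → F, QuadraticMap.polar Q 0 y = 0 := by
    intro y
    have h := hB.smul_left (0 : F) 0 y
    simpa using h
  have key : ∀ e : ℕ, e ≤ d → ∃ W : Submodule F (ι → F), W.map (Matrix.toLin' M) ≤ W ∧
      IsNondegenerateOn (QuadraticMap.polar Q) W ∧ finrank F W = 2 * e ∧
      ∀ a ∈ W, ∀ j : Fin d, e ≤ j.val → QuadraticMap.polar Q a (v j) = 0 ∧
        QuadraticMap.polar Q a (M.mulVec (v j)) = 0 := by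
    intro e
    induction e with
    | zero =>
      intro _
      refine ⟨⊥, ?_, ?_, ?_, ?_⟩
      · rw [Submodule.map_bot]
      · intro w hw hw0
        exact absurd ((Submodule.mem_bot F).mp hw) hw0
      · rw [finrank_bot]
      · intro a ha j _
        rw [(Submodule.mem_bot F).mp ha]
        exact ⟨hp0 _, hp0 _⟩
    | succ e ih =>
      intro he
      obtain ⟨W, hWinv, hWnd, hWdim, hWo⟩ := ih (by omega)
      obtain ⟨j₀, hj₀v⟩ : ∃ j₀ : Fin d, j₀.val = e := ⟨⟨e, by omega⟩, rfl⟩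
      have hQM : Q (M.mulVec (v j₀)) ≠ 0 := by rw [hM]; exact hv0 j₀
      obtain ⟨hL1nd, hL1dim⟩ := Cfsg.Agent.Helper80.S88R2.r2e_line_nd Q hQ h2 (v j₀) (hv0 j₀)
      obtain ⟨hL2nd, hL2dim⟩ := Cfsg.Agent.Helper80.S88R2.r2e_line_nd Q hQ h2 (M.mulVec (v j₀)) hQM
      have hL12 : AreOrthogonalFor (QuadraticMap.polar Q) (Submodule.span F {v j₀})
          (Submodule.span F {M.mulVec (v j₀)}) := by
        intro a ha b hb
        obtain ⟨c1, rfl⟩ := Submodule.mem_span_singleton.mp ha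
        obtain ⟨c2, rfl⟩ := Submodule.mem_span_singleton.mp hb
        rw [hB.smul_left, hB.smul_right, h01, mul_zero, mul_zero]
      have hPnd := Cfsg.Agent.Helper33.OType.nondeg_sup Q hQ _ _ hL1nd hL2nd hL12
      have hPdim := Cfsg.Agent.Helper33.OType.finrank_sup_of_orth Q _ _ hL1nd hL12
      have hPmem : ∀ b ∈ Submodule.span F {v j₀} ⊔ Submodule.span F {M.mulVec (v j₀)},
          ∃ c1 c2 : F, b = c1 • v j₀ + c2 • M.mulVec (v j₀) := by
        intro b hb
        obtain ⟨b1, hb1, b2, hb2, rfl⟩ := Submodule.mem_sup.mp hb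
        obtain ⟨c1, rfl⟩ := Submodule.mem_span_singleton.mp hb1
        obtain ⟨c2, rfl⟩ := Submodule.mem_span_singleton.mp hb2
        exact ⟨c1, c2, rfl⟩
      have hWP : AreOrthogonalFor (QuadraticMap.polar Q) W
          (Submodule.span F {v j₀} ⊔ Submodule.span F {M.mulVec (v j₀)}) := by
        intro a ha b hb
        obtain ⟨c1, c2, rfl⟩ := hPmem b hb
        obtain ⟨h1, h2'⟩ := hWo a ha j₀ (by omega)
        rw [hB.add_right, hB.smul_right, hB.smul_right, h1, h2', mul_zero, mul_zero, add_zero]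
      refine ⟨W ⊔ (Submodule.span F {v j₀} ⊔ Submodule.span F {M.mulVec (v j₀)}), ?_, ?_, ?_, ?_⟩
      · rw [Submodule.map_sup, Submodule.map_sup]
        refine sup_le (hWinv.trans le_sup_left) (le_trans ?_ le_sup_right)
        refine sup_le ?_ ?_
        · rw [Submodule.map_span_le]
          intro x hx
          rw [Set.mem_singleton_iff] at hx
          rw [hx, Matrix.toLin'_apply]
          exact Submodule.mem_sup_right (Submodule.mem_span_singleton_self _)
        · rw [Submodule.map_span_le]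
          intro x hx
          rw [Set.mem_singleton_iff] at hx
          rw [hx, Matrix.toLin'_apply, hTT]
          exact Submodule.mem_sup_left
            (Submodule.neg_mem _ (Submodule.mem_span_singleton_self _))
      · exact Cfsg.Agent.Helper33.OType.nondeg_sup Q hQ _ _ hWnd hPnd hWP
      · rw [Cfsg.Agent.Helper33.OType.finrank_sup_of_orth Q _ _ hWnd hWP, hWdim, hPdim, hL1dim,
          hL2dim]
        ring
      · intro a ha j hj
        obtain ⟨a1, ha1, b, hb, rfl⟩ := Submodule.mem_sup.mp ha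
        obtain ⟨c1, c2, rfl⟩ := hPmem b hb
        have hjne : j ≠ j₀ := by
          intro h
          rw [h, hj₀v] at hj
          omega
        obtain ⟨h1, h2'⟩ := hWo a1 ha1 j (by omega)
        obtain ⟨h3, h4⟩ := hvo j j₀ hjne
        obtain ⟨h5, h6⟩ := hvo j₀ j (Ne.symm hjne)
        constructor
        · rw [hB.add_left, hB.add_left, hB.smul_left, hB.smul_left, h1, h5,
            hsymm (M.mulVec (v j₀)) (v j), h4]
          ring
        · rw [hB.add_left, hB.add_left, hB.smul_left, hB.smul_left, h2', h6, hpres, h5]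
          ring
  obtain ⟨W, h1, h2', h3, -⟩ := key e he
  exact ⟨W, h1, h2', h3⟩


/-- an involutory isometry of a `2d`-space fixes a hyperbolic `m`-space (`m` even, `2 ≤ m < d`). -/
theorem s74_invo (Q : (ι → F) → F) (hQ : IsNondegenerateQuadraticForm Q) (h2 : (2 : F) ≠ 0)
    (d m : ℕ) (hcard : Fintype.card ι = 2 * d) (hm : 2 ≤ m) (hme : Even m) (hmd : m < d)
    (M : Matrix ι ι F) (hM : ∀ v, Q (M.mulVec v) = Q v) (hM2 : M * M = 1) : InvHyp Q M m := by
  rw [invHyp_iff]
  obtain ⟨hp, hmi, hsum, -⟩ := Cfsg.Agent.Helper50.TSR2.r2_split Q hQ h2 M hM hM2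
  rw [hcard] at hsum
  by_cases hbig : m < finrank F (LinearMap.ker (Matrix.toLin' M - 1))
  · obtain ⟨X, hXK, hXnd, hXdim, hXty⟩ :=
      Cfsg.Agent.Helper70.OH5992.o_sub Q hQ h2 _ hp m hme (by omega) hbig True
    refine ⟨X, ⟨hXdim, hXnd, hXty.mpr trivial⟩, ?_⟩
    rintro _ ⟨x, hx, rfl⟩
    have hxk := hXK hx
    rw [LinearMap.mem_ker, LinearMap.sub_apply, Module.End.one_apply, sub_eq_zero] at hxk
    rw [hxk]
    exact hx
  · have hbig' : m < finrank F (LinearMap.ker (Matrix.toLin' M + 1)) := by omega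
    obtain ⟨X, hXK, hXnd, hXdim, hXty⟩ :=
      Cfsg.Agent.Helper70.OH5992.o_sub Q hQ h2 _ hmi m hme (by omega) hbig' True
    refine ⟨X, ⟨hXdim, hXnd, hXty.mpr trivial⟩, ?_⟩
    rintro _ ⟨x, hx, rfl⟩
    have hxk := hXK hx
    rw [LinearMap.mem_ker, LinearMap.add_apply, Module.End.one_apply,
      add_eq_zero_iff_eq_neg] at hxk
    rw [hxk]
    exact X.neg_mem hx

end pieces

section stages

variable {F : Type*} [Field F] [Fintype F]

/-- odd characteristic: odd order. -/
theorem s74_odd_card {p : ℕ} [Fact p.Prime] [CharP F p] (hp2 : p ≠ 2) :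
    Odd (Fintype.card F) := by
  obtain ⟨n, hp, hc⟩ := FiniteField.card F p
  rw [hc]
  exact (hp.odd_of_ne_two hp2).pow

/-- R2G [BIG] (`r = 2 ≠ p`, `⟸`). -/
theorem s74_two_good {p : ℕ} [Fact p.Prime] [CharP F p] {q : ℕ} (hq : Fintype.card F = q)
    (d m : ℕ) (hd : 4 ≤ d) (hm : 2 ≤ m) (hme : Even m) (hmd : m < d) (hp2 : p ≠ 2)
    (hcond : (2 * d) % 4 = 2 ∨ m % 4 = 0 ∨ q % 4 = 1) :
    AllHyp (Cfsg.quadFormPlus d F) 2 m := by
  classical
  obtain ⟨hQ, hplus⟩ := Cfsg.Agent.Helper35.TS5973.ts_std_plus (F := F) d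
  have hoddq : Odd (Fintype.card F) := s74_odd_card hp2
  have h2 : (2 : F) ≠ 0 := Cfsg.Agent.Helper70.TSR2.r2_two_ne hoddq
  have hcard : Fintype.card (Fin d ⊕ Fin d) = 2 * d := by
    rw [Fintype.card_sum, Fintype.card_fin]
    omega
  have hne : Nonempty (Fin d ⊕ Fin d) := Fintype.card_pos_iff.mp (by omega)
  intro x hx hz hns
  obtain ⟨z, hz⟩ := hz
  obtain ⟨g, hgΩ, rfl⟩ := (Cfsg.Agent.Helper90.TS5973.r2a_mem_omegaGL _ x).mp hx
  have hM := Cfsg.Agent.Helper90.TS5973.r2a_iso (Cfsg.quadFormPlus d F) g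
  rw [Cfsg.Agent.Helper90.TS5973.r2a_sq] at hz
  rcases Cfsg.Agent.Helper70.TSR2.r2_z _ hQ hne _ hM z hz with rfl | rfl
  · rw [one_smul] at hz
    exact s74_invo _ hQ h2 d m hcard hm hme hmd _ hM hz
  · rw [Cfsg.Agent.Helper90.TS5973.r2a_neg_one] at hz
    obtain ⟨W, hWinv, hWnd, hWdim⟩ :=
      s74_skew_nd_gen _ hQ h2 d hcard _ hM hz (m / 2) (by omega)
    have hWm : finrank F W = m := by
      rw [hWdim]
      obtain ⟨k, hk⟩ := hme
      omega
    rw [invHyp_iff]
    by_cases hm1 : IsSquare (-1 : F)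
    · obtain ⟨s, hs⟩ := hm1
      exact ⟨W, ⟨hWm, hWnd,
        Cfsg.Agent.Helper80.S88R2.r2e_eig_hyp _ hQ h2 _ hM hz s hs.symm W hWinv hWnd⟩, hWinv⟩
    · have hq4 : q % 4 = 3 := by
        have h := (FiniteField.isSquare_neg_one_iff (F := F)).not.mp hm1
        rw [hq] at h
        omega
      have htype := Cfsg.Agent.Helper20.TSR2.r2_skew_type _ hQ h2 d (by omega) hcard _ hM hz hm1
      have hde : Even d := htype.mp hplus
      have hm4 : m % 4 = 0 := by
        rcases hcond with h | h | h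
        · exfalso
          obtain ⟨k, hk⟩ := hde
          omega
        · exact h
        · omega
      have hty := Cfsg.Agent.Helper20.S88R2.r2e_skew_sub_type _ hQ h2 _ hM hz hm1 W hWinv hWnd
        (m / 2) hWdim
      exact ⟨W, ⟨hWm, hWnd, hty.mpr ⟨m / 4, by omega⟩⟩, hWinv⟩

end stages

end Cfsg.Agent.Helper97.S74
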