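/-
helper97: piece CLASSO of CALL S5981 (helper98): a non-degenerate quadratic form in odd dimension
over a finite field of odd characteristic is, in a suitable basis, a scalar multiple of the
standard form `x₀² + Σ xᵢ yᵢ`.
-/
import Mathlib
import Cfsg.Prelude.Def_GeometricClasses
import Cfsg.Prelude.Def_Classical
import Cfsg.Agent.Helper43.QuadFin

set_option autoImplicit false
set_option linter.unusedSectionVars false
set_option linter.unusedVariables false
open Matrix Polynomial

namespace Cfsg.Agent.Helper97.THCLASSO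

variable {F : Type*} [Field F] [Fintype F]

/-- a non-degenerate quadratic form given as a function, bundled -/
def qfOf {ι : Type} [Fintype ι] [DecidableEq ι] (Q : (ι → F) → F)
    (hQ : Cfsg.Geo.IsNondegenerateQuadraticForm Q) : QuadraticForm F (ι → F) :=
  QuadraticMap.ofPolar Q (fun a x => by rw [hQ.smul, smul_eq_mul, pow_two])
    (fun x x' y => hQ.polar_bilinear.add_left x x' y)
    (fun a x y => by rw [hQ.polar_bilinear.smul_left, smul_eq_mul])

theorem qfOf_apply {ι : Type} [Fintype ι] [DecidableEq ι] (Q : (ι → F) → F)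
    (hQ : Cfsg.Geo.IsNondegenerateQuadraticForm Q) (v : ι → F) : qfOf Q hQ v = Q v := rfl

theorem qfOf_nondeg {ι : Type} [Fintype ι] [DecidableEq ι] (Q : (ι → F) → F)
    (hQ : Cfsg.Geo.IsNondegenerateQuadraticForm Q) : Helper43.PolarNondeg (qfOf Q hQ) := by
  intro v hv
  by_contra h0
  obtain ⟨x, hx⟩ := (hQ.nondegenerate v h0).2
  exact hx (hv x)

/-- value of a quadratic form on a vector written in a hyperbolic family plus an orthogonal
vector -/
theorem hyp_value {V : Type*} [AddCommGroup V] [Module F V] (h2 : (2 : F) ≠ 0)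
    (Q : QuadraticForm F V) {k : ℕ} (e f : Fin k → V)
    (h0 : ∀ i, Q (e i) = 0 ∧ Q (f i) = 0)
    (hef : ∀ i j, QuadraticMap.polar Q (e i) (f j) = if i = j then 1 else 0)
    (hee : ∀ i j, QuadraticMap.polar Q (e i) (e j) = 0 ∧ QuadraticMap.polar Q (f i) (f j) = 0)
    (a b : Fin k → F) (z : V)
    (hz : ∀ i, QuadraticMap.polar Q (e i) z = 0 ∧ QuadraticMap.polar Q (f i) z = 0) :
    Q (∑ i, a i • e i + ∑ i, b i • f i + z) = ∑ i, a i * b i + Q z := by
  classical
  have hB : ∀ v : V, QuadraticMap.polarBilin Q v v = 2 * Q v := by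
    intro v
    rw [QuadraticMap.polarBilin_apply_apply, QuadraticMap.polar_self]
    simp
  have hBef : ∀ i j, QuadraticMap.polarBilin Q (e i) (f j) = if i = j then 1 else 0 := hef
  have hBfe : ∀ i j, QuadraticMap.polarBilin Q (f i) (e j) = if j = i then 1 else 0 := by
    intro i j
    rw [QuadraticMap.polarBilin_apply_apply, QuadraticMap.polar_comm, hef]
  have hBee : ∀ i j, QuadraticMap.polarBilin Q (e i) (e j) = 0 := fun i j => (hee i j).1
  have hBff : ∀ i j, QuadraticMap.polarBilin Q (f i) (f j) = 0 := fun i j => (hee i j).2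
  have hBez : ∀ i, QuadraticMap.polarBilin Q (e i) z = 0 := fun i => (hz i).1
  have hBfz : ∀ i, QuadraticMap.polarBilin Q (f i) z = 0 := fun i => (hz i).2
  have hBze : ∀ i, QuadraticMap.polarBilin Q z (e i) = 0 := by
    intro i
    rw [QuadraticMap.polarBilin_apply_apply, QuadraticMap.polar_comm]
    exact (hz i).1
  have hBzf : ∀ i, QuadraticMap.polarBilin Q z (f i) = 0 := by
    intro i
    rw [QuadraticMap.polarBilin_apply_apply, QuadraticMap.polar_comm]
    exact (hz i).2
  have key : (2 : F) * Q (∑ i, a i • e i + ∑ i, b i • f i + z) = 2 * (∑ i, a i * b i + Q z) := by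
    rw [← hB]
    simp only [map_add, map_sum, map_smul, LinearMap.add_apply, LinearMap.sum_apply,
      LinearMap.smul_apply, smul_eq_mul, hBef, hBfe, hBee, hBff, hBez, hBfz, hBze, hBzf, mul_zero,
      Finset.sum_const_zero, mul_ite, mul_one, Finset.sum_ite_eq, Finset.sum_ite_eq',
      Finset.mem_univ, if_true, add_zero, zero_add, hB]
    have : ∑ x, b x * a x = ∑ x, a x * b x := Finset.sum_congr rfl fun x _ => mul_comm _ _
    rw [this]
    ring
  exact mul_left_cancel₀ h2 key

/-- CLASSO -/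
theorem class_odd (h2 : (2 : F) ≠ 0) (m : ℕ) (Q : (Fin (2 * m + 1) → F) → F)
    (hQ : Cfsg.Geo.IsNondegenerateQuadraticForm Q) :
    ∃ (P : GL (Fin (2 * m + 1)) F) (c : F) (e : Fin (2 * m + 1) ≃ Unit ⊕ (Fin m ⊕ Fin m)), c ≠ 0 ∧
      ∀ v : Unit ⊕ (Fin m ⊕ Fin m) → F,
        Q ((P : Matrix (Fin (2 * m + 1)) (Fin (2 * m + 1)) F) *ᵥ (v ∘ e)) = c * Cfsg.quadFormOdd m F v := by
  classical
  obtain ⟨k, e, f, W, h0, hef, hee, hW, hani, -, hdim⟩ :=
    Helper43.witt_decomp (2 * m + 1) (Fin (2 * m + 1) → F) (qfOf Q hQ) (by simp) (qfOf_nondeg Q hQ)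
  have hW2 := Helper43.finrank_le_two_of_anisotropic (qfOf Q hQ) W hani
  have hk : k = m := by omega
  subst hk
  have hW1 : 0 < Module.finrank F W := by omega
  obtain ⟨w, hw⟩ := Module.finrank_pos_iff_exists_ne_zero.mp hW1
  have hw0 : (w : Fin (2 * k + 1) → F) ≠ 0 := fun h => hw (Subtype.ext h)
  have hc : Q (w : Fin (2 * k + 1) → F) ≠ 0 := fun h => hw0 (hani w w.2 h)
  obtain ⟨w, hwW⟩ := w
  simp only at hw0 hc
  -- the basis
  let b : Unit ⊕ (Fin k ⊕ Fin k) → (Fin (2 * k + 1) → F) :=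
    Sum.elim (fun _ => w) (Sum.elim (fun i => Q w • e i) f)
  let ε : Fin (2 * k + 1) ≃ Unit ⊕ (Fin k ⊕ Fin k) := Fintype.equivOfCardEq (by simp; ring)
  let P : Matrix (Fin (2 * k + 1)) (Fin (2 * k + 1)) F := Matrix.of fun i j => b (ε j) i
  have hP : ∀ v : Unit ⊕ (Fin k ⊕ Fin k) → F, P *ᵥ (v ∘ ε) =
      ∑ i, (v (Sum.inr (Sum.inl i)) * Q w) • e i + ∑ i, v (Sum.inr (Sum.inr i)) • f i +
        v (Sum.inl ()) • w := by
    intro v
    funext i
    simp only [Matrix.mulVec, dotProduct, P, Matrix.of_apply, Function.comp_apply]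
    rw [Equiv.sum_comp ε (fun s => b s i * v s)]
    simp only [Fintype.sum_sum_type, b, Sum.elim_inl, Sum.elim_inr, Finset.univ_unique,
      Finset.sum_singleton, Pi.add_apply, Finset.sum_apply, Pi.smul_apply, smul_eq_mul]
    have e1 : ∑ x, Q w * e x i * v (Sum.inr (Sum.inl x)) = ∑ x, v (Sum.inr (Sum.inl x)) * Q w * e x i :=
      Finset.sum_congr rfl fun x _ => by ring
    have e2 : ∑ x, f x i * v (Sum.inr (Sum.inr x)) = ∑ x, v (Sum.inr (Sum.inr x)) * f x i :=
      Finset.sum_congr rfl fun x _ => by ring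
    rw [e1, e2]
    ring
  have hzw : ∀ (t : F) (i : Fin k), QuadraticMap.polar (qfOf Q hQ) (e i) (t • w) = 0 ∧
      QuadraticMap.polar (qfOf Q hQ) (f i) (t • w) = 0 := fun t i => hW i _ (W.smul_mem t hwW)
  have hinj : Function.Injective P.mulVec := by
    rw [← Matrix.coe_mulVecLin, injective_iff_map_eq_zero]
    intro u hu
    rw [Matrix.mulVecLin_apply] at hu
    have hu' : u = (u ∘ ε.symm) ∘ ε := by
      funext j
      simp
    rw [hu', hP] at hu
    obtain ⟨h1, h2', h3⟩ := Helper43.hyp_indep (qfOf Q hQ) e f hef hee _ _ _ (hzw _) hu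
    have h4 : u (ε.symm (Sum.inl ())) = 0 := by
      rcases smul_eq_zero.mp h3 with h | h
      · exact h
      · exact absurd h hw0
    funext j
    obtain ⟨s, rfl⟩ := ε.symm.surjective j
    rcases s with ⟨⟩ | s | s
    · exact h4
    · have := h1 s
      simp only [Function.comp_apply] at this
      rcases mul_eq_zero.mp this with h | h
      · exact h
      · exact absurd h hc
    · exact h2' s
  have hU : IsUnit P := Matrix.mulVec_injective_iff_isUnit.mp hinj
  refine ⟨hU.unit, Q w, ε, hc, fun v => ?_⟩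
  rw [IsUnit.unit_spec, hP, ← qfOf_apply Q hQ,
    hyp_value h2 (qfOf Q hQ) e f h0 hef hee _ _ _ (hzw _), QuadraticMap.map_smul, qfOf_apply]
  unfold Cfsg.quadFormOdd
  rw [mul_add, Finset.mul_sum, smul_eq_mul]
  have : ∑ i, v (Sum.inr (Sum.inl i)) * Q w * v (Sum.inr (Sum.inr i)) =
      ∑ i, Q w * (v (Sum.inr (Sum.inl i)) * v (Sum.inr (Sum.inr i))) :=
    Finset.sum_congr rfl fun x _ => by ring
  rw [this]
  ring

end Cfsg.Agent.Helper97.THCLASSO
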