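-- helper97 library: the class-two case (r = 3) for groups of isometries of the standard unitary
-- form: realisable over a proper subfield, or an extraspecial group of exponent 3 over a field with
-- p ^ 2 elements.
import Cfsg.Agent.Helper97.U9Core
import Cfsg.Agent.Helper96.SympOdd

set_option autoImplicit false
set_option linter.unusedSectionVars false
set_option linter.unusedVariables false
open Cfsg Cfsg.Geo Matrix

namespace Cfsg.Agent.Helper97.U9

open Cfsg.Agent.Helper97

variable {F : Type*} [Field F] {n : ℕ} {q : ℕ} {σ : F ≃+* F}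

/-- A scalar isometry of the standard unitary form has norm one. -/
theorem scalar_norm_of_mem_GU (h : IsSigma q σ) [NeZero n] (z : GL (Fin n) F) (ζ : F)
    (hzv : (z : Matrix (Fin n) (Fin n) F) = ζ • (1 : Matrix (Fin n) (Fin n) F))
    (hz : z ∈ GU n F q) : ζ ^ (q + 1) = 1 := by
  classical
  have hS := h.isSesq (n := n)
  have h1 := hz (Pi.single 0 1) (Pi.single 0 1)
  change hermForm n F q ((z : Matrix (Fin n) (Fin n) F) *ᵥ _) ((z : Matrix (Fin n) (Fin n) F) *ᵥ _)
    = _ at h1
  rw [hzv, Matrix.smul_mulVec, Matrix.one_mulVec, hS.smul_left, hS.smul_right] at h1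
  have h2 : hermForm n F q (Pi.single (0 : Fin n) (1 : F)) (Pi.single 0 1) = 1 := by
    rw [h.herm_single_right, Pi.single_eq_same]
  rw [h2, mul_one] at h1
  rw [pow_succ, ← h.pow, mul_comm]
  exact h1

/-- The class-two case with `r = 3`. -/
theorem un_c2_three [Fintype F] [NeZero n] (h : IsSigma q σ) (hF : Fintype.card F = q ^ 2)
    (H N : Subgroup (GL (Fin n) F)) (hH : H ≤ GU n F q) (hN : Helper96.C2Data H N)
    (hpow : ∀ x ∈ N, x ^ 3 ∈ scalars (Fin n) F) :
    (∃ F₀ : Subfield F, F₀ ≠ ⊤ ∧ RealisableOver F₀ (matrixSet N)) ∨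
    (q.Prime ∧ q % 3 = 2 ∧ IsSymplecticTypeGroup 3 N ∧ Nat.card N = n * n * 3 ∧
      Nat.card (Subgroup.center N) = 3) := by
  classical
  have hexp := Helper96.c2_exponent_odd H N hN.normal hN.notScalar hN.minimal hN.comm hN.absIrred 3
    (by decide) hpow
  obtain ⟨x, y, z, ζ, hxN, hyN, hzN, hzv, hprim, hxy⟩ :=
    Helper96.c2_root N hN.notScalar hN.comm hN.absIrred 3 Nat.prime_three hpow
  have hζq : ζ ^ (q + 1) = 1 := scalar_norm_of_mem_GU h z ζ hzv (hH (hN.le hzN))
  have h3q : 3 ∣ q + 1 := (hprim.pow_eq_one_iff_dvd _).mp hζq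
  obtain ⟨p, hchar⟩ := CharP.exists F
  have hp : p.Prime := (CharP.char_is_prime_or_zero F p).resolve_right (CharP.char_ne_zero_of_finite F p)
  have hfact : Fact p.Prime := ⟨hp⟩
  obtain ⟨e, -, he⟩ := FiniteField.card F p
  have hqd : q ∣ p ^ (e : ℕ) := by
    rw [← he, hF]; exact dvd_pow_self q (by norm_num)
  obtain ⟨a, -, hqa⟩ := (Nat.dvd_prime_pow hp).mp hqd
  have hq2 := two_le_of_card hF
  have ha0 : a ≠ 0 := by
    rintro rfl
    rw [pow_zero] at hqa
    omega
  have hcard : Fintype.card F = p ^ (2 * a) := by rw [hF, hqa, ← pow_mul, mul_comm]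
  by_cases ha1 : a = 1
  · right
    subst ha1
    rw [pow_one] at hqa
    obtain ⟨hc1, hc2⟩ := Helper96.c2_card N hN.comm hN.absIrred 3 Nat.prime_three hexp z hzN ζ hzv hprim
    have hz1 : z ≠ 1 := by
      intro h1
      rw [h1, Units.val_one] at hzv
      exact hprim.ne_one (by norm_num) ((smul_one_eq_one_iff ζ).mp hzv.symm)
    refine ⟨hqa ▸ hp, by omega, ⟨Nat.prime_three, ?_, ?_, ?_⟩, hc2, hc1⟩
    · intro g
      refine ⟨1, ?_⟩
      apply Subtype.ext
      rw [pow_one, Subgroup.coe_pow]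
      exact hexp g g.2
    · exact fun A hA hAc =>
        Helper96.c2_char_cyclic H N hN.normal hN.notScalar hN.minimal hN.absIrred A hA hAc
    · have h3 : Monoid.exponent N ∣ 3 := by
        apply Monoid.exponent_dvd_of_forall_pow_eq_one
        intro g
        apply Subtype.ext
        rw [Subgroup.coe_pow]
        exact hexp g g.2
      rcases (Nat.dvd_prime Nat.prime_three).mp h3 with h1 | h1
      · exfalso
        apply hz1
        have h4 : (⟨z, hzN⟩ : N) ^ Monoid.exponent N = 1 := Monoid.pow_exponent_eq_one _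
        rw [h1, pow_one] at h4
        exact congrArg Subtype.val h4
      · rw [h1]
        rfl
  · left
    have ha2 : 2 ≤ a := by omega
    obtain ⟨b, hmono⟩ := Helper96.exists_mono_basis N hN.absIrred hN.comm (by norm_num : 0 < 3) hprim hexp
    have hp3 : 3 ∣ p ^ 2 - 1 := by
      have hp0 : p % 3 ≠ 0 := by
        intro h0
        have h1 : 3 ∣ p := Nat.dvd_of_mod_eq_zero h0
        have h2 : 3 ∣ p ^ a := dvd_pow h1 ha0
        rw [← hqa] at h2
        omega
      have h1 : p ^ 2 % 3 = 1 := by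
        rw [Nat.pow_mod]
        have : p % 3 < 3 := Nat.mod_lt _ (by norm_num)
        interval_cases p % 3
        · exact absurd rfl hp0
        · rfl
        · rfl
      have h2 : 1 ≤ p ^ 2 := Nat.one_le_pow _ _ hp.pos
      omega
    obtain ⟨F₀, hF₀⟩ : ∃ F₀ : Subfield F,
        F₀ = RingHom.eqLocusField (iterateFrobenius F p 2) (RingHom.id F) := ⟨_, rfl⟩
    have hmem : ∀ c : F, c ∈ F₀ ↔ c ^ p ^ 2 = c := by
      intro c
      rw [hF₀, RingHom.mem_eqLocusField, iterateFrobenius_def, RingHom.id_apply]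
    have hpd : 1 ≤ p ^ 2 := Nat.one_le_pow _ _ hp.pos
    have hζF₀ : ζ ∈ F₀ := by
      rw [hmem]
      have h1 : ζ ^ (p ^ 2 - 1) = 1 := (hprim.pow_eq_one_iff_dvd _).mpr hp3
      calc ζ ^ p ^ 2 = ζ ^ (p ^ 2 - 1 + 1) := by rw [Nat.sub_add_cancel hpd]
        _ = ζ := by rw [pow_succ, h1, one_mul]
    have hF₀top : F₀ ≠ ⊤ := by
      intro htop
      obtain ⟨g, hg⟩ := IsCyclic.exists_ofOrder_eq_natCard (α := Fˣ)
      rw [Nat.card_units, Nat.card_eq_fintype_card, hcard] at hg
      have h1 : (g : F) ∈ F₀ := by rw [htop]; exact Subfield.mem_top _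
      rw [hmem] at h1
      have h2 : (g : F) ^ (p ^ 2 - 1) = 1 := by
        have h3 : (g : F) ^ (p ^ 2 - 1) * (g : F) = 1 * (g : F) := by
          rw [← pow_succ, Nat.sub_add_cancel hpd, h1, one_mul]
        exact mul_right_cancel₀ g.ne_zero h3
      have h4 : g ^ (p ^ 2 - 1) = 1 := by
        apply Units.ext
        rw [Units.val_pow_eq_pow_val, h2, Units.val_one]
      have h5 := orderOf_dvd_of_pow_eq_one h4
      rw [hg] at h5
      have h6 : p ^ 2 < p ^ (2 * a) := Nat.pow_lt_pow_right hp.one_lt (by omega)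
      have h7 : 2 ≤ p ^ 2 := by
        calc 2 ≤ p := hp.two_le
          _ = p ^ 1 := (pow_one p).symm
          _ ≤ p ^ 2 := Nat.pow_le_pow_right hp.pos (by norm_num)
      have h8 := Nat.le_of_dvd (by omega) h5
      omega
    refine ⟨F₀, hF₀top, Helper96.mono_realisable N b hmono F₀ (fun c hc => ?_)⟩
    obtain ⟨i, -, hi⟩ := hprim.eq_pow_of_pow_eq_one hc
    rw [← hi]
    exact F₀.pow_mem hζF₀ i

end Cfsg.Agent.Helper97.U9
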