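-- helper97 library: the special unitary group is not contained in decomposition stabilisers and
-- normalisers of fields.
import Cfsg.Agent.Helper97.UNot

set_option autoImplicit false
open Cfsg Cfsg.Geo Matrix

namespace Cfsg.Agent.Helper97

variable {F : Type*} [Field F] {n : ℕ}

namespace IsSigma

variable {q : ℕ} {σ : F ≃+* F}

/-! ### Class 2 -/

theorem notSU_decomp [Fintype F] (h : IsSigma q σ) (hF : Fintype.card F = q ^ 2) {t : ℕ} (ht : 4 ≤ t)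
    (D : Fin t → Submodule F (Fin n → F))
    (hD : IsNondegenerateMDecomposition (hermForm n F q) 1 D) :
    ¬ GU n F q ⊓ specialLinear (Fin n) F ≤ decompositionStabilizer D := by
  classical
  intro hle
  have hS := h.isSesq (n := n)
  obtain ⟨c, hc0, hc⟩ := h.exists_trace_zero
  have hex : ∀ i, ∃ d : Fin n → F, d ∈ D i ∧ hermForm n F q d d ≠ 0 := by
    intro i
    have hfr := hD.decomp.finrank_eq i
    obtain ⟨d, hd0, hd⟩ := finrank_eq_one_iff'.mp hfr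
    have hd0' : (d : Fin n → F) ≠ 0 := fun h0 => hd0 (Subtype.ext h0)
    obtain ⟨⟨x, hx, hxd⟩, -⟩ := hD.nondegenerate i d d.2 hd0'
    obtain ⟨a, ha⟩ := hd ⟨x, hx⟩
    refine ⟨d, d.2, ?_⟩
    intro h0
    apply hxd
    have e : x = a • (d : Fin n → F) := (congrArg Subtype.val ha).symm
    rw [e, hS.smul_left, h0, mul_zero]
  choose d hdD hdd using hex
  obtain ⟨i0, hi0⟩ : ∃ i : Fin t, i = ⟨0, by omega⟩ := ⟨_, rfl⟩
  obtain ⟨i1, hi1⟩ : ∃ i : Fin t, i = ⟨1, by omega⟩ := ⟨_, rfl⟩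
  obtain ⟨i2, hi2⟩ : ∃ i : Fin t, i = ⟨2, by omega⟩ := ⟨_, rfl⟩
  obtain ⟨i3, hi3⟩ : ∃ i : Fin t, i = ⟨3, by omega⟩ := ⟨_, rfl⟩
  have hort : ∀ i j, i ≠ j → hermForm n F q (d i) (d j) = 0 :=
    fun i j hij => hD.orthogonal i j hij _ (hdD i) _ (hdD j)
  have h01 : i0 ≠ i1 := by simp [hi0, hi1, Fin.ext_iff]
  have h02 : i0 ≠ i2 := by simp [hi0, hi2, Fin.ext_iff]
  have h03 : i0 ≠ i3 := by simp [hi0, hi3, Fin.ext_iff]
  have h12 : i1 ≠ i2 := by simp [hi1, hi2, Fin.ext_iff]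
  have h13 : i1 ≠ i3 := by simp [hi1, hi3, Fin.ext_iff]
  have h23 : i2 ≠ i3 := by simp [hi2, hi3, Fin.ext_iff]
  have o01 := hort i0 i1 h01
  have o02 := hort i0 i2 h02
  have o03 := hort i0 i3 h03
  have o12 := hort i1 i2 h12
  have o13 := hort i1 i3 h13
  have o23 := hort i2 i3 h23
  have o10 := hort i1 i0 h01.symm
  have o20 := hort i2 i0 h02.symm
  have o30 := hort i3 i0 h03.symm
  have o21 := hort i2 i1 h12.symm
  have o31 := hort i3 i1 h13.symm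
  have o32 := hort i3 i2 h23.symm
  obtain ⟨k0, hk0⟩ : ∃ k : F, k = hermForm n F q (d i0) (d i0) := ⟨_, rfl⟩
  obtain ⟨k1, hk1⟩ : ∃ k : F, k = hermForm n F q (d i1) (d i1) := ⟨_, rfl⟩
  obtain ⟨k2, hk2⟩ : ∃ k : F, k = hermForm n F q (d i2) (d i2) := ⟨_, rfl⟩
  obtain ⟨k3, hk3⟩ : ∃ k : F, k = hermForm n F q (d i3) (d i3) := ⟨_, rfl⟩
  have hk00 : k0 ≠ 0 := hk0 ▸ hdd i0
  have hk10 : k1 ≠ 0 := hk1 ▸ hdd i1
  have hk20 : k2 ≠ 0 := hk2 ▸ hdd i2
  have hk30 : k3 ≠ 0 := hk3 ▸ hdd i3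
  have hf0 : σ k0 = k0 := by rw [hk0, h.herm_self_fixed]
  have hf1 : σ k1 = k1 := by rw [hk1, h.herm_self_fixed]
  have hf2 : σ k2 = k2 := by rw [hk2, h.herm_self_fixed]
  have hf3 : σ k3 = k3 := by rw [hk3, h.herm_self_fixed]
  obtain ⟨mu, hmu⟩ := h.exists_norm_eq hF (-k0 / k1) (by rw [map_div₀, map_neg, hf0, hf1])
    (div_ne_zero (neg_ne_zero.mpr hk00) hk10)
  obtain ⟨nu, hnu⟩ := h.exists_norm_eq hF (-k2 / k3) (by rw [map_div₀, map_neg, hf2, hf3])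
    (div_ne_zero (neg_ne_zero.mpr hk20) hk30)
  have hmu0 : mu ≠ 0 := by
    rintro rfl
    rw [zero_mul] at hmu
    exact (div_ne_zero (neg_ne_zero.mpr hk00) hk10) hmu.symm
  obtain ⟨u, hudef⟩ : ∃ u : Fin n → F, u = d i0 + mu • d i1 + d i2 + nu • d i3 := ⟨_, rfl⟩
  have hu : hermForm n F q u u = 0 := by
    simp only [hudef, hS.add_left, hS.add_right, hS.smul_left, hS.smul_right, o01, o02, o03, o12, o13,
      o23, o10, o20, o30, o21, o31, o32, mul_zero, add_zero, zero_add, ← hk0, ← hk1, ← hk2, ← hk3]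
    have e1 : mu * σ mu * k1 = -k0 := by rw [hmu]; field_simp
    have e2 : nu * σ nu * k3 = -k2 := by rw [hnu]; field_simp
    linear_combination e1 + e2
  have hd0u : hermForm n F q (d i0) u = k0 := by
    simp only [hudef, hS.add_right, hS.smul_right, o01, o02, o03, mul_zero, add_zero, ← hk0]
  have hud1 : hermForm n F q u (d i1) = mu * k1 := by
    simp only [hudef, hS.add_left, hS.smul_left, o01, o21, o31, mul_zero, add_zero, zero_add, ← hk1]
  have hud2 : hermForm n F q u (d i2) = k2 := by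
    simp only [hudef, hS.add_left, hS.smul_left, o02, o12, o32, mul_zero, add_zero, zero_add, ← hk2]
  obtain ⟨tt, htG, htt, -⟩ := h.exists_utv u hu c hc
  obtain ⟨π, hπ⟩ := (mem_decompositionStabilizer_iff D tt).mp (hle htG)
  have hw : (tt : Matrix (Fin n) (Fin n) F) *ᵥ d i0 ∈ D (π i0) := by
    rw [← hπ i0]
    exact ⟨d i0, hdD i0, by rw [Matrix.toLin'_apply]⟩
  rw [htt, hd0u] at hw
  have e1 : π i0 = i1 := by
    by_contra hne
    have h1 := hD.orthogonal (π i0) i1 hne _ hw _ (hdD i1)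
    rw [hS.add_left, hS.smul_left, o01, hud1, zero_add] at h1
    exact (mul_ne_zero (mul_ne_zero hc0 hk00) (mul_ne_zero hmu0 hk10)) h1
  have e2 : π i0 = i2 := by
    by_contra hne
    have h1 := hD.orthogonal (π i0) i2 hne _ hw _ (hdD i2)
    rw [hS.add_left, hS.smul_left, o02, hud2, zero_add] at h1
    exact (mul_ne_zero (mul_ne_zero hc0 hk00) hk20) h1
  exact h12 (e1.symm.trans e2)

/-! ### Class 3 -/

theorem not_normalizes_field (hn : 3 ≤ n) (K : Subalgebra F (Matrix (Fin n) (Fin n) F))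
    (hinv : ∀ x ∈ K, x ≠ 0 → ∃ y ∈ K, x * y = 1)
    (hK : ¬ ∀ k ∈ K, ∃ c : F, k = c • (1 : Matrix (Fin n) (Fin n) F))
    (t : GL (Fin n) F) (u a : Fin n → F) (hu : u ≠ 0) (ha : a ≠ 0)
    (ht : ∀ v, (t : Matrix (Fin n) (Fin n) F) *ᵥ v = v + (a ⬝ᵥ v) • u) :
    t ∉ subalgebraNormalizer K := by
  classical
  intro hmem
  apply hK
  intro k hk
  have hk' : (t : Matrix (Fin n) (Fin n) F) * k * ((t⁻¹ : GL (Fin n) F) : Matrix (Fin n) (Fin n) F) ∈ K :=
    ((mem_subalgebraNormalizer_iff K t).mp hmem k).mp hk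
  let L : (Fin n → F) →ₗ[F] (F × F) :=
    { toFun := fun v => (a ⬝ᵥ v, a ⬝ᵥ (k *ᵥ v))
      map_add' := by
        intro v w
        simp [dotProduct_add, Matrix.mulVec_add]
      map_smul' := by
        intro c v
        simp [dotProduct_smul, Matrix.mulVec_smul] }
  have hker : LinearMap.ker L ≠ ⊥ := by
    apply LinearMap.ker_ne_bot_of_finrank_lt
    rw [Module.finrank_prod, Module.finrank_self, Module.finrank_fin_fun]
    omega
  obtain ⟨v, hvker, hv0⟩ := (Submodule.ne_bot_iff _).mp hker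
  have hLv : L v = 0 := LinearMap.mem_ker.mp hvker
  have hv1 : a ⬝ᵥ v = 0 := congrArg Prod.fst hLv
  have hv2 : a ⬝ᵥ (k *ᵥ v) = 0 := congrArg Prod.snd hLv
  have htv : (t : Matrix (Fin n) (Fin n) F) *ᵥ v = v := by rw [ht, hv1, zero_smul, add_zero]
  have htiv : ((t⁻¹ : GL (Fin n) F) : Matrix (Fin n) (Fin n) F) *ᵥ v = v := by
    conv_lhs => rw [← htv]
    exact mulVec_inv_cancel t v
  have hdiff : ((t : Matrix (Fin n) (Fin n) F) * k * ((t⁻¹ : GL (Fin n) F) : Matrix (Fin n) (Fin n) F) - k)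
      *ᵥ v = 0 := by
    rw [Matrix.sub_mulVec, ← Matrix.mulVec_mulVec, ← Matrix.mulVec_mulVec, htiv, ht, hv2, zero_smul,
      add_zero, sub_self]
  have h0 := eq_zero_of_mulVec_eq_zero_of_inv K hinv (K.sub_mem hk' hk) hv0 hdiff
  have hcomm : (t : Matrix (Fin n) (Fin n) F) * k = k * (t : Matrix (Fin n) (Fin n) F) := by
    have h1 := sub_eq_zero.mp h0
    calc (t : Matrix (Fin n) (Fin n) F) * k
        = ((t : Matrix (Fin n) (Fin n) F) * k * ((t⁻¹ : GL (Fin n) F) : Matrix (Fin n) (Fin n) F))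
          * (t : Matrix (Fin n) (Fin n) F) := by
          rw [mul_assoc, val_inv_mul_val, mul_one]
      _ = k * (t : Matrix (Fin n) (Fin n) F) := by rw [h1]
  obtain ⟨i, hi⟩ := exists_ne_zero_coord ha
  have h1 := congrArg (fun M : Matrix (Fin n) (Fin n) F => M *ᵥ (Pi.single i 1 : Fin n → F)) hcomm
  simp only [← Matrix.mulVec_mulVec, ht] at h1
  rw [Matrix.mulVec_add, Matrix.mulVec_smul, dotProduct_single_one] at h1
  have h2 : (a ⬝ᵥ (k *ᵥ Pi.single i 1)) • u = a i • (k *ᵥ u) := add_left_cancel h1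
  refine ⟨(a i)⁻¹ * (a ⬝ᵥ (k *ᵥ Pi.single i 1)), ?_⟩
  have h3 : (k - ((a i)⁻¹ * (a ⬝ᵥ (k *ᵥ Pi.single i 1))) • (1 : Matrix (Fin n) (Fin n) F)) *ᵥ u = 0 := by
    rw [Matrix.sub_mulVec, Matrix.smul_mulVec, Matrix.one_mulVec, mul_smul, h2, smul_smul,
      inv_mul_cancel₀ hi, one_smul, sub_self]
  exact sub_eq_zero.mp
    (eq_zero_of_mulVec_eq_zero_of_inv K hinv (K.sub_mem hk (K.smul_mem K.one_mem _)) hu h3)

theorem sg_smul_ne_zero {c : F} (hc0 : c ≠ 0) {u : Fin n → F} (hu0 : u ≠ 0) :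
    (c • (fun i => σ (u i)) : Fin n → F) ≠ 0 := by
  obtain ⟨i, hi⟩ := exists_ne_zero_coord hu0
  intro h0
  have h1 := congrFun h0 i
  simp only [Pi.smul_apply, smul_eq_mul, Pi.zero_apply] at h1
  rcases mul_eq_zero.mp h1 with h2 | h2
  · exact hc0 h2
  · exact hi ((map_eq_zero σ).mp h2)

theorem notSU_fieldNormalizer [Fintype F] (h : IsSigma q σ) (hF : Fintype.card F = q ^ 2) (hn : 3 ≤ n)
    (K : Subalgebra F (Matrix (Fin n) (Fin n) F))
    (hinv : ∀ x ∈ K, x ≠ 0 → ∃ y ∈ K, x * y = 1)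
    (hK : ¬ ∀ k ∈ K, ∃ c : F, k = c • (1 : Matrix (Fin n) (Fin n) F)) :
    ¬ GU n F q ⊓ specialLinear (Fin n) F ≤ subalgebraNormalizer K := by
  intro hle
  obtain ⟨c, hc0, hc⟩ := h.exists_trace_zero
  obtain ⟨u, hu0, hu⟩ := h.exists_isotropic hF (by omega : 2 ≤ n)
  obtain ⟨t, htG, ht, -⟩ := h.exists_utv u hu c hc
  refine not_normalizes_field hn K hinv hK t u (c • fun i => σ (u i)) hu0
    (sg_smul_ne_zero hc0 hu0) ?_ (hle htG)
  intro v
  rw [ht, h.herm_dot]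

end IsSigma

end Cfsg.Agent.Helper97
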