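-- helper97 library: the special unitary group is not contained in subfield groups.
import Cfsg.Agent.Helper97.UNot2

set_option autoImplicit false
open Cfsg Cfsg.Geo Matrix

namespace Cfsg.Agent.Helper97

variable {F : Type*} [Field F] {n : ℕ}

theorem transvection_pow (t : GL (Fin n) F) (u a : Fin n → F) (hau : a ⬝ᵥ u = 0)
    (ht : ∀ v, (t : Matrix (Fin n) (Fin n) F) *ᵥ v = v + (a ⬝ᵥ v) • u) (k : ℕ) (v : Fin n → F) :
    ((t ^ k : GL (Fin n) F) : Matrix (Fin n) (Fin n) F) *ᵥ v = v + ((k : F) * (a ⬝ᵥ v)) • u := by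
  induction k with
  | zero => simp
  | succ k ih =>
    rw [pow_succ', Units.val_mul, ← Matrix.mulVec_mulVec, ih, ht, dotProduct_add, dotProduct_smul, hau,
      smul_zero, add_zero, add_assoc, ← add_smul]
    push_cast
    ring_nf

theorem subfield_pow_card (F₀ : Subfield F) [Finite F] (x : F) (hx : x ∈ F₀) : x ^ Nat.card F₀ = x := by
  have : Fintype F₀ := Fintype.ofFinite F₀
  rw [Nat.card_eq_fintype_card]
  have h1 := FiniteField.pow_card (⟨x, hx⟩ : F₀)
  exact congrArg Subtype.val h1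

/-- A transvection (of order `p`) lying in a subfield group is rational. -/
theorem transvection_rational [Fintype F] {p : ℕ} [Fact p.Prime] [CharP F p] [NeZero n]
    (F₀ : Subfield F) (P : GL (Fin n) F) (t : GL (Fin n) F) (htp : t ^ p = 1)
    (hmem : t ∈ subfieldSubgroup F₀ P) :
    ∀ i j, ((P⁻¹ * t * P : GL (Fin n) F) : Matrix (Fin n) (Fin n) F) i j ∈ F₀ := by
  rw [subfieldSubgroup, Subgroup.mem_map] at hmem
  obtain ⟨y, hy, hyt⟩ := hmem
  have hyt' : y = P⁻¹ * t * P := by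
    have h1 : P * y * P⁻¹ = t := hyt
    rw [← h1]
    group
  rw [← hyt']
  have hyp : y ^ p = 1 := by
    have e : P⁻¹ * t * P = P⁻¹ * t * P⁻¹⁻¹ := by rw [inv_inv]
    rw [hyt', e, conj_pow, htp]
    group
  obtain ⟨a, ha, b, hb, hab⟩ := Subgroup.mem_sup_of_normal_right.mp hy
  obtain ⟨a', rfl⟩ := ha
  obtain ⟨d, hd⟩ := (mem_scalars_iff b).mp hb
  have hcomm : Commute (Matrix.GeneralLinearGroup.map (F₀.subtype : F₀ →+* F) a') b :=
    (scalars_comm hb _).symm
  have hval : ((y ^ p : GL (Fin n) F) : Matrix (Fin n) (Fin n) F)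
      = ((d : F) ^ p) • (((a' ^ p : GL (Fin n) F₀) : Matrix (Fin n) (Fin n) F₀).map F₀.subtype) := by
    rw [← hab, hcomm.mul_pow, ← map_pow, Units.val_mul, scalar_pow_val hd p, Matrix.mul_smul,
      Matrix.mul_one]
    rfl
  rw [hyp, Units.val_one] at hval
  have h00 := congrFun (congrFun hval 0) 0
  simp only [Matrix.one_apply_eq, Matrix.smul_apply, Matrix.map_apply, smul_eq_mul] at h00
  have hdp : (d : F) ^ p ∈ F₀ := by
    have h1 : (F₀.subtype (((a' ^ p : GL (Fin n) F₀) : Matrix (Fin n) (Fin n) F₀) 0 0)) ≠ 0 := by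
      intro h
      rw [h, mul_zero] at h00
      exact one_ne_zero h00
    have h2 : (d : F) ^ p = (F₀.subtype (((a' ^ p : GL (Fin n) F₀) : Matrix (Fin n) (Fin n) F₀) 0 0))⁻¹ := by
      field_simp
      exact h00.symm
    rw [h2]
    exact F₀.inv_mem (SetLike.coe_mem _)
  have hd0 : (d : F) ∈ F₀ := by
    obtain ⟨e, -, hcard⟩ := FiniteField.card F p
    have h1 : (d : F) ^ p ^ (e : ℕ) = (d : F) := by rw [← hcard, FiniteField.pow_card]
    have h2 : p ^ (e : ℕ) = p * p ^ ((e : ℕ) - 1) := by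
      rw [← pow_succ', Nat.sub_add_cancel e.pos]
    rw [h2, pow_mul] at h1
    rw [← h1]
    exact F₀.pow_mem hdp _
  intro i j
  have hval1 : (y : Matrix (Fin n) (Fin n) F)
      = (d : F) • ((a' : Matrix (Fin n) (Fin n) F₀).map F₀.subtype) := by
    rw [← hab, Units.val_mul, hd, Matrix.mul_smul, Matrix.mul_one]
    rfl
  rw [hval1]
  simp only [Matrix.smul_apply, Matrix.map_apply, smul_eq_mul]
  exact F₀.mul_mem hd0 (SetLike.coe_mem _)

namespace IsSigma

variable {q : ℕ} {σ : F ≃+* F}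

theorem exists_herm_ne (h : IsSigma q σ) (P : GL (Fin n) F) {u : Fin n → F} (hu0 : u ≠ 0) :
    ∃ j, hermForm n F q ((P : Matrix (Fin n) (Fin n) F) *ᵥ Pi.single j 1) u ≠ 0 := by
  classical
  by_contra hcon
  have hall : ∀ j, hermForm n F q ((P : Matrix (Fin n) (Fin n) F) *ᵥ Pi.single j 1) u = 0 := by
    intro j
    by_contra hj
    exact hcon ⟨j, hj⟩
  obtain ⟨⟨w, hw⟩, -⟩ := h.isUnitaryForm.nondegenerate u hu0
  apply hw
  have e : w = ∑ j, (((P⁻¹ : GL (Fin n) F) : Matrix (Fin n) (Fin n) F) *ᵥ w) j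
      • ((P : Matrix (Fin n) (Fin n) F) *ᵥ Pi.single j 1) := by
    conv_lhs => rw [← mulVec_cancel_inv P w,
      vec_eq_sum_single (((P⁻¹ : GL (Fin n) F) : Matrix (Fin n) (Fin n) F) *ᵥ w)]
    rw [Matrix.mulVec_sum]
    exact Finset.sum_congr rfl fun j _ => Matrix.mulVec_smul _ _ _
  rw [e, h.isSesq.sum_left]
  apply Finset.sum_eq_zero
  intro j _
  rw [h.isSesq.smul_left, hall j, mul_zero]

/-- If the special unitary group lies in a subfield group, the conjugates of the unitary transvections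
are rational. -/
theorem subfield_entries [Fintype F] (h : IsSigma q σ) [NeZero n] (F₀ : Subfield F) (P : GL (Fin n) F)
    (hle : GU n F q ⊓ specialLinear (Fin n) F ≤ subfieldSubgroup F₀ P)
    (u : Fin n → F) (hu : hermForm n F q u u = 0) (c : F) (hc : σ c = -c) (i j : Fin n) :
    c * hermForm n F q ((P : Matrix (Fin n) (Fin n) F) *ᵥ Pi.single j 1) u
      * (((P⁻¹ : GL (Fin n) F) : Matrix (Fin n) (Fin n) F) *ᵥ u) i ∈ F₀ := by
  classical
  obtain ⟨p, hchar⟩ := CharP.exists F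
  have hp : p.Prime := (CharP.char_is_prime_or_zero F p).resolve_right (CharP.char_ne_zero_of_finite F p)
  have : Fact p.Prime := ⟨hp⟩
  obtain ⟨t, htG, ht, -⟩ := h.exists_utv u hu c hc
  have hau : (c • (fun i => σ (u i))) ⬝ᵥ u = 0 := by rw [h.herm_dot, hu, mul_zero]
  have ht' : ∀ v, (t : Matrix (Fin n) (Fin n) F) *ᵥ v = v + ((c • (fun i => σ (u i))) ⬝ᵥ v) • u := by
    intro v
    rw [ht, h.herm_dot]
  have htp : t ^ p = 1 := by
    apply gl_ext
    intro v
    rw [transvection_pow t u _ hau ht' p v, CharP.cast_eq_zero F p, zero_mul, zero_smul, add_zero,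
      Units.val_one, Matrix.one_mulVec]
  have hrat := transvection_rational F₀ P t htp (hle htG) i j
  have hentry : ((P⁻¹ * t * P : GL (Fin n) F) : Matrix (Fin n) (Fin n) F) i j
      = (1 : Matrix (Fin n) (Fin n) F) i j
        + c * hermForm n F q ((P : Matrix (Fin n) (Fin n) F) *ᵥ Pi.single j 1) u
          * (((P⁻¹ : GL (Fin n) F) : Matrix (Fin n) (Fin n) F) *ᵥ u) i := by
    have h1 : ((P⁻¹ * t * P : GL (Fin n) F) : Matrix (Fin n) (Fin n) F) *ᵥ (Pi.single j 1 : Fin n → F)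
        = Pi.single j 1 + (c * hermForm n F q ((P : Matrix (Fin n) (Fin n) F) *ᵥ Pi.single j 1) u)
          • (((P⁻¹ : GL (Fin n) F) : Matrix (Fin n) (Fin n) F) *ᵥ u) := by
      rw [Units.val_mul, Units.val_mul, ← Matrix.mulVec_mulVec, ← Matrix.mulVec_mulVec, ht,
        Matrix.mulVec_add, mulVec_inv_cancel, Matrix.mulVec_smul]
    have h2 := congrFun h1 i
    rw [Matrix.mulVec_single_one] at h2
    rw [show ((P⁻¹ * t * P : GL (Fin n) F) : Matrix (Fin n) (Fin n) F) i j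
      = ((P⁻¹ * t * P : GL (Fin n) F) : Matrix (Fin n) (Fin n) F).col j i from rfl, h2]
    simp only [Pi.add_apply, Pi.smul_apply, smul_eq_mul, Matrix.one_apply, Pi.single_apply]
  rw [hentry] at hrat
  have h1 : (1 : Matrix (Fin n) (Fin n) F) i j ∈ F₀ := by
    rw [Matrix.one_apply]
    split_ifs
    · exact F₀.one_mem
    · exact F₀.zero_mem
  have h2 := F₀.sub_mem hrat h1
  rwa [add_sub_cancel_left] at h2

/-- If the special unitary group lies in a subfield group, the subfield contains the fixed field. -/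
theorem subfield_fixed_mem [Fintype F] (h : IsSigma q σ) (hF : Fintype.card F = q ^ 2) (hn : 2 ≤ n)
    (F₀ : Subfield F) (P : GL (Fin n) F)
    (hle : GU n F q ⊓ specialLinear (Fin n) F ≤ subfieldSubgroup F₀ P) (ε : F) (hε : σ ε = ε) :
    ε ∈ F₀ := by
  have : NeZero n := ⟨by omega⟩
  obtain ⟨c, hc0, hc⟩ := h.exists_trace_zero
  obtain ⟨u, hu0, hu⟩ := h.exists_isotropic hF hn
  obtain ⟨j, hj⟩ := h.exists_herm_ne P hu0
  have hx0 : ((P⁻¹ : GL (Fin n) F) : Matrix (Fin n) (Fin n) F) *ᵥ u ≠ 0 := by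
    intro h0
    apply hu0
    have h1 := mulVec_cancel_inv P u
    rw [h0, Matrix.mulVec_zero] at h1
    exact h1.symm
  obtain ⟨i, hi⟩ := exists_ne_zero_coord hx0
  have h1 := h.subfield_entries F₀ P hle u hu c hc i j
  have h2 := h.subfield_entries F₀ P hle u hu (ε * c) (by rw [map_mul, hε, hc]; ring) i j
  obtain ⟨m, hm⟩ : ∃ m : F, m = c * hermForm n F q ((P : Matrix (Fin n) (Fin n) F) *ᵥ Pi.single j 1) u
      * (((P⁻¹ : GL (Fin n) F) : Matrix (Fin n) (Fin n) F) *ᵥ u) i := ⟨_, rfl⟩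
  have hm0 : m ≠ 0 := by
    rw [hm]
    exact mul_ne_zero (mul_ne_zero hc0 hj) hi
  rw [← hm] at h1
  have e : ε * c * hermForm n F q ((P : Matrix (Fin n) (Fin n) F) *ᵥ Pi.single j 1) u
      * (((P⁻¹ : GL (Fin n) F) : Matrix (Fin n) (Fin n) F) *ᵥ u) i = ε * m := by
    rw [hm]; ring
  rw [e] at h2
  have e2 : ε = ε * m * m⁻¹ := by
    rw [mul_assoc, mul_inv_cancel₀ hm0, mul_one]
  rw [e2]
  exact F₀.mul_mem h2 (F₀.inv_mem h1)

theorem sq_sub_one_eq (q : ℕ) (hq : 1 ≤ q) : q ^ 2 - 1 = (q + 1) * (q - 1) := by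
  obtain ⟨k, rfl⟩ : ∃ k, q = k + 1 := ⟨q - 1, by omega⟩
  rw [Nat.add_sub_cancel]
  have : (k + 1) ^ 2 = (k + 1 + 1) * k + 1 := by ring
  rw [this, Nat.add_sub_cancel]

/-! ### Class 5, odd index -/

theorem notSU_subfield_odd [Fintype F] (h : IsSigma q σ) (hF : Fintype.card F = q ^ 2) (hn : 2 ≤ n)
    (F₀ : Subfield F) (r : ℕ) (hr3 : 3 ≤ r) (hcard : Fintype.card F = Nat.card F₀ ^ r)
    (P : GL (Fin n) F) :
    ¬ GU n F q ⊓ specialLinear (Fin n) F ≤ subfieldSubgroup F₀ P := by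
  intro hle
  have hq2 := two_le_of_card hF
  obtain ⟨g, hg⟩ := IsCyclic.exists_ofOrder_eq_natCard (α := Fˣ)
  rw [Nat.card_units, Nat.card_eq_fintype_card, hF] at hg
  have hq1 : 1 ≤ q ^ 2 := Nat.one_le_pow _ _ (by omega)
  have hfix : σ ((g : F) ^ (q + 1)) = (g : F) ^ (q + 1) := by
    rw [h.pow, ← pow_mul]
    have e : (q + 1) * q = (q ^ 2 - 1) + (q + 1) := by
      have e1 : (q + 1) * q = q ^ 2 + q := by ring
      omega
    rw [e, pow_add]
    have e2 : (g : F) ^ (q ^ 2 - 1) = 1 := by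
      rw [← hF]
      exact FiniteField.pow_card_sub_one_eq_one _ g.ne_zero
    rw [e2, one_mul]
  have hmem := h.subfield_fixed_mem hF hn F₀ P hle _ hfix
  obtain ⟨s, hs⟩ : ∃ s, s = Nat.card F₀ := ⟨_, rfl⟩
  have hs1 : 1 < s := by
    rw [hs]
    exact Finite.one_lt_card
  have h1 : ((g : F) ^ (q + 1)) ^ (s - 1) = 1 := by
    have h2 := subfield_pow_card F₀ _ hmem
    rw [← hs] at h2
    have h3 : ((g : F) ^ (q + 1)) ^ (s - 1) * (g : F) ^ (q + 1) = 1 * (g : F) ^ (q + 1) := by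
      rw [← pow_succ, Nat.sub_add_cancel (by omega), h2, one_mul]
    exact mul_right_cancel₀ (pow_ne_zero _ g.ne_zero) h3
  have h2 : g ^ ((q + 1) * (s - 1)) = 1 := by
    apply Units.ext
    rw [Units.val_pow_eq_pow_val, pow_mul, h1, Units.val_one]
  have h3 := orderOf_dvd_of_pow_eq_one h2
  rw [hg, sq_sub_one_eq q (by omega)] at h3
  have h5 : q - 1 ∣ s - 1 := Nat.dvd_of_mul_dvd_mul_left (by omega) h3
  have h7 : q ^ 2 = s ^ r := by rw [← hF, hcard, hs]
  have hsq : s < q := by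
    by_contra hge
    have hge' : q ≤ s := by omega
    have h6 : q ^ 3 ≤ s ^ r :=
      calc q ^ 3 ≤ s ^ 3 := Nat.pow_le_pow_left hge' 3
        _ ≤ s ^ r := Nat.pow_le_pow_right (by omega) hr3
    have h8 : q ^ 2 < q ^ 3 := Nat.pow_lt_pow_right (by omega) (by norm_num)
    omega
  have h9 := Nat.eq_zero_of_dvd_of_lt h5 (by omega)
  omega

/-! ### Class 5, index two -/

theorem notSU_subfield_two [Fintype F] (h : IsSigma q σ) (hF : Fintype.card F = q ^ 2) (hn : 2 ≤ n)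
    (hq : Odd q) (F₀ : Subfield F) (hcard : Fintype.card F = Nat.card F₀ ^ 2) (P : GL (Fin n) F)
    (hform : IsFormRationalStructure (hermForm n F q) F₀ 1 P) :
    ¬ GU n F q ⊓ specialLinear (Fin n) F ≤ subfieldSubgroup F₀ P := by
  classical
  intro hle
  have : NeZero n := ⟨by omega⟩
  have hS := h.isSesq (n := n)
  have hsq : Nat.card F₀ = q := by
    have h1 : Nat.card F₀ ^ 2 = q ^ 2 := by rw [← hcard, hF]
    exact Nat.pow_left_injective (by norm_num : (2 : ℕ) ≠ 0) h1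
  have hfixF₀ : ∀ x ∈ F₀, σ x = x := by
    intro x hx
    rw [h.pow, ← hsq]
    exact subfield_pow_card F₀ x hx
  have h2 : (2 : F) ≠ 0 := by
    intro h2
    obtain ⟨p, hchar⟩ := CharP.exists F
    have hp : p.Prime :=
      (CharP.char_is_prime_or_zero F p).resolve_right (CharP.char_ne_zero_of_finite F p)
    have : Fact p.Prime := ⟨hp⟩
    have h3 : p ∣ 2 := (CharP.cast_eq_zero_iff F p 2).mp (by exact_mod_cast h2)
    have hp2 : p = 2 := (Nat.prime_dvd_prime_iff_eq hp Nat.prime_two).mp h3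
    obtain ⟨e, -, he⟩ := FiniteField.card F p
    rw [hF, hp2] at he
    have h4 : Even (q ^ 2) := by
      rw [he]
      exact (Nat.even_pow.mpr ⟨even_two, e.ne_zero⟩)
    have h5 : Even q := (Nat.even_pow.mp h4).1
    exact (Nat.not_even_iff_odd.mpr hq) h5
  obtain ⟨c, hc0, hc⟩ := h.exists_trace_zero
  have hR : ∀ u : Fin n → F, hermForm n F q u u = 0 → u ≠ 0 → ∃ (α : F) (x₀ : Fin n → F), α ≠ 0 ∧
      (∀ i, x₀ i ∈ F₀) ∧ u = α • ((P : Matrix (Fin n) (Fin n) F) *ᵥ x₀) := by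
    intro u hu hu0
    obtain ⟨j, hj⟩ := h.exists_herm_ne P hu0
    refine ⟨(c * hermForm n F q ((P : Matrix (Fin n) (Fin n) F) *ᵥ Pi.single j 1) u)⁻¹,
      (c * hermForm n F q ((P : Matrix (Fin n) (Fin n) F) *ᵥ Pi.single j 1) u)
        • (((P⁻¹ : GL (Fin n) F) : Matrix (Fin n) (Fin n) F) *ᵥ u),
      inv_ne_zero (mul_ne_zero hc0 hj), ?_, ?_⟩
    · intro i
      exact h.subfield_entries F₀ P hle u hu c hc i j
    · rw [Matrix.mulVec_smul, mulVec_cancel_inv, smul_smul, inv_mul_cancel₀ (mul_ne_zero hc0 hj),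
        one_smul]
  obtain ⟨u, u', hu, hu', huu'⟩ := h.exists_hyperbolic_pair hF hn
  have hu0 : u ≠ 0 := by
    rintro rfl
    exact huu' (h.herm_zero_left u')
  have hu'0 : u' ≠ 0 := by
    rintro rfl
    exact huu' (hS.zero_right u)
  obtain ⟨α, x, hα, hx, hux⟩ := hR u hu hu0
  obtain ⟨α', x', hα', hx', hux'⟩ := hR u' hu' hu'0
  obtain ⟨U, hU⟩ : ∃ U : Fin n → F, U = (P : Matrix (Fin n) (Fin n) F) *ᵥ x := ⟨_, rfl⟩
  obtain ⟨U', hU'⟩ : ∃ U' : Fin n → F, U' = (P : Matrix (Fin n) (Fin n) F) *ᵥ x' := ⟨_, rfl⟩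
  rw [← hU] at hux
  rw [← hU'] at hux'
  have hUU : hermForm n F q U U = 0 := by
    have h1 := hu
    rw [hux, hS.smul_left, hS.smul_right] at h1
    rcases mul_eq_zero.mp h1 with h3 | h3
    · exact absurd h3 hα
    · rcases mul_eq_zero.mp h3 with h4 | h4
      · exact absurd ((map_eq_zero σ).mp h4) hα
      · exact h4
  have hU'U' : hermForm n F q U' U' = 0 := by
    have h1 := hu'
    rw [hux', hS.smul_left, hS.smul_right] at h1
    rcases mul_eq_zero.mp h1 with h3 | h3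
    · exact absurd h3 hα'
    · rcases mul_eq_zero.mp h3 with h4 | h4
      · exact absurd ((map_eq_zero σ).mp h4) hα'
      · exact h4
  have ht0 : hermForm n F q U U' ≠ 0 := by
    intro h0
    apply huu'
    rw [hux, hux', hS.smul_left, hS.smul_right, h0, mul_zero, mul_zero]
  have ht0F : hermForm n F q U U' ∈ F₀ := by
    have h1 := hform x x' hx hx'
    rwa [one_mul, ← hU, ← hU'] at h1
  have hsym : hermForm n F q U' U = hermForm n F q U U' := by
    rw [h.herm_symm U' U, hfixF₀ _ ht0F]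
  obtain ⟨Wv, hWv⟩ : ∃ Wv : Fin n → F, Wv = U + c • U' := ⟨_, rfl⟩
  have hW : hermForm n F q Wv Wv = 0 := by
    simp only [hWv, hS.add_left, hS.add_right, hS.smul_left, hS.smul_right, hUU, hU'U', hsym, hc]
    ring
  have hWU' : hermForm n F q Wv U' = hermForm n F q U U' := by
    simp only [hWv, hS.add_left, hS.smul_left, hU'U', mul_zero, add_zero]
  have hWU : hermForm n F q Wv U = c * hermForm n F q U U' := by
    simp only [hWv, hS.add_left, hS.smul_left, hUU, hsym, zero_add]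
  have hW0 : Wv ≠ 0 := by
    intro h0
    rw [h0, hS.zero_left] at hWU'
    exact ht0 hWU'.symm
  obtain ⟨β, w, hβ, hw, hWw⟩ := hR Wv hW hW0
  have hr1 : hermForm n F q ((P : Matrix (Fin n) (Fin n) F) *ᵥ w) U ∈ F₀ := by
    have h1 := hform w x hw hx
    rwa [one_mul, ← hU] at h1
  have hr2 : hermForm n F q ((P : Matrix (Fin n) (Fin n) F) *ᵥ w) U' ∈ F₀ := by
    have h1 := hform w x' hw hx'
    rwa [one_mul, ← hU'] at h1
  rw [hWw, hS.smul_left] at hWU hWU'
  have hr20 : hermForm n F q ((P : Matrix (Fin n) (Fin n) F) *ᵥ w) U' ≠ 0 := by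
    intro h0
    rw [h0, mul_zero] at hWU'
    exact ht0 hWU'.symm
  have hcF₀ : c ∈ F₀ := by
    have h1 : β * (hermForm n F q ((P : Matrix (Fin n) (Fin n) F) *ᵥ w) U
        - c * hermForm n F q ((P : Matrix (Fin n) (Fin n) F) *ᵥ w) U') = 0 := by
      linear_combination hWU - c * hWU'
    have h3 : hermForm n F q ((P : Matrix (Fin n) (Fin n) F) *ᵥ w) U
        = c * hermForm n F q ((P : Matrix (Fin n) (Fin n) F) *ᵥ w) U' := by
      rcases mul_eq_zero.mp h1 with h4 | h4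
      · exact absurd h4 hβ
      · exact sub_eq_zero.mp h4
    have h4 : c = hermForm n F q ((P : Matrix (Fin n) (Fin n) F) *ᵥ w) U
        * (hermForm n F q ((P : Matrix (Fin n) (Fin n) F) *ᵥ w) U')⁻¹ := by
      rw [h3, mul_assoc, mul_inv_cancel₀ hr20, mul_one]
    rw [h4]
    exact F₀.mul_mem hr1 (F₀.inv_mem hr2)
  have h5 := hfixF₀ c hcF₀
  rw [hc] at h5
  have h6 : (2 : F) * c = 0 := by linear_combination -h5
  rcases mul_eq_zero.mp h6 with h7 | h7
  · exact h2 h7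
  · exact hc0 h7

end IsSigma

end Cfsg.Agent.Helper97
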