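-- helper97 library: the standalone lemmas used for SU_9, proved by other seats (Helper66, Helper20,
-- Helper79), restated under one namespace.
import Cfsg.Agent.Helper97.UNot
import Cfsg.Agent.Helper96.TensorWreath
import Cfsg.Agent.Helper66.UnC2N
import Cfsg.Agent.Helper20.Gu32Solv
import Cfsg.Agent.Helper20.SwapTP
import Cfsg.Agent.Helper79.UTensorWreath

set_option autoImplicit false
open Cfsg Cfsg.Geo Matrix
open scoped Kronecker

namespace Cfsg.Agent.Helper97.U9

theorem notSU_wreath {F : Type*} [Field F] [Fintype F] {n q : ℕ} {σ : F ≃+* F}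
    (h : Helper97.IsSigma q σ) (hF : Fintype.card F = q ^ 2) {m : ℕ} (hm : 2 ≤ m)
    (e' : Fin n ≃ (Fin 2 → Fin m)) (P : GL (Fin n) F) :
    ¬ GU n F q ⊓ specialLinear (Fin n) F ≤ tensorWreathSubgroup m 2 e' P :=
  Helper79.notSU_tensorWreath h hF hm e' P

theorem notSU_c2 {F : Type*} [Field F] [Fintype F] {n q : ℕ} {σ : F ≃+* F}
    (h : Helper97.IsSigma q σ) (hF : Fintype.card F = q ^ 2) (hn : 5 ≤ n)
    (N : Subgroup (GL (Fin n) F)) (habs : ActsAbsolutelyIrreducibly (matrixSet N))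
    (hab : ∀ a ∈ N, ∀ b ∈ N, a * b * a⁻¹ * b⁻¹ ∈ scalars (Fin n) F) :
    ¬ GU n F q ⊓ specialLinear (Fin n) F ≤ subgroupNormalizer N :=
  Helper66.notSU_c2_normalizer h hF hn N habs hab

theorem swap_not_mem {F : Type*} [Field F] {n m : ℕ} (hm : 2 ≤ m)
    (e : Fin n ≃ Fin m × Fin m) (P g : GL (Fin n) F)
    (hg : (g : Matrix (Fin n) (Fin n) F) = Helper98.conjReindex e P (Helper96.swapMat m F)) :
    g ∉ tensorProductSubgroup m m e P :=
  Helper20.swap_not_mem_tensorProduct hm e P g hg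

theorem gu32_sol {F : Type*} [Field F] [Fintype F] (hF : Fintype.card F = 4)
    {G : Type*} [Group G] [Finite G] (φ : G →* GL (Fin 3) F) (hφ : Function.Injective φ)
    (hG : ∀ g, φ g ∈ GU 3 F 2) : Group.IsSolvable G :=
  Helper20.gu32_solvable hF φ hφ hG

end Cfsg.Agent.Helper97.U9
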