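-- helper97 library: tensor squares of unitary forms: unitary tensor coordinates, the tensor-power form
-- structure and the maximal subgroups inside a tensor-wreath subgroup.
import Cfsg.Agent.Helper97.U9C2
import Cfsg.Agent.Helper97.U9Pieces
import Cfsg.Agent.Helper67.HermGS
import Cfsg.Agent.Helper35.UnTensor2
import Cfsg.Agent.Helper96.SympCases
import Cfsg.Agent.Helper96.SpY3

set_option autoImplicit false
set_option linter.unusedSectionVars false
set_option linter.unusedVariables false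
open Cfsg Cfsg.Geo Matrix
open scoped Kronecker

namespace Cfsg.Agent.Helper97.U9

open Cfsg.Agent.Helper97 Cfsg.Agent.Helper35

variable {F : Type*} [Field F] {n : ℕ} {q : ℕ} {σ : F ≃+* F}

/-- A matrix with `gᵀ g^σ = 1` is an isometry of the standard unitary form. -/
theorem mem_GU_of_matrix (h : IsSigma q σ) (g : GL (Fin n) F)
    (hg : (g : Matrix (Fin n) (Fin n) F)ᵀ * (g : Matrix (Fin n) (Fin n) F).map σ = 1) :
    g ∈ GU n F q := by
  intro u v
  show hermForm n F q ((g : Matrix (Fin n) (Fin n) F) *ᵥ u) ((g : Matrix (Fin n) (Fin n) F) *ᵥ v)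
    = hermForm n F q u v
  rw [h.isSesq.apply_mulVec, h.gram_herm, Matrix.mul_one, hg, h.isSesq.apply_eq, h.gram_herm]

/-- Conjugating a subgroup by `P` or by `P * Y` with `Y` in the subgroup. -/
theorem map_conj_le_of_mem {G : Type*} [Group G] (K : Subgroup G) (P Y : G) (hY : Y ∈ K) :
    K.map (MulAut.conj P).toMonoidHom ≤ K.map (MulAut.conj (P * Y)).toMonoidHom := by
  rintro _ ⟨k, hk, rfl⟩
  refine ⟨Y⁻¹ * k * Y, K.mul_mem (K.mul_mem (K.inv_mem hY) hk) hY, ?_⟩
  simp only [MulEquiv.coe_toMonoidHom, MulAut.conj_apply]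
  group

/-- Tensor coordinates in which the standard unitary form is the standard unitary form. -/
theorem exists_unitary_coords [Fintype F] (h : IsSigma q σ) (hF : Fintype.card F = q ^ 2) {m : ℕ}
    (e : Fin n ≃ Fin m × Fin m) (P : GL (Fin n) F) (A C : Matrix (Fin m) (Fin m) F)
    (hA : Aᵀ = A.map σ) (hC : Cᵀ = C.map σ) (hAdet : A.det ≠ 0) (hCdet : C.det ≠ 0)
    (hG : Matrix.reindexAlgEquiv F F e
      ((P : Matrix (Fin n) (Fin n) F)ᵀ * (P : Matrix (Fin n) (Fin n) F).map σ) = A ⊗ₖ C) :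
    ∃ (U V : GL (Fin m) F) (Y : GL (Fin n) F),
      (U : Matrix (Fin m) (Fin m) F)ᵀ * A * (U : Matrix (Fin m) (Fin m) F).map σ = 1 ∧
      (Y : Matrix (Fin n) (Fin n) F) = Matrix.reindexAlgEquiv F F e.symm
        ((U : Matrix (Fin m) (Fin m) F) ⊗ₖ (V : Matrix (Fin m) (Fin m) F)) ∧
      ((P * Y : GL (Fin n) F) : Matrix (Fin n) (Fin n) F)ᵀ *
        ((P * Y : GL (Fin n) F) : Matrix (Fin n) (Fin n) F).map σ = 1 := by
  classical
  obtain ⟨U₀, hU₀det, hU₀⟩ := Helper67.herm_gram_schmidt q hF σ h.pow m A hA hAdet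
  obtain ⟨V₀, hV₀det, hV₀⟩ := Helper67.herm_gram_schmidt q hF σ h.pow m C hC hCdet
  obtain ⟨U, hU⟩ : ∃ U : GL (Fin m) F, (U : Matrix (Fin m) (Fin m) F) = U₀ :=
    ⟨Matrix.GeneralLinearGroup.mkOfDetNeZero U₀ hU₀det, rfl⟩
  obtain ⟨V, hV⟩ : ∃ V : GL (Fin m) F, (V : Matrix (Fin m) (Fin m) F) = V₀ :=
    ⟨Matrix.GeneralLinearGroup.mkOfDetNeZero V₀ hV₀det, rfl⟩
  obtain ⟨Y, hY⟩ : ∃ Y : GL (Fin n) F, (Y : Matrix (Fin n) (Fin n) F) =
      Matrix.reindexAlgEquiv F F e.symm
        ((U : Matrix (Fin m) (Fin m) F) ⊗ₖ (V : Matrix (Fin m) (Fin m) F)) :=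
    ⟨⟨Matrix.reindexAlgEquiv F F e.symm
        ((U : Matrix (Fin m) (Fin m) F) ⊗ₖ (V : Matrix (Fin m) (Fin m) F)),
      Matrix.reindexAlgEquiv F F e.symm (((U⁻¹ : GL (Fin m) F) : Matrix (Fin m) (Fin m) F) ⊗ₖ
        ((V⁻¹ : GL (Fin m) F) : Matrix (Fin m) (Fin m) F)),
      by rw [← map_mul, ← Matrix.mul_kronecker_mul, Units.mul_inv, Units.mul_inv,
        Matrix.one_kronecker_one, map_one],
      by rw [← map_mul, ← Matrix.mul_kronecker_mul, Units.inv_mul, Units.inv_mul,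
        Matrix.one_kronecker_one, map_one]⟩, rfl⟩
  refine ⟨U, V, Y, by rw [hU]; exact hU₀, hY, ?_⟩
  have hM : (P : Matrix (Fin n) (Fin n) F)ᵀ * (P : Matrix (Fin n) (Fin n) F).map σ =
      Matrix.reindexAlgEquiv F F e.symm (A ⊗ₖ C) := by
    rw [← hG, un_reindex_reindex]
  rw [Units.val_mul, Matrix.transpose_mul, un_map_mul, hY]
  calc (Matrix.reindexAlgEquiv F F e.symm
          ((U : Matrix (Fin m) (Fin m) F) ⊗ₖ (V : Matrix (Fin m) (Fin m) F)))ᵀ *
        (P : Matrix (Fin n) (Fin n) F)ᵀ * ((P : Matrix (Fin n) (Fin n) F).map σ *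
        (Matrix.reindexAlgEquiv F F e.symm
          ((U : Matrix (Fin m) (Fin m) F) ⊗ₖ (V : Matrix (Fin m) (Fin m) F))).map σ)
      = (Matrix.reindexAlgEquiv F F e.symm
          ((U : Matrix (Fin m) (Fin m) F) ⊗ₖ (V : Matrix (Fin m) (Fin m) F)))ᵀ *
        ((P : Matrix (Fin n) (Fin n) F)ᵀ * (P : Matrix (Fin n) (Fin n) F).map σ) *
        (Matrix.reindexAlgEquiv F F e.symm
          ((U : Matrix (Fin m) (Fin m) F) ⊗ₖ (V : Matrix (Fin m) (Fin m) F))).map σ := by
        simp only [mul_assoc]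
    _ = Matrix.reindexAlgEquiv F F e.symm
          ((((U : Matrix (Fin m) (Fin m) F)ᵀ * A * (U : Matrix (Fin m) (Fin m) F).map σ)) ⊗ₖ
            ((V : Matrix (Fin m) (Fin m) F)ᵀ * C * (V : Matrix (Fin m) (Fin m) F).map σ)) := by
        rw [hM, Helper96.reindex_transpose, un_reindex_map, ← map_mul, ← map_mul,
          Helper96.kron_transpose, un_kron_map, ← Matrix.mul_kronecker_mul,
          ← Matrix.mul_kronecker_mul]
    _ = 1 := by rw [hU, hV, hU₀, hV₀, Matrix.one_kronecker_one, map_one]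

/-- The standard unitary form as a unitary form in the sense of the tensor classes. -/
theorem std_unitaryFormPow (h : IsSigma q σ) (m : ℕ) :
    IsUnitaryFormPow q (formOfGram (fun x : F => x ^ q) (1 : Matrix (Fin m) (Fin m) F)) :=
  un_fog_unitary h (1 : Matrix (Fin m) (Fin m) F)
    (by rw [Matrix.transpose_one, un_map_one]) (by rw [Matrix.det_one]; exact one_ne_zero)

/-- In unitary coordinates the standard unitary form is a tensor power of the standard unitary
form. -/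
theorem power_form_of_unitary (h : IsSigma q σ) {m t : ℕ} (e' : Fin n ≃ (Fin t → Fin m))
    (P' : GL (Fin n) F)
    (hP' : (P' : Matrix (Fin n) (Fin n) F)ᵀ * (P' : Matrix (Fin n) (Fin n) F).map σ = 1) :
    IsTensorPowerFormStructure (fun x : F => x ^ q) (hermForm n F q)
      (formOfGram (fun x : F => x ^ q) (1 : Matrix (Fin m) (Fin m) F)) e' P' := by
  classical
  have hpow : (fun x : F => x ^ q) = σ := by
    funext x
    exact (h.pow x).symm
  rw [hpow]
  refine ⟨1, one_ne_zero, fun x y => ?_⟩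
  rw [one_mul, un_gram_fog]
  have h1 := h.isSesq.apply_mulVec (P' : Matrix (Fin n) (Fin n) F) (x ∘ e') (y ∘ e')
  rw [h1, h.gram_herm, Matrix.mul_one, hP', Matrix.one_mulVec]
  simp only [dotProduct, Function.comp_apply]
  rw [Equiv.sum_comp e' (fun a => x a * σ (y a))]
  apply Finset.sum_congr rfl
  intro a _
  rw [Finset.sum_eq_single a]
  · simp [Matrix.one_apply_eq]
  · intro b _ hb
    obtain ⟨i, hi⟩ : ∃ i, a i ≠ b i := by
      by_contra hcon
      push Not at hcon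
      exact hb (funext hcon).symm
    have hz : (1 : Matrix (Fin m) (Fin m) F) (a i) (b i) = 0 := Matrix.one_apply_ne hi
    rw [Finset.prod_eq_zero (Finset.mem_univ i) hz, mul_zero, zero_mul]
  · intro hni
    exact absurd (Finset.mem_univ _) hni

/-- A change of coordinates by a pure tensor enlarges the tensor-wreath subgroup. -/
theorem wreath_le_mul {m : ℕ} (e : Fin n ≃ Fin m × Fin m) (P Y : GL (Fin n) F) (U V : GL (Fin m) F)
    (hY : (Y : Matrix (Fin n) (Fin n) F) = Matrix.reindexAlgEquiv F F e.symm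
      ((U : Matrix (Fin m) (Fin m) F) ⊗ₖ (V : Matrix (Fin m) (Fin m) F))) :
    tensorWreathSubgroup m 2 (e.trans (Helper96.eps m)) P ≤
      tensorWreathSubgroup m 2 (e.trans (Helper96.eps m)) (P * Y) := by
  classical
  obtain ⟨y, hy⟩ := Helper96.exists_unit_reindex
    ((U : Matrix (Fin m) (Fin m) F) ⊗ₖ (V : Matrix (Fin m) (Fin m) F))
    (((U⁻¹ : GL (Fin m) F) : Matrix (Fin m) (Fin m) F) ⊗ₖ ((V⁻¹ : GL (Fin m) F) : Matrix (Fin m) (Fin m) F))
    (by rw [← Matrix.mul_kronecker_mul, Units.mul_inv, Units.mul_inv, Matrix.one_kronecker_one])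
    (by rw [← Matrix.mul_kronecker_mul, Units.inv_mul, Units.inv_mul, Matrix.one_kronecker_one])
  have hystd : y ∈ tensorWreathStandard m 2 F := Helper96.pure_mem_std U V y hy
  have hYeq : (glReindex (e.trans (Helper96.eps m)).symm).toMonoidHom y = Y := by
    apply Units.ext
    rw [hY]
    show Matrix.reindexAlgEquiv F F (e.trans (Helper96.eps m)).symm
      (y : Matrix (Fin 2 → Fin m) (Fin 2 → Fin m) F) = _
    rw [hy]
    ext i j
    simp [Matrix.coe_reindexAlgEquiv, Matrix.reindex_apply]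
  unfold tensorWreathSubgroup
  exact map_conj_le_of_mem _ P Y (hYeq ▸ Subgroup.mem_map_of_mem _ hystd)

/-- A change of coordinates by a pure tensor enlarges the tensor product subgroup. -/
theorem tensor_le_mul {m : ℕ} (e : Fin n ≃ Fin m × Fin m) (P Y : GL (Fin n) F) (U V : GL (Fin m) F)
    (hY : (Y : Matrix (Fin n) (Fin n) F) = Matrix.reindexAlgEquiv F F e.symm
      ((U : Matrix (Fin m) (Fin m) F) ⊗ₖ (V : Matrix (Fin m) (Fin m) F))) :
    tensorProductSubgroup m m e P ≤ tensorProductSubgroup m m e (P * Y) := by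
  classical
  obtain ⟨y, hy⟩ : ∃ y : GL (Fin m × Fin m) F, (y : Matrix (Fin m × Fin m) (Fin m × Fin m) F) =
      (U : Matrix (Fin m) (Fin m) F) ⊗ₖ (V : Matrix (Fin m) (Fin m) F) :=
    ⟨⟨(U : Matrix (Fin m) (Fin m) F) ⊗ₖ (V : Matrix (Fin m) (Fin m) F),
      ((U⁻¹ : GL (Fin m) F) : Matrix (Fin m) (Fin m) F) ⊗ₖ ((V⁻¹ : GL (Fin m) F) : Matrix (Fin m) (Fin m) F),
      by rw [← Matrix.mul_kronecker_mul, Units.mul_inv, Units.mul_inv, Matrix.one_kronecker_one],
      by rw [← Matrix.mul_kronecker_mul, Units.inv_mul, Units.inv_mul, Matrix.one_kronecker_one]⟩,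
      rfl⟩
  have hystd : y ∈ kroneckerSubgroup m m F := ⟨U, V, hy⟩
  have hYeq : (glReindex e.symm).toMonoidHom y = Y := by
    apply Units.ext
    rw [hY]
    show Matrix.reindexAlgEquiv F F e.symm (y : Matrix (Fin m × Fin m) (Fin m × Fin m) F) = _
    rw [hy]
  unfold tensorProductSubgroup
  exact map_conj_le_of_mem _ P Y (hYeq ▸ Subgroup.mem_map_of_mem _ hystd)

/-- A maximal subgroup inside a tensor-wreath subgroup with two factors, when the form is a tensor
product of two unitary forms in the given coordinates. -/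
theorem un_square_max [Fintype F] (h : IsSigma q σ) (hF : Fintype.card F = q ^ 2) {m : ℕ}
    (hm : 2 ≤ m) (H : Subgroup (GL (Fin n) F))
    (hH : IsMaximalIn (GU n F q ⊓ specialLinear (Fin n) F) H)
    (e : Fin n ≃ Fin m × Fin m) (P : GL (Fin n) F) (A C : Matrix (Fin m) (Fin m) F)
    (hA : Aᵀ = A.map σ) (hC : Cᵀ = C.map σ) (hAdet : A.det ≠ 0) (hCdet : C.det ≠ 0)
    (hG : Matrix.reindexAlgEquiv F F e
      ((P : Matrix (Fin n) (Fin n) F)ᵀ * (P : Matrix (Fin n) (Fin n) F).map σ) = A ⊗ₖ C)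
    (hle : H ≤ tensorWreathSubgroup m 2 (e.trans (Helper96.eps m)) P) :
    ∃ (U V : GL (Fin m) F) (Y : GL (Fin n) F),
      (U : Matrix (Fin m) (Fin m) F)ᵀ * A * (U : Matrix (Fin m) (Fin m) F).map σ = 1 ∧
      (Y : Matrix (Fin n) (Fin n) F) = Matrix.reindexAlgEquiv F F e.symm
        ((U : Matrix (Fin m) (Fin m) F) ⊗ₖ (V : Matrix (Fin m) (Fin m) F)) ∧
      ((P * Y : GL (Fin n) F) : Matrix (Fin n) (Fin n) F)ᵀ *
        ((P * Y : GL (Fin n) F) : Matrix (Fin n) (Fin n) F).map σ = 1 ∧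
      H = tensorWreathSubgroup m 2 (e.trans (Helper96.eps m)) (P * Y) ⊓
        (GU n F q ⊓ specialLinear (Fin n) F) := by
  obtain ⟨U, V, Y, hU, hY, hPY⟩ := exists_unitary_coords h hF e P A C hA hC hAdet hCdet hG
  exact ⟨U, V, Y, hU, hY, hPY, eq_inf_of_isMaximalIn_gen hH (hle.trans (wreath_le_mul e P Y U V hY))
    (notSU_wreath h hF hm _ _)⟩

theorem swapMat_transpose (m : ℕ) : (Helper96.swapMat m F)ᵀ = Helper96.swapMat m F := by
  ext p r
  simp only [Matrix.transpose_apply, Helper96.swapMat, Matrix.of_apply]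
  by_cases hpr : r = (p.2, p.1)
  · rw [if_pos hpr, if_pos (by rw [hpr])]
  · rw [if_neg hpr, if_neg (fun hp => hpr (by rw [hp]))]

theorem swapMat_map (m : ℕ) : (Helper96.swapMat m F).map σ = Helper96.swapMat m F := by
  ext p r
  simp only [Matrix.map_apply, Helper96.swapMat, Matrix.of_apply]
  by_cases hpr : r = (p.2, p.1)
  · rw [if_pos hpr, map_one]
  · rw [if_neg hpr, map_zero]

/-- In characteristic two the tensor-wreath subgroup in unitary coordinates contains a special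
unitary element outside the tensor product subgroup. -/
theorem un_square_not_tensor (h : IsSigma q σ) (h2 : (2 : F) = 0) {m : ℕ} (hm : 2 ≤ m)
    (H : Subgroup (GL (Fin n) F)) (e : Fin n ≃ Fin m × Fin m) (P' : GL (Fin n) F)
    (hP' : (P' : Matrix (Fin n) (Fin n) F)ᵀ * (P' : Matrix (Fin n) (Fin n) F).map σ = 1)
    (hH : H = tensorWreathSubgroup m 2 (e.trans (Helper96.eps m)) P' ⊓
      (GU n F q ⊓ specialLinear (Fin n) F)) :
    ¬ H ≤ tensorProductSubgroup m m e P' := by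
  classical
  intro hle
  obtain ⟨s, hs⟩ : ∃ s : GL (Fin n) F, (s : Matrix (Fin n) (Fin n) F) =
      Matrix.reindexAlgEquiv F F e.symm (Helper96.swapMat m F) :=
    ⟨⟨Matrix.reindexAlgEquiv F F e.symm (Helper96.swapMat m F),
      Matrix.reindexAlgEquiv F F e.symm (Helper96.swapMat m F),
      by rw [← map_mul, Helper96.swapMat_mul_self, map_one],
      by rw [← map_mul, Helper96.swapMat_mul_self, map_one]⟩, rfl⟩
  obtain ⟨g, hg⟩ : ∃ g : GL (Fin n) F, g = P' * s * P'⁻¹ := ⟨_, rfl⟩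
  have hgval : (g : Matrix (Fin n) (Fin n) F) =
      Helper98.conjReindex e P' (Helper96.swapMat m F) := by
    rw [hg, Units.val_mul, Units.val_mul, hs, Helper98.conjReindex_apply]
  have hsGU : s ∈ GU n F q := by
    apply mem_GU_of_matrix h
    rw [hs, Helper96.reindex_transpose, un_reindex_map, swapMat_transpose, swapMat_map, ← map_mul,
      Helper96.swapMat_mul_self, map_one]
  have hP'GU : P' ∈ GU n F q := mem_GU_of_matrix h P' hP'
  have hgGU : g ∈ GU n F q := by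
    rw [hg]
    exact (GU n F q).mul_mem ((GU n F q).mul_mem hP'GU hsGU) ((GU n F q).inv_mem hP'GU)
  have hss : s * s = 1 := by
    apply Units.ext
    rw [Units.val_mul, hs, ← map_mul, Helper96.swapMat_mul_self, map_one, Units.val_one]
  have hgSL : g ∈ specialLinear (Fin n) F := by
    show g ∈ (Matrix.GeneralLinearGroup.det : GL (Fin n) F →* Fˣ).ker
    rw [MonoidHom.mem_ker, hg, map_mul, map_mul, map_inv, mul_comm, ← mul_assoc, inv_mul_cancel,
      one_mul]
    have hd : Matrix.GeneralLinearGroup.det s * Matrix.GeneralLinearGroup.det s = 1 := by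
      rw [← map_mul, hss, map_one]
    apply Units.ext
    rw [Units.val_one]
    have hd' : ((Matrix.GeneralLinearGroup.det s : Fˣ) : F) *
        ((Matrix.GeneralLinearGroup.det s : Fˣ) : F) = 1 := by
      rw [← Units.val_mul, hd, Units.val_one]
    have h3 : (((Matrix.GeneralLinearGroup.det s : Fˣ) : F) - 1) *
        (((Matrix.GeneralLinearGroup.det s : Fˣ) : F) - 1) = 0 := by
      linear_combination hd' + (1 - ((Matrix.GeneralLinearGroup.det s : Fˣ) : F)) * h2
    exact sub_eq_zero.mp (mul_self_eq_zero.mp h3)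
  have hgW : g ∈ tensorWreathSubgroup m 2 (e.trans (Helper96.eps m)) P' := by
    obtain ⟨u, hu⟩ := Helper96.exists_unit_reindex (Helper96.swapMat m F) (Helper96.swapMat m F)
      (Helper96.swapMat_mul_self m) (Helper96.swapMat_mul_self m)
    exact Helper96.mem_tensorWreath_of_eq _ P' g u (Helper96.swap_mem_std u hu)
      (by rw [hu, Helper96.conjReindex_trans, hgval])
  have hgH : g ∈ H := by
    rw [hH]
    exact ⟨hgW, hgGU, hgSL⟩
  exact swap_not_mem hm e P' g hgval (hle hgH)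

theorem kron_right_cancel' {d k : ℕ} (C : Matrix (Fin k) (Fin k) F) (hC : C ≠ 0)
    {X X' : Matrix (Fin d) (Fin d) F} (hX : X ⊗ₖ C = X' ⊗ₖ C) : X = X' := by
  obtain ⟨b, b', hb⟩ : ∃ b b', C b b' ≠ 0 := by
    by_contra hcon
    push Not at hcon
    exact hC (by ext b b'; exact hcon b b')
  ext a a'
  have h1 := congrFun (congrFun hX (a, b)) (a', b')
  rw [Matrix.kronecker_apply, Matrix.kronecker_apply] at h1
  exact mul_right_cancel₀ hb h1

/-- Over the field with four elements a perfect non-scalar group of isometries of the standard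
unitary form has no tensor factor of dimension three. -/
theorem un_cp_not_two [Fintype F] (h : IsSigma 2 σ) (hF : Fintype.card F = 2 ^ 2)
    {S : Subgroup (GL (Fin n) F)} {k : ℕ} {e : Fin n ≃ Fin 3 × Fin k} {P : GL (Fin n) F}
    {ρ : Matrix (Fin n) (Fin n) F → Matrix (Fin 3) (Fin 3) F}
    (D : Helper96.TensorData S 3 k e P ρ) (hS : S ≤ GU n F 2) (hperf : ⁅S, S⁆ = S)
    (hSZ : ¬ S ≤ scalars (Fin n) F) : False := by
  classical
  obtain ⟨A, C, hG, hAdet, hCdet, hA, hC⟩ := un_tensor_gram h D hS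
  obtain ⟨U₀, hU₀det, hU₀⟩ := Helper67.herm_gram_schmidt 2 hF σ h.pow 3 A hA hAdet
  obtain ⟨U, hU⟩ : ∃ U : GL (Fin 3) F, (U : Matrix (Fin 3) (Fin 3) F) = U₀ :=
    ⟨Matrix.GeneralLinearGroup.mkOfDetNeZero U₀ hU₀det, rfl⟩
  rw [← hU] at hU₀
  obtain ⟨ψ, hψinj, hψ⟩ := Helper96.Sy.rhoHom_exists D
  have hC0 : C ≠ 0 := by
    rintro rfl
    have hne : Nonempty (Fin k) := ⟨⟨0, D.hk⟩⟩
    exact hCdet Matrix.det_zero
  have hfix : ∀ s : GL (Fin n) F, s ∈ S →
      (ρ (s : Matrix (Fin n) (Fin n) F))ᵀ * A * (ρ (s : Matrix (Fin n) (Fin n) F)).map σ = A := by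
    intro s hs
    have h1 := D.eq (s : Matrix (Fin n) (Fin n) F) ⟨s, hs, rfl⟩
    have h2 := h.GU_matrix s (hS hs)
    have h3 : (Helper98.conjReindex e P (ρ (s : Matrix (Fin n) (Fin n) F) ⊗ₖ
          (1 : Matrix (Fin k) (Fin k) F)))ᵀ *
        (Helper98.conjReindex e P (ρ (s : Matrix (Fin n) (Fin n) F) ⊗ₖ
          (1 : Matrix (Fin k) (Fin k) F))).map σ = 1 := by
      rw [← h1]
      exact h2
    have h4 := un_conj_fix e P _ h3
    rw [hG, Helper96.kron_transpose, un_kron_map, ← Matrix.mul_kronecker_mul,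
      ← Matrix.mul_kronecker_mul, Matrix.transpose_one, un_map_one, Matrix.one_mul,
      Matrix.mul_one] at h4
    exact kron_right_cancel' C hC0 h4
  have hAU : ((U⁻¹ : GL (Fin 3) F) : Matrix (Fin 3) (Fin 3) F)ᵀ *
      ((U⁻¹ : GL (Fin 3) F) : Matrix (Fin 3) (Fin 3) F).map σ = A := by
    have h1 : ((U⁻¹ : GL (Fin 3) F) : Matrix (Fin 3) (Fin 3) F)ᵀ *
        ((U : Matrix (Fin 3) (Fin 3) F)ᵀ * A * (U : Matrix (Fin 3) (Fin 3) F).map σ) *
        ((U⁻¹ : GL (Fin 3) F) : Matrix (Fin 3) (Fin 3) F).map σ =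
        ((U⁻¹ : GL (Fin 3) F) : Matrix (Fin 3) (Fin 3) F)ᵀ *
        ((U⁻¹ : GL (Fin 3) F) : Matrix (Fin 3) (Fin 3) F).map σ := by
      rw [hU₀, Matrix.mul_one]
    rw [← h1]
    have h5 : ((U⁻¹ : GL (Fin 3) F) : Matrix (Fin 3) (Fin 3) F)ᵀ *
        (U : Matrix (Fin 3) (Fin 3) F)ᵀ = 1 := by
      rw [← Matrix.transpose_mul, Units.mul_inv, Matrix.transpose_one]
    have h6 : (U : Matrix (Fin 3) (Fin 3) F).map σ *
        ((U⁻¹ : GL (Fin 3) F) : Matrix (Fin 3) (Fin 3) F).map σ = 1 := by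
      rw [← un_map_mul, Units.mul_inv, un_map_one]
    calc ((U⁻¹ : GL (Fin 3) F) : Matrix (Fin 3) (Fin 3) F)ᵀ *
          ((U : Matrix (Fin 3) (Fin 3) F)ᵀ * A * (U : Matrix (Fin 3) (Fin 3) F).map σ) *
          ((U⁻¹ : GL (Fin 3) F) : Matrix (Fin 3) (Fin 3) F).map σ
        = (((U⁻¹ : GL (Fin 3) F) : Matrix (Fin 3) (Fin 3) F)ᵀ * (U : Matrix (Fin 3) (Fin 3) F)ᵀ) *
          A * ((U : Matrix (Fin 3) (Fin 3) F).map σ *
          ((U⁻¹ : GL (Fin 3) F) : Matrix (Fin 3) (Fin 3) F).map σ) := by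
          simp only [mul_assoc]
      _ = A := by rw [h5, h6, Matrix.one_mul, Matrix.mul_one]
  obtain ⟨φ, hφ⟩ : ∃ φ : S →* GL (Fin 3) F, φ = (MulAut.conj U⁻¹).toMonoidHom.comp ψ := ⟨_, rfl⟩
  have hφinj : Function.Injective φ := by
    rw [hφ]
    exact (MulAut.conj U⁻¹).injective.comp hψinj
  have hφmem : ∀ g : S, φ g ∈ GU 3 F 2 := by
    intro g
    apply mem_GU_of_matrix h
    have hval : ((φ g : GL (Fin 3) F) : Matrix (Fin 3) (Fin 3) F) =
        ((U⁻¹ : GL (Fin 3) F) : Matrix (Fin 3) (Fin 3) F) *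
        ρ ((g : GL (Fin n) F) : Matrix (Fin n) (Fin n) F) * (U : Matrix (Fin 3) (Fin 3) F) := by
      rw [hφ, MonoidHom.comp_apply, MulEquiv.coe_toMonoidHom, MulAut.conj_apply, Units.val_mul,
        Units.val_mul, inv_inv, hψ]
    rw [hval, Matrix.transpose_mul, Matrix.transpose_mul, un_map_mul, un_map_mul]
    calc (U : Matrix (Fin 3) (Fin 3) F)ᵀ *
          ((ρ ((g : GL (Fin n) F) : Matrix (Fin n) (Fin n) F))ᵀ *
            ((U⁻¹ : GL (Fin 3) F) : Matrix (Fin 3) (Fin 3) F)ᵀ) *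
          (((U⁻¹ : GL (Fin 3) F) : Matrix (Fin 3) (Fin 3) F).map σ *
            (ρ ((g : GL (Fin n) F) : Matrix (Fin n) (Fin n) F)).map σ *
            (U : Matrix (Fin 3) (Fin 3) F).map σ)
        = (U : Matrix (Fin 3) (Fin 3) F)ᵀ *
          ((ρ ((g : GL (Fin n) F) : Matrix (Fin n) (Fin n) F))ᵀ *
            (((U⁻¹ : GL (Fin 3) F) : Matrix (Fin 3) (Fin 3) F)ᵀ *
              ((U⁻¹ : GL (Fin 3) F) : Matrix (Fin 3) (Fin 3) F).map σ) *
            (ρ ((g : GL (Fin n) F) : Matrix (Fin n) (Fin n) F)).map σ) *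
          (U : Matrix (Fin 3) (Fin 3) F).map σ := by
          simp only [mul_assoc]
      _ = 1 := by rw [hAU, hfix g g.2, hU₀]
  have hsolv : Group.IsSolvable S := gu32_sol (by rw [hF]; norm_num) φ hφinj hφmem
  have htop : _root_.commutator S = ⊤ := by
    have h1 : (_root_.commutator S).map S.subtype = ⁅S, S⁆ := Subgroup.map_subtype_commutator S
    apply Subgroup.map_injective S.subtype_injective
    rw [h1, hperf, ← MonoidHom.range_eq_map, Subgroup.range_subtype]
  by_cases hnt : Nontrivial S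
  · exact (Group.IsSolvable.commutator_lt_top_of_nontrivial S).ne htop
  · apply hSZ
    intro x hx
    have hss : Subsingleton S := not_nontrivial_iff_subsingleton.mp hnt
    have h1 : (⟨x, hx⟩ : S) = 1 := Subsingleton.elim _ _
    have h2 : x = 1 := congrArg Subtype.val h1
    rw [h2]
    exact Subgroup.one_mem _

end Cfsg.Agent.Helper97.U9
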