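import Cfsg.Statements.S1383
import Cfsg.Agent.Helper22.Fitting

set_option autoImplicit false

/-! CALL BG83 (helper25, S1383), piece PPC (double by helper97). -/

namespace Cfsg.Agent.Helper97

open Cfsg Subgroup

universe u

variable {G : Type u} [Group G] [Finite G]

/-- PPC (pure). (`pPrimeCore p ↥H` has order prime to `p`; a nilpotent group whose Sylow
subgroups are all cyclic is cyclic.) -/
theorem bg83_pPrimeCore_cyclic (H : Subgroup G) (hnil : Group.IsNilpotent ↥H) (p : ℕ)
    (hp : p.Prime)
    (hcyc : ∀ q : ℕ, q.Prime → q ≠ p → ∀ Q : Subgroup G, Q ≤ H → IsPGroup q Q → IsCyclic ↥Q) :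
    IsCyclic ↥(pPrimeCore p ↥H) := by
  classical
  have hcop : (Nat.card (pPrimeCore p ↥H)).Coprime p :=
    Cfsg.Agent.Helper22.card_pPrimeCore_coprime p ↥H
  have hZ : IsZGroup ↥(pPrimeCore p ↥H) := by
    refine ⟨fun q hq Q => ?_⟩
    have : Fact q.Prime := ⟨hq⟩
    by_cases hqp : q = p
    · subst hqp
      have h1 : Nat.card (Q : Subgroup ↥(pPrimeCore q ↥H)) = 1 := by
        rw [Sylow.card_eq_multiplicity, Nat.factorization_eq_zero_of_not_dvd, pow_zero]
        exact (Nat.Prime.coprime_iff_not_dvd hq).mp hcop.symm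
      have : Subsingleton ↥(Q : Subgroup ↥(pPrimeCore q ↥H)) :=
        (Nat.card_eq_one_iff_unique.mp h1).1
      exact isCyclic_of_subsingleton
    · have hQ' : IsCyclic ↥(((Q : Subgroup ↥(pPrimeCore p ↥H)).map
          (pPrimeCore p ↥H).subtype).map H.subtype) :=
        hcyc q hq hqp _ (Subgroup.map_subtype_le _) ((Q.isPGroup'.map _).map _)
      let e : ↥(Q : Subgroup ↥(pPrimeCore p ↥H)) ≃* ↥(((Q : Subgroup ↥(pPrimeCore p ↥H)).map
          (pPrimeCore p ↥H).subtype).map H.subtype) :=
        ((Q : Subgroup ↥(pPrimeCore p ↥H)).equivMapOfInjective (pPrimeCore p ↥H).subtype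
          (Subgroup.subtype_injective _)).trans
          (Subgroup.equivMapOfInjective _ H.subtype (Subgroup.subtype_injective _))
      exact isCyclic_of_surjective e.symm e.symm.surjective
  infer_instance

end Cfsg.Agent.Helper97
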