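import Mathlib
import Cfsg.Agent.Helper98.C2Defs

/-!
# Helper97: commutator moves for the class-C2 block case (CALL S5634, pieces XF / XM2)

* `c2mv_det` : `det (1 + x ψᵀ) = 1 + ψ ⬝ᵥ x`.
* `c2mv_blkdiag_mem` : a block-diagonal matrix of determinant one lies in every `M` with `BlkLE blk M`.
* `c2mv_move2` : if `k = 1 + a φᵀ ∈ M` (`φ ⬝ᵥ a = 0`), `h ∈ M` fixes `a` and `φ' h = φ`, then
  `1 + a (φ' - φ)ᵀ ∈ M`.
* `c2mv_axis` : the axis move (piece XA of the CALL, proved here independently).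
-/

set_option autoImplicit false

namespace Cfsg.Agent.Helper97.C2Move

open Matrix Cfsg.Agent.Helper98.C2
open scoped MatrixGroups

variable {K : Type*} [Field K]

theorem c2mv_det {n : ℕ} (x ψ : Fin n → K) :
    (1 + Matrix.vecMulVec x ψ).det = 1 + ψ ⬝ᵥ x := by
  have h := Matrix.det_one_add_replicateCol_mul_replicateRow (ι := Unit) x ψ
  have e : Matrix.replicateCol Unit x * Matrix.replicateRow Unit ψ = Matrix.vecMulVec x ψ := by
    ext i j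
    simp [Matrix.mul_apply, Matrix.vecMulVec_apply]
  rw [e] at h
  exact h

theorem c2mv_blkdiag_mem {n t : ℕ} (blk : Fin n → Fin t)
    (M : Subgroup (GL (Fin n) K)) (hH : BlkLE blk M) (g : GL (Fin n) K)
    (hg : ∀ i j, blk i ≠ blk j → g.1 i j = 0) (hdet : g.1.det = 1) : g ∈ M :=
  hH g ⟨1, fun i j hij => hg i j (by simpa using hij)⟩ hdet

theorem c2mv_move2 {n : ℕ} (M : Subgroup (GL (Fin n) K))
    (a φ : Fin n → K) (hφa : φ ⬝ᵥ a = 0)
    (k : GL (Fin n) K) (hk : k ∈ M) (hkeq : k.1 = 1 + Matrix.vecMulVec a φ)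
    (h : GL (Fin n) K) (hh : h ∈ M) (hha : h.1 *ᵥ a = a)
    (φ' : Fin n → K) (hφ' : φ' ᵥ* h.1 = φ) :
    ∃ k' ∈ M, k'.1 = 1 + Matrix.vecMulVec a (φ' - φ) := by
  refine ⟨h * k * h⁻¹ * k⁻¹, M.mul_mem (M.mul_mem (M.mul_mem hh hk) (M.inv_mem hh)) (M.inv_mem hk), ?_⟩
  have hφ'a : φ' ⬝ᵥ a = 0 := by
    have : φ' ⬝ᵥ (h.1 *ᵥ a) = (φ' ᵥ* h.1) ⬝ᵥ a := dotProduct_mulVec φ' h.1 a
    rw [hha, hφ'] at this
    rw [this, hφa]
  -- the key matrix identity
  have key : (1 + Matrix.vecMulVec a (φ' - φ)) * (k.1 * h.1) = h.1 * k.1 := by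
    rw [hkeq]
    have e1 : (1 + Matrix.vecMulVec a (φ' - φ)) * (1 + Matrix.vecMulVec a φ)
        = 1 + Matrix.vecMulVec a φ' := by
      rw [Matrix.add_mul, Matrix.mul_add, Matrix.mul_add, Matrix.one_mul, Matrix.mul_one,
        Matrix.one_mul, Matrix.vecMulVec_mul_vecMulVec]
      have : (φ' - φ) ⬝ᵥ a = 0 := by rw [sub_dotProduct, hφ'a, hφa, sub_zero]
      rw [this, zero_smul]
      ext i j
      simp [Matrix.vecMulVec_apply]
      ring
    rw [← Matrix.mul_assoc, e1, Matrix.add_mul, Matrix.one_mul, Matrix.vecMulVec_mul, hφ',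
      Matrix.mul_add, Matrix.mul_one, Matrix.mul_vecMulVec, hha]
  -- translate to the group
  have hu : ((h * k * h⁻¹ * k⁻¹ : GL (Fin n) K) : Matrix (Fin n) (Fin n) K) * (k.1 * h.1)
      = h.1 * k.1 := by
    have e : (h * k * h⁻¹ * k⁻¹ : GL (Fin n) K) * (k * h) = h * k := by group
    show ((h * k * h⁻¹ * k⁻¹ * (k * h) : GL (Fin n) K)).1 = (h * k : GL (Fin n) K).1
    rw [e]
  have hinv : (k.1 * h.1) * ((k * h)⁻¹ : GL (Fin n) K).1 = 1 := by
    have e : (k * h : GL (Fin n) K) * (k * h)⁻¹ = 1 := mul_inv_cancel _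
    show ((k * h : GL (Fin n) K) * (k * h)⁻¹).1 = (1 : GL (Fin n) K).1
    rw [e]
  calc ((h * k * h⁻¹ * k⁻¹ : GL (Fin n) K) : Matrix (Fin n) (Fin n) K)
      = ((h * k * h⁻¹ * k⁻¹ : GL (Fin n) K) : Matrix (Fin n) (Fin n) K)
          * ((k.1 * h.1) * ((k * h)⁻¹ : GL (Fin n) K).1) := by rw [hinv, Matrix.mul_one]
    _ = (h.1 * k.1) * ((k * h)⁻¹ : GL (Fin n) K).1 := by rw [← Matrix.mul_assoc, hu]
    _ = ((1 + Matrix.vecMulVec a (φ' - φ)) * (k.1 * h.1)) * ((k * h)⁻¹ : GL (Fin n) K).1 := by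
        rw [key]
    _ = 1 + Matrix.vecMulVec a (φ' - φ) := by rw [Matrix.mul_assoc, hinv, Matrix.mul_one]

/-- The axis move (piece XA of CALL S5634). -/
theorem c2mv_axis {n t : ℕ} (blk : Fin n → Fin t)
    (M : Subgroup (GL (Fin n) K)) (hH : BlkLE blk M)
    (a φ : Fin n → K) (hφa : φ ⬝ᵥ a = 0)
    (k : GL (Fin n) K) (hk : k ∈ M) (hkeq : k.1 = 1 + Matrix.vecMulVec a φ)
    (c : Fin t) (x ψ : Fin n → K) (hx : ∀ i, blk i ≠ c → x i = 0) (hψ : ∀ i, blk i ≠ c → ψ i = 0)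
    (hψx : ψ ⬝ᵥ x = 0) (hψa : ψ ⬝ᵥ a = 0) :
    ∃ k' ∈ M, k'.1 = 1 + Matrix.vecMulVec a ((φ ⬝ᵥ x) • ψ) := by
  have hdet : (1 + Matrix.vecMulVec (-x) ψ).det = 1 := by
    rw [c2mv_det, dotProduct_neg, hψx, neg_zero, add_zero]
  let h : GL (Fin n) K := Matrix.GeneralLinearGroup.mkOfDetNeZero (1 + Matrix.vecMulVec (-x) ψ)
    (by rw [hdet]; exact one_ne_zero)
  have hval : h.1 = 1 + Matrix.vecMulVec (-x) ψ := rfl
  have hh : h ∈ M := by
    apply c2mv_blkdiag_mem blk M hH h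
    · intro i j hij
      rw [hval, Matrix.add_apply, Matrix.one_apply_ne (fun e => hij (by rw [e])),
        Matrix.vecMulVec_apply, zero_add]
      by_cases hi : blk i = c
      · have hj : blk j ≠ c := fun e => hij (by rw [hi, e])
        rw [hψ j hj, mul_zero]
      · rw [Pi.neg_apply, hx i hi, neg_zero, zero_mul]
    · rw [hval, hdet]
  have hha : h.1 *ᵥ a = a := by
    rw [hval, Matrix.add_mulVec, Matrix.one_mulVec, Matrix.vecMulVec_mulVec, hψa]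
    simp
  have hφ' : (φ + (φ ⬝ᵥ x) • ψ) ᵥ* h.1 = φ := by
    rw [hval, Matrix.vecMul_add, Matrix.vecMul_one, Matrix.vecMul_vecMulVec,
      dotProduct_neg, add_dotProduct, smul_dotProduct, hψx]
    ext i
    simp
  obtain ⟨k', hk', hk'eq⟩ := c2mv_move2 M a φ hφa k hk hkeq h hh hha _ hφ'
  refine ⟨k', hk', ?_⟩
  rw [hk'eq, add_sub_cancel_left]

end Cfsg.Agent.Helper97.C2Move
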