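import Mathlib
import Cfsg.Agent.Helper98.C2Defs
import Cfsg.Agent.Helper97.C2Move

/-!
# Helper97: piece XF of CALL S5634 (`blk_flag`)
-/

set_option autoImplicit false

namespace Cfsg.Agent.Helper97.C2XF

open Matrix Cfsg.Agent.Helper98.C2 Cfsg.Agent.Helper97.C2Move
open scoped MatrixGroups

variable {K : Type*} [Field K]

/-- Disjointly supported vectors have dot product zero. -/
theorem xf_dot_disj {n t : ℕ} (blk : Fin n → Fin t) (c c' : Fin t) (hcc : c ≠ c')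
    (u v : Fin n → K) (hu : ∀ i, blk i ≠ c → u i = 0) (hv : ∀ i, blk i ≠ c' → v i = 0) :
    u ⬝ᵥ v = 0 := by
  unfold dotProduct
  apply Finset.sum_eq_zero
  intro i _
  by_cases h : blk i = c
  · rw [hv i (by rw [h]; exact hcc), mul_zero]
  · rw [hu i h, zero_mul]

/-- The core of the flag case: a block-diagonal element `h = 1 + x1 φ1ᵀ + x3 ψ3ᵀ` of determinant
one fixing `a`, with `φ h⁻¹ - φ` supported on the blocks `c1`, `c3` and non-zero. -/
theorem xf_core {n t : ℕ} (blk : Fin n → Fin t)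
    (M : Subgroup (GL (Fin n) K)) (hH : BlkLE blk M)
    (a φ : Fin n → K) (hφa : φ ⬝ᵥ a = 0)
    (k : GL (Fin n) K) (hk : k ∈ M) (hkeq : k.1 = 1 + Matrix.vecMulVec a φ)
    (c1 c2 c3 : Fin t) (h12 : c1 ≠ c2) (h13 : c1 ≠ c3) (h23 : c2 ≠ c3)
    (φ1 x1 ψ3 x3 : Fin n → K)
    (hφ1 : ∀ i, blk i ≠ c1 → φ1 i = 0) (hx1 : ∀ i, blk i ≠ c1 → x1 i = 0)
    (hψ3 : ∀ i, blk i ≠ c3 → ψ3 i = 0) (hx3 : ∀ i, blk i ≠ c3 → x3 i = 0)
    (hφ1a : φ1 ⬝ᵥ a = 0) (hψ3a : ψ3 ⬝ᵥ a = 0)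
    (l : K) (hl0 : l ≠ 0) (hl1 : l ≠ 1)
    (h1 : φ1 ⬝ᵥ x1 = l - 1) (h1' : φ ⬝ᵥ x1 = l - 1) (h3 : ψ3 ⬝ᵥ x3 = l⁻¹ - 1)
    (hφ1ne : φ1 ≠ 0) (ha2 : ∃ i, blk i = c2 ∧ a i ≠ 0) : CaseI blk M := by
  have hφ1x3 : φ1 ⬝ᵥ x3 = 0 := xf_dot_disj blk c1 c3 h13 φ1 x3 hφ1 hx3
  have hψ3x1 : ψ3 ⬝ᵥ x1 = 0 := xf_dot_disj blk c3 c1 (Ne.symm h13) ψ3 x1 hψ3 hx1
  have hprod : (1 + Matrix.vecMulVec x1 φ1) * (1 + Matrix.vecMulVec x3 ψ3)
      = 1 + Matrix.vecMulVec x1 φ1 + Matrix.vecMulVec x3 ψ3 := by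
    rw [Matrix.add_mul, Matrix.mul_add, Matrix.mul_add, Matrix.one_mul, Matrix.mul_one,
      Matrix.one_mul, Matrix.vecMulVec_mul_vecMulVec, hφ1x3, zero_smul]
    ext i j
    simp [Matrix.vecMulVec_apply]
    ring
  have hdet : (1 + Matrix.vecMulVec x1 φ1 + Matrix.vecMulVec x3 ψ3).det = 1 := by
    rw [← hprod, Matrix.det_mul, c2mv_det, c2mv_det, h1, h3]
    field_simp
    ring
  let h : GL (Fin n) K := Matrix.GeneralLinearGroup.mkOfDetNeZero
    (1 + Matrix.vecMulVec x1 φ1 + Matrix.vecMulVec x3 ψ3) (by rw [hdet]; exact one_ne_zero)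
  have hval : h.1 = 1 + Matrix.vecMulVec x1 φ1 + Matrix.vecMulVec x3 ψ3 := rfl
  have hh : h ∈ M := by
    apply c2mv_blkdiag_mem blk M hH h
    · intro i j hij
      rw [hval, Matrix.add_apply, Matrix.add_apply, Matrix.one_apply_ne (fun e => hij (by rw [e])),
        Matrix.vecMulVec_apply, Matrix.vecMulVec_apply, zero_add]
      have e1 : x1 i * φ1 j = 0 := by
        by_cases hi : blk i = c1
        · have hj : blk j ≠ c1 := fun e => hij (by rw [hi, e])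
          rw [hφ1 j hj, mul_zero]
        · rw [hx1 i hi, zero_mul]
      have e3 : x3 i * ψ3 j = 0 := by
        by_cases hi : blk i = c3
        · have hj : blk j ≠ c3 := fun e => hij (by rw [hi, e])
          rw [hψ3 j hj, mul_zero]
        · rw [hx3 i hi, zero_mul]
      rw [e1, e3, add_zero]
    · rw [hval, hdet]
  have hha : h.1 *ᵥ a = a := by
    rw [hval, Matrix.add_mulVec, Matrix.add_mulVec, Matrix.one_mulVec, Matrix.vecMulVec_mulVec,
      Matrix.vecMulVec_mulVec, hφ1a, hψ3a]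
    simp
  have hφx3 : (φ - ((l - 1) / l) • φ1 - (l * (φ ⬝ᵥ x3)) • ψ3) ⬝ᵥ x3 = l * (φ ⬝ᵥ x3) := by
    rw [sub_dotProduct, sub_dotProduct, smul_dotProduct, smul_dotProduct, hφ1x3, h3]
    simp only [smul_eq_mul]
    field_simp
    ring
  have hφx1 : (φ - ((l - 1) / l) • φ1 - (l * (φ ⬝ᵥ x3)) • ψ3) ⬝ᵥ x1 = (l - 1) / l := by
    rw [sub_dotProduct, sub_dotProduct, smul_dotProduct, smul_dotProduct, hψ3x1, h1, h1']
    simp only [smul_eq_mul]
    field_simp
    ring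
  have hφ' : (φ - ((l - 1) / l) • φ1 - (l * (φ ⬝ᵥ x3)) • ψ3) ᵥ* h.1 = φ := by
    rw [hval, Matrix.vecMul_add, Matrix.vecMul_add, Matrix.vecMul_one, Matrix.vecMul_vecMulVec,
      Matrix.vecMul_vecMulVec, hφx1, hφx3]
    ext i
    simp only [Pi.add_apply, Pi.sub_apply, Pi.smul_apply, smul_eq_mul]
    ring
  obtain ⟨k', hk', hk'eq⟩ := c2mv_move2 M a φ hφa k hk hkeq h hh hha _ hφ'
  have hdiff : (φ - ((l - 1) / l) • φ1 - (l * (φ ⬝ᵥ x3)) • ψ3) - φ
      = - (((l - 1) / l) • φ1) - (l * (φ ⬝ᵥ x3)) • ψ3 := by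
    ext i
    simp
    ring
  rw [hdiff] at hk'eq
  refine ⟨a, - (((l - 1) / l) • φ1) - (l * (φ ⬝ᵥ x3)) • ψ3, c2, ?_, ?_, ha2, ?_, k', hk', hk'eq⟩
  · rw [sub_dotProduct, neg_dotProduct, smul_dotProduct, smul_dotProduct, hφ1a, hψ3a]
    simp
  · intro h0
    apply hφ1ne
    ext i
    by_cases hi : blk i = c1
    · have hi3 : blk i ≠ c3 := by rw [hi]; exact h13
      have := congrFun h0 i
      simp only [Pi.sub_apply, Pi.neg_apply, Pi.smul_apply, smul_eq_mul, hψ3 i hi3, mul_zero,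
        sub_zero, Pi.zero_apply, neg_eq_zero] at this
      have hne : (l - 1) / l ≠ 0 := div_ne_zero (sub_ne_zero.mpr hl1) hl0
      rcases mul_eq_zero.mp this with h' | h'
      · exact absurd h' hne
      · simpa using h'
    · simpa using hφ1 i hi
  · intro i hi
    have hi1 : blk i ≠ c1 := by rw [hi]; exact Ne.symm h12
    have hi3 : blk i ≠ c3 := by rw [hi]; exact h23
    simp [hφ1 i hi1, hψ3 i hi3]

/-- PIECE XF -/
theorem blk_flag [Fintype K] (hq : 3 ≤ Fintype.card K) {n t : ℕ} (ht : 3 ≤ t) (blk : Fin n → Fin t)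
    (hfib : ∀ b : Fin t, (Finset.univ.filter (fun i => blk i = b)).card = 2)
    (M : Subgroup (GL (Fin n) K)) (hH : BlkLE blk M)
    (a φ : Fin n → K) (hφa : φ ⬝ᵥ a = 0) (hφ : φ ≠ 0)
    (ha : ∃ i j, blk i ≠ blk j ∧ a i ≠ 0 ∧ a j ≠ 0)
    (k : GL (Fin n) K) (hk : k ∈ M) (hkeq : k.1 = 1 + Matrix.vecMulVec a φ)
    (hsupp : ∀ c : Fin t, (∃ i, blk i = c ∧ φ i ≠ 0) ↔ (∃ i, blk i = c ∧ a i ≠ 0))
    (hflag : ∀ c : Fin t, ∑ i ∈ Finset.univ.filter (fun i => blk i = c), φ i * a i = 0) :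
    CaseI blk M := by
  classical
  -- a scalar `l ∉ {0, 1}`
  obtain ⟨l, hl0, hl1⟩ : ∃ l : K, l ≠ 0 ∧ l ≠ 1 := by
    by_contra hcon
    have hsub : (Finset.univ : Finset K) ⊆ {0, 1} := by
      intro x _
      by_cases hx : x = 0
      · simp [hx]
      · have hx1 : x = 1 := by
          by_contra h1
          exact hcon ⟨x, hx, h1⟩
        simp [hx1]
    have := Finset.card_le_card hsub
    have h2 : ({0, 1} : Finset K).card ≤ 2 := Finset.card_insert_le _ _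
    rw [Finset.card_univ] at this
    omega
  obtain ⟨i1, i2, h12, hai1, hai2⟩ := ha
  -- a third block
  obtain ⟨c3, h31, h32⟩ : ∃ c3 : Fin t, c3 ≠ blk i1 ∧ c3 ≠ blk i2 := by
    by_contra hcon
    have hsub : (Finset.univ : Finset (Fin t)) ⊆ {blk i1, blk i2} := by
      intro x _
      by_cases hx : x = blk i1
      · simp [hx]
      · have hx2 : x = blk i2 := by
          by_contra h2
          exact hcon ⟨x, hx, h2⟩
        simp [hx2]
    have := Finset.card_le_card hsub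
    have h2 : ({blk i1, blk i2} : Finset (Fin t)).card ≤ 2 := Finset.card_insert_le _ _
    rw [Finset.card_univ, Fintype.card_fin] at this
    omega
  -- restriction of `φ` to a block
  have hres_supp : ∀ c : Fin t, ∀ i, blk i ≠ c → (fun i => if blk i = c then φ i else 0) i = 0 := by
    intro c i hi
    simp [hi]
  have hres_a : ∀ c : Fin t, (fun i => if blk i = c then φ i else 0) ⬝ᵥ a = 0 := by
    intro c
    have e : (fun i => if blk i = c then φ i else 0) ⬝ᵥ a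
        = ∑ i ∈ Finset.univ.filter (fun i => blk i = c), φ i * a i := by
      unfold dotProduct
      rw [Finset.sum_filter]
      apply Finset.sum_congr rfl
      intro i _
      by_cases hi : blk i = c
      · simp [hi]
      · simp [hi]
    rw [e, hflag c]
  have hsingle_supp : ∀ (c : Fin t) (q : Fin n) (v : K), blk q = c →
      ∀ i, blk i ≠ c → (Pi.single q v : Fin n → K) i = 0 := by
    intro c q v hq i hi
    have : i ≠ q := fun e => hi (by rw [e, hq])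
    rw [Pi.single_apply, if_neg this]
  -- block `c1`
  obtain ⟨q1, hq1, hφq1⟩ := (hsupp (blk i1)).mpr ⟨i1, rfl, hai1⟩
  -- block `c3`: the compensating data
  obtain ⟨ψ3, x3, hψ3, hx3, hψ3a, hψ3x3⟩ : ∃ ψ3 x3 : Fin n → K,
      (∀ i, blk i ≠ c3 → ψ3 i = 0) ∧ (∀ i, blk i ≠ c3 → x3 i = 0) ∧ ψ3 ⬝ᵥ a = 0 ∧
      ψ3 ⬝ᵥ x3 = l⁻¹ - 1 := by
    by_cases hc3 : ∃ i, blk i = c3 ∧ φ i ≠ 0
    · obtain ⟨q3, hq3, hφq3⟩ := hc3
      refine ⟨fun i => if blk i = c3 then φ i else 0, Pi.single q3 ((l⁻¹ - 1) / φ q3),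
        hres_supp c3, hsingle_supp c3 q3 _ hq3, hres_a c3, ?_⟩
      rw [dotProduct_single]
      simp only [hq3, if_true]
      field_simp
    · have hne : (Finset.univ.filter (fun i => blk i = c3)).Nonempty := by
        rw [← Finset.card_pos, hfib c3]
        norm_num
      obtain ⟨p, hp⟩ := hne
      have hp3 : blk p = c3 := by simpa using hp
      have hap : a p = 0 := by
        by_contra h
        exact hc3 ((hsupp c3).mpr ⟨p, hp3, h⟩)
      refine ⟨Pi.single p 1, Pi.single p (l⁻¹ - 1), hsingle_supp c3 p _ hp3,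
        hsingle_supp c3 p _ hp3, ?_, ?_⟩
      · rw [single_dotProduct, hap, mul_zero]
      · rw [single_dotProduct, one_mul, Pi.single_eq_same]
  refine xf_core blk M hH a φ hφa k hk hkeq (blk i1) (blk i2) c3 h12 (Ne.symm h31) (Ne.symm h32)
    (fun i => if blk i = blk i1 then φ i else 0) (Pi.single q1 ((l - 1) / φ q1)) ψ3 x3
    (hres_supp (blk i1)) (hsingle_supp (blk i1) q1 _ hq1) hψ3 hx3 (hres_a (blk i1)) hψ3a
    l hl0 hl1 ?_ ?_ hψ3x3 ?_ ⟨i2, rfl, hai2⟩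
  · rw [dotProduct_single]
    simp only [hq1, if_true]
    field_simp
  · rw [dotProduct_single]
    field_simp
  · intro h0
    have := congrFun h0 q1
    simp only [hq1, if_true, Pi.zero_apply] at this
    exact hφq1 this

end Cfsg.Agent.Helper97.C2XF
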