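import Mathlib
import Cfsg.Agent.Helper98.C2Defs
import Cfsg.Agent.Helper97.C2Move

/-!
# Helper97: piece XM2 of CALL S5634 (`blk_m2`)
-/

set_option autoImplicit false

namespace Cfsg.Agent.Helper97.C2XM2

open Matrix Cfsg.Agent.Helper98.C2 Cfsg.Agent.Helper97.C2Move
open scoped MatrixGroups

variable {K : Type*} [Field K]

/-- PIECE XM2 -/
theorem blk_m2 {n t : ℕ} (blk : Fin n → Fin t)
    (hfib : ∀ b : Fin t, (Finset.univ.filter (fun i => blk i = b)).card = 2)
    (M : Subgroup (GL (Fin n) K)) (hH : BlkLE blk M)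
    (a φ : Fin n → K) (hφa : φ ⬝ᵥ a = 0) (hφ : φ ≠ 0)
    (ha : ∃ i j, blk i ≠ blk j ∧ a i ≠ 0 ∧ a j ≠ 0)
    (k : GL (Fin n) K) (hk : k ∈ M) (hkeq : k.1 = 1 + Matrix.vecMulVec a φ)
    (c : Fin t) (hc : ∃ i, blk i = c ∧ φ i ≠ 0)
    (hc' : (∀ i, blk i = c → a i = 0) ∨
      ∑ i ∈ Finset.univ.filter (fun i => blk i = c), φ i * a i ≠ 0) : CaseI blk M := by
  classical
  -- a block `c1 ≠ c` on which `a` does not vanish
  obtain ⟨c1, hc1, i1, hi1, hai1⟩ : ∃ c1, c1 ≠ c ∧ ∃ i, blk i = c1 ∧ a i ≠ 0 := by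
    obtain ⟨i, j, hij, hai, haj⟩ := ha
    by_cases h : blk i = c
    · exact ⟨blk j, fun e => hij (by rw [h, e]), j, rfl, haj⟩
    · exact ⟨blk i, h, i, rfl, hai⟩
  -- the two elements of the block `c`
  obtain ⟨p, p', hpp', hfc⟩ := Finset.card_eq_two.mp (hfib c)
  have hmem : ∀ i, blk i = c ↔ (i = p ∨ i = p') := by
    intro i
    have : i ∈ Finset.univ.filter (fun i => blk i = c) ↔ i ∈ ({p, p'} : Finset (Fin n)) := by
      rw [hfc]
    simpa using this
  have hp : blk p = c := (hmem p).mpr (Or.inl rfl)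
  have hp' : blk p' = c := (hmem p').mpr (Or.inr rfl)
  -- it suffices to find `x`, `ψ` supported on `c`
  suffices hmain : ∃ x ψ : Fin n → K, (∀ i, blk i ≠ c → x i = 0) ∧ (∀ i, blk i ≠ c → ψ i = 0) ∧
      ψ ⬝ᵥ x = 0 ∧ ψ ⬝ᵥ a = 0 ∧ ψ ≠ 0 ∧ φ ⬝ᵥ x ≠ 0 by
    obtain ⟨x, ψ, hx, hψ, hψx, hψa, hψ0, hφx⟩ := hmain
    obtain ⟨k', hk', hk'eq⟩ := c2mv_axis blk M hH a φ hφa k hk hkeq c x ψ hx hψ hψx hψa
    refine ⟨a, (φ ⬝ᵥ x) • ψ, c1, ?_, ?_, ⟨i1, hi1, hai1⟩, ?_, k', hk', hk'eq⟩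
    · rw [smul_dotProduct, hψa, smul_zero]
    · intro h0
      apply hψ0
      have := smul_eq_zero.mp h0
      rcases this with h | h
      · exact absurd h hφx
      · exact h
    · intro i hi
      have : blk i ≠ c := by rw [hi]; exact hc1
      rw [Pi.smul_apply, hψ i this, smul_zero]
  have hsingle_supp : ∀ (q : Fin n) (v : K), blk q = c →
      ∀ i, blk i ≠ c → (Pi.single q v : Fin n → K) i = 0 := by
    intro q v hq i hi
    have : i ≠ q := fun e => hi (by rw [e, hq])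
    rw [Pi.single_apply, if_neg this]
  rcases hc' with hz | hs
  · -- `a` vanishes on the block `c`
    obtain ⟨q, hq, hφq⟩ := hc
    obtain ⟨q', hq', hqq'⟩ : ∃ q', blk q' = c ∧ q' ≠ q := by
      rcases (hmem q).mp hq with e | e
      · exact ⟨p', hp', fun e' => hpp' (by rw [← e, e'])⟩
      · exact ⟨p, hp, fun e' => hpp' (by rw [e', e])⟩
    refine ⟨Pi.single q 1, Pi.single q' 1, hsingle_supp q 1 hq, hsingle_supp q' 1 hq', ?_, ?_, ?_, ?_⟩
    · rw [single_dotProduct, one_mul, Pi.single_apply, if_neg hqq']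
    · rw [single_dotProduct, one_mul, hz q' hq']
    · intro h0
      have := congrFun h0 q'
      simp at this
    · rw [dotProduct_single, mul_one]
      exact hφq
  · -- `∑_{i ∈ c} φ i a i ≠ 0`
    have hsum : ∑ i ∈ Finset.univ.filter (fun i => blk i = c), φ i * a i
        = φ p * a p + φ p' * a p' := by
      rw [hfc, Finset.sum_pair hpp']
    rw [hsum] at hs
    refine ⟨Pi.single p (a p) + Pi.single p' (a p'), Pi.single p (a p') - Pi.single p' (a p),
      ?_, ?_, ?_, ?_, ?_, ?_⟩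
    · intro i hi
      rw [Pi.add_apply, hsingle_supp p _ hp i hi, hsingle_supp p' _ hp' i hi, add_zero]
    · intro i hi
      rw [Pi.sub_apply, hsingle_supp p _ hp i hi, hsingle_supp p' _ hp' i hi, sub_zero]
    · rw [sub_dotProduct, single_dotProduct, single_dotProduct, Pi.add_apply, Pi.add_apply,
        Pi.single_eq_same, Pi.single_eq_same, Pi.single_apply, Pi.single_apply,
        if_neg hpp', if_neg (Ne.symm hpp')]
      ring
    · rw [sub_dotProduct, single_dotProduct, single_dotProduct]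
      ring
    · intro h0
      have e1 := congrFun h0 p
      have e2 := congrFun h0 p'
      simp [hpp', Ne.symm hpp'] at e1 e2
      apply hs
      rw [e1, e2]
      ring
    · rw [dotProduct_add, dotProduct_single, dotProduct_single]
      exact hs

end Cfsg.Agent.Helper97.C2XM2
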