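-- helper97 library: weight-preserving overgroups of decomposition stabilisers (small fields).
import Cfsg.Agent.Helper97.NotSL

set_option autoImplicit false
open Cfsg Cfsg.Geo Matrix
open scoped Classical

namespace Cfsg.Agent.Helper97.DW

variable {F : Type*} [Field F] {n t : ℕ}

/-- `comp` is the family of component maps of the decomposition `D`. -/
structure IsComp (D : Fin t → Submodule F (Fin n → F))
    (comp : Fin t → (Fin n → F) →ₗ[F] (Fin n → F)) : Prop where
  mem : ∀ i x, comp i x ∈ D i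
  sum : ∀ x, ∑ i, comp i x = x
  uniq : ∀ y : Fin t → (Fin n → F), (∀ i, y i ∈ D i) → ∀ i, comp i (∑ j, y j) = y i

theorem exists_comp (D : Fin t → Submodule F (Fin n → F)) (hi : iSupIndep D) (ht : iSup D = ⊤) :
    ∃ comp : Fin t → (Fin n → F) →ₗ[F] (Fin n → F), IsComp D comp := by
  classical
  have hint : DirectSum.IsInternal D :=
    DirectSum.isInternal_submodule_of_iSupIndep_of_iSup_eq_top hi ht
  let e := LinearEquiv.ofBijective (DirectSum.coeLinearMap D) hint
  have he : ∀ z, e z = ∑ i, ((z i : D i) : Fin n → F) := by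
    intro z
    change DirectSum.coeLinearMap D z = _
    rw [DirectSum.coeLinearMap_eq_dfinsuppSum, DFinsupp.sum_eq_sum_fintype]
    · rfl
    · intro i; rfl
  refine ⟨fun i => (D i).subtype ∘ₗ (DirectSum.component F (Fin t) (fun i => D i) i) ∘ₗ
    e.symm.toLinearMap, ⟨?_, ?_, ?_⟩⟩
  · intro i x
    exact Submodule.coe_mem _
  · intro x
    have := he (e.symm x)
    rw [LinearEquiv.apply_symm_apply] at this
    exact this.symm
  · intro y hy i
    have h1 : e (∑ j, DirectSum.of (fun i => D i) j ⟨y j, hy j⟩) = ∑ j, y j := by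
      rw [map_sum]
      refine Finset.sum_congr rfl fun j _ => ?_
      change DirectSum.coeLinearMap D _ = _
      rw [DirectSum.coeLinearMap_of]
    have h2 : e.symm (∑ j, y j) = ∑ j, DirectSum.of (fun i => D i) j ⟨y j, hy j⟩ := by
      rw [← h1, LinearEquiv.symm_apply_apply]
    have h3 : (DirectSum.component F (Fin t) (fun i => D i) i) (e.symm (∑ j, y j)) = ⟨y i, hy i⟩ := by
      rw [h2, map_sum, Finset.sum_eq_single i]
      · rw [← DirectSum.lof_eq_of F, DirectSum.component.lof_self]
      · intro j _ hji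
        rw [← DirectSum.lof_eq_of F, DirectSum.component.of, dif_neg hji]
      · intro h; exact absurd (Finset.mem_univ i) h
    change ((DirectSum.component F (Fin t) (fun i => D i) i) (e.symm (∑ j, y j)) : Fin n → F) = y i
    rw [h3]


theorem card_eq_sum (D : Fin t → Submodule F (Fin n → F)) (hi : iSupIndep D) (ht : iSup D = ⊤) :
    n = ∑ i, Module.finrank F (D i) := by
  classical
  have hint : DirectSum.IsInternal D :=
    DirectSum.isInternal_submodule_of_iSupIndep_of_iSup_eq_top hi ht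
  let e := LinearEquiv.ofBijective (DirectSum.coeLinearMap D) hint
  have h1 := e.finrank_eq
  rw [Module.finrank_directSum, Module.finrank_fin_fun] at h1
  exact h1.symm

section
variable {D : Fin t → Submodule F (Fin n → F)} {comp : Fin t → (Fin n → F) →ₗ[F] (Fin n → F)}

theorem IsComp.of_mem (hc : IsComp D comp) {j : Fin t} {x : Fin n → F} (hx : x ∈ D j) (i : Fin t) :
    comp i x = if i = j then x else 0 := by
  have h := hc.uniq (fun k => if k = j then x else 0)
    (fun k => by
      by_cases hk : k = j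
      · simp only [hk, if_true]; exact hx
      · simp only [hk, if_false]; exact zero_mem _) i
  rwa [Finset.sum_ite_eq' Finset.univ j (fun _ => x), if_pos (Finset.mem_univ j)] at h

/-- The weight of a vector: the number of its non-zero components, in `F`. -/
noncomputable def wt (comp : Fin t → (Fin n → F) →ₗ[F] (Fin n → F)) (x : Fin n → F) : F :=
  ∑ i, if comp i x = 0 then (0 : F) else 1

theorem gl_mulVec_eq_zero (g : GL (Fin n) F) (x : Fin n → F) :
    (g : Matrix (Fin n) (Fin n) F) *ᵥ x = 0 ↔ x = 0 := by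
  constructor
  · intro h
    have h2 : ((g⁻¹ : GL (Fin n) F) : Matrix (Fin n) (Fin n) F) *ᵥ
        ((g : Matrix (Fin n) (Fin n) F) *ᵥ x) = x := by
      rw [Matrix.mulVec_mulVec, ← Units.val_mul, inv_mul_cancel, Units.val_one, Matrix.one_mulVec]
    rw [← h2, h, Matrix.mulVec_zero]
  · intro h
    rw [h, Matrix.mulVec_zero]

theorem IsComp.stab (hc : IsComp D comp) (g : GL (Fin n) F) (σ : Equiv.Perm (Fin t))
    (hσ : ∀ i, (D i).map (Matrix.toLin' (g : Matrix (Fin n) (Fin n) F)) = D (σ i))
    (x : Fin n → F) (i : Fin t) :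
    comp (σ i) ((g : Matrix (Fin n) (Fin n) F) *ᵥ x)
      = (g : Matrix (Fin n) (Fin n) F) *ᵥ comp i x := by
  have hy : ∀ j, (g : Matrix (Fin n) (Fin n) F) *ᵥ comp (σ.symm j) x ∈ D j := by
    intro j
    have h1 : (g : Matrix (Fin n) (Fin n) F) *ᵥ comp (σ.symm j) x
        ∈ (D (σ.symm j)).map (Matrix.toLin' (g : Matrix (Fin n) (Fin n) F)) :=
      ⟨_, hc.mem _ _, by rw [Matrix.toLin'_apply]⟩
    rwa [hσ, Equiv.apply_symm_apply] at h1
  have h2 := hc.uniq (fun j => (g : Matrix (Fin n) (Fin n) F) *ᵥ comp (σ.symm j) x) hy (σ i)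
  have h3 : ∑ j, (g : Matrix (Fin n) (Fin n) F) *ᵥ comp (σ.symm j) x
      = (g : Matrix (Fin n) (Fin n) F) *ᵥ x := by
    rw [← Equiv.sum_comp σ]
    simp only [Equiv.symm_apply_apply]
    conv_rhs => rw [← hc.sum x]
    rw [Matrix.mulVec_sum]
  rw [h3] at h2
  rw [h2, Equiv.symm_apply_apply]

theorem IsComp.wt_stab (hc : IsComp D comp) (g : GL (Fin n) F)
    (hg : g ∈ decompositionStabilizer D) (x : Fin n → F) :
    wt comp ((g : Matrix (Fin n) (Fin n) F) *ᵥ x) = wt comp x := by
  obtain ⟨σ, hσ⟩ := hg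
  unfold wt
  rw [← Equiv.sum_comp σ]
  refine Finset.sum_congr rfl fun i _ => ?_
  rw [hc.stab g σ hσ x i]
  simp only [gl_mulVec_eq_zero]

/-- The group of determinant-one matrices preserving the weight. -/
def wtGroup (comp : Fin t → (Fin n → F) →ₗ[F] (Fin n → F)) : Subgroup (GL (Fin n) F) where
  carrier := {g | g ∈ specialLinear (Fin n) F ∧
    ∀ x, wt comp ((g : Matrix (Fin n) (Fin n) F) *ᵥ x) = wt comp x}
  mul_mem' := by
    rintro a b ⟨ha, ha'⟩ ⟨hb, hb'⟩
    refine ⟨mul_mem ha hb, fun x => ?_⟩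
    rw [Units.val_mul, ← Matrix.mulVec_mulVec, ha', hb']
  one_mem' := ⟨one_mem _, fun x => by rw [Units.val_one, Matrix.one_mulVec]⟩
  inv_mem' := by
    rintro a ⟨ha, ha'⟩
    refine ⟨inv_mem ha, fun x => ?_⟩
    have := ha' (((a⁻¹ : GL (Fin n) F) : Matrix (Fin n) (Fin n) F) *ᵥ x)
    rw [Matrix.mulVec_mulVec, ← Units.val_mul, mul_inv_cancel, Units.val_one, Matrix.one_mulVec] at this
    exact this.symm

theorem IsComp.stab_le (hc : IsComp D comp) :
    decompositionStabilizer D ⊓ specialLinear (Fin n) F ≤ wtGroup comp := by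
  rintro g ⟨hg1, hg2⟩
  exact ⟨hg2, fun x => hc.wt_stab g hg1 x⟩

theorem wtGroup_le : wtGroup comp ≤ specialLinear (Fin n) F := fun _ hg => hg.1

theorem IsComp.not_mem_stab (hc : IsComp D comp) (g : GL (Fin n) F) {i j k : Fin t}
    {x : Fin n → F} (hx : x ∈ D i) (hjk : j ≠ k)
    (hj : comp j ((g : Matrix (Fin n) (Fin n) F) *ᵥ x) ≠ 0)
    (hk : comp k ((g : Matrix (Fin n) (Fin n) F) *ᵥ x) ≠ 0) :
    g ∉ decompositionStabilizer D := by
  rintro ⟨σ, hσ⟩
  have h1 : (g : Matrix (Fin n) (Fin n) F) *ᵥ x ∈ D (σ i) := by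
    rw [← hσ i]
    exact ⟨x, hx, by rw [Matrix.toLin'_apply]⟩
  rw [hc.of_mem h1] at hj hk
  have e1 : j = σ i := by
    by_contra h
    rw [if_neg h] at hj
    exact hj rfl
  have e2 : k = σ i := by
    by_contra h
    rw [if_neg h] at hk
    exact hk rfl
  exact hjk (e1.trans e2.symm)

theorem IsComp.wtGroup_ne (hc : IsComp D comp) {m : ℕ} (hD : IsMDecomposition m D) :
    wtGroup comp ≠ specialLinear (Fin n) F := by
  intro heq
  have ht := hD.two_le
  set i0 : Fin t := ⟨0, by omega⟩ with hi0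
  set i1 : Fin t := ⟨1, by omega⟩ with hi1
  have h01 : i0 ≠ i1 := by simp [hi0, hi1, Fin.ext_iff]
  have hne : ∀ i, ∃ a ∈ D i, a ≠ 0 := by
    intro i
    have h1 : D i ≠ ⊥ := by
      intro hbot
      have := hD.finrank_eq i
      rw [hbot, finrank_bot] at this
      have := hD.pos
      omega
    exact (Submodule.ne_bot_iff _).1 h1
  obtain ⟨a, ha, ha0⟩ := hne i0
  obtain ⟨b, hb, hb0⟩ := hne i1
  have hnot : b ∉ Submodule.span F {a} := by
    intro hmem
    obtain ⟨c, rfl⟩ := Submodule.mem_span_singleton.1 hmem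
    have h1 := hc.of_mem hb i1
    have h2 := hc.of_mem ((D i0).smul_mem c ha) i1
    rw [if_pos rfl] at h1
    rw [if_neg (Ne.symm h01)] at h2
    exact hb0 (h1.symm.trans h2)
  obtain ⟨φ, hφa, hφb⟩ := exists_dotProduct_sep hnot
  have hmem : genTv a φ hφa ∈ wtGroup comp := by
    rw [heq]; exact genTv_mem _ _ _
  have h1 := hmem.2 b
  rw [genTv_mulVec, hφb, one_smul] at h1
  unfold wt at h1
  have e1 : ∀ i, (if comp i (b + a) = 0 then (0 : F) else 1)
      = (if i = i0 then 1 else 0) + (if i = i1 then 1 else 0) := by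
    intro i
    rw [map_add, hc.of_mem hb, hc.of_mem ha]
    by_cases h0 : i = i0
    · have : i ≠ i1 := fun h => h01 (h0.symm.trans h)
      simp [h0, ha0, h01]
    · by_cases h1 : i = i1
      · simp [h1, hb0, Ne.symm h01]
      · simp [h0, h1]
  have e2 : ∀ i, (if comp i b = 0 then (0 : F) else 1) = (if i = i1 then 1 else 0) := by
    intro i
    rw [hc.of_mem hb]
    by_cases h1 : i = i1
    · simp [h1, hb0]
    · simp [h1]
  simp only [e1, e2, Finset.sum_add_distrib, Finset.sum_ite_eq', Finset.mem_univ, if_true] at h1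
  exact one_ne_zero (add_eq_right.1 h1)


/-! ### Auxiliary matrices -/

theorem det_tv2 (w s w' s' : Fin n → F) (h : (1 + s ⬝ᵥ w) * (1 + s' ⬝ᵥ w') = 1) :
    ((1 + vecMulVec w s) * (1 + vecMulVec w' s')).det = 1 := by
  rw [det_mul, vecMulVec_eq Unit, det_one_add_replicateCol_mul_replicateRow, vecMulVec_eq Unit,
    det_one_add_replicateCol_mul_replicateRow, h]

/-- The product of two "rank one perturbations of the identity". -/
noncomputable def tv2 (w s w' s' : Fin n → F) (h : (1 + s ⬝ᵥ w) * (1 + s' ⬝ᵥ w') = 1) :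
    GL (Fin n) F :=
  glOfDetOne ((1 + vecMulVec w s) * (1 + vecMulVec w' s')) (det_tv2 w s w' s' h)

theorem tv2_mem (w s w' s' : Fin n → F) (h : (1 + s ⬝ᵥ w) * (1 + s' ⬝ᵥ w') = 1) :
    tv2 w s w' s' h ∈ specialLinear (Fin n) F := glOfDetOne_mem _ _

theorem tv2_mulVec (w s w' s' : Fin n → F) (h : (1 + s ⬝ᵥ w) * (1 + s' ⬝ᵥ w') = 1)
    (x : Fin n → F) :
    ((tv2 w s w' s' h : GL (Fin n) F) : Matrix (Fin n) (Fin n) F) *ᵥ x
      = (x + (s' ⬝ᵥ x) • w') + (s ⬝ᵥ (x + (s' ⬝ᵥ x) • w')) • w := by
  change ((1 + vecMulVec w s) * (1 + vecMulVec w' s')) *ᵥ x = _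
  rw [← Matrix.mulVec_mulVec]
  simp only [Matrix.add_mulVec, Matrix.one_mulVec, Matrix.vecMulVec_mulVec, op_smul_eq_smul]

theorem exists_dotVec (L : (Fin n → F) →ₗ[F] F) : ∃ a : Fin n → F, ∀ x, a ⬝ᵥ x = L x := by
  refine ⟨fun i => L (fun j => if i = j then 1 else 0), fun x => ?_⟩
  rw [LinearMap.pi_apply_eq_sum_univ L x, dotProduct]
  refine Finset.sum_congr rfl fun i _ => ?_
  simp only [smul_eq_mul]
  ring

/-! ### Decompositions into lines -/

/-- Coordinates for a decomposition into lines. -/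
structure IsCoord (D : Fin t → Submodule F (Fin n → F))
    (comp : Fin t → (Fin n → F) →ₗ[F] (Fin n → F))
    (c : Fin t → (Fin n → F) →ₗ[F] F) (v : Fin t → (Fin n → F)) : Prop where
  comp_eq : ∀ i x, comp i x = c i x • v i
  ne : ∀ i, v i ≠ 0
  mem : ∀ i, v i ∈ D i

theorem IsComp.exists_coord (hc : IsComp D comp) (h1 : ∀ i, Module.finrank F (D i) = 1) :
    ∃ (c : Fin t → (Fin n → F) →ₗ[F] F) (v : Fin t → (Fin n → F)), IsCoord D comp c v := by
  have h2 : ∀ i, ∃ v : Fin n → F, v ∈ D i ∧ v ≠ 0 ∧ ∀ w ∈ D i, ∃ a : F, a • v = w := by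
    intro i
    obtain ⟨v, hv0, hv⟩ := finrank_eq_one_iff'.1 (h1 i)
    refine ⟨v, v.2, fun h => hv0 (Subtype.ext h), fun w hw => ?_⟩
    obtain ⟨a, ha⟩ := hv ⟨w, hw⟩
    exact ⟨a, congrArg Subtype.val ha⟩
  choose v hvm hv0 hvs using h2
  have h3 : ∀ i, ∃ k, v i k ≠ 0 := by
    intro i
    by_contra hcon
    push Not at hcon
    exact hv0 i (funext hcon)
  choose k hk using h3
  refine ⟨fun i => ((v i (k i))⁻¹ • LinearMap.proj (k i)) ∘ₗ comp i, v, ⟨?_, hv0, hvm⟩⟩
  intro i x
  obtain ⟨a, ha⟩ := hvs i _ (hc.mem i x)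
  simp only [LinearMap.comp_apply, LinearMap.smul_apply, LinearMap.proj_apply, smul_eq_mul]
  rw [← ha, Pi.smul_apply, smul_eq_mul, mul_comm a, ← mul_assoc, inv_mul_cancel₀ (hk i), one_mul]

section
variable {c : Fin t → (Fin n → F) →ₗ[F] F} {v : Fin t → (Fin n → F)}

theorem IsCoord.comp_eq_zero (hco : IsCoord D comp c v) (i : Fin t) (x : Fin n → F) :
    comp i x = 0 ↔ c i x = 0 := by
  rw [hco.comp_eq, smul_eq_zero]
  simp [hco.ne i]

theorem IsCoord.c_v (hc : IsComp D comp) (hco : IsCoord D comp c v) (i j : Fin t) :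
    c i (v j) = if i = j then 1 else 0 := by
  have h1 := hc.of_mem (hco.mem j) i
  rw [hco.comp_eq] at h1
  by_cases hij : i = j
  · subst hij
    rw [if_pos rfl] at h1 ⊢
    have h2 : (c i (v i) - 1) • v i = 0 := by rw [sub_smul, h1, one_smul, sub_self]
    rcases smul_eq_zero.1 h2 with h3 | h3
    · exact sub_eq_zero.1 h3
    · exact absurd h3 (hco.ne i)
  · rw [if_neg hij] at h1 ⊢
    rcases smul_eq_zero.1 h1 with h3 | h3
    · exact h3
    · exact absurd h3 (hco.ne i)

theorem IsCoord.wt_eq (hco : IsCoord D comp c v) (x : Fin n → F) :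
    wt comp x = ∑ i, if c i x = 0 then (0 : F) else 1 := by
  unfold wt
  refine Finset.sum_congr rfl fun i _ => ?_
  simp only [hco.comp_eq_zero]

end

theorem small_field [Fintype F] (hF : Fintype.card F ≤ 4) :
    ∃ k : ℕ, (∀ a : F, (if a = 0 then (0 : F) else 1) = a ^ k) ∧ (6 : F) = 0 ∧
      ∀ a b c d : F, (a + (a + b + c + d)) ^ k + (b + (a + b + c + d)) ^ k
        + (c + (a + b + c + d)) ^ k + (d + (a + b + c + d)) ^ k = a ^ k + b ^ k + c ^ k + d ^ k := by
  have h1 : 1 < Fintype.card F := Fintype.one_lt_card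
  have h0 : (Fintype.card F : F) = 0 := Nat.cast_card_eq_zero F
  have hk : ∀ a : F, (if a = 0 then (0 : F) else 1) = a ^ (Fintype.card F - 1) := by
    intro a
    by_cases ha : a = 0
    · rw [if_pos ha, ha, zero_pow (by omega)]
    · rw [if_neg ha, FiniteField.pow_card_sub_one_eq_one a ha]
  refine ⟨Fintype.card F - 1, hk, ?_, ?_⟩
  · interval_cases hcard : Fintype.card F
    · have : (2 : F) = 0 := by exact_mod_cast h0
      linear_combination 3 * this
    · have : (3 : F) = 0 := by exact_mod_cast h0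
      linear_combination 2 * this
    · have h4 : (4 : F) = 0 := by exact_mod_cast h0
      have : (2 : F) = 0 := by
        have h5 : (2 : F) * 2 = 0 := by linear_combination h4
        exact (mul_self_eq_zero.1 h5)
      linear_combination 3 * this
  · intro a b c d
    interval_cases hcard : Fintype.card F
    · have h2 : (2 : F) = 0 := by exact_mod_cast h0
      norm_num
      linear_combination (2 * (a + b + c + d)) * h2
    · have h3 : (3 : F) = 0 := by exact_mod_cast h0
      norm_num
      linear_combination (2 * (a + b + c + d) ^ 2) * h3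
    · have h4 : (4 : F) = 0 := by exact_mod_cast h0
      have h2 : (2 : F) = 0 := by
        have h5 : (2 : F) * 2 = 0 := by linear_combination h4
        exact (mul_self_eq_zero.1 h5)
      norm_num
      linear_combination (5 * (a + b + c + d) ^ 3
        - 3 * (a + b + c + d) * (a * b + a * c + a * d + b * c + b * d + c * d)) * h2


theorem sum_four_key {k : ℕ} (hk : ∀ a b c d : F, (a + (a + b + c + d)) ^ k + (b + (a + b + c + d)) ^ k
        + (c + (a + b + c + d)) ^ k + (d + (a + b + c + d)) ^ k = a ^ k + b ^ k + c ^ k + d ^ k)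
    (ι : Fin 4 → Fin t) (hι : Function.Injective ι) (f : Fin t → F) :
    ∑ i, (f i + (∑ a, f (ι a)) * (∑ a : Fin 4, if i = ι a then (1 : F) else 0)) ^ k
      = ∑ i, (f i) ^ k := by
  rw [← sub_eq_zero, ← Finset.sum_sub_distrib]
  have hχ : ∀ b : Fin 4, (∑ a : Fin 4, if ι b = ι a then (1 : F) else 0) = 1 := by
    intro b
    have : ∀ a : Fin 4, (if ι b = ι a then (1 : F) else 0) = if b = a then 1 else 0 := by
      intro a
      by_cases h : b = a
      · simp [h]
      · have : ι b ≠ ι a := fun h' => h (hι h')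
        simp [h, this]
    simp only [this, Finset.sum_ite_eq, Finset.mem_univ, if_true]
  have h0 : ∀ i ∈ (Finset.univ : Finset (Fin t)), i ∉ (Finset.univ : Finset (Fin 4)).image ι →
      (f i + (∑ a, f (ι a)) * (∑ a : Fin 4, if i = ι a then (1 : F) else 0)) ^ k - (f i) ^ k = 0 := by
    intro i _ hi
    have : ∀ a : Fin 4, (if i = ι a then (1 : F) else 0) = 0 := by
      intro a
      rw [if_neg]
      intro h
      exact hi (Finset.mem_image.2 ⟨a, Finset.mem_univ a, h.symm⟩)
    simp only [this, Finset.sum_const_zero, mul_zero, add_zero, sub_self]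
  rw [← Finset.sum_subset (Finset.subset_univ _) h0, Finset.sum_image (fun a _ b _ h => hι h)]
  simp only [hχ, mul_one]
  rw [Finset.sum_sub_distrib, sub_eq_zero]
  simp only [Fin.sum_univ_four]
  exact hk _ _ _ _

theorem line_case [Fintype F] {c : Fin t → (Fin n → F) →ₗ[F] F} {v : Fin t → (Fin n → F)}
    (hc : IsComp D comp) (hco : IsCoord D comp c v) (ht : 5 ≤ t) (hF : Fintype.card F ≤ 4) :
    ∃ g ∈ wtGroup comp, g ∉ decompositionStabilizer D := by
  obtain ⟨k, hk1, h6, hk2⟩ := small_field hF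
  set ι : Fin 4 → Fin t := fun a => ⟨a.1, by omega⟩ with hιdef
  have hι : Function.Injective ι := by
    intro a b h
    simp only [hιdef, Fin.mk.injEq] at h
    exact Fin.ext h
  set i5 : Fin t := ⟨4, by omega⟩ with hi5
  have hi5ι : ∀ a, i5 ≠ ι a := by
    intro a h
    simp only [hi5, hιdef, Fin.mk.injEq] at h
    omega
  obtain ⟨sv, hsv⟩ := exists_dotVec (∑ a : Fin 4, c (ι a))
  obtain ⟨sv', hsv'⟩ := exists_dotVec ((-2 : F) • c i5)
  set w : Fin n → F := ∑ a : Fin 4, v (ι a) with hw
  have hcw : ∀ i, c i w = ∑ a : Fin 4, if i = ι a then (1 : F) else 0 := by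
    intro i
    rw [hw, map_sum]
    exact Finset.sum_congr rfl fun a _ => hco.c_v hc i (ι a)
  have hχ : ∀ b : Fin 4, (∑ a : Fin 4, if ι b = ι a then (1 : F) else 0) = 1 := by
    intro b
    have : ∀ a : Fin 4, (if ι b = ι a then (1 : F) else 0) = if b = a then 1 else 0 := by
      intro a
      by_cases h : b = a
      · simp [h]
      · have : ι b ≠ ι a := fun h' => h (hι h')
        simp [h, this]
    simp only [this, Finset.sum_ite_eq, Finset.mem_univ, if_true]
  have hdet : (1 + sv ⬝ᵥ w) * (1 + sv' ⬝ᵥ v i5) = 1 := by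
    rw [hsv, hsv', LinearMap.sum_apply, LinearMap.smul_apply, hco.c_v hc, if_pos rfl]
    simp only [hcw, hχ, Fin.sum_univ_four, smul_eq_mul]
    linear_combination (-1 : F) * h6
  refine ⟨tv2 w sv (v i5) sv' hdet, ⟨tv2_mem _ _ _ _ _, ?_⟩, ?_⟩
  · intro x
    rw [tv2_mulVec, hsv, hsv']
    set y : Fin n → F := x + ((-2 : F) • c i5) x • v i5 with hy
    have hcy : ∀ i, c i y = 0 ↔ c i x = 0 := by
      intro i
      rw [hy, map_add, map_smul, hco.c_v hc, LinearMap.smul_apply, smul_eq_mul, smul_eq_mul]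
      by_cases h : i = i5
      · rw [if_pos h, h]
        constructor
        · intro h1
          have : c i5 x = -(c i5 x + -2 * c i5 x * 1) := by ring
          rw [this, h1, neg_zero]
        · intro h1
          rw [h1]; ring
      · rw [if_neg h, mul_zero, add_zero]
    have h1 : wt comp y = wt comp x := by
      rw [hco.wt_eq, hco.wt_eq]
      exact Finset.sum_congr rfl fun i _ => by simp only [hcy]
    rw [← h1, hco.wt_eq, hco.wt_eq]
    simp only [hk1, map_add, map_smul, hcw, LinearMap.sum_apply, smul_eq_mul]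
    exact sum_four_key hk2 ι hι (fun i => c i y)
  · have hx : v (ι 0) ∈ D (ι 0) := hco.mem _
    have e0 : ((-2 : F) • c i5) (v (ι 0)) = 0 := by
      rw [LinearMap.smul_apply, hco.c_v hc, if_neg (hi5ι 0), smul_zero]
    have e1 : (∑ a : Fin 4, c (ι a)) (v (ι 0)) = 1 := by
      rw [LinearMap.sum_apply]
      simp only [hco.c_v hc]
      have h' : ∀ a : Fin 4, (if ι a = ι 0 then (1 : F) else 0) = (if ι 0 = ι a then 1 else 0) :=
        fun a => by simp only [eq_comm]
      simp only [h']
      exact hχ 0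
    have e2 : ((tv2 w sv (v i5) sv' hdet : GL (Fin n) F) : Matrix (Fin n) (Fin n) F) *ᵥ v (ι 0)
        = v (ι 0) + w := by
      rw [tv2_mulVec, hsv, hsv', e0, zero_smul, add_zero, e1, one_smul]
    have e3 : ∀ b : Fin 4, b ≠ 0 → comp (ι b) (v (ι 0) + w) ≠ 0 := by
      intro b hb
      rw [Ne, hco.comp_eq_zero, map_add, hco.c_v hc, if_neg (fun h => hb (hι h)), zero_add, hcw, hχ]
      exact one_ne_zero
    refine hc.not_mem_stab _ hx (j := ι 1) (k := ι 2) (fun h => ?_) ?_ ?_
    · have := hι h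
      exact absurd this (by decide)
    · rw [e2]; exact e3 1 (by decide)
    · rw [e2]; exact e3 2 (by decide)


/-! ### Decompositions into planes over the field with two elements -/

theorem plane_data (h01 : ∀ a : F, a = 0 ∨ a = 1) (W : Submodule F (Fin n → F))
    (hW : Module.finrank F W = 2) :
    ∃ A ∈ W, A ≠ 0 ∧ ∃ A' ∈ W, ∃ L : (Fin n → F) →ₗ[F] F, L A = 0 ∧ L A' = 1 ∧
      ∀ y ∈ W, L y = 0 → y = 0 ∨ y = A := by
  have hW0 : W ≠ ⊥ := by
    intro h
    rw [h, finrank_bot] at hW
    omega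
  obtain ⟨A, hA, hA0⟩ := (Submodule.ne_bot_iff _).1 hW0
  have hex : ∃ A' ∈ W, A' ∉ Submodule.span F {A} := by
    by_contra hcon
    push Not at hcon
    have hle : W ≤ Submodule.span F {A} := hcon
    have h1 := Submodule.finrank_mono hle
    have h2 := finrank_span_singleton (K := F) hA0
    omega
  obtain ⟨A', hA', hnot⟩ := hex
  obtain ⟨f, hfA', hf⟩ := Submodule.exists_dual_map_eq_bot_of_notMem hnot inferInstance
  have hfA : f A = 0 := by
    have h1 : f A ∈ Submodule.map f (Submodule.span F {A}) :=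
      Submodule.mem_map_of_mem (Submodule.mem_span_singleton_self A)
    rw [hf] at h1
    exact (Submodule.mem_bot F).1 h1
  have hfA'1 : f A' = 1 := by
    rcases h01 (f A') with h | h
    · exact absurd h hfA'
    · exact h
  refine ⟨A, hA, hA0, A', hA', f, hfA, hfA'1, ?_⟩
  intro y hy hfy
  set U : Submodule F (Fin n → F) := W ⊓ LinearMap.ker f with hU
  have hUlt : U < W := by
    refine lt_of_le_of_ne inf_le_left ?_
    intro h
    have : A' ∈ U := by rw [h]; exact hA'
    have h1 : f A' = 0 := LinearMap.mem_ker.1 this.2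
    rw [hfA'1] at h1
    exact one_ne_zero h1
  have hfin : Module.finrank F U ≤ 1 := by
    have := Submodule.finrank_lt_finrank_of_lt hUlt
    omega
  obtain ⟨v₀, hv₀⟩ := finrank_le_one_iff.1 hfin
  have hAU : A ∈ U := ⟨hA, LinearMap.mem_ker.2 hfA⟩
  have hyU : y ∈ U := ⟨hy, LinearMap.mem_ker.2 hfy⟩
  obtain ⟨c0, hc0⟩ := hv₀ ⟨A, hAU⟩
  obtain ⟨c1, hc1⟩ := hv₀ ⟨y, hyU⟩
  have hc0' : c0 • (v₀ : Fin n → F) = A := congrArg Subtype.val hc0
  have hc1' : c1 • (v₀ : Fin n → F) = y := congrArg Subtype.val hc1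
  have hv₀A : (v₀ : Fin n → F) = A := by
    rcases h01 c0 with h | h
    · rw [h, zero_smul] at hc0'
      exact absurd hc0'.symm hA0
    · rw [h, one_smul] at hc0'
      exact hc0'
  rcases h01 c1 with h | h
  · left
    rw [← hc1', h, zero_smul]
  · right
    rw [← hc1', h, one_smul, hv₀A]

theorem plane_case [Fintype F] (hc : IsComp D comp) (h2 : ∀ i, Module.finrank F (D i) = 2)
    (ht : 3 ≤ t) (hF : Fintype.card F = 2) :
    ∃ g ∈ wtGroup comp, g ∉ decompositionStabilizer D := by
  have htwo : (2 : F) = 0 := by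
    have h0 : (Fintype.card F : F) = 0 := Nat.cast_card_eq_zero F
    rw [hF] at h0
    exact_mod_cast h0
  have h01 : ∀ a : F, a = 0 ∨ a = 1 := by
    obtain ⟨x, y, hxy, huniv⟩ := Nat.card_eq_two_iff.1 ((Nat.card_eq_fintype_card).trans hF)
    have hmem : ∀ a : F, a = x ∨ a = y := by
      intro a
      have : a ∈ (Set.univ : Set F) := Set.mem_univ a
      rw [← huniv] at this
      simpa using this
    intro a
    rcases hmem 0 with h0 | h0 <;> rcases hmem 1 with h1 | h1 <;> rcases hmem a with ha | ha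
    · exact absurd (h0.trans h1.symm) zero_ne_one
    · exact absurd (h0.trans h1.symm) zero_ne_one
    · left; rw [ha, h0]
    · right; rw [ha, h1]
    · right; rw [ha, h1]
    · left; rw [ha, h0]
    · exact absurd (h0.trans h1.symm) zero_ne_one
    · exact absurd (h0.trans h1.symm) zero_ne_one
  have hneg : ∀ x : Fin n → F, x + x = 0 := by
    intro x
    rw [← two_smul F x, htwo, zero_smul]
  set ι : Fin 3 → Fin t := fun a => ⟨a.1, by omega⟩ with hιdef
  have hι : Function.Injective ι := by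
    intro a b h
    simp only [hιdef, Fin.mk.injEq] at h
    exact Fin.ext h
  have hdata := fun b : Fin 3 => plane_data h01 (D (ι b)) (h2 (ι b))
  choose A hA hA0 A' hA' L hLA hLA' hker using hdata
  set sL : (Fin n → F) →ₗ[F] F := ∑ b : Fin 3, (L b) ∘ₗ (comp (ι b)) with hsL
  obtain ⟨sv, hsv⟩ := exists_dotVec sL
  set w : Fin n → F := ∑ a : Fin 3, A a with hw
  have hcompA : ∀ (i : Fin t) (a : Fin 3), comp i (A a) = if i = ι a then A a else 0 :=
    fun i a => hc.of_mem (hA a) i
  have hcw : ∀ b : Fin 3, comp (ι b) w = A b := by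
    intro b
    rw [hw, map_sum]
    simp only [hcompA]
    rw [Finset.sum_eq_single b]
    · rw [if_pos rfl]
    · intro a _ hab
      rw [if_neg (fun h => hab (hι h).symm)]
    · intro h; exact absurd (Finset.mem_univ b) h
  have hcw0 : ∀ i : Fin t, i ∉ (Finset.univ : Finset (Fin 3)).image ι → comp i w = 0 := by
    intro i hi
    rw [hw, map_sum]
    refine Finset.sum_eq_zero fun a _ => ?_
    rw [hcompA, if_neg]
    intro h
    exact hi (Finset.mem_image.2 ⟨a, Finset.mem_univ a, h.symm⟩)
  have hsw : sv ⬝ᵥ w = 0 := by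
    rw [hsv, hsL, LinearMap.sum_apply]
    refine Finset.sum_eq_zero fun b _ => ?_
    rw [LinearMap.comp_apply, hcw, hLA]
  have hsx : ∀ x, sL x = ∑ b : Fin 3, L b (comp (ι b) x) := by
    intro x
    rw [hsL, LinearMap.sum_apply]
    rfl
  refine ⟨genTv w sv hsw, ⟨genTv_mem _ _ _, ?_⟩, ?_⟩
  · intro x
    rw [genTv_mulVec, hsv]
    rcases h01 (sL x) with h | h
    · rw [h, zero_smul, add_zero]
    · rw [h, one_smul]
      unfold wt
      rw [← sub_eq_zero, ← Finset.sum_sub_distrib]
      have h0 : ∀ i ∈ (Finset.univ : Finset (Fin t)), i ∉ (Finset.univ : Finset (Fin 3)).image ι →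
          (if comp i (x + w) = 0 then (0 : F) else 1) - (if comp i x = 0 then (0 : F) else 1) = 0 := by
        intro i _ hi
        rw [map_add, hcw0 i hi, add_zero, sub_self]
      rw [← Finset.sum_subset (Finset.subset_univ _) h0, Finset.sum_image (fun a _ b _ h => hι h)]
      have hterm : ∀ b : Fin 3, (if comp (ι b) (x + w) = 0 then (0 : F) else 1)
          - (if comp (ι b) x = 0 then (0 : F) else 1) = 1 + L b (comp (ι b) x) := by
        intro b
        rw [map_add, hcw]
        rcases h01 (L b (comp (ι b) x)) with hl | hl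
        · rcases hker b _ (hc.mem _ _) hl with hy | hy
          · rw [hl, hy, zero_add, if_neg (hA0 b), if_pos rfl]
            ring
          · rw [hl, hy, hneg, if_pos rfl, if_neg (hA0 b)]
            linear_combination (-1 : F) * htwo
        · have hy0 : comp (ι b) x ≠ 0 := by
            intro h'
            rw [h', map_zero] at hl
            exact zero_ne_one hl
          have hy1 : comp (ι b) x + A b ≠ 0 := by
            intro h'
            have h'' : comp (ι b) x = A b := by
              have := congrArg (fun z => z + A b) h'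
              simp only [add_assoc, hneg, add_zero, zero_add] at this
              exact this
            rw [h'', hLA] at hl
            exact zero_ne_one hl
          rw [hl, if_neg hy0, if_neg hy1]
          linear_combination (-1 : F) * htwo
      simp only [hterm]
      rw [Finset.sum_add_distrib, ← hsx, h]
      simp only [Finset.sum_const, Finset.card_univ, Fintype.card_fin, nsmul_eq_mul, mul_one]
      push_cast
      linear_combination (2 : F) * htwo
  · have hx : A' 0 ∈ D (ι 0) := hA' 0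
    have hcompA' : ∀ i : Fin t, comp i (A' 0) = if i = ι 0 then A' 0 else 0 :=
      fun i => hc.of_mem hx i
    have e1 : sL (A' 0) = 1 := by
      rw [hsx]
      simp only [hcompA']
      rw [Finset.sum_eq_single 0]
      · rw [if_pos rfl, hLA']
      · intro b _ hb
        rw [if_neg (fun h => hb (hι h)), map_zero]
      · intro h; exact absurd (Finset.mem_univ 0) h
    have e2 : ((genTv w sv hsw : GL (Fin n) F) : Matrix (Fin n) (Fin n) F) *ᵥ A' 0 = A' 0 + w := by
      rw [genTv_mulVec, hsv, e1, one_smul]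
    have e3 : ∀ b : Fin 3, b ≠ 0 → comp (ι b) (A' 0 + w) ≠ 0 := by
      intro b hb
      rw [map_add, hcw, hcompA', if_neg (fun h => hb (hι h)), zero_add]
      exact hA0 b
    refine hc.not_mem_stab _ hx (j := ι 1) (k := ι 2) (fun h => ?_) ?_ ?_
    · have := hι h
      exact absurd this (by decide)
    · rw [e2]; exact e3 1 (by decide)
    · rw [e2]; exact e3 2 (by decide)

end

end Cfsg.Agent.Helper97.DW
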