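/-
helper97: core of piece BD of CALL S5953 (helper90): for `r ∣ q + 1` odd, the diagonal element
with exponents `±1, …, ±h` (`h = (n - 2m + 2)/2`) and `1` elsewhere lies in `SU_n(q)`, has order
`r`, is not scalar, and (given the diagonal obstruction DIAGOBS as a hypothesis) fixes no totally
isotropic subspace of dimension `m`.
-/
import Mathlib
import Cfsg.Agent.Helper90.HTDefs

set_option autoImplicit false
set_option linter.unusedSectionVars false
set_option linter.unusedVariables false

namespace Cfsg.Agent.Helper97.HTBDCore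

open Module Polynomial Cfsg.Agent.Helper90.HT

/-- exponent pattern `1, r-1, 2, r-2, …` -/
def expo (r j : ℕ) : ℕ := if j % 2 = 0 then j / 2 + 1 else r - (j / 2 + 1)

theorem sum_expo (r h : ℕ) (hh : h ≤ r) : ∑ j ∈ Finset.range (2 * h), expo r j = h * r := by
  induction h with
  | zero => simp
  | succ h ih =>
    rw [show 2 * (h + 1) = 2 * h + 1 + 1 by ring, Finset.sum_range_succ, Finset.sum_range_succ,
      ih (by omega)]
    have e1 : expo r (2 * h) = h + 1 := by
      unfold expo
      rw [if_pos (by omega)]
      omega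
    have e2 : expo r (2 * h + 1) = r - (h + 1) := by
      unfold expo
      rw [if_neg (by omega)]
      have : (2 * h + 1) / 2 = h := by omega
      rw [this]
    rw [e1, e2, Nat.succ_mul]
    omega

variable {F : Type*} [Field F] [Fintype F] (q : ℕ) (hq : Fintype.card F = q ^ 2)

include hq

theorem bad_diag_core (r : ℕ) [Fact r.Prime] (hr2 : 2 < r) (hrq : r ∣ q + 1) (n m : ℕ)
    (hn : 3 ≤ n) (hm : 1 ≤ m) (hmn : 2 * m ≤ n) (hbad : n + 2 ≤ r + 2 * m)
    (hobs : ∀ (inst : DecidableEq F) (d : Fin n → F) (W : Submodule F (Fin n → F)),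
      (∀ u ∈ W, ∀ v ∈ W, Cfsg.hermForm n F q u v = 0) →
      W.map (Matrix.toLin' (Matrix.diagonal d)) ≤ W →
      finrank F W ≤ ∑ a ∈ Finset.univ.image d, (Finset.univ.filter (fun k => d k = a)).card / 2) :
    ∃ x : Matrix.SpecialLinearGroup (Fin n) F, x ∈ Cfsg.SU n F q ∧ x ^ r = 1 ∧
      (∀ z : F, (x : Matrix (Fin n) (Fin n) F) ≠ z • 1) ∧
      ∀ W : Submodule F (Fin n → F), (∀ u ∈ W, ∀ v ∈ W, Cfsg.hermForm n F q u v = 0) →
        W.map (Matrix.toLin' (x : Matrix (Fin n) (Fin n) F)) ≤ W → finrank F W < m := by
  classical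
  have hr : r.Prime := Fact.out
  have hrodd : r % 2 = 1 := by
    rcases hr.eq_two_or_odd with h | h
    · omega
    · exact h
  -- an element of order `r`
  have hdvd : r ∣ Fintype.card Fˣ := by
    rw [Fintype.card_units, hq]
    have h1 := Nat.sq_sub_sq q 1
    rw [one_pow] at h1
    rw [h1]
    exact Dvd.dvd.mul_right hrq _
  obtain ⟨ω0, hω0⟩ := exists_prime_orderOf_dvd_card r hdvd
  set ω : F := (ω0 : F) with hω
  have hord : orderOf ω = r := by rw [hω, orderOf_units, hω0]
  have hωr : ω ^ r = 1 := by rw [← hord]; exact pow_orderOf_eq_one ω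
  have hωq : ω ^ (q + 1) = 1 := by
    obtain ⟨k, hk⟩ := hrq
    rw [hk, pow_mul, hωr, one_pow]
  have hpinj : ∀ a b : ℕ, a < r → b < r → ω ^ a = ω ^ b → a = b := by
    intro a b ha hb hab
    exact pow_injOn_Iio_orderOf (x := ω) (by rw [hord]; exact ha) (by rw [hord]; exact hb) hab
  -- the exponents
  set h : ℕ := (n - 2 * m + 2) / 2 with hh
  have hh1 : 1 ≤ h := by omega
  have hhn : 2 * h ≤ n := by omega
  have hhr : 2 * h < r := by omega
  have hhm : n - 2 * h ≤ 2 * m - 1 := by omega
  let e : Fin n → ℕ := fun j => if (j : ℕ) < 2 * h then expo r j else 0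
  let d : Fin n → F := fun j => ω ^ e j
  have he_lt : ∀ j, e j < r := by
    intro j
    simp only [e, expo]
    split_ifs <;> omega
  have he_pos : ∀ j : Fin n, (j : ℕ) < 2 * h → 0 < e j := by
    intro j hj
    simp only [e, expo]
    split_ifs <;> omega
  have he0 : ∀ j : Fin n, ¬ (j : ℕ) < 2 * h → e j = 0 := by
    intro j hj
    simp only [e]
    rw [if_neg hj]
  have he_inj : ∀ j j' : Fin n, (j : ℕ) < 2 * h → (j' : ℕ) < 2 * h → e j = e j' → j = j' := by
    intro j j' hj hj' hjj
    simp only [e, expo, if_pos hj, if_pos hj'] at hjj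
    apply Fin.ext
    split_ifs at hjj <;> omega
  have hd1 : ∀ j, d j = 1 ↔ ¬ (j : ℕ) < 2 * h := by
    intro j
    constructor
    · intro hdj hj
      have h0 : e j = 0 := hpinj _ _ (he_lt j) (by omega) (by rw [pow_zero]; exact hdj)
      have := he_pos j hj
      omega
    · intro hj
      simp only [d]
      rw [he0 j hj, pow_zero]
  have hdinj : ∀ j j' : Fin n, d j ≠ 1 → d j = d j' → j = j' := by
    intro j j' hj hjj
    have hj1 : (j : ℕ) < 2 * h := by
      by_contra hcon
      exact hj ((hd1 j).mpr hcon)
    have hj'1 : (j' : ℕ) < 2 * h := by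
      by_contra hcon
      exact hj (hjj.trans ((hd1 j').mpr hcon))
    exact he_inj j j' hj1 hj'1 (hpinj _ _ (he_lt j) (he_lt j') hjj)
  -- the sum of the exponents
  have hsum_e : ∑ j : Fin n, e j = h * r := by
    have h1 : ∑ j : Fin n, e j = ∑ j ∈ Finset.range n, (if j < 2 * h then expo r j else 0) :=
      Fin.sum_univ_eq_sum_range (fun j => if j < 2 * h then expo r j else 0) n
    have h2 : (Finset.range n).filter (fun j => j < 2 * h) = Finset.range (2 * h) := by
      ext j
      simp only [Finset.mem_filter, Finset.mem_range]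
      omega
    rw [h1, ← Finset.sum_filter, h2, sum_expo r h (by omega)]
  have hdet : (Matrix.diagonal d).det = 1 := by
    rw [Matrix.det_diagonal]
    simp only [d]
    rw [Finset.prod_pow_eq_pow_sum, hsum_e, mul_comm, pow_mul, hωr, one_pow]
  have hdq : ∀ j, d j ^ (q + 1) = 1 := by
    intro j
    simp only [d]
    rw [← pow_mul, mul_comm, pow_mul, hωq, one_pow]
  have hM : ∀ u v, Cfsg.hermForm n F q ((Matrix.diagonal d).mulVec u)
      ((Matrix.diagonal d).mulVec v) = Cfsg.hermForm n F q u v := by
    intro u v
    unfold Cfsg.hermForm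
    apply Finset.sum_congr rfl
    intro i _
    rw [Matrix.mulVec_diagonal, Matrix.mulVec_diagonal, mul_pow]
    have := hdq i
    rw [pow_succ] at this
    calc d i * u i * (d i ^ q * v i ^ q) = (d i ^ q * d i) * (u i * v i ^ q) := by ring
      _ = u i * v i ^ q := by rw [this, one_mul]
  obtain ⟨x, hxSU, hxM⟩ := exists_SU_of_matrix (q := q) n (Matrix.diagonal d) hdet hM
  refine ⟨x, hxSU, ?_, ?_, ?_⟩
  · apply Subtype.ext
    rw [Matrix.SpecialLinearGroup.coe_pow, hxM, Matrix.diagonal_pow]
    have : (d ^ r) = fun _ => (1 : F) := by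
      funext j
      simp only [Pi.pow_apply, d]
      rw [← pow_mul, mul_comm, pow_mul, hωr, one_pow]
    rw [this]
    exact Matrix.diagonal_one
  · intro z hz
    rw [hxM] at hz
    have h0 := congrFun (congrFun hz ⟨0, by omega⟩) ⟨0, by omega⟩
    have h1 := congrFun (congrFun hz ⟨1, by omega⟩) ⟨1, by omega⟩
    simp only [Matrix.diagonal_apply_eq, Matrix.smul_apply, Matrix.one_apply_eq, smul_eq_mul,
      mul_one] at h0 h1
    have hne : d ⟨0, by omega⟩ ≠ 1 := by
      intro hcon
      exact (hd1 _).mp hcon (by simp; omega)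
    have := hdinj ⟨0, by omega⟩ ⟨1, by omega⟩ hne (h0.trans h1.symm)
    simp [Fin.ext_iff] at this
  · intro W hTI hW
    rw [hxM] at hW
    have hb := hobs inferInstance d W hTI hW
    have hT : (Finset.univ.filter (fun j : Fin n => (j : ℕ) < 2 * h)).card = 2 * h := by
      rw [Fin.card_filter_val_lt]
      omega
    have hc1 : (Finset.univ.filter (fun k => d k = 1)).card = n - 2 * h := by
      have h1 : (Finset.univ.filter (fun k => d k = 1)) =
          (Finset.univ.filter (fun j : Fin n => ¬ (j : ℕ) < 2 * h)) := by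
        apply Finset.filter_congr
        intro j _
        exact hd1 j
      have h2 := Finset.card_filter_add_card_filter_not (s := (Finset.univ : Finset (Fin n)))
        (fun j : Fin n => (j : ℕ) < 2 * h)
      rw [Finset.card_univ, Fintype.card_fin, hT] at h2
      rw [h1]
      omega
    have hsum : ∑ a ∈ Finset.univ.image d, (Finset.univ.filter (fun k => d k = a)).card / 2 ≤
        m - 1 := by
      calc ∑ a ∈ Finset.univ.image d, (Finset.univ.filter (fun k => d k = a)).card / 2
          ≤ ∑ a ∈ Finset.univ.image d, (if a = 1 then m - 1 else 0) := by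
            apply Finset.sum_le_sum
            intro a _
            by_cases ha : a = 1
            · subst ha
              rw [if_pos rfl, hc1]
              omega
            · rw [if_neg ha]
              have hle : (Finset.univ.filter (fun k => d k = a)).card ≤ 1 := by
                apply Finset.card_le_one.mpr
                intro j hj j' hj'
                rw [Finset.mem_filter] at hj hj'
                exact hdinj j j' (by rw [hj.2]; exact ha) (by rw [hj.2, hj'.2])
              omega
        _ ≤ m - 1 := by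
            rw [Finset.sum_ite_eq']
            split_ifs <;> omega
    omega

end Cfsg.Agent.Helper97.HTBDCore
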