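import Mathlib
import Cfsg.Prelude.Def_GeometricClasses
import Cfsg.Prelude.Def_Classical
import Cfsg.Agent.Helper13.NPDefs
import Cfsg.Agent.Helper96.OHDefs
import Cfsg.Agent.Helper45.Spinor
import Cfsg.Agent.Helper43.UniIso
import Cfsg.Agent.Helper70.TSR2Z
import Cfsg.Agent.Helper12.NPARITH8
import Cfsg.Agent.Helper12.NPEXD
import Cfsg.Agent.Helper12.NPLEVCARD
import Cfsg.Agent.Helper67.NPEXJ
import Cfsg.Agent.Helper33.NPINVGOOD
import Cfsg.Agent.Helper52.NPNEGODD
import Cfsg.Agent.Helper66.NPSPINNEG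

set_option autoImplicit false
set_option linter.unusedSectionVars false

/-!
# CALL NP (helper13, row S5989), piece TWOMAIN = stage R2 (helper97).
-/

namespace Cfsg.Agent.Helper97.NP5989

open Module Cfsg Cfsg.Geo Cfsg.Agent.Helper13.NP Cfsg.Agent.Helper96.OH
open scoped MatrixGroups

section stages

variable {F : Type*} [Field F] [Fintype F]

/-- a bundled quadratic form with nondegenerate polar form is nondegenerate in the Prelude sense. -/
theorem np_two_nondeg_bundled {ι : Type} [Fintype ι] [DecidableEq ι] (Qf : QuadraticForm F (ι → F))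
    (h : (QuadraticMap.polarBilin Qf).Nondegenerate) :
    IsNondegenerateQuadraticForm (⇑Qf) where
  smul c v := by
    rw [QuadraticMap.map_smul, smul_eq_mul]
    ring
  polar_bilinear :=
    { add_left := fun x y v => QuadraticMap.polar_add_left Qf x y v
      smul_left := fun c x v => by
        rw [QuadraticMap.polar_smul_left, smul_eq_mul]
      add_right := fun v x y => QuadraticMap.polar_add_right Qf v x y
      smul_right := fun c v x => by
        rw [QuadraticMap.polar_smul_right, smul_eq_mul] }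
  nondegenerate := by
    intro v hv
    constructor
    · by_contra hne
      push Not at hne
      apply hv
      apply h.1 v
      intro y
      rw [QuadraticMap.polarBilin_apply_apply, QuadraticMap.polar_comm]
      exact hne y
    · by_contra hne
      push Not at hne
      apply hv
      apply h.1 v
      intro y
      rw [QuadraticMap.polarBilin_apply_apply]
      exact hne y

/-- the standard plus form is nondegenerate. -/
theorem np_two_std (d : ℕ) : IsNondegenerateQuadraticForm (Cfsg.quadFormPlus d F) := by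
  classical
  have h := np_two_nondeg_bundled (Cfsg.Agent.Helper43.plusQF d F)
    (Cfsg.Agent.Helper43.OrthEven.plusQF_nondeg (F := F) d)
  rwa [Cfsg.Agent.Helper43.plusQF_coe] at h

/-- odd order: `2 ≠ 0`. -/
theorem np_two_two_ne (hodd : Odd (Fintype.card F)) : (2 : F) ≠ 0 := by
  apply Ring.two_ne_zero
  intro h
  have h1 := FiniteField.even_card_iff_char_two.mp h
  rcases hodd with ⟨k, hk⟩
  omega

/-- the spinor sign of an element with square `-1`, in terms of `8 ∣ N`. -/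
theorem np_two_spin (d : ℕ) (hd : 1 ≤ d) (h2 : (2 : F) ≠ 0)
    (g : ↥(Cfsg.isometryGroup F (Cfsg.quadFormPlus d F)))
    (hg : ((g : GL (Fin d ⊕ Fin d) F) : Matrix (Fin d ⊕ Fin d) (Fin d ⊕ Fin d) F) *
      ((g : GL (Fin d ⊕ Fin d) F) : Matrix (Fin d ⊕ Fin d) (Fin d ⊕ Fin d) F) = -1) (c : F)
    (hc : c ≠ 0) :
    Cfsg.Agent.Helper45.spin (Cfsg.quadFormPlus d F) c g = 1 ↔
      (Even d ∨ Fintype.card F % 8 = 1) := by
  classical
  have hQ0 : Cfsg.quadFormPlus d F 0 = 0 := by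
    simp [Cfsg.quadFormPlus]
  obtain ⟨h4, hs⟩ := Cfsg.Agent.Helper66.NP5989.np_spin_neg (Cfsg.quadFormPlus d F) hQ0 h2 g hg c hc
  have hN := Cfsg.Agent.Helper12.NP5989.np_lev_card (F := F) d hd c hc
  have hoddq : Odd (Fintype.card F) := by
    by_contra hne
    rw [Nat.not_odd_iff_even] at hne
    have h1 : Fintype.card F % 2 = 0 := Nat.even_iff.mp hne
    have h3 := FiniteField.even_card_iff_char_two.mpr h1
    have h5 : (2 : F) = 0 := by
      have := ringChar.Nat.cast_ringChar (R := F)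
      rw [h3] at this
      exact_mod_cast this
    exact h2 h5
  have har := Cfsg.Agent.Helper12.NP5989.np_arith8 (Fintype.card F) d hoddq hd
  rw [hs, ← har, ← hN]
  rw [neg_one_pow_eq_one_iff_even (by decide)]
  constructor
  · intro he
    obtain ⟨k, hk⟩ := h4
    obtain ⟨j, hj⟩ := he
    exact ⟨j, by omega⟩
  · rintro ⟨j, hj⟩
    exact ⟨j, by omega⟩

/-- TWOMAIN [L, level 3] = stage R2. -/
theorem np_two (p : ℕ) [Fact p.Prime] [CharP F p] (q : ℕ) (hq : Fintype.card F = q) (hodd : Odd q)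
    (d m : ℕ) (hd : 4 ≤ d) (hm : Odd m) (hmd : m < d) (W₀ : Submodule F (Fin d ⊕ Fin d → F))
    (hW₀ : Module.finrank F ↥W₀ = m ∧
      IsNondegenerateOn (QuadraticMap.polar (Cfsg.quadFormPlus d F)) W₀) :
    (∀ x : GL (Fin d ⊕ Fin d) F, x ∈ Cfsg.Geo.omegaGL (Cfsg.quadFormPlus d F) →
      (∃ z : F, ((x ^ 2 : GL (Fin d ⊕ Fin d) F) : Matrix (Fin d ⊕ Fin d) (Fin d ⊕ Fin d) F) =
        z • (1 : Matrix (Fin d ⊕ Fin d) (Fin d ⊕ Fin d) F)) →
      (∀ z : F, (x : Matrix (Fin d ⊕ Fin d) (Fin d ⊕ Fin d) F) ≠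
        z • (1 : Matrix (Fin d ⊕ Fin d) (Fin d ⊕ Fin d) F)) →
      NPFix (Cfsg.quadFormPlus d F) W₀ m (x : Matrix (Fin d ⊕ Fin d) (Fin d ⊕ Fin d) F)) ↔
    (Odd d ∧ q % 8 ≠ 1) := by
  classical
  subst hq
  have h2 : (2 : F) ≠ 0 := np_two_two_ne hodd
  have hQ : IsNondegenerateQuadraticForm (Cfsg.quadFormPlus d F) := np_two_std d
  have hd1 : 1 ≤ d := by omega
  have hcardι : Fintype.card (Fin d ⊕ Fin d) = 2 * d := by
    rw [Fintype.card_sum, Fintype.card_fin]; ring
  have hne : Nonempty (Fin d ⊕ Fin d) := ⟨Sum.inl ⟨0, by omega⟩⟩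
  obtain ⟨ε, hε⟩ := FiniteField.exists_nonsquare (Cfsg.Agent.Helper45.ringChar_ne_two h2)
  have hε0 : ε ≠ 0 := by
    rintro rfl
    exact hε ⟨0, by simp⟩
  have hmem : ∀ g : ↥(Cfsg.isometryGroup F (Cfsg.quadFormPlus d F)),
      g ∈ Cfsg.Omega F (Cfsg.quadFormPlus d F) ↔
        (Cfsg.Agent.Helper45.spin (Cfsg.quadFormPlus d F) 1 g = 1 ∧
          Cfsg.Agent.Helper45.spin (Cfsg.quadFormPlus d F) ε g = 1) := by
    intro g
    exact Cfsg.Agent.Helper45.mem_omega_iff (Cfsg.Agent.Helper43.plusQF d F) h2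
      (Cfsg.Agent.Helper43.OrthEven.plusQF_nondeg (F := F) d) (by rw [hcardι]; omega) ε hε g
  constructor
  · intro hall
    by_contra hcon
    have hcase : Even d ∨ Fintype.card F % 8 = 1 := by
      by_contra h
      push Not at h
      exact hcon ⟨Nat.not_even_iff_odd.mp h.1, h.2⟩
    obtain ⟨g, hgI, hgg⟩ : ∃ g : GL (Fin d ⊕ Fin d) F,
        g ∈ Cfsg.isometryGroup F (Cfsg.quadFormPlus d F) ∧
        (g : Matrix (Fin d ⊕ Fin d) (Fin d ⊕ Fin d) F) *
          (g : Matrix (Fin d ⊕ Fin d) (Fin d ⊕ Fin d) F) = -1 := by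
      by_cases hde : Even d
      · exact Cfsg.Agent.Helper67.NP5989.np_ex_even d hde
      · have h8 : Fintype.card F % 8 = 1 := by
          rcases hcase with h | h
          · exact absurd h hde
          · exact h
        apply Cfsg.Agent.Helper12.NP5989.np_ex_sq d
        rw [FiniteField.isSquare_neg_one_iff]
        omega
    have hΩ : (⟨g, hgI⟩ : ↥(Cfsg.isometryGroup F (Cfsg.quadFormPlus d F))) ∈
        Cfsg.Omega F (Cfsg.quadFormPlus d F) := by
      rw [hmem]
      exact ⟨(np_two_spin d hd1 h2 ⟨g, hgI⟩ hgg 1 one_ne_zero).mpr hcase,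
        (np_two_spin d hd1 h2 ⟨g, hgI⟩ hgg ε hε0).mpr hcase⟩
    have hgΩ : g ∈ Cfsg.Geo.omegaGL (Cfsg.quadFormPlus d F) :=
      ⟨⟨g, hgI⟩, hΩ, rfl⟩
    have hgM : ∀ v, Cfsg.quadFormPlus d F
        ((g : Matrix (Fin d ⊕ Fin d) (Fin d ⊕ Fin d) F).mulVec v) = Cfsg.quadFormPlus d F v :=
      fun v => hgI v v
    have hsq : ∃ z : F, ((g ^ 2 : GL (Fin d ⊕ Fin d) F) :
        Matrix (Fin d ⊕ Fin d) (Fin d ⊕ Fin d) F) =
        z • (1 : Matrix (Fin d ⊕ Fin d) (Fin d ⊕ Fin d) F) := by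
      refine ⟨-1, ?_⟩
      rw [pow_two, Units.val_mul, hgg]
      simp
    have hns : ∀ z : F, (g : Matrix (Fin d ⊕ Fin d) (Fin d ⊕ Fin d) F) ≠
        z • (1 : Matrix (Fin d ⊕ Fin d) (Fin d ⊕ Fin d) F) := by
      intro z hz
      have hzz : (z * z) • (1 : Matrix (Fin d ⊕ Fin d) (Fin d ⊕ Fin d) F) = -1 := by
        rw [← hgg, hz]
        simp [smul_smul]
      have h1 : z * z = -1 := by
        have := congrFun (congrFun hzz (Sum.inl ⟨0, by omega⟩)) (Sum.inl ⟨0, by omega⟩)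
        simpa using this
      have h3 : (g : Matrix (Fin d ⊕ Fin d) (Fin d ⊕ Fin d) F) *
          (g : Matrix (Fin d ⊕ Fin d) (Fin d ⊕ Fin d) F) =
          (z * z) • (1 : Matrix (Fin d ⊕ Fin d) (Fin d ⊕ Fin d) F) := by
        rw [hz]; simp [smul_smul]
      rcases Cfsg.Agent.Helper70.TSR2.r2_z (Cfsg.quadFormPlus d F) hQ hne _ hgM (z * z) h3 with
        h5 | h5
      · -- z * z = 1 and z * z = -1
        apply h2
        have : (1 : F) = -1 := h5.symm.trans h1
        linear_combination this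
      · -- use g = z • 1 : Q (z v) = Q v gives z^2 = 1
        have hw0 : (Pi.single (Sum.inl ⟨0, by omega⟩ : Fin d ⊕ Fin d) (1 : F) :
            Fin d ⊕ Fin d → F) ≠ 0 := by
          intro h
          have := congrFun h (Sum.inl ⟨0, by omega⟩)
          simp at this
        obtain ⟨-, x, hx⟩ := hQ.nondegenerate _ hw0
        have hex : ∃ v : Fin d ⊕ Fin d → F, Cfsg.quadFormPlus d F v ≠ 0 := by
          by_contra hcon'
          push Not at hcon'
          apply hx
          unfold QuadraticMap.polar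
          rw [hcon', hcon', hcon']; ring
        obtain ⟨v, hv⟩ := hex
        have h6 := hgM v
        rw [hz, Matrix.smul_mulVec, Matrix.one_mulVec, hQ.smul] at h6
        have h7 : (z ^ 2 - 1) * Cfsg.quadFormPlus d F v = 0 := by linear_combination h6
        rcases mul_eq_zero.mp h7 with h8 | h8
        · apply h2
          have : z * z = 1 := by linear_combination h8
          rw [h1] at this
          linear_combination -this
        · exact hv h8
    obtain ⟨W, ⟨hWm, hWnd, -⟩, hWinv⟩ := hall g hgΩ hsq hns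
    have hev := Cfsg.Agent.Helper52.NP5989.np_neg_odd (Cfsg.quadFormPlus d F) hQ h2 _ hgM hgg W hWnd hWinv
    rw [hWm] at hev
    exact (Nat.not_even_iff_odd.mpr hm) hev
  · rintro ⟨hdo, hq8⟩ x hxΩ ⟨z, hz⟩ hns
    obtain ⟨g, hgΩ, rfl⟩ := hxΩ
    have hgM : ∀ v, Cfsg.quadFormPlus d F
        (((g : GL (Fin d ⊕ Fin d) F) : Matrix (Fin d ⊕ Fin d) (Fin d ⊕ Fin d) F).mulVec v) =
        Cfsg.quadFormPlus d F v := fun v => g.2 v v
    have hz' : ((g : GL (Fin d ⊕ Fin d) F) : Matrix (Fin d ⊕ Fin d) (Fin d ⊕ Fin d) F) *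
        ((g : GL (Fin d ⊕ Fin d) F) : Matrix (Fin d ⊕ Fin d) (Fin d ⊕ Fin d) F) =
        z • (1 : Matrix (Fin d ⊕ Fin d) (Fin d ⊕ Fin d) F) := by
      rw [← hz, pow_two, Units.val_mul]
      rfl
    rcases Cfsg.Agent.Helper70.TSR2.r2_z (Cfsg.quadFormPlus d F) hQ hne _ hgM z hz' with h5 | h5
    · rw [h5, one_smul] at hz'
      exact Cfsg.Agent.Helper33.NP5989.np_inv_good (Cfsg.quadFormPlus d F) hQ h2 _ hgM hz' W₀ hW₀.2 m hW₀.1
        (by rw [hcardι]; omega)
    · exfalso
      rw [h5] at hz'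
      have hz'' : ((g : GL (Fin d ⊕ Fin d) F) : Matrix (Fin d ⊕ Fin d) (Fin d ⊕ Fin d) F) *
          ((g : GL (Fin d ⊕ Fin d) F) : Matrix (Fin d ⊕ Fin d) (Fin d ⊕ Fin d) F) = -1 := by
        rw [hz']; simp
      have h1 := ((hmem g).mp hgΩ).1
      rcases (np_two_spin d hd1 h2 g hz'' 1 one_ne_zero).mp h1 with h | h
      · exact (Nat.not_even_iff_odd.mpr hdo) h
      · exact hq8 h

end stages

end Cfsg.Agent.Helper97.NP5989
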