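-- helper97 library: the structure theorem for groups of isometries of a non-degenerate quadratic form
-- on `F^n` (all characteristics), PLUS-type aware version of `Helper95.O12.o_core`: the pair of totally
-- singular subspaces and the alternating tensor decomposition are explicit outcomes.
import Cfsg.Agent.Helper95.O12Core
import Cfsg.Agent.Helper27.O12ZA2p
import Cfsg.Agent.Helper46.OZOddPair

set_option autoImplicit false
set_option linter.unusedSectionVars false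
set_option linter.unusedVariables false
open Cfsg Cfsg.Geo Matrix
open Cfsg.Agent.Helper96
open scoped Kronecker

namespace Cfsg.Agent.Helper97.O12P

variable {F : Type*} [Field F] {n : ℕ}

/-- The outcomes of the plus-type aware structure theorem. -/
def OutcomeP [Fintype F] (Q : (Fin n → F) → F) (H : Subgroup (GL (Fin n) F)) : Prop :=
  (∃ W : Submodule F (Fin n → F), W ≠ ⊥ ∧ IsTotallySingularQuad Q W ∧ H ≤ subspaceStabilizer W) ∨
  ((2 : F) = 0 ∧ ∃ v : Fin n → F, Q v ≠ 0 ∧ H ≤ subspaceStabilizer (Submodule.span F {v})) ∨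
  (∃ W W' : Submodule F (Fin n → F), W ≠ ⊥ ∧ W' ≠ ⊥ ∧ IsNondegenerateOn (QuadraticMap.polar Q) W ∧
      IsNondegenerateOn (QuadraticMap.polar Q) W' ∧ AreOrthogonalFor (QuadraticMap.polar Q) W W' ∧
      W ⊓ W' = ⊥ ∧ W ⊔ W' = ⊤ ∧ H ≤ subspaceStabilizer W ∧ H ≤ subspaceStabilizer W') ∨
  (ActsIrreducibly (matrixSet H) ∧ ∃ (t k : ℕ) (D : Fin t → Submodule F (Fin n → F)),
      IsNondegenerateMDecomposition (QuadraticMap.polar Q) k D ∧ H ≤ decompositionStabilizer D) ∨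
  (∃ (r : ℕ) (K : Subalgebra F (Matrix (Fin n) (Fin n) F)), r.Prime ∧ IsFieldSubalgebra r K ∧
      H ≤ subalgebraNormalizer K) ∨
  (∃ (m : ℕ) (D : Fin 2 → Submodule F (Fin n → F)), IsMDecomposition m D ∧
      (∀ i, IsTotallySingularQuad Q (D i)) ∧ H ≤ decompositionStabilizer D) ∨
  ((2 : F) ≠ 0 ∧ ActsIrreducibly (matrixSet H) ∧
    ∃ (n₁ n₂ : ℕ) (e : Fin n ≃ Fin n₁ × Fin n₂) (P : GL (Fin n) F)
      (f₁ : (Fin n₁ → F) → (Fin n₁ → F) → F) (f₂ : (Fin n₂ → F) → (Fin n₂ → F) → F),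
      2 ≤ n₁ ∧ 2 ≤ n₂ ∧ IsSymmetricForm f₁ ∧ IsSymmetricForm f₂ ∧
      IsTensorFormStructure id (QuadraticMap.polar Q) f₁ f₂ e P ∧
      H ≤ tensorProductSubgroup n₁ n₂ e P) ∨
  (∃ (n₁ n₂ : ℕ) (e : Fin n ≃ Fin n₁ × Fin n₂) (P : GL (Fin n) F)
      (f₁ : (Fin n₁ → F) → (Fin n₁ → F) → F) (f₂ : (Fin n₂ → F) → (Fin n₂ → F) → F),
      IsSymplecticForm f₁ ∧ IsSymplecticForm f₂ ∧
      IsTensorFormStructure id (QuadraticMap.polar Q) f₁ f₂ e P ∧
      (∀ (s : Fin n₁ → F) (y : Fin n₂ → F),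
        Q ((P : Matrix (Fin n) (Fin n) F) *ᵥ ((fun p : Fin n₁ × Fin n₂ => s p.1 * y p.2) ∘ e)) = 0) ∧
      H ≤ tensorProductSubgroup n₁ n₂ e P) ∨
  (∃ (F₁ : Subfield F) (r : ℕ) (P : GL (Fin n) F) (ζ : F), r.Prime ∧
      Fintype.card F = Nat.card F₁ ^ r ∧ ζ ≠ 0 ∧
      IsQuadFormRationalStructure (fun v : Fin n → F => ζ * Q v) F₁ P ∧
      H ≤ subfieldSubgroup F₁ P) ∨
  InOrthogonalResidualClass H ∨
  (∃ (r j : ℕ), r.Prime ∧ n * n = r ^ j) ∨
  (∃ (d t : ℕ), 2 ≤ d ∧ 2 ≤ t ∧ n = d ^ t)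

/-- The tensor case, with the alternating decomposition explicit. -/
theorem o_tensor_p [Fintype F] (hn : 2 ≤ n) (Q : (Fin n → F) → F)
    (hQ : IsNondegenerateQuadraticForm Q) (H N : Subgroup (GL (Fin n) F))
    (hH : ∀ h ∈ H, ∀ x, Q ((h : Matrix (Fin n) (Fin n) F) *ᵥ x) = Q x)
    (hirr : ActsIrreducibly (matrixSet H)) (hNH : N ≤ H)
    (hNn : ∀ h ∈ H, ∀ x ∈ N, h * x * h⁻¹ ∈ N) {d k : ℕ} {e : Fin n ≃ Fin d × Fin k}
    {P : GL (Fin n) F} {ρ : Matrix (Fin n) (Fin n) F → Matrix (Fin d) (Fin d) F}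
    (hTD : TensorData N d k e P ρ) (hd : 2 ≤ d) (hk : 2 ≤ k) :
    (∃ (n₁ n₂ : ℕ) (e : Fin n ≃ Fin n₁ × Fin n₂) (P : GL (Fin n) F)
      (f₁ : (Fin n₁ → F) → (Fin n₁ → F) → F) (f₂ : (Fin n₂ → F) → (Fin n₂ → F) → F),
      IsSymplecticForm f₁ ∧ IsSymplecticForm f₂ ∧
      IsTensorFormStructure id (QuadraticMap.polar Q) f₁ f₂ e P ∧
      (∀ (s : Fin n₁ → F) (y : Fin n₂ → F),
        Q ((P : Matrix (Fin n) (Fin n) F) *ᵥ ((fun p : Fin n₁ × Fin n₂ => s p.1 * y p.2) ∘ e)) = 0) ∧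
      H ≤ tensorProductSubgroup n₁ n₂ e P) ∨
    ((2 : F) ≠ 0 ∧ ∃ (n₁ n₂ : ℕ) (e : Fin n ≃ Fin n₁ × Fin n₂) (P : GL (Fin n) F)
      (f₁ : (Fin n₁ → F) → (Fin n₁ → F) → F) (f₂ : (Fin n₂ → F) → (Fin n₂ → F) → F),
      2 ≤ n₁ ∧ 2 ≤ n₂ ∧ IsSymmetricForm f₁ ∧ IsSymmetricForm f₂ ∧
      IsTensorFormStructure id (QuadraticMap.polar Q) f₁ f₂ e P ∧
      H ≤ tensorProductSubgroup n₁ n₂ e P) := by
  classical
  have hH' := Helper95.O12.le_isoSub H hH
  by_cases h2 : (2 : F) = 0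
  · left
    have hf := Helper95.O12.polar_symplectic h2 hQ
    rcases Sy.tensor_cases hf H N hH' hirr hNH hNn hTD hd hk with
      ⟨h2', -⟩ | ⟨-, n₁, n₂, e', P', f₁, f₂, hf₁, hf₂, hT, hle⟩
    · exact absurd h2 h2'
    · have hpure := Cfsg.Agent.Helper88.o12_tensor_char2 h2 (by rw [Fintype.card_fin]; exact hn) Q hQ H hH
        hirr e' P' f₁ f₂ hf₁ hf₂ hT hle
      exact ⟨n₁, n₂, e', P', f₁, f₂, hf₁, hf₂, hT, hpure, hle⟩
  · have hf := Helper95.O12.polar_symmetric hQ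
    have hle : H ≤ tensorProductSubgroup d k e P := by
      intro h hh
      refine hTD.normalizer_mem h (hNn h hh) ?_
      have := hNn h⁻¹ (H.inv_mem hh)
      simpa using this
    obtain ⟨B₁, C, hG, hB₁det, hCdet, hsym, hB₁fix⟩ :=
      Helper94.OA.tensor_gram hf hTD (hNH.trans hH')
    have hT := Helper94.OA.tensor_form_structure hf e P B₁ C hG
    rcases hsym with ⟨hB, hC⟩ | ⟨hB, hC⟩
    · right
      exact ⟨h2, d, k, e, P, bf B₁, bf C, hd, hk, Sy.bf_symmetric B₁ hB₁det hB,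
        Sy.bf_symmetric C hCdet hC, hT, hle⟩
    · left
      have hf₁ := Sy.bf_symplectic_odd h2 B₁ hB₁det hB
      have hf₂ := Sy.bf_symplectic_odd h2 C hCdet hC
      obtain ⟨c, hc, hpt⟩ := Cfsg.Agent.Helper74.o12_tensor_pure (QuadraticMap.polar Q) e P (bf B₁) (bf C)
        hf₁.bilinear hf₂.bilinear hT
      refine ⟨d, k, e, P, bf B₁, bf C, hf₁, hf₂, hT, ?_, hle⟩
      intro s y
      have h1 := hpt s s y y
      rw [Helper97.polar_self Q hQ, hf₁.alternating, zero_mul, mul_zero] at h1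
      exact (mul_eq_zero.mp h1).resolve_left h2

/-- Every group of isometries of a non-degenerate quadratic form stabilises one of the listed
structures (plus-type aware version). -/
theorem o_core_p [Fintype F] (hn : 3 ≤ n) (Q : (Fin n → F) → F)
    (hQ : IsNondegenerateQuadraticForm Q) (H : Subgroup (GL (Fin n) F))
    (hH : ∀ h ∈ H, ∀ x, Q ((h : Matrix (Fin n) (Fin n) F) *ᵥ x) = Q x) : OutcomeP Q H := by
  classical
  have hnz : NeZero n := ⟨by omega⟩
  have hZc : ∀ z ∈ scalars (Fin n) F, ∀ g : GL (Fin n) F, z * g = g * z :=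
    fun z hz g => Helper97.scalars_comm hz g
  by_cases hirr : ActsIrreducibly (matrixSet H)
  swap
  · rcases Cfsg.Agent.Helper66.o12_reducible Q hQ H hH hirr with h | h | h
    · exact Or.inl h
    · exact Or.inr (Or.inl h)
    · exact Or.inr (Or.inr (Or.inl h))
  have hHZ : ¬ H ≤ scalars (Fin n) F := Helper97.not_le_scalars_of_irreducible (by omega) H hirr
  obtain ⟨N, hNH, hNn, hNZ, hNmin⟩ := Helper97.exists_minimal_normal (scalars (Fin n) F) H hHZ
  have hzan : (∃ (t k : ℕ) (D : Fin t → Submodule F (Fin n → F)),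
      IsNondegenerateMDecomposition (QuadraticMap.polar Q) k D ∧ H ≤ decompositionStabilizer D) ∨
    (∃ (r : ℕ) (K : Subalgebra F (Matrix (Fin n) (Fin n) F)), r.Prime ∧ IsFieldSubalgebra r K ∧
      H ≤ subalgebraNormalizer K) ∨
    (∃ (m : ℕ) (D : Fin 2 → Submodule F (Fin n → F)), IsMDecomposition m D ∧
      (∀ i, IsTotallySingularQuad Q (D i)) ∧ H ≤ decompositionStabilizer D) ∨
    (∀ k, ZCent (matrixSet N) k → ∃ c : F, k = c • (1 : Matrix (Fin n) (Fin n) F)) := by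
    by_cases h2 : (2 : F) = 0
    · exact Cfsg.Agent.Helper27.o12_z_two_pair h2 (by omega) Q hQ H N hH hirr hNH hNn
    · exact Cfsg.Agent.Helper46.o12_z_odd_pair h2 (by omega) Q hQ H N hH hirr hNH hNn
  rcases hzan with h | h | h | hsc
  · exact Or.inr (Or.inr (Or.inr (Or.inl ⟨hirr, h⟩)))
  · exact Or.inr (Or.inr (Or.inr (Or.inr (Or.inl h))))
  · exact Or.inr (Or.inr (Or.inr (Or.inr (Or.inr (Or.inl h)))))
  obtain ⟨d, k, e, P, ρ, hTD⟩ := tensorData_of_zcent_scalar (by omega) H N hirr hNn hsc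
  by_cases hd1 : d = 1
  · exact absurd (hTD.le_scalars_of_one hd1) hNZ
  have hd2 : 2 ≤ d := by have := hTD.hd; omega
  by_cases hk1 : k = 1
  swap
  · have hk2 : 2 ≤ k := by have := hTD.hk; omega
    rcases o_tensor_p (by omega) Q hQ H N hH hirr hNH hNn hTD hd2 hk2 with h | ⟨h2, h⟩
    · exact Or.inr (Or.inr (Or.inr (Or.inr (Or.inr (Or.inr (Or.inr (Or.inl h)))))))
    · exact Or.inr (Or.inr (Or.inr (Or.inr (Or.inr (Or.inr (Or.inl ⟨h2, hirr, h⟩))))))
  -- `N` is absolutely irreducible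
  have habs : ActsAbsolutelyIrreducibly (matrixSet N) := hTD.absIrred_of_one hk1
  have hCN : ⁅N, N⁆ ≤ N := by
    rw [Subgroup.commutator_le]
    intro a ha b hb
    rw [commutatorElement_def]
    exact N.mul_mem (N.mul_mem (N.mul_mem ha hb) (N.inv_mem ha)) (N.inv_mem hb)
  rcases hNmin ⁅N, N⁆ hCN (Helper97.commutator_normalized H N hNn) with hC | hC
  · -- class two modulo scalars
    have hab : ∀ a ∈ N, ∀ b ∈ N, a * b * a⁻¹ * b⁻¹ ∈ scalars (Fin n) F := by
      intro a ha b hb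
      have := Subgroup.commutator_mem_commutator ha hb
      rw [commutatorElement_def] at this
      exact hC this
    obtain ⟨r, hr, hpow⟩ := Helper97.exists_prime_pow_mem (scalars (Fin n) F) H N hZc hNn hNZ hNmin hab
    obtain ⟨j, hj⟩ := sq_eq_prime_pow_of_class_two N habs hab r hr hpow
    exact Or.inr (Or.inr (Or.inr (Or.inr (Or.inr (Or.inr (Or.inr (Or.inr (Or.inr (Or.inr (Or.inl
      ⟨r, j, hr, hj⟩))))))))))
  -- perfect
  have hperf : ⁅N, N⁆ = N := hC
  have hirrN : ActsIrreducibly (matrixSet N) := habs.1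
  have hcentN : ∀ c : GL (Fin n) F, (∀ s ∈ N, c * s = s * c) → c ∈ scalars (Fin n) F := by
    intro c hc
    obtain ⟨a, ha⟩ := habs.2 (c : Matrix (Fin n) (Fin n) F) (by
      rintro _ ⟨s, hs, rfl⟩
      rw [← Units.val_mul, ← Units.val_mul, hc s hs])
    exact (Helper97.scalar_mem_scalars_iff c).mpr ⟨a, ha⟩
  rcases perfect_structure (scalars (Fin n) F) H N hZc hNn hNZ hNmin hperf with
    hsimple | ⟨S, hSN, hSn, hSZ, hSperf, hne, hcomm, hgen⟩
  swap
  · -- central product of conjugates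
    have hsc' : ∀ M, ZCent (matrixSet S) M → ∃ c : F, M = c • (1 : Matrix (Fin n) (Fin n) F) := by
      intro M hM
      apply habs.2
      have hyc : ∀ h ∈ H, ∀ y ∈ Helper97.cj h S,
          M * (y : Matrix (Fin n) (Fin n) F) = (y : Matrix (Fin n) (Fin n) F) * M := by
        intro h hh y hy'
        rcases hcomm h hh with h1 | h1
        · rw [h1] at hy'
          exact hM.1 _ (Helper97.coe_mem_matrixSet hy')
        · apply hM.2
          rintro _ ⟨s', hs', rfl⟩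
          rw [← Units.val_mul, ← Units.val_mul, h1 s' hs' y hy']
      have key : ∀ x ∈ Subgroup.closure {x | ∃ h ∈ H, x ∈ Helper97.cj h S},
          M * (x : Matrix (Fin n) (Fin n) F) = (x : Matrix (Fin n) (Fin n) F) * M ∧
          M * ((x⁻¹ : GL (Fin n) F) : Matrix (Fin n) (Fin n) F) =
            ((x⁻¹ : GL (Fin n) F) : Matrix (Fin n) (Fin n) F) * M := by
        intro x hx
        induction hx using Subgroup.closure_induction with
        | mem y hy =>
          obtain ⟨h, hh, hy'⟩ := hy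
          exact ⟨hyc h hh y hy', hyc h hh y⁻¹ (Subgroup.inv_mem _ hy')⟩
        | one =>
          rw [inv_one, Units.val_one, mul_one, one_mul]
          exact ⟨rfl, rfl⟩
        | mul y z _ _ hy hz =>
          rw [_root_.mul_inv_rev, Units.val_mul, Units.val_mul]
          constructor
          · rw [← mul_assoc, hy.1, mul_assoc, hz.1, ← mul_assoc]
          · rw [← mul_assoc, hz.2, mul_assoc, hy.2, ← mul_assoc]
        | inv y _ hy =>
          rw [inv_inv]
          exact ⟨hy.2, hy.1⟩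
      rintro _ ⟨x, hx, rfl⟩
      exact (key x (by rw [hgen]; exact hx)).1
    obtain ⟨d', k', e', P', ρ', hTD'⟩ := tensorData_of_zcent_scalar (by omega) N S hirrN hSn hsc'
    have hd'2 : 2 ≤ d' := by
      have h1 := hTD'.hd
      have h2 : d' ≠ 1 := fun h => hSZ (hTD'.le_scalars_of_one h)
      omega
    obtain ⟨t, ht, hnt⟩ := eq_pow_of_central_product H N S hTD' habs hne hcomm hgen
    exact Or.inr (Or.inr (Or.inr (Or.inr (Or.inr (Or.inr (Or.inr (Or.inr (Or.inr (Or.inr (Or.inr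
      ⟨d', t, hd'2, ht, hnt⟩))))))))))
  -- simple modulo scalars
  have hne0 : Nonempty (Fin n) := ⟨⟨0, by omega⟩⟩
  by_cases hsub : ∃ F₀ : Subfield F, F₀ ≠ ⊤ ∧ RealisableOver F₀ (matrixSet N)
  · obtain ⟨F₀, hF₀, B, hB⟩ := hsub
    obtain ⟨F₁, r, hle, hr, hcard⟩ := Helper97.Gen.exists_prime_index_subfield F₀ hF₀
    obtain ⟨P', ζ, hζ, hnorm, hrat⟩ := Cfsg.Agent.Helper88.o12_subfield_quad Q hQ
      (by rw [Fintype.card_fin]; omega) F₁ N (fun g hg x => hH g (hNH hg) x) habs B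
      (fun s hs i j => hle (hB s hs i j))
    exact Or.inr (Or.inr (Or.inr (Or.inr (Or.inr (Or.inr (Or.inr (Or.inr (Or.inl
      ⟨F₁, r, P', ζ, hr, hcard, hζ, hrat, fun h hh => hnorm h (hNn h hh)⟩))))))))
  have hcore : IsResidualCore H N :=
    { le := hNH
      normal := hNn
      perfect := hperf
      simple := Helper97.isSimpleGroup_quot (scalars (Fin n) F) N hNZ hsimple
      nonabelian := Helper97.not_commutative_quot (scalars (Fin n) F) N hNZ hperf
      centralizer_scalar := fun h _ hh =>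
        Helper97.mem_of_centralizes_mod (scalars (Fin n) F) N hZc hperf hcentN h hh
      absIrred := habs
      no_subfield := fun F₀ hF₀ hreal => hsub ⟨F₀, hF₀, hreal⟩ }
  refine Or.inr (Or.inr (Or.inr (Or.inr (Or.inr (Or.inr (Or.inr (Or.inr (Or.inr (Or.inl
    ⟨N, hcore, ?_⟩)))))))))
  rintro ⟨σ, f', hf', hfix⟩
  have hsq := Helper97.Gen.isSesq_of_bilinear hQ.polar_bilinear
  have hdet : (Helper97.Gen.gram (QuadraticMap.polar Q)).det ≠ 0 :=
    hsq.det_gram_ne_zero (fun v hv => (hQ.nondegenerate v hv).1)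
  have hgram : ∀ g ∈ N, (g : Matrix (Fin n) (Fin n) F)ᵀ * Helper97.Gen.gram (QuadraticMap.polar Q)
      * (g : Matrix (Fin n) (Fin n) F) = Helper97.Gen.gram (QuadraticMap.polar Q) := by
    intro g hg
    have h1 := hsq.gram_of_similar (g : Matrix (Fin n) (Fin n) F) 1 (fun u v => by
      rw [one_mul]
      exact Helper95.O12.polar_fix (hH g (hNH hg)) u v)
    rwa [one_smul, Sy.map_refl'] at h1
  obtain ⟨F₀, hF₀, hreal⟩ := Sy.realisable_of_fixes_unitary_gram
    (Helper97.Gen.gram (QuadraticMap.polar Q)) hdet N hgram habs σ f' hf' hfix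
  exact hsub ⟨F₀, hF₀, hreal⟩

end Cfsg.Agent.Helper97.O12P
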