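-- helper97 library: the maximal subgroups of Ω_12^+(q) — row assembly from the plus-type aware
-- structure theorem `O12P.o_core_p` and the pieces of CALL S5871 / CALL S5874.
import Cfsg.Agent.Helper97.O12PCore
import Cfsg.Agent.Helper95.O12Row
import Cfsg.Agent.Helper94.Plus4
import Cfsg.Agent.Helper94.PlusBlocks
import Cfsg.Agent.Helper94.Blocks3
import Cfsg.Agent.Helper94.PlusPlane
import Cfsg.Agent.Helper43.TwoFamGeo
import Cfsg.Agent.Helper14.O12T1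
import Cfsg.Agent.Helper20.O12pTA
import Cfsg.Agent.Helper74.O12pT2I
import Cfsg.Agent.Helper20.O12pT22
import Cfsg.Agent.Helper80.O12pN2s
import Cfsg.Agent.Helper10.O12pFS
import Cfsg.Agent.Helper10.O12pNTP
import Cfsg.Agent.Helper28.O12pN42
import Cfsg.Agent.Helper78.O12Iso
import Cfsg.Agent.Helper65.O12T34

set_option autoImplicit false
set_option linter.unusedSectionVars false
set_option linter.unusedVariables false
open Cfsg Cfsg.Geo Matrix
open Cfsg.Agent.Helper96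
open Cfsg.Agent.Helper95.O12

namespace Cfsg.Agent.Helper97.O12P

variable {F : Type*} [Field F] [Fintype F]

/-- The conclusion of the row. -/
def Goal12P (Q : (Fin 12 → F) → F) (H : Subgroup (Matrix.GeneralLinearGroup (Fin 12) F)) : Prop :=
    (∃ W : Submodule F (Fin 12 → F), W ≠ ⊥ ∧ Cfsg.Geo.IsTotallySingularQuad Q W ∧ Module.finrank F W ≠ 5 ∧ H = Cfsg.Geo.subspaceStabilizer W ⊓ Cfsg.Geo.omegaGL Q) ∨
    (Odd (Fintype.card F) ∧ ∃ W : Submodule F (Fin 12 → F), W ≠ ⊥ ∧ W ≠ ⊤ ∧ Odd (Module.finrank F W) ∧ 2 * Module.finrank F W ≠ 12 ∧ Cfsg.Geo.IsNondegenerateOn (QuadraticMap.polar Q) W ∧ H = Cfsg.Geo.subspaceStabilizer W ⊓ Cfsg.Geo.omegaGL Q) ∨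
    (∃ W : Submodule F (Fin 12 → F), Module.finrank F W = 2 ∧ Cfsg.Geo.IsNondegenerateOn (QuadraticMap.polar Q) W ∧ ¬ Cfsg.Geo.IsPlusTypeOn Q W ∧ H = Cfsg.Geo.subspaceStabilizer W ⊓ Cfsg.Geo.omegaGL Q) ∨
    (4 ≤ Fintype.card F ∧ ∃ W : Submodule F (Fin 12 → F), Module.finrank F W = 2 ∧ Cfsg.Geo.IsNondegenerateOn (QuadraticMap.polar Q) W ∧ Cfsg.Geo.IsPlusTypeOn Q W ∧ H = Cfsg.Geo.subspaceStabilizer W ⊓ Cfsg.Geo.omegaGL Q) ∨
    (∃ W : Submodule F (Fin 12 → F), Module.finrank F W = 4 ∧ Cfsg.Geo.IsNondegenerateOn (QuadraticMap.polar Q) W ∧ H = Cfsg.Geo.subspaceStabilizer W ⊓ Cfsg.Geo.omegaGL Q) ∨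
    (¬ Odd (Fintype.card F) ∧ ∃ v : (Fin 12 → F), Q v ≠ 0 ∧ H = Cfsg.Geo.subspaceStabilizer (Submodule.span F {v}) ⊓ Cfsg.Geo.omegaGL Q) ∨
    ((∃ p : ℕ, p.Prime ∧ Odd p ∧ Fintype.card F = p) ∧ ∃ D : Fin 12 → Submodule F (Fin 12 → F), Cfsg.Geo.IsOrthogonalMDecomposition Q 1 D ∧ H = Cfsg.Geo.decompositionStabilizer D ⊓ Cfsg.Geo.omegaGL Q) ∨
    (7 ≤ Fintype.card F ∧ ∃ D : Fin 6 → Submodule F (Fin 12 → F), Cfsg.Geo.IsOrthogonalMDecomposition Q 2 D ∧ (∀ i, Cfsg.Geo.IsPlusTypeOn Q (D i)) ∧ H = Cfsg.Geo.decompositionStabilizer D ⊓ Cfsg.Geo.omegaGL Q) ∨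
    (Fintype.card F ≠ 3 ∧ ∃ D : Fin 6 → Submodule F (Fin 12 → F), Cfsg.Geo.IsOrthogonalMDecomposition Q 2 D ∧ (∀ i, ¬ Cfsg.Geo.IsPlusTypeOn Q (D i)) ∧ H = Cfsg.Geo.decompositionStabilizer D ⊓ Cfsg.Geo.omegaGL Q) ∨
    (Odd (Fintype.card F) ∧ 5 ≤ Fintype.card F ∧ ∃ D : Fin 4 → Submodule F (Fin 12 → F), Cfsg.Geo.IsOrthogonalMDecomposition Q 3 D ∧ H = Cfsg.Geo.decompositionStabilizer D ⊓ Cfsg.Geo.omegaGL Q) ∨
    (3 ≤ Fintype.card F ∧ ∃ D : Fin 3 → Submodule F (Fin 12 → F), Cfsg.Geo.IsOrthogonalMDecomposition Q 4 D ∧ H = Cfsg.Geo.decompositionStabilizer D ⊓ Cfsg.Geo.omegaGL Q) ∨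
    (∃ D : Fin 2 → Submodule F (Fin 12 → F), Cfsg.Geo.IsOrthogonalMDecomposition Q 6 D ∧ H = Cfsg.Geo.decompositionStabilizer D ⊓ Cfsg.Geo.omegaGL Q) ∨
    (∃ D : Fin 2 → Submodule F (Fin 12 → F), Cfsg.Geo.IsMDecomposition 6 D ∧ (∀ i, Cfsg.Geo.IsTotallySingularQuad Q (D i)) ∧ H = Cfsg.Geo.decompositionStabilizer D ⊓ Cfsg.Geo.omegaGL Q) ∨
    (∃ K : Subalgebra F (Matrix (Fin 12) (Fin 12) F), Cfsg.Geo.IsFieldSubalgebra 2 K ∧ H = Cfsg.Geo.subalgebraNormalizer K ⊓ Cfsg.Geo.omegaGL Q) ∨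
    (∃ K : Subalgebra F (Matrix (Fin 12) (Fin 12) F), Cfsg.Geo.IsFieldSubalgebra 3 K ∧ H = Cfsg.Geo.subalgebraNormalizer K ⊓ Cfsg.Geo.omegaGL Q) ∨
    (∃ K : Subalgebra F (Matrix (Fin 12) (Fin 12) F), Cfsg.Geo.IsFieldSubalgebra 2 K ∧ Cfsg.Geo.IsAdjointClosedFor (QuadraticMap.polar Q) K ∧ ¬ Cfsg.Geo.IsSelfAdjointFor (QuadraticMap.polar Q) K ∧ (∀ k ∈ K, ∃ c : F, ∀ v : (Fin 12 → F), Q (Matrix.mulVec k v) = c * Q v) ∧ H = Cfsg.Geo.subalgebraNormalizer K ⊓ Cfsg.Geo.omegaGL Q) ∨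
    (3 ≤ Fintype.card F ∧ ∃ (e : Fin 12 ≃ Fin 2 × Fin 6) (P : Matrix.GeneralLinearGroup (Fin 12) F) (f₁ : (Fin 2 → F) → (Fin 2 → F) → F) (f₂ : (Fin 6 → F) → (Fin 6 → F) → F), Cfsg.Geo.IsSymplecticForm f₁ ∧ Cfsg.Geo.IsSymplecticForm f₂ ∧ Cfsg.Geo.IsTensorFormStructure id (QuadraticMap.polar Q) f₁ f₂ e P ∧ (∀ (x₁ : Fin 2 → F) (x₂ : Fin 6 → F), Q (Matrix.mulVec (P : Matrix (Fin 12) (Fin 12) F) ((fun a : Fin 2 × Fin 6 => x₁ a.1 * x₂ a.2) ∘ e)) = 0) ∧ H = Cfsg.Geo.tensorProductSubgroup 2 6 e P ⊓ Cfsg.Geo.omegaGL Q) ∨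
    (∃ (F₀ : Subfield F) (r : ℕ) (P : Matrix.GeneralLinearGroup (Fin 12) F) (ζ : F), r.Prime ∧ Fintype.card F = Nat.card F₀ ^ r ∧ ζ ≠ 0 ∧ Cfsg.Geo.IsQuadFormRationalStructure (fun v : Fin 12 → F => ζ * Q v) F₀ P ∧ H = Cfsg.Geo.subfieldSubgroup F₀ P ⊓ Cfsg.Geo.omegaGL Q) ∨
    Cfsg.Geo.InOrthogonalResidualClass H

theorem g1 {Q : (Fin 12 → F) → F} {H : Subgroup (Matrix.GeneralLinearGroup (Fin 12) F)}
    (h : (∃ W : Submodule F (Fin 12 → F), W ≠ ⊥ ∧ Cfsg.Geo.IsTotallySingularQuad Q W ∧ Module.finrank F W ≠ 5 ∧ H = Cfsg.Geo.subspaceStabilizer W ⊓ Cfsg.Geo.omegaGL Q)) : Goal12P Q H :=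
  Or.inl h

theorem g2 {Q : (Fin 12 → F) → F} {H : Subgroup (Matrix.GeneralLinearGroup (Fin 12) F)}
    (h : (Odd (Fintype.card F) ∧ ∃ W : Submodule F (Fin 12 → F), W ≠ ⊥ ∧ W ≠ ⊤ ∧ Odd (Module.finrank F W) ∧ 2 * Module.finrank F W ≠ 12 ∧ Cfsg.Geo.IsNondegenerateOn (QuadraticMap.polar Q) W ∧ H = Cfsg.Geo.subspaceStabilizer W ⊓ Cfsg.Geo.omegaGL Q)) : Goal12P Q H :=
  Or.inr (Or.inl h)

theorem g3 {Q : (Fin 12 → F) → F} {H : Subgroup (Matrix.GeneralLinearGroup (Fin 12) F)}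
    (h : (∃ W : Submodule F (Fin 12 → F), Module.finrank F W = 2 ∧ Cfsg.Geo.IsNondegenerateOn (QuadraticMap.polar Q) W ∧ ¬ Cfsg.Geo.IsPlusTypeOn Q W ∧ H = Cfsg.Geo.subspaceStabilizer W ⊓ Cfsg.Geo.omegaGL Q)) : Goal12P Q H :=
  Or.inr (Or.inr (Or.inl h))

theorem g4 {Q : (Fin 12 → F) → F} {H : Subgroup (Matrix.GeneralLinearGroup (Fin 12) F)}
    (h : (4 ≤ Fintype.card F ∧ ∃ W : Submodule F (Fin 12 → F), Module.finrank F W = 2 ∧ Cfsg.Geo.IsNondegenerateOn (QuadraticMap.polar Q) W ∧ Cfsg.Geo.IsPlusTypeOn Q W ∧ H = Cfsg.Geo.subspaceStabilizer W ⊓ Cfsg.Geo.omegaGL Q)) : Goal12P Q H :=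
  Or.inr (Or.inr (Or.inr (Or.inl h)))

theorem g5 {Q : (Fin 12 → F) → F} {H : Subgroup (Matrix.GeneralLinearGroup (Fin 12) F)}
    (h : (∃ W : Submodule F (Fin 12 → F), Module.finrank F W = 4 ∧ Cfsg.Geo.IsNondegenerateOn (QuadraticMap.polar Q) W ∧ H = Cfsg.Geo.subspaceStabilizer W ⊓ Cfsg.Geo.omegaGL Q)) : Goal12P Q H :=
  Or.inr (Or.inr (Or.inr (Or.inr (Or.inl h))))

theorem g6 {Q : (Fin 12 → F) → F} {H : Subgroup (Matrix.GeneralLinearGroup (Fin 12) F)}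
    (h : (¬ Odd (Fintype.card F) ∧ ∃ v : (Fin 12 → F), Q v ≠ 0 ∧ H = Cfsg.Geo.subspaceStabilizer (Submodule.span F {v}) ⊓ Cfsg.Geo.omegaGL Q)) : Goal12P Q H :=
  Or.inr (Or.inr (Or.inr (Or.inr (Or.inr (Or.inl h)))))

theorem g7 {Q : (Fin 12 → F) → F} {H : Subgroup (Matrix.GeneralLinearGroup (Fin 12) F)}
    (h : ((∃ p : ℕ, p.Prime ∧ Odd p ∧ Fintype.card F = p) ∧ ∃ D : Fin 12 → Submodule F (Fin 12 → F), Cfsg.Geo.IsOrthogonalMDecomposition Q 1 D ∧ H = Cfsg.Geo.decompositionStabilizer D ⊓ Cfsg.Geo.omegaGL Q)) : Goal12P Q H :=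
  Or.inr (Or.inr (Or.inr (Or.inr (Or.inr (Or.inr (Or.inl h))))))

theorem g8 {Q : (Fin 12 → F) → F} {H : Subgroup (Matrix.GeneralLinearGroup (Fin 12) F)}
    (h : (7 ≤ Fintype.card F ∧ ∃ D : Fin 6 → Submodule F (Fin 12 → F), Cfsg.Geo.IsOrthogonalMDecomposition Q 2 D ∧ (∀ i, Cfsg.Geo.IsPlusTypeOn Q (D i)) ∧ H = Cfsg.Geo.decompositionStabilizer D ⊓ Cfsg.Geo.omegaGL Q)) : Goal12P Q H :=
  Or.inr (Or.inr (Or.inr (Or.inr (Or.inr (Or.inr (Or.inr (Or.inl h)))))))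

theorem g9 {Q : (Fin 12 → F) → F} {H : Subgroup (Matrix.GeneralLinearGroup (Fin 12) F)}
    (h : (Fintype.card F ≠ 3 ∧ ∃ D : Fin 6 → Submodule F (Fin 12 → F), Cfsg.Geo.IsOrthogonalMDecomposition Q 2 D ∧ (∀ i, ¬ Cfsg.Geo.IsPlusTypeOn Q (D i)) ∧ H = Cfsg.Geo.decompositionStabilizer D ⊓ Cfsg.Geo.omegaGL Q)) : Goal12P Q H :=
  Or.inr (Or.inr (Or.inr (Or.inr (Or.inr (Or.inr (Or.inr (Or.inr (Or.inl h))))))))

theorem g10 {Q : (Fin 12 → F) → F} {H : Subgroup (Matrix.GeneralLinearGroup (Fin 12) F)}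
    (h : (Odd (Fintype.card F) ∧ 5 ≤ Fintype.card F ∧ ∃ D : Fin 4 → Submodule F (Fin 12 → F), Cfsg.Geo.IsOrthogonalMDecomposition Q 3 D ∧ H = Cfsg.Geo.decompositionStabilizer D ⊓ Cfsg.Geo.omegaGL Q)) : Goal12P Q H :=
  Or.inr (Or.inr (Or.inr (Or.inr (Or.inr (Or.inr (Or.inr (Or.inr (Or.inr (Or.inl h)))))))))

theorem g11 {Q : (Fin 12 → F) → F} {H : Subgroup (Matrix.GeneralLinearGroup (Fin 12) F)}
    (h : (3 ≤ Fintype.card F ∧ ∃ D : Fin 3 → Submodule F (Fin 12 → F), Cfsg.Geo.IsOrthogonalMDecomposition Q 4 D ∧ H = Cfsg.Geo.decompositionStabilizer D ⊓ Cfsg.Geo.omegaGL Q)) : Goal12P Q H :=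
  Or.inr (Or.inr (Or.inr (Or.inr (Or.inr (Or.inr (Or.inr (Or.inr (Or.inr (Or.inr (Or.inl h))))))))))

theorem g12 {Q : (Fin 12 → F) → F} {H : Subgroup (Matrix.GeneralLinearGroup (Fin 12) F)}
    (h : (∃ D : Fin 2 → Submodule F (Fin 12 → F), Cfsg.Geo.IsOrthogonalMDecomposition Q 6 D ∧ H = Cfsg.Geo.decompositionStabilizer D ⊓ Cfsg.Geo.omegaGL Q)) : Goal12P Q H :=
  Or.inr (Or.inr (Or.inr (Or.inr (Or.inr (Or.inr (Or.inr (Or.inr (Or.inr (Or.inr (Or.inr (Or.inl h)))))))))))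

theorem g13 {Q : (Fin 12 → F) → F} {H : Subgroup (Matrix.GeneralLinearGroup (Fin 12) F)}
    (h : (∃ D : Fin 2 → Submodule F (Fin 12 → F), Cfsg.Geo.IsMDecomposition 6 D ∧ (∀ i, Cfsg.Geo.IsTotallySingularQuad Q (D i)) ∧ H = Cfsg.Geo.decompositionStabilizer D ⊓ Cfsg.Geo.omegaGL Q)) : Goal12P Q H :=
  Or.inr (Or.inr (Or.inr (Or.inr (Or.inr (Or.inr (Or.inr (Or.inr (Or.inr (Or.inr (Or.inr (Or.inr (Or.inl h))))))))))))

theorem g14 {Q : (Fin 12 → F) → F} {H : Subgroup (Matrix.GeneralLinearGroup (Fin 12) F)}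
    (h : (∃ K : Subalgebra F (Matrix (Fin 12) (Fin 12) F), Cfsg.Geo.IsFieldSubalgebra 2 K ∧ H = Cfsg.Geo.subalgebraNormalizer K ⊓ Cfsg.Geo.omegaGL Q)) : Goal12P Q H :=
  Or.inr (Or.inr (Or.inr (Or.inr (Or.inr (Or.inr (Or.inr (Or.inr (Or.inr (Or.inr (Or.inr (Or.inr (Or.inr (Or.inl h)))))))))))))

theorem g15 {Q : (Fin 12 → F) → F} {H : Subgroup (Matrix.GeneralLinearGroup (Fin 12) F)}
    (h : (∃ K : Subalgebra F (Matrix (Fin 12) (Fin 12) F), Cfsg.Geo.IsFieldSubalgebra 3 K ∧ H = Cfsg.Geo.subalgebraNormalizer K ⊓ Cfsg.Geo.omegaGL Q)) : Goal12P Q H :=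
  Or.inr (Or.inr (Or.inr (Or.inr (Or.inr (Or.inr (Or.inr (Or.inr (Or.inr (Or.inr (Or.inr (Or.inr (Or.inr (Or.inr (Or.inl h))))))))))))))

theorem g16 {Q : (Fin 12 → F) → F} {H : Subgroup (Matrix.GeneralLinearGroup (Fin 12) F)}
    (h : (∃ K : Subalgebra F (Matrix (Fin 12) (Fin 12) F), Cfsg.Geo.IsFieldSubalgebra 2 K ∧ Cfsg.Geo.IsAdjointClosedFor (QuadraticMap.polar Q) K ∧ ¬ Cfsg.Geo.IsSelfAdjointFor (QuadraticMap.polar Q) K ∧ (∀ k ∈ K, ∃ c : F, ∀ v : (Fin 12 → F), Q (Matrix.mulVec k v) = c * Q v) ∧ H = Cfsg.Geo.subalgebraNormalizer K ⊓ Cfsg.Geo.omegaGL Q)) : Goal12P Q H :=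
  Or.inr (Or.inr (Or.inr (Or.inr (Or.inr (Or.inr (Or.inr (Or.inr (Or.inr (Or.inr (Or.inr (Or.inr (Or.inr (Or.inr (Or.inr (Or.inl h)))))))))))))))

theorem g17 {Q : (Fin 12 → F) → F} {H : Subgroup (Matrix.GeneralLinearGroup (Fin 12) F)}
    (h : (3 ≤ Fintype.card F ∧ ∃ (e : Fin 12 ≃ Fin 2 × Fin 6) (P : Matrix.GeneralLinearGroup (Fin 12) F) (f₁ : (Fin 2 → F) → (Fin 2 → F) → F) (f₂ : (Fin 6 → F) → (Fin 6 → F) → F), Cfsg.Geo.IsSymplecticForm f₁ ∧ Cfsg.Geo.IsSymplecticForm f₂ ∧ Cfsg.Geo.IsTensorFormStructure id (QuadraticMap.polar Q) f₁ f₂ e P ∧ (∀ (x₁ : Fin 2 → F) (x₂ : Fin 6 → F), Q (Matrix.mulVec (P : Matrix (Fin 12) (Fin 12) F) ((fun a : Fin 2 × Fin 6 => x₁ a.1 * x₂ a.2) ∘ e)) = 0) ∧ H = Cfsg.Geo.tensorProductSubgroup 2 6 e P ⊓ Cfsg.Geo.omegaGL Q)) : Goal12P Q H :=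
  Or.inr (Or.inr (Or.inr (Or.inr (Or.inr (Or.inr (Or.inr (Or.inr (Or.inr (Or.inr (Or.inr (Or.inr (Or.inr (Or.inr (Or.inr (Or.inr (Or.inl h))))))))))))))))

theorem g18 {Q : (Fin 12 → F) → F} {H : Subgroup (Matrix.GeneralLinearGroup (Fin 12) F)}
    (h : (∃ (F₀ : Subfield F) (r : ℕ) (P : Matrix.GeneralLinearGroup (Fin 12) F) (ζ : F), r.Prime ∧ Fintype.card F = Nat.card F₀ ^ r ∧ ζ ≠ 0 ∧ Cfsg.Geo.IsQuadFormRationalStructure (fun v : Fin 12 → F => ζ * Q v) F₀ P ∧ H = Cfsg.Geo.subfieldSubgroup F₀ P ⊓ Cfsg.Geo.omegaGL Q)) : Goal12P Q H :=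
  Or.inr (Or.inr (Or.inr (Or.inr (Or.inr (Or.inr (Or.inr (Or.inr (Or.inr (Or.inr (Or.inr (Or.inr (Or.inr (Or.inr (Or.inr (Or.inr (Or.inr (Or.inl h)))))))))))))))))

theorem g19 {Q : (Fin 12 → F) → F} {H : Subgroup (Matrix.GeneralLinearGroup (Fin 12) F)}
    (h : Cfsg.Geo.InOrthogonalResidualClass H) : Goal12P Q H :=
  Or.inr (Or.inr (Or.inr (Or.inr (Or.inr (Or.inr (Or.inr (Or.inr (Or.inr (Or.inr (Or.inr (Or.inr (Or.inr (Or.inr (Or.inr (Or.inr (Or.inr (Or.inr (h))))))))))))))))))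

/-! ### Generic lemmas -/

section gen
variable {κ : Type} [Fintype κ] [DecidableEq κ]

theorem iso_refl (Q : (κ → F) → F) (W : Submodule F (κ → F)) : AreIsometricFor Q W W :=
  ⟨LinearEquiv.refl F W, fun _ => rfl⟩

theorem iso_symm {Q : (κ → F) → F} {W W' : Submodule F (κ → F)} (h : AreIsometricFor Q W W') :
    AreIsometricFor Q W' W := by
  obtain ⟨e, he⟩ := h
  refine ⟨e.symm, fun w => ?_⟩
  have := he (e.symm w)
  rw [LinearEquiv.apply_symm_apply] at this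
  exact this.symm

/-- Isometric subspaces have the same type. -/
theorem iso_plus {Q : (κ → F) → F} {W W' : Submodule F (κ → F)} (hiso : AreIsometricFor Q W W')
    (hp : IsPlusTypeOn Q W) : IsPlusTypeOn Q W' := by
  obtain ⟨e, he⟩ := hiso
  obtain ⟨U, hUW, hts, hdim⟩ := hp
  obtain ⟨U₀, hU₀⟩ : ∃ U₀ : Submodule F W, U₀ = Submodule.comap W.subtype U := ⟨_, rfl⟩
  obtain ⟨U₁, hU₁⟩ : ∃ U₁ : Submodule F W', U₁ = U₀.map (e : W →ₗ[F] W') := ⟨_, rfl⟩
  refine ⟨U₁.map W'.subtype, ?_, ?_, ?_⟩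
  · rintro x ⟨y, -, rfl⟩
    exact y.2
  · rintro x ⟨y, hy, rfl⟩
    rw [hU₁] at hy
    obtain ⟨z, hz, rfl⟩ := hy
    rw [hU₀] at hz
    show Q ((e z : W') : κ → F) = 0
    rw [he z]
    exact hts _ hz
  · have h1 : Module.finrank F (U₁.map W'.subtype) = Module.finrank F U₁ :=
      (Submodule.equivMapOfInjective W'.subtype (Submodule.injective_subtype W') U₁).symm.finrank_eq
    have h2 : Module.finrank F U₁ = Module.finrank F U₀ := by
      rw [hU₁]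
      exact (Submodule.equivMapOfInjective (e : W →ₗ[F] W') e.injective U₀).symm.finrank_eq
    have h3 : Module.finrank F U₀ = Module.finrank F U := by
      rw [hU₀]
      exact (Submodule.comapSubtypeEquivOfLe hUW).finrank_eq
    rw [h1, h2, h3, hdim, e.finrank_eq]

/-- The sum of two orthogonal non-degenerate subspaces is non-degenerate. -/
theorem nondeg_sup {Q : (κ → F) → F} (hQ : IsNondegenerateQuadraticForm Q)
    {W₁ W₂ : Submodule F (κ → F)} (h₁ : IsNondegenerateOn (QuadraticMap.polar Q) W₁)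
    (h₂ : IsNondegenerateOn (QuadraticMap.polar Q) W₂)
    (horth : AreOrthogonalFor (QuadraticMap.polar Q) W₁ W₂) :
    IsNondegenerateOn (QuadraticMap.polar Q) (W₁ ⊔ W₂) := by
  intro w hw hw0
  obtain ⟨a, ha, b, hb, rfl⟩ := Submodule.mem_sup.mp hw
  have hkey : ∃ x ∈ W₁ ⊔ W₂, QuadraticMap.polar Q x (a + b) ≠ 0 := by
    by_cases ha0 : a = 0
    · have hb0 : b ≠ 0 := by
        rintro rfl
        exact hw0 (by rw [ha0, add_zero])
      obtain ⟨⟨x, hx, hxb⟩, -⟩ := h₂ b hb hb0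
      refine ⟨x, Submodule.mem_sup_right hx, ?_⟩
      rw [hQ.polar_bilinear.add_right, QuadraticMap.polar_comm Q x a, horth a ha x hx, zero_add]
      exact hxb
    · obtain ⟨⟨x, hx, hxa⟩, -⟩ := h₁ a ha ha0
      refine ⟨x, Submodule.mem_sup_left hx, ?_⟩
      rw [hQ.polar_bilinear.add_right, horth x hx b hb, add_zero]
      exact hxa
  obtain ⟨x, hx, hxw⟩ := hkey
  exact ⟨⟨x, hx, hxw⟩, ⟨x, hx, by rw [QuadraticMap.polar_comm]; exact hxw⟩⟩

end gen

theorem card_ne_six : Fintype.card F ≠ 6 := by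
  intro h
  obtain ⟨p, k, hp, hk, hpk⟩ := (Fintype.isPrimePow_card_of_field (α := F))
  rw [h] at hpk
  have h2 : 2 ∣ p ^ k := ⟨3, by rw [hpk]⟩
  have h3 : 3 ∣ p ^ k := ⟨2, by rw [hpk]⟩
  have h2' := (Nat.prime_dvd_prime_iff_eq Nat.prime_two hp.nat_prime).mp
    (Nat.Prime.dvd_of_dvd_pow Nat.prime_two h2)
  have h3' := (Nat.prime_dvd_prime_iff_eq Nat.prime_three hp.nat_prime).mp
    (Nat.Prime.dvd_of_dvd_pow Nat.prime_three h3)
  omega

theorem two_ne_zero_of_card_five (hq : Fintype.card F = 5) : (2 : F) ≠ 0 := by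
  intro h
  have h5 : ((5 : ℕ) : F) = 0 := by rw [← hq]; exact Nat.cast_card_eq_zero F
  have h1 : (1 : F) = 0 := by
    have : ((5 : ℕ) : F) = 2 * 2 + 1 := by norm_num
    rw [this, h, zero_mul, zero_add] at h5
    exact h5
  exact one_ne_zero h1

/-- A totally singular 5-space stabilised by a subgroup of `Ω` lies in a totally singular 6-space
stabilised by it (`Ω` preserves the two families of maximal totally singular subspaces). -/
theorem ts5_extend {Q : (Fin 12 → F) → F} (hQ : IsNondegenerateQuadraticForm Q)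
    (hplus : IsPlusTypeOn Q ⊤) (W : Submodule F (Fin 12 → F))
    (hts : IsTotallySingularQuad Q W) (h5 : Module.finrank F W = 5) :
    ∃ W₁ : Submodule F (Fin 12 → F), IsTotallySingularQuad Q W₁ ∧ Module.finrank F W₁ = 6 ∧
      subspaceStabilizer W ⊓ omegaGL Q ≤ subspaceStabilizer W₁ := by
  have hS := Helper43.TwoFam.qspace_of Q hQ (m := 6) (by rw [Fintype.card_fin])
  obtain ⟨E, -, hEts, hEdim⟩ := hplus
  have hE : Helper43.TwoFam.MTS Q 6 E := ⟨by rw [finrank_top12] at hEdim; omega, hEts⟩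
  obtain ⟨W₁, hW₁, hWW₁⟩ := hS.exists_mts_of_le hE hts (by rw [h5])
  refine ⟨W₁, hW₁.2, hW₁.1, ?_⟩
  rintro g ⟨hgW, hgΩ⟩
  obtain ⟨x, hx, rfl⟩ := (Helper43.TwoFam.mem_omegaGL_iff Q g).1 hgΩ
  have himg := Helper43.TwoFam.img_eq_of_mem_stab hgW
  have hmts := Helper43.TwoFam.mts_img x hW₁
  have hev := Helper43.TwoFam.even_of_mem_commutator hS hW₁ x hx
  have hWle : W ≤ Helper43.TwoFam.img (x : GL (Fin 12) F) W₁ := by
    rw [← himg]
    exact Submodule.map_mono hWW₁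
  apply Helper43.TwoFam.mem_stab_of_img_eq
  obtain ⟨W₂, hW₂⟩ : ∃ W₂, W₂ = Helper43.TwoFam.img (x : GL (Fin 12) F) W₁ := ⟨_, rfl⟩
  rw [← hW₂] at hmts hev hWle ⊢
  have h3 := Submodule.finrank_mono (le_inf hWW₁ hWle)
  have h4 := Submodule.finrank_mono (inf_le_left : W₁ ⊓ W₂ ≤ W₁)
  rw [hW₁.1] at h4
  have h5' : Module.finrank F ↥(W₁ ⊓ W₂) = 6 := by
    rw [Nat.even_iff] at hev
    omega
  have h6 : W₁ ⊓ W₂ = W₁ := Submodule.eq_of_le_of_finrank_eq inf_le_left (by rw [h5', hW₁.1])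
  have h7 : W₁ ≤ W₂ := by
    rw [← h6]
    exact inf_le_right
  exact (Submodule.eq_of_le_of_finrank_eq h7 (by rw [hW₁.1, hmts.1])).symm

/-- Three pairwise orthogonal, pairwise isometric blocks of even dimension in a plus-type space are
of plus type. -/
theorem three_blocks_plus {Q : (Fin 12 → F) → F} (hQ : IsNondegenerateQuadraticForm Q)
    (hplus : IsPlusTypeOn Q ⊤) {k : ℕ} (D : Fin 3 → Submodule F (Fin 12 → F))
    (hD : IsOrthogonalMDecomposition Q k D) (hk : Even k) : ∀ i, IsPlusTypeOn Q (D i) := by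
  have h2 : IsPlusTypeOn Q (D 2) := by
    have hnd := hD.decomp.nondegenerate
    have horth := hD.decomp.orthogonal
    obtain ⟨U, hU, hUts, hUdim⟩ := Cfsg.Agent.Helper14.o12_iso_pair Q hQ (D 0) (D 1) (hnd 0)
      (horth 0 1 (by decide)) (hD.isometric 0 1) (by rw [hD.decomp.decomp.finrank_eq]; exact hk)
    have hdisj : D 0 ⊓ D 1 = ⊥ :=
      disjoint_iff.mp (hD.decomp.decomp.indep.pairwiseDisjoint (by decide : (0 : Fin 3) ≠ 1))
    have hfr : Module.finrank F (D 0 ⊔ D 1 : Submodule F (Fin 12 → F)) = 2 * k := by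
      have := Submodule.finrank_sup_add_finrank_inf_eq (D 0) (D 1)
      rw [hdisj, finrank_bot, hD.decomp.decomp.finrank_eq, hD.decomp.decomp.finrank_eq] at this
      omega
    have hp01 : IsPlusTypeOn Q (D 0 ⊔ D 1) :=
      ⟨U, hU, hUts, by rw [hUdim, hfr, hD.decomp.decomp.finrank_eq]⟩
    have horth' : AreOrthogonalFor (QuadraticMap.polar Q) (D 0 ⊔ D 1) (D 2) := by
      intro u hu v hv
      obtain ⟨a, ha, b, hb, rfl⟩ := Submodule.mem_sup.mp hu
      rw [hQ.polar_bilinear.add_left, horth 0 2 (by decide) a ha v hv,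
        horth 1 2 (by decide) b hb v hv, add_zero]
    have htop : D 0 ⊔ D 1 ⊔ D 2 = ⊤ := by
      rw [eq_top_iff, ← hD.decomp.decomp.iSup_eq_top]
      apply iSup_le
      intro i
      fin_cases i
      · exact le_sup_of_le_left le_sup_left
      · exact le_sup_of_le_left le_sup_right
      · exact le_sup_right
    exact Cfsg.Agent.Helper20.o12p_type_add Q hQ (D 0 ⊔ D 1) (D 2)
      (nondeg_sup hQ (hnd 0) (hnd 1) (horth 0 1 (by decide))) (hnd 2) horth'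
      (by rw [htop]; exact hplus) hp01
  intro i
  exact iso_plus (hD.isometric 2 i) h2

/-! ### The cases of the row -/

section
variable {Q : (Fin 12 → F) → F} (hQ : IsNondegenerateQuadraticForm Q)
  (hplus : IsPlusTypeOn Q ⊤) {H : Subgroup (GL (Fin 12) F)} (hH : IsMaximalIn (omegaGL Q) H)

include hH in
/-- A maximal subgroup is not inside a non-maximal intersection. -/
theorem not_max {M : Subgroup (GL (Fin 12) F)} (hle : H ≤ M)
    (hK : ∃ K : Subgroup (GL (Fin 12) F), M ⊓ omegaGL Q < K ∧ K < omegaGL Q) : False := by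
  obtain ⟨K, h1, h2⟩ := hK
  have hHM : H ≤ M ⊓ omegaGL Q := le_inf hle hH.1.le
  rcases hH.2 K (hHM.trans h1.le) h2.le with h | h
  · rw [h] at h1
    exact absurd hHM (not_le_of_gt h1)
  · exact absurd h (ne_of_lt h2)

include hQ hplus hH in
/-- A totally singular invariant subspace. -/
theorem ts_case (W : Submodule F (Fin 12 → F)) (hW0 : W ≠ ⊥) (hts : IsTotallySingularQuad Q W)
    (hle : H ≤ subspaceStabilizer W) : Goal12P Q H := by
  classical
  have hW1 : W ≠ ⊤ := by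
    rintro rfl
    exact ts_ne_top (by norm_num) hQ hts
  by_cases h5 : Module.finrank F W = 5
  · obtain ⟨W₁, hts₁, hdim₁, hle₁⟩ := ts5_extend hQ hplus W hts h5
    have hW₁0 : W₁ ≠ ⊥ := by
      rintro rfl
      rw [finrank_bot] at hdim₁
      omega
    have hW₁1 : W₁ ≠ ⊤ := by
      rintro rfl
      exact ts_ne_top (by norm_num) hQ hts₁
    have hle' : H ≤ subspaceStabilizer W₁ := fun h hh => hle₁ ⟨hle hh, hH.1.le hh⟩
    exact g1 ⟨W₁, hW₁0, hts₁, by rw [hdim₁]; norm_num, key hH hle'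
      (Cfsg.Agent.Helper76.o12_notOmega_subspace Q hQ (by rw [card12]; norm_num) W₁ hW₁0 hW₁1)⟩
  · exact g1 ⟨W, hW0, hts, h5, key hH hle
      (Cfsg.Agent.Helper76.o12_notOmega_subspace Q hQ (by rw [card12]; norm_num) W hW0 hW1)⟩

include hQ hplus hH in
/-- A pair of complementary orthogonal non-degenerate invariant subspaces, the first of dimension
at most six. -/
theorem pair_case (W W' : Submodule F (Fin 12 → F)) (hW0 : W ≠ ⊥) (hW1 : W ≠ ⊤)
    (hnd : IsNondegenerateOn (QuadraticMap.polar Q) W)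
    (hnd' : IsNondegenerateOn (QuadraticMap.polar Q) W')
    (horth : AreOrthogonalFor (QuadraticMap.polar Q) W W') (hinf : W ⊓ W' = ⊥) (hsup : W ⊔ W' = ⊤)
    (hle : H ≤ subspaceStabilizer W) (hle' : H ≤ subspaceStabilizer W')
    (hd6 : Module.finrank F W ≤ 6) : Goal12P Q H := by
  classical
  have hN := Cfsg.Agent.Helper76.o12_notOmega_subspace Q hQ (by rw [card12]; norm_num) W hW0 hW1
  have hkey := key hH hle hN
  have hsum : Module.finrank F W + Module.finrank F W' = 12 := by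
    have := Submodule.finrank_sup_add_finrank_inf_eq W W'
    rw [hsup, hinf, finrank_bot, finrank_top12] at this
    omega
  obtain ⟨d, hd⟩ : ∃ d, Module.finrank F W = d := ⟨_, rfl⟩
  have hd1 : 1 ≤ d := by
    rw [← hd]
    exact Nat.one_le_iff_ne_zero.mpr (fun h0 => hW0 (Submodule.finrank_eq_zero.mp h0))
  rw [hd] at hd6 hsum
  have hoddcase : Odd d → Goal12P Q H := by
    intro hodd
    have h2 := Cfsg.Agent.Helper76.o12_two_ne_of_odd Q hQ W hnd (by rw [hd]; exact hodd)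
    refine g2 ⟨odd_of_two_ne_zero h2, W, hW0, hW1, by rw [hd]; exact hodd, ?_, hnd, hkey⟩
    rw [hd]
    intro h12
    have : d = 6 := by omega
    rw [this] at hodd
    exact absurd hodd (by decide)
  rcases (by omega : d = 1 ∨ d = 2 ∨ d = 3 ∨ d = 4 ∨ d = 5 ∨ d = 6) with rfl | rfl | rfl | rfl | rfl | rfl
  · exact hoddcase (by decide)
  · by_cases hp : IsPlusTypeOn Q W
    · by_cases hq : 4 ≤ Fintype.card F
      · exact g4 ⟨hq, W, hd, hnd, hp, hkey⟩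
      · exfalso
        exact not_max hH hle (Cfsg.Agent.Helper94.plus_plane_not_maximal Q hQ (by omega)
          (by rw [card12]; norm_num) W hd hnd hp)
    · exact g3 ⟨W, hd, hnd, hp, hkey⟩
  · exact hoddcase (by decide)
  · exact g5 ⟨W, hd, hnd, hkey⟩
  · exact hoddcase (by decide)
  · -- two 6-spaces: they are isometric
    have hd' : Module.finrank F W' = 6 := by omega
    have horth' : AreOrthogonalFor (QuadraticMap.polar Q) W' W :=
      fun u hu v hv => by rw [QuadraticMap.polar_comm]; exact horth v hv u hu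
    have htype : IsPlusTypeOn Q W ↔ IsPlusTypeOn Q W' := by
      constructor
      · intro h
        exact Cfsg.Agent.Helper20.o12p_type_add Q hQ W W' hnd hnd' horth
          (by rw [hsup]; exact hplus) h
      · intro h
        exact Cfsg.Agent.Helper20.o12p_type_add Q hQ W' W hnd' hnd horth'
          (by rw [sup_comm, hsup]; exact hplus) h
    have hiso := Cfsg.Agent.Helper78.o12p_iso_of_type Q hQ W W' hnd hnd' (by rw [hd, hd'])
      (by rw [hd]; decide) htype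
    have hDd : IsMDecomposition 6 (Sy.pairD W W') :=
      Sy.pair_decomp W W' hinf hsup 6 hd hd' (by norm_num)
    have hO : IsOrthogonalMDecomposition Q 6 (Sy.pairD W W') := by
      refine ⟨⟨hDd, ?_, ?_⟩, ?_⟩
      · intro i
        rcases Sy.fin2_cases i with rfl | rfl
        · exact hnd
        · exact hnd'
      · intro i j hij
        rcases Sy.fin2_cases i with rfl | rfl <;> rcases Sy.fin2_cases j with rfl | rfl
        · exact absurd rfl hij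
        · exact horth
        · exact horth'
        · exact absurd rfl hij
      · intro i j
        rcases Sy.fin2_cases i with rfl | rfl <;> rcases Sy.fin2_cases j with rfl | rfl
        · exact iso_refl Q _
        · exact hiso
        · exact iso_symm hiso
        · exact iso_refl Q _
    have hleD : H ≤ decompositionStabilizer (Sy.pairD W W') := by
      intro g hg
      refine Sy.pair_stab_fix W W' 6 hd hd' g ?_ ?_
      · intro x hx
        exact ((Helper43.TwoFam.mem_stab_iff W g).mp (hle hg) x).mp hx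
      · intro x hx
        exact ((Helper43.TwoFam.mem_stab_iff W' g).mp (hle' hg) x).mp hx
    exact g12 ⟨Sy.pairD W W', hO, key hH hleD (Cfsg.Agent.Helper66.o12_notOmega_decomp Q hQ
      (by rw [card12]; norm_num) (by norm_num) _ hO.decomp)⟩

include hQ hplus hH in
/-- A non-degenerate decomposition permuted by the (irreducible) group. -/
theorem decomp_case (hirr : ActsIrreducibly (matrixSet H)) {t k : ℕ}
    (D : Fin t → Submodule F (Fin 12 → F))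
    (hD : IsNondegenerateMDecomposition (QuadraticMap.polar Q) k D)
    (hle : H ≤ decompositionStabilizer D) : Goal12P Q H := by
  classical
  have hO : IsOrthogonalMDecomposition Q k D :=
    ⟨hD, fun i j => Helper94.OA.decomp_iso H hirr (le_iso hH) D hD.decomp hle i j⟩
  have htk := decomp_card D hD.decomp
  have ht2 := hD.decomp.two_le
  have hk := hD.decomp.pos
  have ht12 : t ≤ 12 := Nat.le_of_dvd (by norm_num) ⟨k, htk.symm⟩
  have hcases : (t = 2 ∧ k = 6) ∨ (t = 3 ∧ k = 4) ∨ (t = 4 ∧ k = 3) ∨ (t = 6 ∧ k = 2) ∨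
      (t = 12 ∧ k = 1) := by
    interval_cases t <;> omega
  have hq1 := Fintype.one_lt_card (α := F)
  rcases hcases with ⟨rfl, rfl⟩ | ⟨rfl, rfl⟩ | ⟨rfl, rfl⟩ | ⟨rfl, rfl⟩ | ⟨rfl, rfl⟩
  · exact g12 ⟨D, hO, key hH hle (Cfsg.Agent.Helper66.o12_notOmega_decomp Q hQ
      (by rw [card12]; norm_num) (by norm_num) D hD)⟩
  · have hkeyD := key hH hle (Cfsg.Agent.Helper66.o12_notOmega_decomp Q hQ
      (by rw [card12]; norm_num) (by norm_num) D hD)
    by_cases hq : 3 ≤ Fintype.card F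
    · exact g11 ⟨hq, D, hO, hkeyD⟩
    · exfalso
      have hq2 : Fintype.card F = 2 := by omega
      have hpl : ∀ i, IsPlusTypeOn Q (D i) := three_blocks_plus hQ hplus D hO (by decide)
      exact not_max hH hle (Cfsg.Agent.Helper94.plus4_q2_not_max hQ hq2 D hO (by norm_num) hpl)
  · have h2 : (2 : F) ≠ 0 := Cfsg.Agent.Helper76.o12_two_ne_of_odd Q hQ (D 0) (hD.nondegenerate 0)
      (by rw [hD.decomp.finrank_eq]; decide)
    have hkeyD := key hH hle (Cfsg.Agent.Helper66.o12_notOmega_decomp Q hQ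
      (by rw [card12]; norm_num) (by norm_num) D hD)
    have hodd := odd_of_two_ne_zero h2
    by_cases hq : 5 ≤ Fintype.card F
    · exact g10 ⟨hodd, hq, D, hO, hkeyD⟩
    · exfalso
      have hq3 : Fintype.card F = 3 := by
        rw [Nat.odd_iff] at hodd
        omega
      obtain ⟨η, hη, hg⟩ := Cfsg.Agent.Helper94.good3 hQ hq3 (D 0) (hD.decomp.finrank_eq _)
        (hD.nondegenerate _)
      exact not_max hH hle (Cfsg.Agent.Helper94.frame_of_good_one hQ h2 D hO (by norm_num) η hη _ hg)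
  · have hkeyD := key hH hle (Cfsg.Agent.Helper80.o12p_notOmega_decomp_small Q hQ
      (by rw [card12]; norm_num) (by norm_num) D hD)
    by_cases hp : IsPlusTypeOn Q (D 0)
    · have hpl : ∀ i, IsPlusTypeOn Q (D i) := fun i => iso_plus (hO.isometric 0 i) hp
      by_cases hq : 7 ≤ Fintype.card F
      · exact g8 ⟨hq, D, hO, hpl, hkeyD⟩
      · exfalso
        have hq6 := card_ne_six (F := F)
        have hc : Fintype.card F = 2 ∨ Fintype.card F = 3 ∨ Fintype.card F = 4 ∨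
            Fintype.card F = 5 := by omega
        rcases hc with hq | hq | hq | hq
        · exact not_max hH hle (Cfsg.Agent.Helper94.plus2_q2_not_max hQ hq D hO (by norm_num) hpl)
        · exact not_max hH hle (Cfsg.Agent.Helper94.frame_of_good hQ
            (Cfsg.Agent.Helper94.two_ne_zero_of_card_three hq) D hO (by norm_num) 1 one_ne_zero
            (fun i => Cfsg.Agent.Helper94.good2 hQ hq (D i) (hD.decomp.finrank_eq i)
              (hD.nondegenerate i)))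
        · exact not_max hH hle (Cfsg.Agent.Helper94.plus2_q4_not_max hQ hq D hO (by norm_num) hpl)
        · exact not_max hH hle (Cfsg.Agent.Helper94.frame_of_good hQ (two_ne_zero_of_card_five hq)
            D hO (by norm_num) 1 one_ne_zero
            (fun i => Cfsg.Agent.Helper94.good_plus5 hQ hq (D i) (hD.decomp.finrank_eq i)
              (hD.nondegenerate i) (hpl i)))
    · have hnp : ∀ i, ¬ IsPlusTypeOn Q (D i) := fun i hpi => hp (iso_plus (hO.isometric i 0) hpi)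
      by_cases hq : Fintype.card F = 3
      · exfalso
        exact not_max hH hle (Cfsg.Agent.Helper94.frame_of_good hQ
          (Cfsg.Agent.Helper94.two_ne_zero_of_card_three hq) D hO (by norm_num) 1 one_ne_zero
          (fun i => Cfsg.Agent.Helper94.good2 hQ hq (D i) (hD.decomp.finrank_eq i)
            (hD.nondegenerate i)))
      · exact g9 ⟨hq, D, hO, hnp, hkeyD⟩
  · have h2 : (2 : F) ≠ 0 := Cfsg.Agent.Helper76.o12_two_ne_of_odd Q hQ (D 0) (hD.nondegenerate 0)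
      (by rw [hD.decomp.finrank_eq]; decide)
    have hodd := odd_of_two_ne_zero h2
    have hNs := Cfsg.Agent.Helper80.o12p_notOmega_decomp_small Q hQ
      (by rw [card12]; norm_num) (by norm_num) D hD
    by_cases hprime : (Fintype.card F).Prime
    · exact g7 ⟨⟨Fintype.card F, hprime, hodd, rfl⟩, D, hO, key hH hle hNs⟩
    · obtain ⟨p, hchar⟩ := CharP.exists F
      have hp : p.Prime :=
        (CharP.char_is_prime_or_zero F p).resolve_right (CharP.char_ne_zero_of_finite F p)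
      have hpf : Fact p.Prime := ⟨hp⟩
      have hbot : (⊥ : Subfield F) ≠ ⊤ := by
        intro hbt
        apply hprime
        have h1 : Nat.card (⊥ : Subfield F) = p := Subfield.card_bot F p
        rw [hbt] at h1
        have h2' : Nat.card (⊤ : Subfield F) = Nat.card F :=
          Nat.card_congr (Subfield.topEquiv (K := F)).toEquiv
        rw [h2', Nat.card_eq_fintype_card] at h1
        rw [h1]
        exact hp
      obtain ⟨F₁, r, -, hr, hcardr⟩ := Helper97.Gen.exists_prime_index_subfield (⊥ : Subfield F) hbot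
      obtain ⟨P, ζ, hζ, hrat, hleS⟩ := Cfsg.Agent.Helper10.o12p_frame_subfield Q hQ D hO F₁
      have hle' : H ≤ subfieldSubgroup F₁ P := fun h hh => hleS ⟨hle hh, le_iso hH hh⟩
      exact g18 ⟨F₁, r, P, ζ, hr, hcardr, hζ, hrat, key hH hle'
        (Cfsg.Agent.Helper81.o12_notOmega_subfield Q hQ (by rw [card12]; norm_num) F₁
          (top_ne_of_card F₁ hr hcardr) P)⟩

include hQ hH in
/-- A field of prime degree normalised by the group. -/
theorem field_case {r : ℕ} (K : Subalgebra F (Matrix (Fin 12) (Fin 12) F)) (hr : r.Prime)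
    (hK : IsFieldSubalgebra r K) (hle : H ≤ subalgebraNormalizer K) : Goal12P Q H := by
  classical
  have hdvd : r ∣ 12 := by
    have := (Helper97.finrank_dvd_of_division K hK.inv).1
    rwa [hK.finrank_eq] at this
  have hr12 : r ≤ 12 := Nat.le_of_dvd (by norm_num) hdvd
  have hcases : r = 2 ∨ r = 3 := by
    interval_cases r <;> first | omega | (exact absurd hr (by decide))
  rcases hcases with rfl | rfl
  · exact g14 ⟨K, hK, key hH hle (Cfsg.Agent.Helper66.o12_notOmega_field Q hQ (by norm_num)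
      (by rw [card12]; norm_num) K hK)⟩
  · exact g15 ⟨K, hK, key hH hle (Cfsg.Agent.Helper66.o12_notOmega_field Q hQ (by norm_num)
      (by rw [card12]; norm_num) K hK)⟩

include hQ hH in
/-- A pair of complementary totally singular subspaces. -/
theorem tspair_case {m : ℕ} (D : Fin 2 → Submodule F (Fin 12 → F)) (hD : IsMDecomposition m D)
    (hts : ∀ i, IsTotallySingularQuad Q (D i)) (hle : H ≤ decompositionStabilizer D) :
    Goal12P Q H := by
  classical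
  have hm := decomp_card D hD
  have hm6 : m = 6 := by omega
  subst hm6
  exact g13 ⟨D, hD, hts, key hH hle (Cfsg.Agent.Helper10.o12p_notOmega_tspair Q hQ
    (by rw [card12]; norm_num) D hD hts)⟩

include hQ hH in
/-- The alternating tensor decomposition `2 ⊗ 6`. -/
theorem alt26_case (e : Fin 12 ≃ Fin 2 × Fin 6) (P : GL (Fin 12) F)
    (f₁ : (Fin 2 → F) → (Fin 2 → F) → F) (f₂ : (Fin 6 → F) → (Fin 6 → F) → F)
    (hf₁ : IsSymplecticForm f₁) (hf₂ : IsSymplecticForm f₂)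
    (hT : IsTensorFormStructure id (QuadraticMap.polar Q) f₁ f₂ e P)
    (hpure : ∀ (s : Fin 2 → F) (y : Fin 6 → F),
      Q ((P : Matrix (Fin 12) (Fin 12) F) *ᵥ ((fun p : Fin 2 × Fin 6 => s p.1 * y p.2) ∘ e)) = 0)
    (hle : H ≤ tensorProductSubgroup 2 6 e P) : Goal12P Q H := by
  classical
  by_cases hq : 3 ≤ Fintype.card F
  · exact g17 ⟨hq, e, P, f₁, f₂, hf₁, hf₂, hT, hpure, key hH hle
      (Cfsg.Agent.Helper28.o12p_notOmega_tensor_two Q hQ (by rw [card12]; norm_num) e P)⟩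
  · have hq2 : Fintype.card F = 2 := by
      have := Fintype.one_lt_card (α := F)
      omega
    obtain ⟨K, hK, hKn⟩ := Cfsg.Agent.Helper20.o12p_tensor_two_f2 hq2 (by norm_num : 0 < 6) e P
    exact g14 ⟨K, hK, key hH (hle.trans hKn) (Cfsg.Agent.Helper66.o12_notOmega_field Q hQ
      (by norm_num) (by rw [card12]; norm_num) K hK)⟩

include hQ hH in
/-- An alternating tensor decomposition. -/
theorem alt_case {n₁ n₂ : ℕ} (e : Fin 12 ≃ Fin n₁ × Fin n₂) (P : GL (Fin 12) F)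
    (f₁ : (Fin n₁ → F) → (Fin n₁ → F) → F) (f₂ : (Fin n₂ → F) → (Fin n₂ → F) → F)
    (hf₁ : IsSymplecticForm f₁) (hf₂ : IsSymplecticForm f₂)
    (hT : IsTensorFormStructure id (QuadraticMap.polar Q) f₁ f₂ e P)
    (hpure : ∀ (s : Fin n₁ → F) (y : Fin n₂ → F),
      Q ((P : Matrix (Fin 12) (Fin 12) F) *ᵥ ((fun p : Fin n₁ × Fin n₂ => s p.1 * y p.2) ∘ e)) = 0)
    (hle : H ≤ tensorProductSubgroup n₁ n₂ e P) : Goal12P Q H := by
  classical
  have hcard : n₁ * n₂ = 12 := by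
    have := Fintype.card_congr e
    simpa using this.symm
  obtain ⟨U₁, -, hU₁⟩ := Cfsg.Agent.Helper76.o12_lagrangian f₁ hf₁
  obtain ⟨U₂, -, hU₂⟩ := Cfsg.Agent.Helper76.o12_lagrangian f₂ hf₂
  have hn12 : n₁ ≤ 12 := Nat.le_of_dvd (by norm_num) ⟨n₂, hcard.symm⟩
  have hcases : (n₁ = 2 ∧ n₂ = 6) ∨ (n₁ = 6 ∧ n₂ = 2) := by
    interval_cases n₁ <;> omega
  rcases hcases with ⟨rfl, rfl⟩ | ⟨rfl, rfl⟩
  · exact alt26_case hQ hH e P f₁ f₂ hf₁ hf₂ hT hpure hle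
  · obtain ⟨hT', heq⟩ := Cfsg.Agent.Helper20.o12_tensor_swap (QuadraticMap.polar Q) e P f₁ f₂ hT
    refine alt26_case hQ hH _ P f₂ f₁ hf₂ hf₁ hT' ?_ (heq ▸ hle)
    intro s y
    have h1 := hpure y s
    have h3 : ((fun p : Fin 2 × Fin 6 => s p.1 * y p.2) ∘
        (e.trans (Equiv.prodComm (Fin 6) (Fin 2)))) =
        ((fun p : Fin 6 × Fin 2 => y p.1 * s p.2) ∘ e) := by
      funext i
      simp [mul_comm]
    rw [h3]
    exact h1

include hQ hH in
/-- The symmetric tensor case `2 ⊗ 6`. -/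
theorem sym26_case (h2 : (2 : F) ≠ 0)
    (e : Fin 12 ≃ Fin 2 × Fin 6) (P : GL (Fin 12) F)
    (f₁ : (Fin 2 → F) → (Fin 2 → F) → F) (f₂ : (Fin 6 → F) → (Fin 6 → F) → F)
    (hf₁ : IsSymmetricForm f₁) (hf₂ : IsSymmetricForm f₂)
    (hT : IsTensorFormStructure id (QuadraticMap.polar Q) f₁ f₂ e P)
    (hle : H ≤ tensorProductSubgroup 2 6 e P) : Goal12P Q H := by
  classical
  by_cases haniso : ∀ s : Fin 2 → F, f₁ s s = 0 → s = 0
  · obtain ⟨K, hK, hKn⟩ := Cfsg.Agent.Helper88.o12_tensor_two_field h2 (QuadraticMap.polar Q)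
      (polar_symmetric hQ) e P f₁ f₂ hf₁ hf₂ hT (by norm_num) haniso
    have hle' : H ≤ subalgebraNormalizer K :=
      fun h hh => hKn h (hle hh) (fun u v => polar_fix (h_iso hH h hh) u v)
    exact g14 ⟨K, hK, key hH hle' (Cfsg.Agent.Helper66.o12_notOmega_field Q hQ (by norm_num)
      (by rw [card12]; norm_num) K hK)⟩
  · push Not at haniso
    obtain ⟨s, hs, hs0⟩ := haniso
    obtain ⟨D, hD, hDts, hDle⟩ := Cfsg.Agent.Helper74.o12p_tensor_two_iso h2 Q hQ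
      (by norm_num : 0 < 6) e P f₁ f₂ hf₁ hf₂ hT s hs0 hs
    exact tspair_case hQ hH D hD hDts (fun h hh => hDle ⟨le_iso hH hh, hle hh⟩)

include hQ hplus hH in
/-- The symmetric tensor case `3 ⊗ 4`. -/
theorem sym34_case (h2 : (2 : F) ≠ 0)
    (e : Fin 12 ≃ Fin 3 × Fin 4) (P : GL (Fin 12) F)
    (f₁ : (Fin 3 → F) → (Fin 3 → F) → F) (f₂ : (Fin 4 → F) → (Fin 4 → F) → F)
    (hf₁ : IsSymmetricForm f₁) (hf₂ : IsSymmetricForm f₂)
    (hT : IsTensorFormStructure id (QuadraticMap.polar Q) f₁ f₂ e P)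
    (hle : H ≤ tensorProductSubgroup 3 4 e P) : Goal12P Q H := by
  classical
  obtain ⟨e', P', g₁, g₂, hg₁, hg₂, hT', hsub⟩ :=
    Cfsg.Agent.Helper65.o12p_tensor_three_four h2 Q hQ hplus e P f₁ f₂ hf₁ hf₂ hT
  have hle' : H ≤ tensorProductSubgroup 2 6 e' P' := fun h hh => hsub ⟨hle hh, hH.1.le hh⟩
  obtain ⟨c, hc, hpt⟩ := Cfsg.Agent.Helper74.o12_tensor_pure (QuadraticMap.polar Q) e' P' g₁ g₂
    hg₁.bilinear hg₂.bilinear hT'
  refine alt26_case hQ hH e' P' g₁ g₂ hg₁ hg₂ hT' ?_ hle'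
  intro s y
  have h1 := hpt s s y y
  rw [Helper97.polar_self Q hQ, hg₁.alternating, zero_mul, mul_zero] at h1
  exact (mul_eq_zero.mp h1).resolve_left h2

include hQ hplus hH in
/-- The symmetric tensor case. -/
theorem sym_case (h2 : (2 : F) ≠ 0) {n₁ n₂ : ℕ}
    (e : Fin 12 ≃ Fin n₁ × Fin n₂) (P : GL (Fin 12) F)
    (f₁ : (Fin n₁ → F) → (Fin n₁ → F) → F) (f₂ : (Fin n₂ → F) → (Fin n₂ → F) → F)
    (h1 : 2 ≤ n₁) (h2' : 2 ≤ n₂)
    (hf₁ : IsSymmetricForm f₁) (hf₂ : IsSymmetricForm f₂)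
    (hT : IsTensorFormStructure id (QuadraticMap.polar Q) f₁ f₂ e P)
    (hle : H ≤ tensorProductSubgroup n₁ n₂ e P) : Goal12P Q H := by
  classical
  have hcard : n₁ * n₂ = 12 := by
    have := Fintype.card_congr e
    simpa using this.symm
  have hn12 : n₁ ≤ 12 := Nat.le_of_dvd (by norm_num) ⟨n₂, hcard.symm⟩
  have hcases : (n₁ = 2 ∧ n₂ = 6) ∨ (n₁ = 3 ∧ n₂ = 4) ∨ (n₁ = 4 ∧ n₂ = 3) ∨ (n₁ = 6 ∧ n₂ = 2) := by
    interval_cases n₁ <;> omega
  obtain ⟨hT', heq⟩ := Cfsg.Agent.Helper20.o12_tensor_swap (QuadraticMap.polar Q) e P f₁ f₂ hT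
  rcases hcases with ⟨rfl, rfl⟩ | ⟨rfl, rfl⟩ | ⟨rfl, rfl⟩ | ⟨rfl, rfl⟩
  · exact sym26_case hQ hH h2 e P f₁ f₂ hf₁ hf₂ hT hle
  · exact sym34_case hQ hplus hH h2 e P f₁ f₂ hf₁ hf₂ hT hle
  · exact sym34_case hQ hplus hH h2 _ P f₂ f₁ hf₂ hf₁ hT' (heq ▸ hle)
  · exact sym26_case hQ hH h2 _ P f₂ f₁ hf₂ hf₁ hT' (heq ▸ hle)

include hQ hplus hH in
/-- The maximal subgroups of `Ω_12^+(q)`. -/
theorem row12p : Goal12P Q H := by
  classical
  rcases o_core_p (by norm_num) Q hQ H (h_iso hH) with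
    ⟨W, hW0, hts, hle⟩ | ⟨h2, v, hv, hle⟩ |
    ⟨W, W', hW0, hW'0, hnd, hnd', horth, hinf, hsup, hle, hle'⟩ |
    ⟨hirr, t, k, D, hD, hle⟩ | ⟨r, K, hr, hK, hle⟩ | ⟨m, D, hD, hts, hle⟩ |
    ⟨h2, hirr, n₁, n₂, e, P, f₁, f₂, h1, h2', hf₁, hf₂, hT, hle⟩ |
    ⟨n₁, n₂, e, P, f₁, f₂, hf₁, hf₂, hT, hpure, hle⟩ |
    ⟨F₁, r, P, ζ, hr, hcard, hζ, hrat, hle⟩ | hres | ⟨r, j, hr, hrj⟩ | ⟨d, t, hd, ht, hdt⟩
  · exact ts_case hQ hplus hH W hW0 hts hle
  · exact g6 ⟨not_odd_of_two_eq_zero h2, v, hv, key hH hle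
      (Cfsg.Agent.Helper76.o12_notOmega_subspace Q hQ (by rw [card12]; norm_num) _
        (span_ne_bot hv hQ) (span_ne_top v))⟩
  · have hsum : Module.finrank F W + Module.finrank F W' = 12 := by
      have := Submodule.finrank_sup_add_finrank_inf_eq W W'
      rw [hsup, hinf, finrank_bot, finrank_top12] at this
      omega
    have hW1 : W ≠ ⊤ := by
      rintro rfl
      rw [top_inf_eq] at hinf
      exact hW'0 hinf
    have hW'1 : W' ≠ ⊤ := by
      rintro rfl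
      rw [inf_top_eq] at hinf
      exact hW0 hinf
    by_cases h6 : Module.finrank F W ≤ 6
    · exact pair_case hQ hplus hH W W' hW0 hW1 hnd hnd' horth hinf hsup hle hle' h6
    · exact pair_case hQ hplus hH W' W hW'0 hW'1 hnd' hnd
        (fun u hu v hv => by rw [QuadraticMap.polar_comm]; exact horth v hv u hu)
        (by rw [inf_comm]; exact hinf) (by rw [sup_comm]; exact hsup) hle' hle (by omega)
  · exact decomp_case hQ hplus hH hirr D hD hle
  · exact field_case hQ hH K hr hK hle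
  · exact tspair_case hQ hH D hD hts hle
  · exact sym_case hQ hplus hH h2 e P f₁ f₂ h1 h2' hf₁ hf₂ hT hle
  · exact alt_case hQ hH e P f₁ f₂ hf₁ hf₂ hT hpure hle
  · exact g18 ⟨F₁, r, P, ζ, hr, hcard, hζ, hrat, key hH hle
      (Cfsg.Agent.Helper81.o12_notOmega_subfield Q hQ (by rw [card12]; norm_num) F₁
        (top_ne_of_card F₁ hr hcard) P)⟩
  · exact g19 hres
  · exfalso
    have h2 : 2 ∣ r ^ j := ⟨72, by rw [← hrj]⟩
    have h3 : 3 ∣ r ^ j := ⟨48, by rw [← hrj]⟩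
    have h2' := (Nat.prime_dvd_prime_iff_eq Nat.prime_two hr).mp (Nat.Prime.dvd_of_dvd_pow Nat.prime_two h2)
    have h3' := (Nat.prime_dvd_prime_iff_eq Nat.prime_three hr).mp (Nat.Prime.dvd_of_dvd_pow Nat.prime_three h3)
    omega
  · exfalso
    have h1 : d ^ 2 ≤ d ^ t := Nat.pow_le_pow_right (by omega) ht
    have hd3 : d ≤ 3 := by
      by_contra hcon
      have : 4 ^ 2 ≤ d ^ 2 := Nat.pow_le_pow_left (by omega) 2
      omega
    have ht4 : t < 4 := by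
      by_contra hcon
      have h4 : 2 ^ 4 ≤ d ^ t := (Nat.pow_le_pow_left hd 4).trans (Nat.pow_le_pow_right (by omega) (by omega))
      omega
    interval_cases d <;> interval_cases t <;> omega

end

end Cfsg.Agent.Helper97.O12P
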