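import Mathlib
import Cfsg.Prelude.Def_GeometricClasses
import Cfsg.Agent.Helper94.ONd4

/-!
Orthogonal decompositions `V = D 0 ⊥ ... ⊥ D (t-1)` into non-degenerate subspaces of a quadratic
space over a finite field of odd characteristic: geometry of a non-degenerate subspace,
orthogonal projections onto the members (helper97, for S5677).
-/

set_option autoImplicit false
set_option linter.unusedSectionVars false
set_option linter.unusedVariables false

universe u

namespace Cfsg.Agent.Helper97.OD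

open Matrix Cfsg Cfsg.Geo Cfsg.Agent.Helper45 Cfsg.Agent.Helper94

section ODBasic

variable {ι : Type} [Fintype ι] [DecidableEq ι] {F : Type u} [Field F] [Fintype F]
  (Q : QuadraticForm F (ι → F))

theorem od_q_add (x y : ι → F) : Q (x + y) = Q x + Q y + QuadraticMap.polar ⇑Q x y := by
  simp [QuadraticMap.polar]

theorem od_q_smul (a : F) (x : ι → F) : Q (a • x) = a * a * Q x := by
  rw [QuadraticMap.map_smul, smul_eq_mul]

theorem od_pol_self (x : ι → F) : QuadraticMap.polar ⇑Q x x = 2 * Q x := by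
  rw [QuadraticMap.polar_self, two_smul, two_mul]

theorem od_q_sub (x y : ι → F) : Q (x - y) = Q x + Q y - QuadraticMap.polar ⇑Q x y := by
  rw [sub_eq_add_neg, od_q_add, QuadraticMap.map_neg, QuadraticMap.polar_neg_right]
  ring

/-- `W` is non-degenerate for the polar form of `Q`. -/
def ND (W : Submodule F (ι → F)) : Prop :=
  ∀ x ∈ W, x ≠ 0 → ∃ y ∈ W, QuadraticMap.polar ⇑Q y x ≠ 0

variable {Q}

/-- A non-zero non-degenerate subspace contains a non-singular vector. -/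
theorem ND.exists_ns {W : Submodule F (ι → F)} (hW : ND Q W) (x : ι → F) (hx : x ∈ W)
    (hx0 : x ≠ 0) : ∃ a ∈ W, Q a ≠ 0 := by
  by_cases h1 : Q x = 0
  swap
  · exact ⟨x, hx, h1⟩
  obtain ⟨y, hy, hyx⟩ := hW x hx hx0
  by_cases h2 : Q y = 0
  swap
  · exact ⟨y, hy, h2⟩
  refine ⟨y + x, W.add_mem hy hx, ?_⟩
  rw [od_q_add, h1, h2, zero_add, zero_add]
  exact hyx

/-- The orthogonal complement of a non-singular vector inside a non-degenerate subspace is
non-degenerate. -/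
theorem ND.perp (h2 : (2 : F) ≠ 0) {W : Submodule F (ι → F)} (hW : ND Q W) (a : ι → F)
    (ha : a ∈ W) (haQ : Q a ≠ 0) : ND Q (W ⊓ perpSub Q a) := by
  rintro x ⟨hx, hxa⟩ hx0
  rw [SetLike.mem_coe, mem_perpSub] at hxa
  obtain ⟨y, hy, hyx⟩ := hW x hx hx0
  refine ⟨y - (QuadraticMap.polar ⇑Q a y / (2 * Q a)) • a,
    ⟨W.sub_mem hy (W.smul_mem _ ha), ?_⟩, ?_⟩
  · rw [SetLike.mem_coe, mem_perpSub, QuadraticMap.polar_sub_right, QuadraticMap.polar_smul_right,
      od_pol_self, smul_eq_mul]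
    field_simp
    ring
  · rw [QuadraticMap.polar_sub_left, QuadraticMap.polar_smul_left, hxa, smul_zero, sub_zero]
    exact hyx

/-- A hyperbolic partner of a non-zero singular vector inside a non-degenerate subspace. -/
theorem ND.partner {W : Submodule F (ι → F)} (hW : ND Q W) (s : ι → F) (hs : s ∈ W)
    (hs0 : s ≠ 0) (hsQ : Q s = 0) :
    ∃ v ∈ W, Q v = 0 ∧ QuadraticMap.polar ⇑Q s v = 1 := by
  obtain ⟨y, hy, hys⟩ := hW s hs hs0
  have hsy : QuadraticMap.polar ⇑Q s y ≠ 0 := by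
    rw [QuadraticMap.polar_comm]
    exact hys
  refine ⟨(QuadraticMap.polar ⇑Q s y)⁻¹ • (y - (Q y / QuadraticMap.polar ⇑Q s y) • s),
    W.smul_mem _ (W.sub_mem hy (W.smul_mem _ hs)), ?_, ?_⟩
  · rw [od_q_smul, od_q_sub, od_q_smul, hsQ, QuadraticMap.polar_smul_right, smul_eq_mul,
      QuadraticMap.polar_comm ⇑Q y s]
    field_simp
    ring
  · rw [QuadraticMap.polar_smul_right, QuadraticMap.polar_sub_right, QuadraticMap.polar_smul_right,
      od_pol_self, hsQ, smul_eq_mul, smul_eq_mul]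
    field_simp
    ring

/-- A non-zero vector of `W ⊓ s^⊥ ⊓ v^⊥` when `dim W ≥ 3`. -/
theorem od_exists_perp2 {W : Submodule F (ι → F)} (h3 : 3 ≤ Module.finrank F W) (s v : ι → F) :
    ∃ z ∈ W, z ≠ 0 ∧ QuadraticMap.polar ⇑Q s z = 0 ∧ QuadraticMap.polar ⇑Q v z = 0 := by
  have h1 := finrank_inf_perpSub_ge Q W s
  have h2 := finrank_inf_perpSub_ge Q (W ⊓ perpSub Q s) v
  have h3' : 0 < Module.finrank F ↥(W ⊓ perpSub Q s ⊓ perpSub Q v) := by omega
  obtain ⟨z, hz0⟩ := Module.finrank_pos_iff_exists_ne_zero.mp h3'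
  refine ⟨(z : ι → F), z.2.1.1, fun h => hz0 (Subtype.ext h), ?_, ?_⟩
  · exact (mem_perpSub Q s _).mp z.2.1.2
  · exact (mem_perpSub Q v _).mp z.2.2

/-- Remove the components along a hyperbolic pair. -/
theorem od_strip (s v y : ι → F) (hsQ : Q s = 0) (hvQ : Q v = 0)
    (hsv : QuadraticMap.polar ⇑Q s v = 1) :
    QuadraticMap.polar ⇑Q s (y - QuadraticMap.polar ⇑Q v y • s - QuadraticMap.polar ⇑Q s y • v) = 0 ∧
    QuadraticMap.polar ⇑Q v (y - QuadraticMap.polar ⇑Q v y • s - QuadraticMap.polar ⇑Q s y • v) = 0 := by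
  have hvs : QuadraticMap.polar ⇑Q v s = 1 := by rw [QuadraticMap.polar_comm]; exact hsv
  constructor
  · rw [QuadraticMap.polar_sub_right, QuadraticMap.polar_sub_right, QuadraticMap.polar_smul_right,
      QuadraticMap.polar_smul_right, od_pol_self, hsQ, hsv, smul_eq_mul, smul_eq_mul]
    ring
  · rw [QuadraticMap.polar_sub_right, QuadraticMap.polar_sub_right, QuadraticMap.polar_smul_right,
      QuadraticMap.polar_smul_right, od_pol_self, hvQ, hvs, smul_eq_mul, smul_eq_mul]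
    ring

/-- In a non-degenerate subspace of dimension at least three, every non-zero vector is
non-orthogonal to some singular vector. -/
theorem ND.exists_sing_np {W : Submodule F (ι → F)} (hW : ND Q W)
    (h3 : 3 ≤ Module.finrank F W) (x : ι → F) (hx : x ∈ W) (hx0 : x ≠ 0) :
    ∃ s ∈ W, Q s = 0 ∧ QuadraticMap.polar ⇑Q x s ≠ 0 := by
  obtain ⟨s₀, hs₀, hs₀0, hs₀Q⟩ := exists_sing_in Q W h3
  by_cases h1 : QuadraticMap.polar ⇑Q x s₀ = 0
  swap
  · exact ⟨s₀, hs₀, hs₀Q, h1⟩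
  obtain ⟨v, hv, hvQ, hsv⟩ := hW.partner s₀ hs₀ hs₀0 hs₀Q
  by_cases h2 : QuadraticMap.polar ⇑Q x v = 0
  swap
  · exact ⟨v, hv, hvQ, h2⟩
  obtain ⟨y, hy, hyx⟩ := hW x hx hx0
  obtain ⟨y', hy'def⟩ : ∃ y', y' = y - QuadraticMap.polar ⇑Q v y • s₀ -
      QuadraticMap.polar ⇑Q s₀ y • v := ⟨_, rfl⟩
  have hy' : y' ∈ W := by
    rw [hy'def]
    exact W.sub_mem (W.sub_mem hy (W.smul_mem _ hs₀)) (W.smul_mem _ hv)
  obtain ⟨e1, e2⟩ := od_strip s₀ v y hs₀Q hvQ hsv
  rw [← hy'def] at e1 e2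
  have e3 : QuadraticMap.polar ⇑Q x y' ≠ 0 := by
    rw [hy'def, QuadraticMap.polar_sub_right, QuadraticMap.polar_sub_right,
      QuadraticMap.polar_smul_right, QuadraticMap.polar_smul_right, h1, h2, smul_zero, smul_zero,
      sub_zero, sub_zero, QuadraticMap.polar_comm]
    exact hyx
  refine ⟨y' + v - Q y' • s₀, W.sub_mem (W.add_mem hy' hv) (W.smul_mem _ hs₀), ?_, ?_⟩
  · rw [od_q_sub, od_q_add, od_q_smul, hs₀Q, hvQ, QuadraticMap.polar_smul_right,
      QuadraticMap.polar_add_left, QuadraticMap.polar_comm ⇑Q y' s₀, e1,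
      QuadraticMap.polar_comm ⇑Q v s₀, hsv, QuadraticMap.polar_comm ⇑Q y' v, e2, smul_eq_mul]
    ring
  · rw [QuadraticMap.polar_sub_right, QuadraticMap.polar_add_right, QuadraticMap.polar_smul_right,
      h1, h2, smul_zero, add_zero, sub_zero]
    exact e3

/-- In a non-degenerate subspace of dimension at least three, the orthogonal complement of a
non-zero singular vector contains a non-singular vector. -/
theorem ND.exists_ns_perp {W : Submodule F (ι → F)} (hW : ND Q W)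
    (h3 : 3 ≤ Module.finrank F W) (s : ι → F) (hs : s ∈ W) (hs0 : s ≠ 0) (hsQ : Q s = 0) :
    ∃ c ∈ W, QuadraticMap.polar ⇑Q s c = 0 ∧ Q c ≠ 0 := by
  obtain ⟨v, hv, hvQ, hsv⟩ := hW.partner s hs hs0 hsQ
  obtain ⟨z, hz, hz0, hsz, hvz⟩ := od_exists_perp2 (Q := Q) h3 s v
  by_cases h1 : Q z = 0
  swap
  · exact ⟨z, hz, hsz, h1⟩
  obtain ⟨y, hy, hyz⟩ := hW z hz hz0
  obtain ⟨y', hy'def⟩ : ∃ y', y' = y - QuadraticMap.polar ⇑Q v y • s -
      QuadraticMap.polar ⇑Q s y • v := ⟨_, rfl⟩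
  have hy' : y' ∈ W := by
    rw [hy'def]
    exact W.sub_mem (W.sub_mem hy (W.smul_mem _ hs)) (W.smul_mem _ hv)
  obtain ⟨e1, e2⟩ := od_strip s v y hsQ hvQ hsv
  rw [← hy'def] at e1 e2
  have e3 : QuadraticMap.polar ⇑Q y' z ≠ 0 := by
    rw [hy'def, QuadraticMap.polar_sub_left, QuadraticMap.polar_sub_left,
      QuadraticMap.polar_smul_left, QuadraticMap.polar_smul_left, hsz, hvz, smul_zero, smul_zero,
      sub_zero, sub_zero]
    exact hyz
  by_cases h2 : Q y' = 0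
  swap
  · exact ⟨y', hy', e1, h2⟩
  refine ⟨y' + z, W.add_mem hy' hz, ?_, ?_⟩
  · rw [QuadraticMap.polar_add_right, e1, hsz, add_zero]
  · rw [od_q_add, h1, h2, zero_add, zero_add]
    exact e3

/-- A non-degenerate subspace containing a non-zero singular vector `s` is spanned by `s` and
the singular vectors not orthogonal to `s`. -/
theorem ND.span_sing {W : Submodule F (ι → F)} (hW : ND Q W) (s : ι → F) (hs : s ∈ W)
    (hs0 : s ≠ 0) (hsQ : Q s = 0) (T : Submodule F (ι → F)) (hsT : s ∈ T)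
    (hT : ∀ s' ∈ W, Q s' = 0 → QuadraticMap.polar ⇑Q s s' ≠ 0 → s' ∈ T) : W ≤ T := by
  obtain ⟨v, hv, hvQ, hsv⟩ := hW.partner s hs hs0 hsQ
  have hvT : v ∈ T := hT v hv hvQ (by rw [hsv]; exact one_ne_zero)
  intro x hx
  obtain ⟨x', hx'def⟩ : ∃ x', x' = x - QuadraticMap.polar ⇑Q s x • v := ⟨_, rfl⟩
  have hx' : x' ∈ W := by
    rw [hx'def]
    exact W.sub_mem hx (W.smul_mem _ hv)
  have hsx' : QuadraticMap.polar ⇑Q s x' = 0 := by
    rw [hx'def, QuadraticMap.polar_sub_right, QuadraticMap.polar_smul_right, hsv, smul_eq_mul,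
      mul_one, sub_self]
  obtain ⟨s'', hs''def⟩ : ∃ s'', s'' = v + x' - (Q x' + QuadraticMap.polar ⇑Q v x') • s :=
    ⟨_, rfl⟩
  have hs''W : s'' ∈ W := by
    rw [hs''def]
    exact W.sub_mem (W.add_mem hv hx') (W.smul_mem _ hs)
  have hs''Q : Q s'' = 0 := by
    rw [hs''def, od_q_sub, od_q_add, od_q_smul, hsQ, hvQ, QuadraticMap.polar_smul_right,
      QuadraticMap.polar_add_left, QuadraticMap.polar_comm ⇑Q v s, hsv,
      QuadraticMap.polar_comm ⇑Q x' s, hsx', smul_eq_mul]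
    ring
  have hss'' : QuadraticMap.polar ⇑Q s s'' ≠ 0 := by
    rw [hs''def, QuadraticMap.polar_sub_right, QuadraticMap.polar_add_right,
      QuadraticMap.polar_smul_right, od_pol_self, hsQ, hsv, hsx']
    simp
  have h1 := hT s'' hs''W hs''Q hss''
  have h2 : x = s'' - v + (Q x' + QuadraticMap.polar ⇑Q v x') • s +
      QuadraticMap.polar ⇑Q s x • v := by
    rw [hs''def, hx'def]
    module
  rw [h2]
  exact T.add_mem (T.add_mem (T.sub_mem h1 hvT) (T.smul_mem _ hsT)) (T.smul_mem _ hvT)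

/-- Two orthogonal non-singular vectors in a non-degenerate subspace of dimension at least
two. -/
theorem ND.exists_orth2 (h2 : (2 : F) ≠ 0) {Z : Submodule F (ι → F)} (hZ : ND Q Z)
    (hdim : 2 ≤ Module.finrank F Z) :
    ∃ b₁ ∈ Z, ∃ b₂ ∈ Z, Q b₁ ≠ 0 ∧ Q b₂ ≠ 0 ∧ QuadraticMap.polar ⇑Q b₁ b₂ = 0 := by
  have hpos : 0 < Module.finrank F Z := by omega
  obtain ⟨z, hz0⟩ := Module.finrank_pos_iff_exists_ne_zero.mp hpos
  obtain ⟨b₁, hb₁, hb₁Q⟩ := hZ.exists_ns (z : ι → F) z.2 (fun h => hz0 (Subtype.ext h))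
  have hZ' := hZ.perp h2 b₁ hb₁ hb₁Q
  have h1 := finrank_inf_perpSub_ge Q Z b₁
  have hpos' : 0 < Module.finrank F ↥(Z ⊓ perpSub Q b₁) := by omega
  obtain ⟨z', hz'0⟩ := Module.finrank_pos_iff_exists_ne_zero.mp hpos'
  obtain ⟨b₂, hb₂, hb₂Q⟩ := hZ'.exists_ns (z' : ι → F) z'.2 (fun h => hz'0 (Subtype.ext h))
  exact ⟨b₁, hb₁, b₂, hb₂.1, hb₁Q, hb₂Q, (mem_perpSub Q b₁ b₂).mp hb₂.2⟩

/-- A non-degenerate subspace of dimension at least two represents every value. -/
theorem ND.exists_val (h2 : (2 : F) ≠ 0) {Z : Submodule F (ι → F)} (hZ : ND Q Z)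
    (hdim : 2 ≤ Module.finrank F Z) (η : F) : ∃ z ∈ Z, Q z = η := by
  obtain ⟨b₁, hb₁, b₂, hb₂, hb₁Q, hb₂Q, hb⟩ := hZ.exists_orth2 h2 hdim
  have hchar : ringChar F ≠ 2 := by
    intro h
    apply h2
    have h3 : ((2 : ℕ) : F) = 0 := by
      rw [← h]
      exact ringChar.Nat.cast_ringChar
    exact_mod_cast h3
  have hf : (Polynomial.C (Q b₁) * Polynomial.X ^ 2 + Polynomial.C 0 * Polynomial.X +
      Polynomial.C (-η)).degree = 2 := Polynomial.degree_quadratic hb₁Q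
  have hg : (Polynomial.C (Q b₂) * Polynomial.X ^ 2 + Polynomial.C 0 * Polynomial.X +
      Polynomial.C 0).degree = 2 := Polynomial.degree_quadratic hb₂Q
  obtain ⟨ξ, ζ, h⟩ := FiniteField.exists_root_sum_quadratic hf hg
    (FiniteField.odd_card_of_char_ne_two hchar)
  refine ⟨ξ • b₁ + ζ • b₂, Z.add_mem (Z.smul_mem _ hb₁) (Z.smul_mem _ hb₂), ?_⟩
  rw [od_q_add, od_q_smul, od_q_smul, QuadraticMap.polar_smul_left, QuadraticMap.polar_smul_right,
    hb, smul_zero, smul_zero, add_zero]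
  simp only [Polynomial.eval_add, Polynomial.eval_mul, Polynomial.eval_C, Polynomial.eval_pow,
    Polynomial.eval_X, zero_mul, add_zero] at h
  linear_combination h

end ODBasic

end Cfsg.Agent.Helper97.OD
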