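import Mathlib
import Cfsg.Prelude.Def_GeometricClasses
import Cfsg.Agent.Helper97.ODBasic

/-!
Orthogonal decompositions: the structure `ODec`, orthogonal projections `OProj`, total
reflections `oR`, and the elements of the decomposition stabiliser (helper97, for S5677).
-/

set_option autoImplicit false
set_option linter.unusedSectionVars false
set_option linter.unusedVariables false

universe u

namespace Cfsg.Agent.Helper97.OD

open Matrix Cfsg Cfsg.Geo Cfsg.Agent.Helper45 Cfsg.Agent.Helper94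

section ODProj

variable {ι : Type} [Fintype ι] [DecidableEq ι] {F : Type u} [Field F] [Fintype F]
  (Q : QuadraticForm F (ι → F)) {t : ℕ}

/-- An orthogonal decomposition into non-degenerate subspaces. -/
structure ODec (D : Fin t → Submodule F (ι → F)) : Prop where
  perp : ∀ i j, i ≠ j → ∀ x ∈ D i, ∀ y ∈ D j, QuadraticMap.polar ⇑Q x y = 0
  nd : ∀ i, ND Q (D i)
  top : iSup D = ⊤

/-- Orthogonal projections onto the members of a decomposition. -/
structure OProj (D : Fin t → Submodule F (ι → F)) (π : Fin t → (ι → F) →ₗ[F] (ι → F)) :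
    Prop where
  mem : ∀ i x, π i x ∈ D i
  perp : ∀ i x, ∀ y ∈ D i, QuadraticMap.polar ⇑Q (x - π i x) y = 0

variable {Q}

theorem od_exists_proj_one (hQ : (QuadraticMap.polarBilin Q).Nondegenerate)
    (W : Submodule F (ι → F)) (hW : ND Q W) :
    ∃ p : (ι → F) →ₗ[F] (ι → F), (∀ x, p x ∈ W) ∧
      ∀ x, ∀ y ∈ W, QuadraticMap.polar ⇑Q (x - p x) y = 0 := by
  have P := OPair.of_nondeg hQ W hW
  have hc : IsCompl W (LinearMap.BilinForm.orthogonal (QuadraticMap.polarBilin Q) W) := by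
    constructor
    · rw [Submodule.disjoint_def]
      intro x hx hx'
      exact P.disj hQ x hx' hx
    · rw [codisjoint_iff, eq_top_iff]
      intro v _
      obtain ⟨a, ha, w, hw, rfl⟩ := P.dec v
      rw [add_comm]
      exact Submodule.add_mem_sup hw ha
  refine ⟨W.projection _ hc, fun x => Submodule.projection_apply_mem hc x, fun x y hy => ?_⟩
  exact P.perp _ (Submodule.sub_projection_mem hc x) y hy

theorem od_exists_proj (hQ : (QuadraticMap.polarBilin Q).Nondegenerate)
    {D : Fin t → Submodule F (ι → F)} (hD : ODec Q D) : ∃ π, OProj Q D π := by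
  choose π h1 h2 using fun i => od_exists_proj_one hQ (D i) (hD.nd i)
  exact ⟨π, ⟨h1, h2⟩⟩

variable {D : Fin t → Submodule F (ι → F)} {π : Fin t → (ι → F) →ₗ[F] (ι → F)}

theorem OProj.pol (hπ : OProj Q D π) (i : Fin t) (x y : ι → F) (hy : y ∈ D i) :
    QuadraticMap.polar ⇑Q (π i x) y = QuadraticMap.polar ⇑Q x y := by
  have h := hπ.perp i x y hy
  rw [QuadraticMap.polar_sub_left] at h
  exact (sub_eq_zero.mp h).symm

theorem OProj.pol' (hπ : OProj Q D π) (i : Fin t) (x y : ι → F) (hy : y ∈ D i) :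
    QuadraticMap.polar ⇑Q y (π i x) = QuadraticMap.polar ⇑Q y x := by
  rw [QuadraticMap.polar_comm, hπ.pol i x y hy, QuadraticMap.polar_comm]

theorem OProj.self (hD : ODec Q D) (hπ : OProj Q D π) (i : Fin t) (x : ι → F) (hx : x ∈ D i) :
    π i x = x := by
  by_contra h
  have hz : x - π i x ∈ D i := (D i).sub_mem hx (hπ.mem i x)
  have hz0 : x - π i x ≠ 0 := fun h0 => h (sub_eq_zero.mp h0).symm
  obtain ⟨y, hy, hyz⟩ := hD.nd i _ hz hz0
  apply hyz
  rw [QuadraticMap.polar_comm]
  exact hπ.perp i x y hy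

theorem OProj.other (hD : ODec Q D) (hπ : OProj Q D π) (i j : Fin t) (hij : i ≠ j) (x : ι → F)
    (hx : x ∈ D j) : π i x = 0 := by
  by_contra h
  obtain ⟨y, hy, hyz⟩ := hD.nd i _ (hπ.mem i x) h
  apply hyz
  rw [QuadraticMap.polar_comm, hπ.pol i x y hy, QuadraticMap.polar_comm]
  exact hD.perp i j hij y hy x hx

theorem od_pol_sum_left (s : Finset (Fin t)) (v : Fin t → ι → F) (y : ι → F) :
    QuadraticMap.polar ⇑Q (∑ i ∈ s, v i) y = ∑ i ∈ s, QuadraticMap.polar ⇑Q (v i) y := by
  classical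
  induction s using Finset.induction_on with
  | empty => simp
  | insert a s ha ih =>
    rw [Finset.sum_insert ha, Finset.sum_insert ha, QuadraticMap.polar_add_left, ih]

theorem od_q_sum (s : Finset (Fin t)) (v : Fin t → ι → F)
    (h : ∀ i ∈ s, ∀ j ∈ s, i ≠ j → QuadraticMap.polar ⇑Q (v i) (v j) = 0) :
    Q (∑ i ∈ s, v i) = ∑ i ∈ s, Q (v i) := by
  classical
  induction s using Finset.induction_on with
  | empty => simp
  | insert a s ha ih =>
    rw [Finset.sum_insert ha, Finset.sum_insert ha, od_q_add,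
      ih (fun i hi j hj hij => h i (Finset.mem_insert_of_mem hi) j (Finset.mem_insert_of_mem hj)
        hij)]
    have h0 : QuadraticMap.polar ⇑Q (v a) (∑ i ∈ s, v i) = 0 := by
      rw [QuadraticMap.polar_comm, od_pol_sum_left]
      apply Finset.sum_eq_zero
      intro i hi
      exact h i (Finset.mem_insert_of_mem hi) a (Finset.mem_insert_self a s)
        (fun e => ha (e ▸ hi))
    rw [h0, add_zero]

/-- Every vector is the sum of its components. -/
theorem OProj.sum (hQ : (QuadraticMap.polarBilin Q).Nondegenerate) (hD : ODec Q D)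
    (hπ : OProj Q D π) (x : ι → F) : ∑ i, π i x = x := by
  have key : ∀ j, ∀ y ∈ D j, QuadraticMap.polar ⇑Q (x - ∑ i, π i x) y = 0 := by
    intro j y hy
    rw [QuadraticMap.polar_sub_left, od_pol_sum_left, Finset.sum_eq_single j]
    · rw [hπ.pol j x y hy, sub_self]
    · intro i _ hij
      exact hD.perp i j hij _ (hπ.mem i x) y hy
    · intro h
      exact absurd (Finset.mem_univ j) h
  have h1 : ∀ y, QuadraticMap.polar ⇑Q (x - ∑ i, π i x) y = 0 := by
    have hle : iSup D ≤ perpSub Q (x - ∑ i, π i x) :=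
      iSup_le (fun j y hy => (mem_perpSub Q _ y).mpr (key j y hy))
    intro y
    have hy : y ∈ iSup D := by
      rw [hD.top]
      exact Submodule.mem_top
    exact (mem_perpSub Q _ y).mp (hle hy)
  have h2 : x - ∑ i, π i x = 0 := hQ.1 _ h1
  exact (sub_eq_zero.mp h2).symm

/-- `Q` is the sum of its values on the components. -/
theorem OProj.q_sum (hQ : (QuadraticMap.polarBilin Q).Nondegenerate) (hD : ODec Q D)
    (hπ : OProj Q D π) (x : ι → F) : Q x = ∑ i, Q (π i x) := by
  conv_lhs => rw [← hπ.sum hQ hD x]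
  exact od_q_sum Finset.univ (fun i => π i x)
    (fun i _ j _ hij => hD.perp i j hij _ (hπ.mem i x) _ (hπ.mem j x))

theorem OProj.mem_of (hQ : (QuadraticMap.polarBilin Q).Nondegenerate) (hD : ODec Q D)
    (hπ : OProj Q D π) (i : Fin t) (x : ι → F) (h : ∀ j, j ≠ i → π j x = 0) : x ∈ D i := by
  have h1 := hπ.sum hQ hD x
  rw [Finset.sum_eq_single i (fun j _ hj => h j hj)
    (fun h => absurd (Finset.mem_univ i) h)] at h1
  rw [← h1]
  exact hπ.mem i x

/-- A vector in no member has two non-zero components. -/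
theorem OProj.exists_two (hQ : (QuadraticMap.polarBilin Q).Nondegenerate) (hD : ODec Q D)
    (hπ : OProj Q D π) (x : ι → F) (hx : ∀ i, x ∉ D i) (i₀ : Fin t) :
    ∃ m m', m ≠ m' ∧ π m x ≠ 0 ∧ π m' x ≠ 0 := by
  obtain ⟨m, hm⟩ : ∃ m, π m x ≠ 0 := by
    by_contra hcon
    push Not at hcon
    exact hx i₀ (hπ.mem_of hQ hD i₀ x (fun j _ => hcon j))
  obtain ⟨m', hm'm, hm'⟩ : ∃ m', m' ≠ m ∧ π m' x ≠ 0 := by
    by_contra hcon
    push Not at hcon
    exact hx m (hπ.mem_of hQ hD m x hcon)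
  exact ⟨m, m', fun e => hm'm e.symm, hm, hm'⟩

/-- Distinct members meet trivially. -/
theorem ODec.disj (hD : ODec Q D) (i j : Fin t) (hij : i ≠ j) (x : ι → F) (hx : x ∈ D i)
    (hx' : x ∈ D j) : x = 0 := by
  by_contra h0
  obtain ⟨y, hy, hyx⟩ := hD.nd i x hx h0
  exact hyx (hD.perp i j hij y hy x hx')

/-- The vector `x` lies in some member of the decomposition. -/
def InB (D : Fin t → Submodule F (ι → F)) (x : ι → F) : Prop := ∃ i, x ∈ D i

variable (Q)

/-- The reflection as a total function (the identity for singular vectors). -/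
noncomputable def oR (a : ι → F) : ↥(isometryGroup F ⇑Q) := by
  classical
  exact if h : Q a ≠ 0 then reflO Q a h else 1

theorem oR_eq (a : ι → F) (ha : Q a ≠ 0) : oR Q a = reflO Q a ha := by
  unfold oR
  rw [dif_pos ha]

theorem mv_oR (a : ι → F) (ha : Q a ≠ 0) (x : ι → F) :
    mv ⇑Q (oR Q a) x = x - ((Q a)⁻¹ * QuadraticMap.polar ⇑Q a x) • a := by
  rw [oR_eq Q a ha, mv_reflO]

theorem oR_mul_self (a : ι → F) : oR Q a * oR Q a = 1 := by
  by_cases ha : Q a ≠ 0
  · rw [oR_eq Q a ha, reflO_mul_self]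
  · unfold oR
    rw [dif_neg ha, one_mul]

theorem oR_inv (a : ι → F) : (oR Q a)⁻¹ = oR Q a :=
  inv_eq_of_mul_eq_one_left (oR_mul_self Q a)

theorem oR_conj (g : ↥(isometryGroup F ⇑Q)) (a : ι → F) (ha : Q a ≠ 0) :
    g * oR Q a * g⁻¹ = oR Q (mv ⇑Q g a) := by
  have ha' : Q (mv ⇑Q g a) ≠ 0 := by
    rw [mv_quad ⇑Q g]
    exact ha
  rw [oR_eq Q a ha, oR_eq Q _ ha', conj_reflO]

theorem oR_mem_pair (hQ : (QuadraticMap.polarBilin Q).Nondegenerate)
    (hn : 2 ≤ Fintype.card ι) (a b : ι → F) (ha : Q a ≠ 0) (hab : Q a = Q b) :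
    oR Q a * oR Q b ∈ Omega F ⇑Q := by
  have hb : Q b ≠ 0 := by rw [← hab]; exact ha
  rw [oR_eq Q a ha, oR_eq Q b hb]
  exact refl_pair_mem_omega_all Q hQ hn a b ha hb hab

/-- The isometry `g` maps the members of `D` according to the permutation `α`. -/
def BP (D : Fin t → Submodule F (ι → F)) (g : ↥(isometryGroup F ⇑Q))
    (α : Equiv.Perm (Fin t)) : Prop :=
  ∀ i, ∀ x ∈ D i, mv ⇑Q g x ∈ D (α i)

/-- The hypothesis that `M` contains the stabiliser of the decomposition in `Ω`. -/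
def HD (D : Fin t → Submodule F (ι → F)) (M : Subgroup ↥(isometryGroup F ⇑Q)) : Prop :=
  ∀ g ∈ Omega F ⇑Q, (∃ α : Equiv.Perm (Fin t), BP Q D g α) → g ∈ M

variable {Q}

theorem BP.mul {g h : ↥(isometryGroup F ⇑Q)} {α β : Equiv.Perm (Fin t)} (hg : BP Q D g α)
    (hh : BP Q D h β) : BP Q D (g * h) (α * β) := by
  intro i x hx
  rw [mv_mul, Equiv.Perm.mul_apply]
  exact hg _ _ (hh i x hx)

theorem BP.one : BP Q D 1 1 := by
  intro i x hx
  rw [mv_one]
  exact hx

/-- Eichler transformations inside a member lie in `M`. -/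
theorem od_E_in (hQ : (QuadraticMap.polarBilin Q).Nondegenerate) (hn : 5 ≤ Fintype.card ι)
    (hD : ODec Q D) {M : Subgroup ↥(isometryGroup F ⇑Q)} (hM : HD Q D M) (i : Fin t)
    (s c : ι → F) (hs : s ∈ D i) (hc : c ∈ D i) (hsQ : Q s = 0)
    (hsc : QuadraticMap.polar ⇑Q s c = 0) : oE Q s c ∈ M := by
  apply hM _ (oE_mem_omega Q hQ hn s c)
  refine ⟨1, fun j x hx => ?_⟩
  rw [mv_oE Q s c hsQ hsc, Equiv.Perm.one_apply]
  by_cases hij : j = i
  · subst hij
    exact (D j).sub_mem ((D j).add_mem hx ((D j).smul_mem _ hs)) ((D j).smul_mem _ hc)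
  · rw [hD.perp i j (fun e => hij e.symm) s hs x hx, hD.perp i j (fun e => hij e.symm) c hc x hx]
    simp only [mul_zero, sub_zero, zero_smul, add_zero]
    exact hx

/-- The Eichler transformation of a member fixes the other members pointwise. -/
theorem od_E_fix (hD : ODec Q D) (i j : Fin t) (hij : i ≠ j) (s c : ι → F) (hs : s ∈ D i)
    (hc : c ∈ D i) (hsQ : Q s = 0) (hsc : QuadraticMap.polar ⇑Q s c = 0) (x : ι → F)
    (hx : x ∈ D j) : mv ⇑Q (oE Q s c) x = x := by
  rw [mv_oE Q s c hsQ hsc, hD.perp i j hij s hs x hx, hD.perp i j hij c hc x hx]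
  simp only [mul_zero, sub_zero, zero_smul, add_zero]

/-- A reflection in a vector of a member preserves every member. -/
theorem od_R_maps (hD : ODec Q D) (i : Fin t) (a : ι → F) (ha : a ∈ D i) (haQ : Q a ≠ 0)
    (j : Fin t) (x : ι → F) (hx : x ∈ D j) : mv ⇑Q (oR Q a) x ∈ D j := by
  rw [mv_oR Q a haQ]
  by_cases hij : j = i
  · subst hij
    exact (D j).sub_mem hx ((D j).smul_mem _ ha)
  · rw [hD.perp i j (fun e => hij e.symm) a ha x hx, mul_zero, zero_smul, sub_zero]
    exact hx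

/-- Products of two reflections in vectors of equal norm lying in members lie in `M`. -/
theorem od_RR_in (hQ : (QuadraticMap.polarBilin Q).Nondegenerate) (hn : 5 ≤ Fintype.card ι)
    (hD : ODec Q D) {M : Subgroup ↥(isometryGroup F ⇑Q)} (hM : HD Q D M) (a b : ι → F)
    (ha : InB D a) (hb : InB D b) (haQ : Q a ≠ 0) (hab : Q a = Q b) : oR Q a * oR Q b ∈ M := by
  obtain ⟨i, hi⟩ := ha
  obtain ⟨j, hj⟩ := hb
  have hbQ : Q b ≠ 0 := by rw [← hab]; exact haQ
  apply hM _ (oR_mem_pair Q hQ (by omega) a b haQ hab)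
  refine ⟨1, fun l x hx => ?_⟩
  rw [mv_mul, Equiv.Perm.one_apply]
  exact od_R_maps hD i a hi haQ l _ (od_R_maps hD j b hj hbQ l x hx)

end ODProj

end Cfsg.Agent.Helper97.OD
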