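import Mathlib
import Cfsg.Prelude.Def_GeometricClasses
import Cfsg.Agent.Helper97.ODProj

/-!
Orthogonal decompositions: isometries swapping two isometric members, and elements of `Ω`
permuting three members cyclically (helper97, for S5677).
-/

set_option autoImplicit false
set_option linter.unusedSectionVars false
set_option linter.unusedVariables false

universe u

namespace Cfsg.Agent.Helper97.OD

open Matrix Cfsg Cfsg.Geo Cfsg.Agent.Helper45 Cfsg.Agent.Helper94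
open scoped commutatorElement

section ODSwap

variable {ι : Type} [Fintype ι] [DecidableEq ι] {F : Type u} [Field F] [Fintype F]
  {Q : QuadraticForm F (ι → F)} {t : ℕ} {D : Fin t → Submodule F (ι → F)}
  {π : Fin t → (ι → F) →ₗ[F] (ι → F)}

/-- The linear map swapping `D a` and `D b` along `e`, fixing the other members. -/
noncomputable def swLin (hπ : OProj Q D π) (a b : Fin t) (e : D a ≃ₗ[F] D b) :
    (ι → F) →ₗ[F] (ι → F) :=
  LinearMap.id - π a - π b +
    (D b).subtype ∘ₗ e.toLinearMap ∘ₗ (π a).codRestrict (D a) (hπ.mem a) +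
    (D a).subtype ∘ₗ e.symm.toLinearMap ∘ₗ (π b).codRestrict (D b) (hπ.mem b)

theorem swLin_apply (hπ : OProj Q D π) (a b : Fin t) (e : D a ≃ₗ[F] D b) (x : ι → F) :
    swLin hπ a b e x = x - π a x - π b x + (e ⟨π a x, hπ.mem a x⟩ : ι → F) +
      (e.symm ⟨π b x, hπ.mem b x⟩ : ι → F) := rfl

theorem swLin_left (hD : ODec Q D) (hπ : OProj Q D π) (a b : Fin t) (hab : a ≠ b)
    (e : D a ≃ₗ[F] D b) (x : ι → F) (hx : x ∈ D a) :
    swLin hπ a b e x = (e ⟨x, hx⟩ : ι → F) := by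
  rw [swLin_apply]
  have h1 : (⟨π a x, hπ.mem a x⟩ : D a) = ⟨x, hx⟩ := Subtype.ext (hπ.self hD a x hx)
  have h2 : (⟨π b x, hπ.mem b x⟩ : D b) = 0 :=
    Subtype.ext (hπ.other hD b a (fun h => hab h.symm) x hx)
  rw [h1, h2, map_zero, hπ.self hD a x hx, hπ.other hD b a (fun h => hab h.symm) x hx]
  simp

theorem swLin_right (hD : ODec Q D) (hπ : OProj Q D π) (a b : Fin t) (hab : a ≠ b)
    (e : D a ≃ₗ[F] D b) (x : ι → F) (hx : x ∈ D b) :
    swLin hπ a b e x = (e.symm ⟨x, hx⟩ : ι → F) := by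
  rw [swLin_apply]
  have h1 : (⟨π b x, hπ.mem b x⟩ : D b) = ⟨x, hx⟩ := Subtype.ext (hπ.self hD b x hx)
  have h2 : (⟨π a x, hπ.mem a x⟩ : D a) = 0 := Subtype.ext (hπ.other hD a b hab x hx)
  rw [h1, h2, map_zero, hπ.self hD b x hx, hπ.other hD a b hab x hx]
  simp

theorem swLin_other (hD : ODec Q D) (hπ : OProj Q D π) (a b : Fin t) (e : D a ≃ₗ[F] D b)
    (c : Fin t) (hca : c ≠ a) (hcb : c ≠ b) (x : ι → F) (hx : x ∈ D c) :
    swLin hπ a b e x = x := by
  rw [swLin_apply]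
  have h1 : (⟨π a x, hπ.mem a x⟩ : D a) = 0 :=
    Subtype.ext (hπ.other hD a c (fun h => hca h.symm) x hx)
  have h2 : (⟨π b x, hπ.mem b x⟩ : D b) = 0 :=
    Subtype.ext (hπ.other hD b c (fun h => hcb h.symm) x hx)
  rw [h1, h2, map_zero, map_zero, hπ.other hD a c (fun h => hca h.symm) x hx,
    hπ.other hD b c (fun h => hcb h.symm) x hx]
  simp

theorem swLin_mem (hD : ODec Q D) (hπ : OProj Q D π) (a b : Fin t) (hab : a ≠ b)
    (e : D a ≃ₗ[F] D b) (i : Fin t) (x : ι → F) (hx : x ∈ D i) :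
    swLin hπ a b e x ∈ D (Equiv.swap a b i) := by
  by_cases hia : i = a
  · subst hia
    rw [swLin_left hD hπ i b hab e x hx, Equiv.swap_apply_left]
    exact Submodule.coe_mem _
  by_cases hib : i = b
  · subst hib
    rw [swLin_right hD hπ a i hab e x hx, Equiv.swap_apply_right]
    exact Submodule.coe_mem _
  rw [swLin_other hD hπ a b e i hia hib x hx, Equiv.swap_apply_of_ne_of_ne hia hib]
  exact hx

theorem swLin_q_blk (hD : ODec Q D) (hπ : OProj Q D π) (a b : Fin t) (hab : a ≠ b)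
    (e : D a ≃ₗ[F] D b) (he : ∀ w : D a, Q ((e w : D b) : ι → F) = Q (w : ι → F)) (i : Fin t)
    (x : ι → F) (hx : x ∈ D i) : Q (swLin hπ a b e x) = Q x := by
  by_cases hia : i = a
  · subst hia
    rw [swLin_left hD hπ i b hab e x hx, he]
  by_cases hib : i = b
  · subst hib
    rw [swLin_right hD hπ a i hab e x hx]
    have h1 := he (e.symm ⟨x, hx⟩)
    rw [LinearEquiv.apply_symm_apply] at h1
    exact h1.symm
  rw [swLin_other hD hπ a b e i hia hib x hx]

theorem swLin_swLin_blk (hD : ODec Q D) (hπ : OProj Q D π) (a b : Fin t) (hab : a ≠ b)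
    (e : D a ≃ₗ[F] D b) (i : Fin t) (x : ι → F) (hx : x ∈ D i) :
    swLin hπ a b e (swLin hπ a b e x) = x := by
  by_cases hia : i = a
  · subst hia
    rw [swLin_left hD hπ i b hab e x hx, swLin_right hD hπ i b hab e _ (Submodule.coe_mem _)]
    simp
  by_cases hib : i = b
  · subst hib
    rw [swLin_right hD hπ a i hab e x hx, swLin_left hD hπ a i hab e _ (Submodule.coe_mem _)]
    simp
  rw [swLin_other hD hπ a b e i hia hib x hx, swLin_other hD hπ a b e i hia hib x hx]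

theorem swLin_swLin (hQ : (QuadraticMap.polarBilin Q).Nondegenerate) (hD : ODec Q D)
    (hπ : OProj Q D π) (a b : Fin t) (hab : a ≠ b) (e : D a ≃ₗ[F] D b) (x : ι → F) :
    swLin hπ a b e (swLin hπ a b e x) = x := by
  conv_lhs => rw [← hπ.sum hQ hD x]
  rw [map_sum, map_sum]
  conv_rhs => rw [← hπ.sum hQ hD x]
  apply Finset.sum_congr rfl
  intro i _
  exact swLin_swLin_blk hD hπ a b hab e i _ (hπ.mem i x)

theorem swLin_q (hQ : (QuadraticMap.polarBilin Q).Nondegenerate) (hD : ODec Q D)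
    (hπ : OProj Q D π) (a b : Fin t) (hab : a ≠ b) (e : D a ≃ₗ[F] D b)
    (he : ∀ w : D a, Q ((e w : D b) : ι → F) = Q (w : ι → F)) (x : ι → F) :
    Q (swLin hπ a b e x) = Q x := by
  conv_lhs => rw [← hπ.sum hQ hD x]
  rw [map_sum, od_q_sum, hπ.q_sum hQ hD x]
  · apply Finset.sum_congr rfl
    intro i _
    exact swLin_q_blk hD hπ a b hab e he i _ (hπ.mem i x)
  · intro i _ j _ hij
    exact hD.perp _ _ (fun h => hij ((Equiv.swap a b).injective h)) _
      (swLin_mem hD hπ a b hab e i _ (hπ.mem i x)) _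
      (swLin_mem hD hπ a b hab e j _ (hπ.mem j x))

/-- An involutory isometry swapping two isometric members and fixing the others. -/
theorem od_exists_swap (hQ : (QuadraticMap.polarBilin Q).Nondegenerate) (hD : ODec Q D)
    (hπ : OProj Q D π) (a b : Fin t) (hab : a ≠ b) (e : D a ≃ₗ[F] D b)
    (he : ∀ w : D a, Q ((e w : D b) : ι → F) = Q (w : ι → F)) :
    ∃ g : ↥(isometryGroup F ⇑Q), g * g = 1 ∧ BP Q D g (Equiv.swap a b) := by
  have hmv : ∀ x, LinearMap.toMatrix' (swLin hπ a b e) *ᵥ x = swLin hπ a b e x := by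
    intro x
    rw [← Matrix.toLin'_apply, Matrix.toLin'_toMatrix']
  have hMM : LinearMap.toMatrix' (swLin hπ a b e) * LinearMap.toMatrix' (swLin hπ a b e) = 1 := by
    rw [← LinearMap.toMatrix'_comp, ← LinearMap.toMatrix'_id]
    congr 1
    apply LinearMap.ext
    intro x
    rw [LinearMap.comp_apply, swLin_swLin hQ hD hπ a b hab e x, LinearMap.id_apply]
  have hiso : (⟨LinearMap.toMatrix' (swLin hπ a b e), LinearMap.toMatrix' (swLin hπ a b e),
      hMM, hMM⟩ : GL ι F) ∈ isometryGroup F ⇑Q := by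
    rw [Helper43.mem_iso_iff]
    intro x
    show Q (LinearMap.toMatrix' (swLin hπ a b e) *ᵥ x) = Q x
    rw [hmv, swLin_q hQ hD hπ a b hab e he x]
  refine ⟨⟨_, hiso⟩, ?_, ?_⟩
  · apply Subtype.ext
    apply Units.ext
    exact hMM
  · intro i x hx
    show LinearMap.toMatrix' (swLin hπ a b e) *ᵥ x ∈ D (Equiv.swap a b i)
    rw [hmv]
    exact swLin_mem hD hπ a b hab e i x hx

/-- An element of `M` permuting three members cyclically: `a ↦ c`, `b ↦ a`. -/
theorem od_exists_c3 (hQ : (QuadraticMap.polarBilin Q).Nondegenerate) (hD : ODec Q D)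
    (hπ : OProj Q D π)
    (hiso : ∀ i j, ∃ e : D i ≃ₗ[F] D j, ∀ w : D i, Q ((e w : D j) : ι → F) = Q (w : ι → F))
    {M : Subgroup ↥(isometryGroup F ⇑Q)} (hM : HD Q D M) (a b c : Fin t) (hab : a ≠ b)
    (hac : a ≠ c) (hbc : b ≠ c) :
    ∃ h ∈ M, ∃ α : Equiv.Perm (Fin t), BP Q D h α ∧ BP Q D h⁻¹ α⁻¹ ∧ α a = c ∧ α b = a := by
  obtain ⟨e₁, he₁⟩ := hiso a b
  obtain ⟨e₂, he₂⟩ := hiso b c
  obtain ⟨g₁, hg₁, hB₁⟩ := od_exists_swap hQ hD hπ a b hab e₁ he₁
  obtain ⟨g₂, hg₂, hB₂⟩ := od_exists_swap hQ hD hπ b c hbc e₂ he₂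
  have hi₁ : g₁⁻¹ = g₁ := inv_eq_of_mul_eq_one_left hg₁
  have hi₂ : g₂⁻¹ = g₂ := inv_eq_of_mul_eq_one_left hg₂
  have hBP : BP Q D (g₁ * g₂ * g₁ * g₂)
      (Equiv.swap a b * Equiv.swap b c * Equiv.swap a b * Equiv.swap b c) :=
    ((hB₁.mul hB₂).mul hB₁).mul hB₂
  have hinv : (g₁ * g₂ * g₁ * g₂)⁻¹ = g₂ * g₁ * g₂ * g₁ := by
    rw [_root_.mul_inv_rev, _root_.mul_inv_rev, _root_.mul_inv_rev, hi₁, hi₂, mul_assoc, mul_assoc]
  have hαinv : (Equiv.swap a b * Equiv.swap b c * Equiv.swap a b * Equiv.swap b c)⁻¹ =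
      Equiv.swap b c * Equiv.swap a b * Equiv.swap b c * Equiv.swap a b := by
    rw [_root_.mul_inv_rev, _root_.mul_inv_rev, _root_.mul_inv_rev, Equiv.swap_inv, Equiv.swap_inv, mul_assoc,
      mul_assoc]
  have hBP' : BP Q D (g₁ * g₂ * g₁ * g₂)⁻¹
      (Equiv.swap a b * Equiv.swap b c * Equiv.swap a b * Equiv.swap b c)⁻¹ := by
    rw [hinv, hαinv]
    exact ((hB₂.mul hB₁).mul hB₂).mul hB₁
  have hΩ : g₁ * g₂ * g₁ * g₂ ∈ Omega F ⇑Q := by
    have h1 : g₁ * g₂ * g₁ * g₂ = ⁅g₁, g₂⁆ := by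
      rw [commutatorElement_def, hi₁, hi₂]
    rw [h1]
    exact Subgroup.commutator_mem_commutator (Subgroup.mem_top _) (Subgroup.mem_top _)
  refine ⟨g₁ * g₂ * g₁ * g₂, hM _ hΩ ⟨_, hBP⟩, _, hBP, hBP', ?_, ?_⟩
  · rw [Equiv.Perm.mul_apply, Equiv.Perm.mul_apply, Equiv.Perm.mul_apply,
      Equiv.swap_apply_of_ne_of_ne hab hac, Equiv.swap_apply_left, Equiv.swap_apply_left,
      Equiv.swap_apply_of_ne_of_ne (fun h => hac h.symm) (fun h => hbc h.symm)]
  · rw [Equiv.Perm.mul_apply, Equiv.Perm.mul_apply, Equiv.Perm.mul_apply,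
      Equiv.swap_apply_left, Equiv.swap_apply_of_ne_of_ne (fun h => hac h.symm)
        (fun h => hbc h.symm), Equiv.swap_apply_right, Equiv.swap_apply_right]

end ODSwap

end Cfsg.Agent.Helper97.OD
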