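import Mathlib
import Cfsg.Prelude.Def_GeometricClasses
import Cfsg.Agent.Helper97.ODSwap

/-!
Orthogonal decompositions: a "mixed" Eichler transformation `E(u, b)` (`u` singular in a member,
`b` outside that member) in an overgroup `M` of the decomposition stabiliser forces `Ω ≤ M`
(helper97, for S5677).
-/

set_option autoImplicit false
set_option linter.unusedSectionVars false
set_option linter.unusedVariables false

universe u

namespace Cfsg.Agent.Helper97.OD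

open Matrix Cfsg Cfsg.Geo Cfsg.Agent.Helper45 Cfsg.Agent.Helper94

section ODMix

variable {ι : Type} [Fintype ι] [DecidableEq ι] {F : Type u} [Field F] [Fintype F]
  {Q : QuadraticForm F (ι → F)} {t : ℕ} {D : Fin t → Submodule F (ι → F)}
  {π : Fin t → (ι → F) →ₗ[F] (ι → F)}

/-- The additive group of all `b ⊥ u` with `E(u, b) ∈ M`. -/
def LU (M : Subgroup ↥(isometryGroup F ⇑Q)) (u : ι → F) (hu : Q u = 0) :
    AddSubgroup (ι → F) where
  carrier := {b | QuadraticMap.polar ⇑Q u b = 0 ∧ oE Q u b ∈ M}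
  add_mem' := by
    rintro a b ⟨ha, ha'⟩ ⟨hb, hb'⟩
    refine ⟨by rw [QuadraticMap.polar_add_right, ha, hb, add_zero], ?_⟩
    rw [← oE_mul Q u a b hu ha hb]
    exact M.mul_mem ha' hb'
  zero_mem' := ⟨by simp, by rw [oE_zero Q u hu]; exact M.one_mem⟩
  neg_mem' := by
    rintro a ⟨ha, ha'⟩
    have hna : QuadraticMap.polar ⇑Q u (-a) = 0 := by
      rw [QuadraticMap.polar_neg_right, ha, neg_zero]
    refine ⟨hna, ?_⟩
    have h1 : oE Q u (-a) * oE Q u a = 1 := by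
      rw [oE_mul Q u (-a) a hu hna ha, neg_add_cancel, oE_zero Q u hu]
    rw [eq_inv_of_mul_eq_one_left h1]
    exact M.inv_mem ha'

theorem mem_LU (M : Subgroup ↥(isometryGroup F ⇑Q)) (u : ι → F) (hu : Q u = 0) (b : ι → F) :
    b ∈ LU M u hu ↔ QuadraticMap.polar ⇑Q u b = 0 ∧ oE Q u b ∈ M := Iff.rfl

/-- `L(u)` is invariant under the elements of `M` fixing `u`. -/
theorem LU_inv (M : Subgroup ↥(isometryGroup F ⇑Q)) (u : ι → F) (hu : Q u = 0)
    (y : ↥(isometryGroup F ⇑Q)) (hy : y ∈ M) (hyu : mv ⇑Q y u = u) (b : ι → F)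
    (hb : b ∈ LU M u hu) : mv ⇑Q y b ∈ LU M u hu := by
  obtain ⟨hb1, hb2⟩ := hb
  have h1 := oE_conj Q y u b hu hb1
  rw [hyu] at h1
  refine ⟨?_, ?_⟩
  · have h2 := mv_polar Q y u b
    rw [hyu] at h2
    rw [h2]
    exact hb1
  · rw [← h1]
    exact M.mul_mem (M.mul_mem hy hb2) (M.inv_mem hy)

theorem od_oE_zero_left (x : ι → F) : oE Q 0 x = 1 := by
  apply ext_mv
  intro y
  rw [mv_oE Q 0 x (by simp) (by simp), mv_one]
  simp

/-- `E(s, -u) = E(u, s)` for orthogonal singular vectors. -/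
theorem od_E_swap (u s : ι → F) (hu : Q u = 0) (hs : Q s = 0)
    (hus : QuadraticMap.polar ⇑Q u s = 0) : oE Q s (-u) = oE Q u s := by
  have hsu : QuadraticMap.polar ⇑Q s (-u) = 0 := by
    rw [QuadraticMap.polar_neg_right, QuadraticMap.polar_comm, hus, neg_zero]
  apply ext_mv
  intro x
  rw [mv_oE Q s (-u) hs hsu, mv_oE Q u s hu hus, QuadraticMap.map_neg, hu, hs,
    QuadraticMap.polar_neg_left]
  module

/-- Additive irreducibility: a non-zero additive subgroup of a non-degenerate subspace `W` of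
dimension at least three, invariant under the Eichler transformations of `W`, is `W`. -/
theorem od_irr (h2 : (2 : F) ≠ 0) {W : Submodule F (ι → F)} (hW : ND Q W)
    (h3 : 3 ≤ Module.finrank F W) (X : AddSubgroup (ι → F)) (hXW : ∀ x ∈ X, x ∈ W)
    (x₀ : ι → F) (hx₀ : x₀ ∈ X) (hx₀0 : x₀ ≠ 0)
    (hinv : ∀ s ∈ W, ∀ c ∈ W, Q s = 0 → QuadraticMap.polar ⇑Q s c = 0 →
      ∀ x ∈ X, mv ⇑Q (oE Q s c) x ∈ X) : ∀ y ∈ W, y ∈ X := by
  obtain ⟨s, hs, hsQ, hx₀s⟩ := hW.exists_sing_np h3 x₀ (hXW x₀ hx₀) hx₀0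
  have hs0 : s ≠ 0 := by
    rintro rfl
    apply hx₀s
    simp
  obtain ⟨c, hc, hsc, hcQ⟩ := hW.exists_ns_perp h3 s hs hs0 hsQ
  have hps : QuadraticMap.polar ⇑Q s x₀ ≠ 0 := by
    rw [QuadraticMap.polar_comm]
    exact hx₀s
  -- all multiples of `s` lie in `X`
  have hsq : ∀ l : F, (-(2 * (l * l) * Q c * QuadraticMap.polar ⇑Q s x₀)) • s ∈ X := by
    intro l
    have hscl : QuadraticMap.polar ⇑Q s (l • c) = 0 := by
      rw [QuadraticMap.polar_smul_right, hsc, smul_zero]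
    have hscl' : QuadraticMap.polar ⇑Q s ((-l) • c) = 0 := by
      rw [QuadraticMap.polar_smul_right, hsc, smul_zero]
    have e1 := X.sub_mem (hinv s hs (l • c) (W.smul_mem _ hc) hsQ hscl x₀ hx₀) hx₀
    have e2 := X.sub_mem (hinv s hs ((-l) • c) (W.smul_mem _ hc) hsQ hscl' x₀ hx₀) hx₀
    have e3 := X.add_mem e1 e2
    rw [mv_oE Q s (l • c) hsQ hscl, mv_oE Q s ((-l) • c) hsQ hscl', od_q_smul, od_q_smul,
      QuadraticMap.polar_smul_left, QuadraticMap.polar_smul_left, smul_eq_mul, smul_eq_mul] at e3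
    have e4 : x₀ + (l * QuadraticMap.polar ⇑Q c x₀ - l * l * Q c * QuadraticMap.polar ⇑Q s x₀) • s -
        QuadraticMap.polar ⇑Q s x₀ • l • c - x₀ +
        (x₀ + (-l * QuadraticMap.polar ⇑Q c x₀ - -l * -l * Q c * QuadraticMap.polar ⇑Q s x₀) • s -
        QuadraticMap.polar ⇑Q s x₀ • -l • c - x₀) =
        (-(2 * (l * l) * Q c * QuadraticMap.polar ⇑Q s x₀)) • s := by
      module
    rw [e4] at e3
    exact e3
  have hall : ∀ a : F, a • s ∈ X := by
    intro a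
    obtain ⟨μ, hμ⟩ : ∃ μ : F, μ = -(2 * Q c * QuadraticMap.polar ⇑Q s x₀) := ⟨_, rfl⟩
    have hμ0 : μ ≠ 0 := by
      rw [hμ]
      exact neg_ne_zero.mpr (mul_ne_zero (mul_ne_zero h2 hcQ) hps)
    have e1 := hsq ((a / μ + 1) / 2)
    have e2 := hsq ((a / μ - 1) / 2)
    have e3 := X.sub_mem e1 e2
    have e4 : (-(2 * ((a / μ + 1) / 2 * ((a / μ + 1) / 2)) * Q c * QuadraticMap.polar ⇑Q s x₀)) • s -
        (-(2 * ((a / μ - 1) / 2 * ((a / μ - 1) / 2)) * Q c * QuadraticMap.polar ⇑Q s x₀)) • s =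
        a • s := by
      rw [← sub_smul]
      congr 1
      have e5 : -(2 * Q c * QuadraticMap.polar ⇑Q s x₀) = μ := hμ.symm
      have e6 : -(2 * ((a / μ + 1) / 2 * ((a / μ + 1) / 2)) * Q c * QuadraticMap.polar ⇑Q s x₀) -
          -(2 * ((a / μ - 1) / 2 * ((a / μ - 1) / 2)) * Q c * QuadraticMap.polar ⇑Q s x₀) =
          μ * ((a / μ + 1) / 2 * ((a / μ + 1) / 2) - (a / μ - 1) / 2 * ((a / μ - 1) / 2)) := by
        linear_combination ((a / μ + 1) / 2 * ((a / μ + 1) / 2) -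
          (a / μ - 1) / 2 * ((a / μ - 1) / 2)) * e5
      rw [e6]
      field_simp
      ring
    rw [e4] at e3
    exact e3
  -- the `F`-subspace of vectors all of whose multiples lie in `X`
  let Y : Submodule F (ι → F) :=
    { carrier := {y | ∀ a : F, a • y ∈ X}
      add_mem' := by
        intro y y' hy hy' a
        rw [smul_add]
        exact X.add_mem (hy a) (hy' a)
      zero_mem' := by
        intro a
        rw [smul_zero]
        exact X.zero_mem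
      smul_mem' := by
        intro c' y hy a
        rw [smul_smul]
        exact hy _ }
  have hYmem : ∀ y, y ∈ Y ↔ ∀ a : F, a • y ∈ X := fun y => Iff.rfl
  have hsY : s ∈ Y := hall
  have hYinv : ∀ s' ∈ W, ∀ c' ∈ W, Q s' = 0 → QuadraticMap.polar ⇑Q s' c' = 0 →
      ∀ y ∈ Y, mv ⇑Q (oE Q s' c') y ∈ Y := by
    intro s' hs' c' hc' hs'Q hs'c' y hy a
    rw [← mv_smul]
    exact hinv s' hs' c' hc' hs'Q hs'c' _ (hy a)
  have hWY : W ≤ Y := by
    apply hW.span_sing s hs hs0 hsQ Y hsY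
    intro s' hs' hs'Q hss'
    have hs'0 : s' ≠ 0 := by
      rintro rfl
      apply hss'
      simp
    obtain ⟨c', hc', hs'c', hc'Q⟩ := hW.exists_ns_perp h3 s' hs' hs'0 hs'Q
    have hs'nc' : QuadraticMap.polar ⇑Q s' (-c') = 0 := by
      rw [QuadraticMap.polar_neg_right, hs'c', neg_zero]
    have e1 := Y.sub_mem (hYinv s' hs' c' hc' hs'Q hs'c' s hsY) hsY
    have e2 := Y.sub_mem (hYinv s' hs' (-c') (W.neg_mem hc') hs'Q hs'nc' s hsY) hsY
    have e3 := Y.add_mem e1 e2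
    rw [mv_oE Q s' c' hs'Q hs'c', mv_oE Q s' (-c') hs'Q hs'nc', QuadraticMap.map_neg,
      QuadraticMap.polar_neg_left] at e3
    have e4 : s + (QuadraticMap.polar ⇑Q c' s - Q c' * QuadraticMap.polar ⇑Q s' s) • s' -
        QuadraticMap.polar ⇑Q s' s • c' - s +
        (s + (-QuadraticMap.polar ⇑Q c' s - Q c' * QuadraticMap.polar ⇑Q s' s) • s' -
        QuadraticMap.polar ⇑Q s' s • -c' - s) =
        (-(2 * Q c' * QuadraticMap.polar ⇑Q s' s)) • s' := by
      module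
    rw [e4] at e3
    have hne : -(2 * Q c' * QuadraticMap.polar ⇑Q s' s) ≠ 0 := by
      refine neg_ne_zero.mpr (mul_ne_zero (mul_ne_zero h2 hc'Q) ?_)
      rw [QuadraticMap.polar_comm]
      exact hss'
    have e5 := Y.smul_mem (-(2 * Q c' * QuadraticMap.polar ⇑Q s' s))⁻¹ e3
    rwa [smul_smul, inv_mul_cancel₀ hne, one_smul] at e5
  intro y hy
  have h1 := (hYmem y).mp (hWY hy) 1
  rwa [one_smul] at h1

/-- A mixed Eichler transformation at `u ∈ D i` with non-zero `j`-component gives all of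
`D j`. -/
theorem od_mix (hQ : (QuadraticMap.polarBilin Q).Nondegenerate) (hn : 5 ≤ Fintype.card ι)
    (h2 : (2 : F) ≠ 0) (hD : ODec Q D) (hπ : OProj Q D π)
    (h3 : ∀ i, 3 ≤ Module.finrank F (D i)) {M : Subgroup ↥(isometryGroup F ⇑Q)}
    (hM : HD Q D M) (i j : Fin t) (hij : i ≠ j) (u : ι → F) (hu : u ∈ D i) (huQ : Q u = 0)
    (b : ι → F) (hb : b ∈ LU M u huQ) (hbj : π j b ≠ 0) : ∀ x ∈ D j, x ∈ LU M u huQ := by
  have hfix : ∀ s ∈ D j, ∀ c ∈ D j, ∀ (hsQ : Q s = 0) (hsc : QuadraticMap.polar ⇑Q s c = 0),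
      ∀ x ∈ LU M u huQ, mv ⇑Q (oE Q s c) x ∈ LU M u huQ := by
    intro s hs c hc hsQ hsc x hx
    exact LU_inv M u huQ _ (od_E_in hQ hn hD hM j s c hs hc hsQ hsc)
      (od_E_fix hD j i (fun h => hij h.symm) s c hs hc hsQ hsc u hu) x hx
  obtain ⟨s, hs, hsQ, hbs⟩ := (hD.nd j).exists_sing_np (h3 j) (π j b) (hπ.mem j b) hbj
  have hs0 : s ≠ 0 := by
    rintro rfl
    apply hbs
    simp
  obtain ⟨c, hc, hsc, hcQ⟩ := (hD.nd j).exists_ns_perp (h3 j) s hs hs0 hsQ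
  have hsb : QuadraticMap.polar ⇑Q s b ≠ 0 := by
    rw [← hπ.pol' j b s hs, QuadraticMap.polar_comm]
    exact hbs
  let X : AddSubgroup (ι → F) := LU M u huQ ⊓ (D j).toAddSubgroup
  have hXmem : ∀ x, x ∈ X ↔ x ∈ LU M u huQ ∧ x ∈ D j := fun x => Iff.rfl
  have hdiff : ∀ s' ∈ D j, ∀ c' ∈ D j, ∀ (hs'Q : Q s' = 0)
      (hs'c' : QuadraticMap.polar ⇑Q s' c' = 0) (x : ι → F),
      mv ⇑Q (oE Q s' c') x - x ∈ D j := by
    intro s' hs' c' hc' hs'Q hs'c' x
    rw [mv_oE Q s' c' hs'Q hs'c']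
    have e : x + (QuadraticMap.polar ⇑Q c' x - Q c' * QuadraticMap.polar ⇑Q s' x) • s' -
        QuadraticMap.polar ⇑Q s' x • c' - x =
        (QuadraticMap.polar ⇑Q c' x - Q c' * QuadraticMap.polar ⇑Q s' x) • s' -
        QuadraticMap.polar ⇑Q s' x • c' := by
      module
    rw [e]
    exact (D j).sub_mem ((D j).smul_mem _ hs') ((D j).smul_mem _ hc')
  have hx₀ : mv ⇑Q (oE Q s c) b - b ∈ X :=
    (hXmem _).mpr ⟨(LU M u huQ).sub_mem (hfix s hs c hc hsQ hsc b hb) hb,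
      hdiff s hs c hc hsQ hsc b⟩
  have hx₀0 : mv ⇑Q (oE Q s c) b - b ≠ 0 := by
    intro h0
    rw [mv_oE Q s c hsQ hsc] at h0
    have e : QuadraticMap.polar ⇑Q s b • c =
        (QuadraticMap.polar ⇑Q c b - Q c * QuadraticMap.polar ⇑Q s b) • s := by
      have e' : b + (QuadraticMap.polar ⇑Q c b - Q c * QuadraticMap.polar ⇑Q s b) • s -
          QuadraticMap.polar ⇑Q s b • c - b =
          (QuadraticMap.polar ⇑Q c b - Q c * QuadraticMap.polar ⇑Q s b) • s -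
          QuadraticMap.polar ⇑Q s b • c := by
        module
      rw [e'] at h0
      exact (sub_eq_zero.mp h0).symm
    have e2 := congrArg (fun z => Q z) e
    simp only [od_q_smul, hsQ, mul_zero] at e2
    exact hcQ ((mul_eq_zero.mp e2).resolve_left (mul_ne_zero hsb hsb))
  have key := od_irr h2 (hD.nd j) (h3 j) X (fun x hx => ((hXmem x).mp hx).2) _ hx₀ hx₀0
    (fun s' hs' c' hc' hs'Q hs'c' x hx => (hXmem _).mpr
      ⟨hfix s' hs' c' hc' hs'Q hs'c' x ((hXmem x).mp hx).1, by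
        have h1 := (D j).add_mem (hdiff s' hs' c' hc' hs'Q hs'c' x) ((hXmem x).mp hx).2
        rwa [sub_add_cancel] at h1⟩)
  intro x hx
  exact ((hXmem x).mp (key x hx)).1

/-- The relation "all Eichler transformations `E(u, x)`, `u ∈ D i` singular, `x ∈ D j`, lie in
`M`". -/
def RR (D : Fin t → Submodule F (ι → F)) (M : Subgroup ↥(isometryGroup F ⇑Q))
    (i j : Fin t) : Prop :=
  ∀ u ∈ D i, ∀ hu : Q u = 0, ∀ x ∈ D j, x ∈ LU M u hu

theorem od_RR_of (hQ : (QuadraticMap.polarBilin Q).Nondegenerate) (hn : 5 ≤ Fintype.card ι)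
    (h2 : (2 : F) ≠ 0) (hD : ODec Q D) (hπ : OProj Q D π)
    (h3 : ∀ i, 3 ≤ Module.finrank F (D i)) {M : Subgroup ↥(isometryGroup F ⇑Q)}
    (hM : HD Q D M) (i j : Fin t) (hij : i ≠ j) (u : ι → F) (hu : u ∈ D i) (hu0 : u ≠ 0)
    (huQ : Q u = 0) (h : ∀ x ∈ D j, x ∈ LU M u huQ) : RR D M j i := by
  intro s hs hsQ x hx
  by_cases hs0 : s = 0
  · subst hs0
    refine ⟨by simp, ?_⟩
    rw [od_oE_zero_left]
    exact M.one_mem
  have h1 := h s hs
  have hus : QuadraticMap.polar ⇑Q u s = 0 := hD.perp i j hij u hu s hs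
  have h4 : -u ∈ LU M s hsQ := by
    refine ⟨by rw [QuadraticMap.polar_neg_right, QuadraticMap.polar_comm, hus, neg_zero], ?_⟩
    rw [od_E_swap u s huQ hsQ hus]
    exact h1.2
  have h5 : π i (-u) ≠ 0 := by
    rw [hπ.self hD i (-u) ((D i).neg_mem hu)]
    exact neg_ne_zero.mpr hu0
  exact od_mix hQ hn h2 hD hπ h3 hM j i (fun e => hij e.symm) s hs hsQ (-u) h4 h5 x hx

theorem od_RR_symm (hQ : (QuadraticMap.polarBilin Q).Nondegenerate) (hn : 5 ≤ Fintype.card ι)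
    (h2 : (2 : F) ≠ 0) (hD : ODec Q D) (hπ : OProj Q D π)
    (h3 : ∀ i, 3 ≤ Module.finrank F (D i)) {M : Subgroup ↥(isometryGroup F ⇑Q)}
    (hM : HD Q D M) (i j : Fin t) (hij : i ≠ j) (h : RR D M i j) : RR D M j i := by
  obtain ⟨u, hu, hu0, huQ⟩ := exists_sing_in Q (D i) (h3 i)
  exact od_RR_of hQ hn h2 hD hπ h3 hM i j hij u hu hu0 huQ (h u hu huQ)

theorem od_RR_move {M : Subgroup ↥(isometryGroup F ⇑Q)} (i j : Fin t) (h : RR D M i j)
    (g : ↥(isometryGroup F ⇑Q)) (hg : g ∈ M) (α : Equiv.Perm (Fin t)) (hB : BP Q D g α)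
    (hB' : BP Q D g⁻¹ α⁻¹) : RR D M (α i) (α j) := by
  intro u' hu' hu'Q x' hx'
  have hu := hB' (α i) u' hu'
  have hx := hB' (α j) x' hx'
  rw [show α⁻¹ (α i) = i from α.symm_apply_apply i] at hu
  rw [show α⁻¹ (α j) = j from α.symm_apply_apply j] at hx
  have huQ : Q (mv ⇑Q g⁻¹ u') = 0 := by
    rw [mv_quad ⇑Q g⁻¹]
    exact hu'Q
  obtain ⟨h1, h2⟩ := h _ hu huQ _ hx
  have h3 := oE_conj Q g _ _ huQ h1
  rw [mv_inv_cancel, mv_inv_cancel] at h3
  refine ⟨?_, ?_⟩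
  · have h4 := mv_polar Q g (mv ⇑Q g⁻¹ u') (mv ⇑Q g⁻¹ x')
    rw [mv_inv_cancel, mv_inv_cancel] at h4
    rw [h4]
    exact h1
  · rw [← h3]
    exact M.mul_mem (M.mul_mem hg h2) (M.inv_mem hg)

theorem od_RR_star (hQ : (QuadraticMap.polarBilin Q).Nondegenerate) (hn : 5 ≤ Fintype.card ι)
    (h2 : (2 : F) ≠ 0) (hD : ODec Q D) (hπ : OProj Q D π)
    (h3 : ∀ i, 3 ≤ Module.finrank F (D i))
    (hiso : ∀ i j, ∃ e : D i ≃ₗ[F] D j, ∀ w : D i, Q ((e w : D j) : ι → F) = Q (w : ι → F))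
    {M : Subgroup ↥(isometryGroup F ⇑Q)} (hM : HD Q D M) (i j : Fin t) (hij : i ≠ j)
    (h : RR D M i j) : ∀ l, l ≠ i → RR D M i l := by
  intro l hli
  by_cases hlj : l = j
  · subst hlj
    exact h
  obtain ⟨g, hg, α, hB, hB', e1, e2⟩ := od_exists_c3 hQ hD hπ hiso hM i j l hij
    (fun e => hli e.symm) (fun e => hlj e.symm)
  have h4 := od_RR_move i j h g hg α hB hB'
  rw [e1, e2] at h4
  exact od_RR_symm hQ hn h2 hD hπ h3 hM l i hli h4

theorem od_RR_all (hQ : (QuadraticMap.polarBilin Q).Nondegenerate) (hn : 5 ≤ Fintype.card ι)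
    (h2 : (2 : F) ≠ 0) (hD : ODec Q D) (hπ : OProj Q D π)
    (h3 : ∀ i, 3 ≤ Module.finrank F (D i))
    (hiso : ∀ i j, ∃ e : D i ≃ₗ[F] D j, ∀ w : D i, Q ((e w : D j) : ι → F) = Q (w : ι → F))
    {M : Subgroup ↥(isometryGroup F ⇑Q)} (hM : HD Q D M) (i j : Fin t) (hij : i ≠ j)
    (h : RR D M i j) : ∀ a b, a ≠ b → RR D M a b := by
  intro a b hab
  have hstar := od_RR_star hQ hn h2 hD hπ h3 hiso hM i j hij h
  by_cases hai : a = i
  · subst hai
    exact hstar b (fun e => hab e.symm)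
  have h4 := od_RR_symm hQ hn h2 hD hπ h3 hM i a (fun e => hai e.symm) (hstar a hai)
  exact od_RR_star hQ hn h2 hD hπ h3 hiso hM a i hai h4 b (fun e => hab e.symm)

/-- **Mixed Eichler transformations generate.** If `M` contains the stabiliser of the
decomposition in `Ω` and an Eichler transformation `E(u, b)` with `u` a non-zero singular vector
of a member and `b` outside that member, then `Ω ≤ M`. -/
theorem od_claimA (hQ : (QuadraticMap.polarBilin Q).Nondegenerate) (hn : 5 ≤ Fintype.card ι)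
    (h2 : (2 : F) ≠ 0) (hD : ODec Q D) (hπ : OProj Q D π)
    (h3 : ∀ i, 3 ≤ Module.finrank F (D i))
    (hiso : ∀ i j, ∃ e : D i ≃ₗ[F] D j, ∀ w : D i, Q ((e w : D j) : ι → F) = Q (w : ι → F))
    {M : Subgroup ↥(isometryGroup F ⇑Q)} (hM : HD Q D M) (i : Fin t) (u : ι → F)
    (hu : u ∈ D i) (hu0 : u ≠ 0) (huQ : Q u = 0) (b : ι → F)
    (hub : QuadraticMap.polar ⇑Q u b = 0) (hE : oE Q u b ∈ M) (hb : b ∉ D i) :
    Omega F ⇑Q ≤ M := by
  have hbL : b ∈ LU M u huQ := ⟨hub, hE⟩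
  obtain ⟨j, hji, hbj⟩ : ∃ j, j ≠ i ∧ π j b ≠ 0 := by
    by_contra hcon
    push Not at hcon
    exact hb (hπ.mem_of hQ hD i b hcon)
  have h4 := od_mix hQ hn h2 hD hπ h3 hM i j (fun e => hji e.symm) u hu huQ b hbL hbj
  have h5 := od_RR_of hQ hn h2 hD hπ h3 hM i j (fun e => hji e.symm) u hu hu0 huQ h4
  have hall := od_RR_all hQ hn h2 hD hπ h3 hiso hM j i hji h5
  have hC : ∀ w ∈ D i, Q w = 0 → w ∈ Helper98.op_C Q M := by
    intro w hw hwQ
    refine ⟨hwQ, fun b' hwb' => ?_⟩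
    have h6 : ∑ l, π l b' ∈ LU M w hwQ := by
      apply AddSubgroup.sum_mem
      intro l _
      by_cases hli : l = i
      · subst hli
        have h7 : QuadraticMap.polar ⇑Q w (π l b') = 0 := by
          rw [hπ.pol' l b' w hw]
          exact hwb'
        exact ⟨h7, od_E_in hQ hn hD hM l w (π l b') hw (hπ.mem l b') hwQ h7⟩
      · exact hall i l (fun e => hli e.symm) w hw hwQ _ (hπ.mem l b')
    rw [hπ.sum hQ hD b'] at h6
    have h8 := h6.2
    rw [oE_eq Q w b' hwQ hwb'] at h8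
    exact h8
  obtain ⟨v, hv, hvQ, huv⟩ := (hD.nd i).partner u hu hu0 huQ
  exact Helper98.op_omega_le Q hQ hn M u v (hC u hu huQ) (hC v hv hvQ)
    (by rw [huv]; exact one_ne_zero)

end ODMix

end Cfsg.Agent.Helper97.OD
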