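import Mathlib
import Cfsg.Prelude.Def_GeometricClasses
import Cfsg.Agent.Helper97.ODMix

/-!
Orthogonal decompositions: Eichler transformations preserving every member lie inside a member;
an overgroup of the decomposition stabiliser without mixed Eichler transformations stabilises
the decomposition when the members have dimension at least five (helper97, for S5677).
-/

set_option autoImplicit false
set_option linter.unusedSectionVars false
set_option linter.unusedVariables false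

universe u

namespace Cfsg.Agent.Helper97.OD

open Matrix Cfsg Cfsg.Geo Cfsg.Agent.Helper45 Cfsg.Agent.Helper94

section ODRoot

variable {ι : Type} [Fintype ι] [DecidableEq ι] {F : Type u} [Field F] [Fintype F]
  {Q : QuadraticForm F (ι → F)} {t : ℕ} {D : Fin t → Submodule F (ι → F)}
  {π : Fin t → (ι → F) →ₗ[F] (ι → F)}

/-- `M` contains no mixed Eichler transformation. -/
def NM (D : Fin t → Submodule F (ι → F)) (M : Subgroup ↥(isometryGroup F ⇑Q)) : Prop :=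
  ∀ i, ∀ u ∈ D i, u ≠ 0 → Q u = 0 → ∀ b, QuadraticMap.polar ⇑Q u b = 0 → oE Q u b ∈ M → b ∈ D i

/-- The isometry `g` maps every member of `D` into a member. -/
def St (D : Fin t → Submodule F (ι → F)) (g : ↥(isometryGroup F ⇑Q)) : Prop :=
  ∀ i, ∃ j, ∀ x ∈ D i, mv ⇑Q g x ∈ D j

theorem od_B1 (hQ : (QuadraticMap.polarBilin Q).Nondegenerate) (hn : 5 ≤ Fintype.card ι)
    (hD : ODec Q D) {M : Subgroup ↥(isometryGroup F ⇑Q)} (hM : HD Q D M) (hNM : NM D M)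
    (g : ↥(isometryGroup F ⇑Q)) (hg : g ∈ M) (i j : Fin t) (u : ι → F) (hu : u ∈ D i)
    (hu0 : u ≠ 0) (huQ : Q u = 0) (hgu : mv ⇑Q g u ∈ D j) :
    ∀ b ∈ D i, QuadraticMap.polar ⇑Q u b = 0 → mv ⇑Q g b ∈ D j := by
  intro b hb hub
  have h1 := od_E_in hQ hn hD hM i u b hu hb huQ hub
  have h2 := oE_conj Q g u b huQ hub
  have h3 : oE Q (mv ⇑Q g u) (mv ⇑Q g b) ∈ M := by
    rw [← h2]
    exact M.mul_mem (M.mul_mem hg h1) (M.inv_mem hg)
  exact hNM j _ hgu (mv_ne_zero Q g u hu0) (by rw [mv_quad ⇑Q g]; exact huQ) _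
    (by rw [mv_polar]; exact hub) h3

theorem od_E_diff (u b : ι → F) (huQ : Q u = 0) (hub : QuadraticMap.polar ⇑Q u b = 0)
    (x : ι → F) : mv ⇑Q (oE Q u b) x - x =
      (QuadraticMap.polar ⇑Q b x - Q b * QuadraticMap.polar ⇑Q u x) • u -
        QuadraticMap.polar ⇑Q u x • b := by
  rw [mv_oE Q u b huQ hub]
  module

/-- An Eichler transformation `E(u, b)` preserving every member has `u` and `b` in a common
member. -/
theorem od_RB (hQ : (QuadraticMap.polarBilin Q).Nondegenerate) (h2 : (2 : F) ≠ 0)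
    (hD : ODec Q D) (hπ : OProj Q D π) (i₀ : Fin t) (u b : ι → F) (hu0 : u ≠ 0) (huQ : Q u = 0)
    (hub : QuadraticMap.polar ⇑Q u b = 0) (hb : ∀ c : F, b ≠ c • u)
    (hpres : ∀ j, ∀ x ∈ D j, mv ⇑Q (oE Q u b) x ∈ D j) : ∃ j, u ∈ D j ∧ b ∈ D j := by
  have hdiff : ∀ j, ∀ x ∈ D j, (QuadraticMap.polar ⇑Q b x - Q b * QuadraticMap.polar ⇑Q u x) • u -
      QuadraticMap.polar ⇑Q u x • b ∈ D j := by
    intro j x hx
    rw [← od_E_diff u b huQ hub x]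
    exact (D j).sub_mem (hpres j x hx) hx
  -- Step 1: `u` lies in a member
  obtain ⟨j, hj⟩ : ∃ j, u ∈ D j := by
    by_contra hcon
    push Not at hcon
    obtain ⟨m, m', hmm', hm, hm'⟩ := hπ.exists_two hQ hD u hcon i₀
    have hx₀ : ∀ l, π l u ≠ 0 → ∃ x₀ ∈ D l, QuadraticMap.polar ⇑Q u x₀ = 1 := by
      intro l hl
      obtain ⟨y, hy, hyu⟩ := hD.nd l _ (hπ.mem l u) hl
      rw [hπ.pol' l u y hy] at hyu
      have hyu' : QuadraticMap.polar ⇑Q u y ≠ 0 := by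
        rw [QuadraticMap.polar_comm]
        exact hyu
      refine ⟨(QuadraticMap.polar ⇑Q u y)⁻¹ • y, (D l).smul_mem _ hy, ?_⟩
      rw [QuadraticMap.polar_smul_right, smul_eq_mul, inv_mul_cancel₀ hyu']
    obtain ⟨x₁, hx₁, hux₁⟩ := hx₀ m hm
    obtain ⟨x₂, hx₂, hux₂⟩ := hx₀ m' hm'
    have hz₁ := hdiff m x₁ hx₁
    have hz₂ := hdiff m' x₂ hx₂
    rw [hux₁, mul_one, one_smul] at hz₁
    rw [hux₂, mul_one, one_smul] at hz₂
    have e1 := hD.perp m m' hmm' _ hz₁ x₂ hx₂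
    have e2 := hD.perp m' m (fun e => hmm' e.symm) _ hz₂ x₁ hx₁
    rw [QuadraticMap.polar_sub_left, QuadraticMap.polar_smul_left, hux₂, smul_eq_mul,
      mul_one] at e1
    rw [QuadraticMap.polar_sub_left, QuadraticMap.polar_smul_left, hux₁, smul_eq_mul,
      mul_one] at e2
    have hQb : Q b = 0 := by
      have e3 : 2 * Q b = 0 := by linear_combination (-1 : F) * e1 - e2
      exact (mul_eq_zero.mp e3).resolve_left h2
    have e4 : QuadraticMap.polar ⇑Q b x₁ = QuadraticMap.polar ⇑Q b x₂ := by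
      rw [hQb] at e1 e2
      linear_combination e1
    have e5 : (QuadraticMap.polar ⇑Q b x₁ - Q b) • u - b = 0 := by
      apply hD.disj m m' hmm' _ hz₁
      rw [e4]
      exact hz₂
    exact hb _ (sub_eq_zero.mp e5).symm
  refine ⟨j, hj, ?_⟩
  -- Step 2: `b` lies in the same member
  apply hπ.mem_of hQ hD j b
  intro l hlj
  by_contra hne
  obtain ⟨y, hy, hyb⟩ := hD.nd l _ (hπ.mem l b) hne
  rw [hπ.pol' l b y hy] at hyb
  have h1 := hdiff l y hy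
  rw [hD.perp j l (fun e => hlj e.symm) u hj y hy, mul_zero, sub_zero, zero_smul, sub_zero] at h1
  have h3 := hD.disj l j hlj _ h1 ((D j).smul_mem _ hj)
  rcases smul_eq_zero.mp h3 with h4 | h4
  · apply hyb
    rw [QuadraticMap.polar_comm]
    exact h4
  · exact hu0 h4

/-- If `g` maps every Eichler pair of `D i` into a member, it maps `D i` into a member. -/
theorem od_conn (hD : ODec Q D) (h3 : ∀ i, 3 ≤ Module.finrank F (D i))
    (g : ↥(isometryGroup F ⇑Q)) (i : Fin t)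
    (hpair : ∀ s ∈ D i, ∀ c ∈ D i, s ≠ 0 → Q s = 0 → QuadraticMap.polar ⇑Q s c = 0 →
      (∀ a : F, c ≠ a • s) → ∃ j, mv ⇑Q g s ∈ D j ∧ mv ⇑Q g c ∈ D j) :
    ∃ j, ∀ x ∈ D i, mv ⇑Q g x ∈ D j := by
  obtain ⟨s₀, hs₀, hs₀0, hs₀Q⟩ := exists_sing_in Q (D i) (h3 i)
  obtain ⟨c₀, hc₀, hs₀c₀, hc₀Q⟩ := (hD.nd i).exists_ns_perp (h3 i) s₀ hs₀ hs₀0 hs₀Q
  have hc₀ne : ∀ a : F, c₀ ≠ a • s₀ := by
    intro a h
    apply hc₀Q
    rw [h, od_q_smul, hs₀Q, mul_zero]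
  obtain ⟨j₀, hj₀, _⟩ := hpair s₀ hs₀ c₀ hc₀ hs₀0 hs₀Q hs₀c₀ hc₀ne
  have hgs₀ : mv ⇑Q g s₀ ≠ 0 := mv_ne_zero Q g s₀ hs₀0
  have claim : ∀ c ∈ D i, QuadraticMap.polar ⇑Q s₀ c = 0 → mv ⇑Q g c ∈ D j₀ := by
    intro c hc hsc
    by_cases hca : ∃ a : F, c = a • s₀
    · obtain ⟨a, rfl⟩ := hca
      rw [mv_smul]
      exact (D j₀).smul_mem _ hj₀
    · push Not at hca
      obtain ⟨j, hj1, hj2⟩ := hpair s₀ hs₀ c hc hs₀0 hs₀Q hsc hca
      by_cases hjj : j = j₀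
      · rw [← hjj]
        exact hj2
      · exact absurd (hD.disj j j₀ hjj _ hj1 hj₀) hgs₀
  obtain ⟨v, hv, hvQ, hsv⟩ := (hD.nd i).partner s₀ hs₀ hs₀0 hs₀Q
  have hv0 : v ≠ 0 := by
    rintro rfl
    rw [QuadraticMap.polar_zero_right] at hsv
    exact zero_ne_one hsv
  obtain ⟨z, hz, hz0, hsz, hvz⟩ := od_exists_perp2 (Q := Q) (h3 i) s₀ v
  have hzne : ∀ a : F, z ≠ a • v := by
    intro a h
    rw [h, QuadraticMap.polar_smul_right, hsv, smul_eq_mul, mul_one] at hsz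
    rw [hsz, zero_smul] at h
    exact hz0 h
  have hvz' : QuadraticMap.polar ⇑Q v z = 0 := hvz
  obtain ⟨j₁, hj1, hj2⟩ := hpair v hv z hz hv0 hvQ hvz' hzne
  have hgz : mv ⇑Q g z ∈ D j₀ := claim z hz hsz
  have hjj : j₁ = j₀ := by
    by_contra hjj
    exact mv_ne_zero Q g z hz0 (hD.disj j₁ j₀ hjj _ hj2 hgz)
  rw [hjj] at hj1
  refine ⟨j₀, fun x hx => ?_⟩
  have h1 : x = (x - QuadraticMap.polar ⇑Q s₀ x • v) + QuadraticMap.polar ⇑Q s₀ x • v := by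
    module
  rw [h1, mv_add, mv_smul]
  refine (D j₀).add_mem (claim _ ((D i).sub_mem hx ((D i).smul_mem _ hv)) ?_)
    ((D j₀).smul_mem _ hj1)
  rw [QuadraticMap.polar_sub_right, QuadraticMap.polar_smul_right, hsv, smul_eq_mul, mul_one,
    sub_self]

/-- Members of dimension at least five: an Eichler transformation of `M` preserves every
member, if `M` contains no mixed Eichler transformation. -/
theorem od_pres_big (hQ : (QuadraticMap.polarBilin Q).Nondegenerate) (hn : 5 ≤ Fintype.card ι)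
    (hD : ODec Q D) (h5 : ∀ i, 5 ≤ Module.finrank F (D i))
    {M : Subgroup ↥(isometryGroup F ⇑Q)} (hM : HD Q D M) (hNM : NM D M) (u' b' : ι → F)
    (hu'Q : Q u' = 0) (hu'b' : QuadraticMap.polar ⇑Q u' b' = 0) (hE : oE Q u' b' ∈ M) :
    ∀ j, ∀ x ∈ D j, mv ⇑Q (oE Q u' b') x ∈ D j := by
  intro j
  have hf1 := finrank_inf_perpSub_ge Q (D j) u'
  have hf2 := finrank_inf_perpSub_ge Q (D j ⊓ perpSub Q u') b'
  have hf3 : 3 ≤ Module.finrank F ↥(D j ⊓ perpSub Q u' ⊓ perpSub Q b') := by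
    have := h5 j
    omega
  obtain ⟨x₁, hx₁, hx₁0, hx₁Q⟩ := exists_sing_in Q _ hf3
  have hx₁D : x₁ ∈ D j := hx₁.1.1
  have hfix : mv ⇑Q (oE Q u' b') x₁ = x₁ := by
    have e1 : QuadraticMap.polar ⇑Q u' x₁ = 0 := (mem_perpSub Q u' x₁).mp hx₁.1.2
    have e2 : QuadraticMap.polar ⇑Q b' x₁ = 0 := (mem_perpSub Q b' x₁).mp hx₁.2
    rw [mv_oE Q u' b' hu'Q hu'b', e1, e2]
    simp
  have hB1 := od_B1 hQ hn hD hM hNM _ hE j j x₁ hx₁D hx₁0 hx₁Q (by rw [hfix]; exact hx₁D)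
  obtain ⟨v₁, hv₁, hv₁Q, hxv⟩ := (hD.nd j).partner x₁ hx₁D hx₁0 hx₁Q
  have hg1 := finrank_inf_perpSub_ge Q (D j) x₁
  have hg2 := finrank_inf_perpSub_ge Q (D j ⊓ perpSub Q x₁) v₁
  have hg3 : 3 ≤ Module.finrank F ↥(D j ⊓ perpSub Q x₁ ⊓ perpSub Q v₁) := by
    have := h5 j
    omega
  obtain ⟨x₂, hx₂, hx₂0, hx₂Q⟩ := exists_sing_in Q _ hg3
  have hx₂D : x₂ ∈ D j := hx₂.1.1
  have hx₁x₂ : QuadraticMap.polar ⇑Q x₁ x₂ = 0 := (mem_perpSub Q x₁ x₂).mp hx₂.1.2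
  have hv₁x₂ : QuadraticMap.polar ⇑Q v₁ x₂ = 0 := (mem_perpSub Q v₁ x₂).mp hx₂.2
  have hB2 := od_B1 hQ hn hD hM hNM _ hE j j x₂ hx₂D hx₂0 hx₂Q (hB1 x₂ hx₂D hx₁x₂)
  intro y hy
  have h1 : y = (y - QuadraticMap.polar ⇑Q x₁ y • v₁) + QuadraticMap.polar ⇑Q x₁ y • v₁ := by
    module
  rw [h1, mv_add]
  refine (D j).add_mem (hB1 _ ((D j).sub_mem hy ((D j).smul_mem _ hv₁)) ?_)
    (hB2 _ ((D j).smul_mem _ hv₁) ?_)
  · rw [QuadraticMap.polar_sub_right, QuadraticMap.polar_smul_right, hxv, smul_eq_mul, mul_one,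
      sub_self]
  · rw [QuadraticMap.polar_smul_right, QuadraticMap.polar_comm ⇑Q x₂ v₁, hv₁x₂, smul_zero]

/-- From "every Eichler transformation of `M` preserves every member" to "`M` stabilises the
decomposition". -/
theorem od_st_of_pres (hQ : (QuadraticMap.polarBilin Q).Nondegenerate)
    (hn : 5 ≤ Fintype.card ι) (h2 : (2 : F) ≠ 0) (hD : ODec Q D) (hπ : OProj Q D π)
    (h3 : ∀ i, 3 ≤ Module.finrank F (D i)) {M : Subgroup ↥(isometryGroup F ⇑Q)}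
    (hM : HD Q D M) (i₀ : Fin t)
    (hpres : ∀ u' b' : ι → F, Q u' = 0 → QuadraticMap.polar ⇑Q u' b' = 0 → oE Q u' b' ∈ M →
      ∀ j, ∀ x ∈ D j, mv ⇑Q (oE Q u' b') x ∈ D j) : ∀ g ∈ M, St D g := by
  intro g hg i
  apply od_conn hD h3 g i
  intro s hs c hc hs0 hsQ hsc hcne
  have h1 := od_E_in hQ hn hD hM i s c hs hc hsQ hsc
  have h4 := oE_conj Q g s c hsQ hsc
  have h5 : oE Q (mv ⇑Q g s) (mv ⇑Q g c) ∈ M := by
    rw [← h4]
    exact M.mul_mem (M.mul_mem hg h1) (M.inv_mem hg)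
  have hQ' : Q (mv ⇑Q g s) = 0 := by rw [mv_quad ⇑Q g]; exact hsQ
  have hp' : QuadraticMap.polar ⇑Q (mv ⇑Q g s) (mv ⇑Q g c) = 0 := by rw [mv_polar]; exact hsc
  apply od_RB hQ h2 hD hπ i₀ _ _ (mv_ne_zero Q g s hs0) hQ' hp' ?_ (hpres _ _ hQ' hp' h5)
  intro a h
  apply hcne a
  have h6 := congrArg (fun z => mv ⇑Q g⁻¹ z) h
  simp only [mv_smul, mv_inv_cancel'] at h6
  exact h6

theorem od_big (hQ : (QuadraticMap.polarBilin Q).Nondegenerate) (hn : 5 ≤ Fintype.card ι)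
    (h2 : (2 : F) ≠ 0) (hD : ODec Q D) (hπ : OProj Q D π)
    (h5 : ∀ i, 5 ≤ Module.finrank F (D i)) {M : Subgroup ↥(isometryGroup F ⇑Q)}
    (hM : HD Q D M) (hNM : NM D M) (i₀ : Fin t) : ∀ g ∈ M, St D g :=
  od_st_of_pres hQ hn h2 hD hπ (fun i => le_trans (by norm_num) (h5 i)) hM i₀
    (fun u' b' hu'Q hu'b' hE => od_pres_big hQ hn hD h5 hM hNM u' b' hu'Q hu'b' hE)

end ODRoot

end Cfsg.Agent.Helper97.OD
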