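import Mathlib
import Cfsg.Prelude.Def_GeometricClasses
import Cfsg.Agent.Helper97.ODRoot

/-!
Orthogonal decompositions: the reflection-pair branch. An overgroup `M` of the decomposition
stabiliser in which every vector `w` with `r_w r_c ∈ M` (for the vectors `c` of the members with
`Q c = Q w`) lies in a member, and which has no mixed Eichler transformation, stabilises the
decomposition (helper97, for S5677).
-/

set_option autoImplicit false
set_option linter.unusedSectionVars false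
set_option linter.unusedVariables false

universe u

namespace Cfsg.Agent.Helper97.OD

open Matrix Cfsg Cfsg.Geo Cfsg.Agent.Helper45 Cfsg.Agent.Helper94

section ODGam

variable {ι : Type} [Fintype ι] [DecidableEq ι] {F : Type u} [Field F] [Fintype F]
  {Q : QuadraticForm F (ι → F)} {t : ℕ} {D : Fin t → Submodule F (ι → F)}
  {π : Fin t → (ι → F) →ₗ[F] (ι → F)}

open Polynomial in
/-- A non-zero polynomial of degree at most four has a non-root in a field with at least five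
elements. -/
theorem od_poly4 (hq : 5 ≤ Fintype.card F) (a b c d e : F)
    (h : a ≠ 0 ∨ b ≠ 0 ∨ c ≠ 0 ∨ d ≠ 0 ∨ e ≠ 0) :
    ∃ x : F, a * x ^ 4 + b * x ^ 3 + c * x ^ 2 + d * x + e ≠ 0 := by
  have hdeg : (C a * X ^ 4 + C b * X ^ 3 + C c * X ^ 2 + C d * X + C e : F[X]).natDegree ≤ 4 := by
    compute_degree
  have hne : (C a * X ^ 4 + C b * X ^ 3 + C c * X ^ 2 + C d * X + C e : F[X]) ≠ 0 := by
    intro h0
    have h4 := congrArg (fun p : F[X] => p.coeff 4) h0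
    have h3 := congrArg (fun p : F[X] => p.coeff 3) h0
    have h2 := congrArg (fun p : F[X] => p.coeff 2) h0
    have h1 := congrArg (fun p : F[X] => p.coeff 1) h0
    have h00 := congrArg (fun p : F[X] => p.coeff 0) h0
    simp [coeff_X, coeff_C] at h4 h3 h2 h1 h00
    rcases h with h | h | h | h | h
    · exact h h4
    · exact h h3
    · exact h h2
    · exact h h1
    · exact h h00
  have hcard : (C a * X ^ 4 + C b * X ^ 3 + C c * X ^ 2 + C d * X + C e : F[X]).natDegree <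
      Cardinal.mk F := by
    rw [Cardinal.mk_fintype]
    exact_mod_cast lt_of_le_of_lt hdeg (by omega)
  obtain ⟨x, hx⟩ := exists_eval_ne_zero_of_natDegree_lt_card _ hne hcard
  refine ⟨x, ?_⟩
  simpa using hx

/-- `w` is non-singular and `r_w r_c ∈ M` for every vector `c` of a member with `Q c = Q w`. -/
def Gam (D : Fin t → Submodule F (ι → F)) (M : Subgroup ↥(isometryGroup F ⇑Q)) (w : ι → F) :
    Prop :=
  Q w ≠ 0 ∧ ∀ c, InB D c → Q c = Q w → oR Q w * oR Q c ∈ M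

/-- Every vector with the property `Gam` lies in a member. -/
def NG (D : Fin t → Submodule F (ι → F)) (M : Subgroup ↥(isometryGroup F ⇑Q)) : Prop :=
  ∀ w, Gam D M w → InB D w

theorem od_gam_transfer (hQ : (QuadraticMap.polarBilin Q).Nondegenerate)
    (hn : 5 ≤ Fintype.card ι) (hD : ODec Q D) {M : Subgroup ↥(isometryGroup F ⇑Q)}
    (hM : HD Q D M) (hNG : NG D M) (h' : ↥(isometryGroup F ⇑Q)) (hh' : h' ∈ M) (a : ι → F)
    (ha : InB D a) (haQ : Q a ≠ 0) (hha : InB D (mv ⇑Q h' a)) :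
    ∀ c, InB D c → Q c = Q a → InB D (mv ⇑Q h' c) := by
  intro c hc hcQ
  apply hNG
  have hcQ0 : Q c ≠ 0 := by rw [hcQ]; exact haQ
  have hQhc : Q (mv ⇑Q h' c) = Q c := mv_quad ⇑Q h' c
  refine ⟨by rw [hQhc]; exact hcQ0, fun c' hc' hc'Q => ?_⟩
  have h1 : oR Q c * oR Q a ∈ M := od_RR_in hQ hn hD hM c a hc ha hcQ0 hcQ
  have h2 : oR Q (mv ⇑Q h' a) * oR Q c' ∈ M := by
    apply od_RR_in hQ hn hD hM _ _ hha hc'
    · rw [mv_quad ⇑Q h']; exact haQ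
    · rw [hc'Q, hQhc, mv_quad ⇑Q h', hcQ]
  have h3 : h' * (oR Q c * oR Q a) * h'⁻¹ = oR Q (mv ⇑Q h' c) * oR Q (mv ⇑Q h' a) := by
    rw [← oR_conj Q h' c hcQ0, ← oR_conj Q h' a haQ]
    group
  have h4 : oR Q (mv ⇑Q h' c) * oR Q c' =
      (h' * (oR Q c * oR Q a) * h'⁻¹) * (oR Q (mv ⇑Q h' a) * oR Q c') := by
    rw [h3, mul_assoc, ← mul_assoc (oR Q (mv ⇑Q h' a)), oR_mul_self, one_mul]
  rw [h4]
  exact M.mul_mem (M.mul_mem (M.mul_mem hh' h1) (M.inv_mem hh')) h2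

/-- An isometry mapping the vectors of norm `ε` of the members into members maps every member
into a member. -/
theorem od_stab (h2 : (2 : F) ≠ 0) (hq : 5 ≤ Fintype.card F) (hD : ODec Q D)
    (h3 : ∀ i, 3 ≤ Module.finrank F (D i)) (g : ↥(isometryGroup F ⇑Q)) (ε : F) (hε : ε ≠ 0)
    (H : ∀ c, InB D c → Q c = ε → InB D (mv ⇑Q g c)) : St D g := by
  intro i
  obtain ⟨c₁, hc₁, hc₁Q⟩ := (hD.nd i).exists_val h2 (le_trans (by norm_num) (h3 i)) ε
  obtain ⟨j, hj⟩ := H c₁ ⟨i, hc₁⟩ hc₁Q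
  have hc₁Q0 : Q c₁ ≠ 0 := by rw [hc₁Q]; exact hε
  have hsame : ∀ c ∈ D i, Q c = ε → QuadraticMap.polar ⇑Q c c₁ ≠ 0 → mv ⇑Q g c ∈ D j := by
    intro c hc hcQ hcc₁
    obtain ⟨j', hj'⟩ := H c ⟨i, hc⟩ hcQ
    by_cases hjj : j' = j
    · rw [← hjj]; exact hj'
    · exfalso
      apply hcc₁
      rw [← mv_polar Q g c c₁]
      exact hD.perp j' j hjj _ hj' _ hj
  have claim1 : ∀ c ∈ D i, Q c = ε → mv ⇑Q g c ∈ D j := by
    intro c hc hcQ
    by_cases hcc₁ : QuadraticMap.polar ⇑Q c c₁ = 0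
    swap
    · exact hsame c hc hcQ hcc₁
    have hc₁c : QuadraticMap.polar ⇑Q c₁ c = 0 := by rw [QuadraticMap.polar_comm]; exact hcc₁
    have hcQ0 : Q c ≠ 0 := by rw [hcQ]; exact hε
    have hZ1 := (hD.nd i).perp h2 c₁ hc₁ hc₁Q0
    have hcZ : c ∈ D i ⊓ perpSub Q c₁ := ⟨hc, (mem_perpSub Q c₁ c).mpr hc₁c⟩
    have hZ2 := hZ1.perp h2 c hcZ hcQ0
    have hf1 := finrank_inf_perpSub_ge Q (D i) c₁
    have hf2 := finrank_inf_perpSub_ge Q (D i ⊓ perpSub Q c₁) c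
    have hpos : 0 < Module.finrank F ↥(D i ⊓ perpSub Q c₁ ⊓ perpSub Q c) := by
      have := h3 i
      omega
    obtain ⟨z, hz0⟩ := Module.finrank_pos_iff_exists_ne_zero.mp hpos
    obtain ⟨z₀, hz₀, hz₀Q⟩ := hZ2.exists_ns (z : ι → F) z.2 (fun h => hz0 (Subtype.ext h))
    have hz₀D : z₀ ∈ D i := hz₀.1.1
    have hc₁z₀ : QuadraticMap.polar ⇑Q c₁ z₀ = 0 := (mem_perpSub Q c₁ z₀).mp hz₀.1.2
    have hcz₀ : QuadraticMap.polar ⇑Q c z₀ = 0 := (mem_perpSub Q c z₀).mp hz₀.2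
    obtain ⟨δ, hδ⟩ : ∃ δ, Q z₀ = δ * ε := ⟨Q z₀ / ε, by field_simp⟩
    have hδ0 : δ ≠ 0 := by
      rintro rfl
      rw [zero_mul] at hδ
      exact hz₀Q hδ
    obtain ⟨C, hC⟩ := od_poly4 hq 0 δ 0 2 0 (Or.inr (Or.inr (Or.inr (Or.inl h2))))
    have hC0 : C ≠ 0 := by
      rintro rfl
      apply hC
      ring
    have hN : 2 + δ * C ^ 2 ≠ 0 := by
      intro h
      apply hC
      linear_combination C * h
    obtain ⟨c₃, hc₃def⟩ : ∃ c₃, c₃ = (δ * C ^ 2 / (2 + δ * C ^ 2)) • c₁ +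
        (-2 / (2 + δ * C ^ 2)) • c + (-2 * C / (2 + δ * C ^ 2)) • z₀ := ⟨_, rfl⟩
    have hc₃D : c₃ ∈ D i := by
      rw [hc₃def]
      exact (D i).add_mem ((D i).add_mem ((D i).smul_mem _ hc₁) ((D i).smul_mem _ hc))
        ((D i).smul_mem _ hz₀D)
    have hc₃Q : Q c₃ = ε := by
      rw [hc₃def]
      simp only [od_q_add, od_q_smul, QuadraticMap.polar_add_left, QuadraticMap.polar_add_right,
        QuadraticMap.polar_smul_left, QuadraticMap.polar_smul_right, hc₁Q, hcQ, hδ, hc₁c, hc₁z₀,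
        hcz₀, smul_eq_mul, mul_zero, add_zero]
      field_simp
      ring
    have hz₀c₁ : QuadraticMap.polar ⇑Q z₀ c₁ = 0 := by
      rw [QuadraticMap.polar_comm]
      exact hc₁z₀
    have hz₀c : QuadraticMap.polar ⇑Q z₀ c = 0 := by
      rw [QuadraticMap.polar_comm]
      exact hcz₀
    have hc₃c₁ : QuadraticMap.polar ⇑Q c₃ c₁ ≠ 0 := by
      have e : QuadraticMap.polar ⇑Q c₃ c₁ = (δ * C ^ 2 / (2 + δ * C ^ 2)) * (2 * ε) := by
        rw [hc₃def]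
        simp only [QuadraticMap.polar_add_left, QuadraticMap.polar_smul_left, od_pol_self, hc₁Q,
          hcc₁, hz₀c₁, smul_eq_mul, mul_zero, add_zero]
      rw [e]
      exact mul_ne_zero (div_ne_zero (mul_ne_zero hδ0 (pow_ne_zero 2 hC0)) hN)
        (mul_ne_zero h2 hε)
    have hc₃c : QuadraticMap.polar ⇑Q c₃ c ≠ 0 := by
      have e : QuadraticMap.polar ⇑Q c₃ c = (-2 / (2 + δ * C ^ 2)) * (2 * ε) := by
        rw [hc₃def]
        simp only [QuadraticMap.polar_add_left, QuadraticMap.polar_smul_left, od_pol_self, hcQ,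
          hc₁c, hz₀c, smul_eq_mul, mul_zero, add_zero, zero_add]
      rw [e]
      exact mul_ne_zero (div_ne_zero (neg_ne_zero.mpr h2) hN) (mul_ne_zero h2 hε)
    have hg₃ := hsame c₃ hc₃D hc₃Q hc₃c₁
    obtain ⟨j', hj'⟩ := H c ⟨i, hc⟩ hcQ
    by_cases hjj : j' = j
    · rw [← hjj]; exact hj'
    · exfalso
      apply hc₃c
      rw [← mv_polar Q g c₃ c]
      exact hD.perp j j' (fun e => hjj e.symm) _ hg₃ _ hj'
  refine ⟨j, fun y hy => ?_⟩
  obtain ⟨p, hpdef⟩ : ∃ p, p = QuadraticMap.polar ⇑Q y c₁ := ⟨_, rfl⟩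
  obtain ⟨lam, hlam⟩ := od_poly4 hq 0 (2 * ε * ε) (3 * ε * p) (p * p + 2 * ε * Q y) (Q y * p)
    (Or.inr (Or.inl (mul_ne_zero (mul_ne_zero h2 hε) hε)))
  have hprod : (Q y + lam * p + lam ^ 2 * ε) * (p + 2 * ε * lam) ≠ 0 := by
    intro h
    apply hlam
    linear_combination h
  obtain ⟨f, hfdef⟩ : ∃ f, f = y + lam • c₁ := ⟨_, rfl⟩
  have hfD : f ∈ D i := by
    rw [hfdef]
    exact (D i).add_mem hy ((D i).smul_mem _ hc₁)
  have hfQ : Q f = Q y + lam * p + lam ^ 2 * ε := by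
    rw [hfdef, od_q_add, od_q_smul, QuadraticMap.polar_smul_right, hc₁Q, ← hpdef, smul_eq_mul]
    ring
  have hfc₁ : QuadraticMap.polar ⇑Q f c₁ = p + 2 * ε * lam := by
    rw [hfdef, QuadraticMap.polar_add_left, QuadraticMap.polar_smul_left, od_pol_self, hc₁Q,
      ← hpdef, smul_eq_mul]
    ring
  have hfQ0 : Q f ≠ 0 := by
    rw [hfQ]
    exact left_ne_zero_of_mul hprod
  have hfc₁0 : QuadraticMap.polar ⇑Q f c₁ ≠ 0 := by
    rw [hfc₁]
    exact right_ne_zero_of_mul hprod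
  obtain ⟨κ, hκdef⟩ : ∃ κ, κ = (Q f)⁻¹ * QuadraticMap.polar ⇑Q f c₁ := ⟨_, rfl⟩
  have hκ0 : κ ≠ 0 := by
    rw [hκdef]
    exact mul_ne_zero (inv_ne_zero hfQ0) hfc₁0
  have hr : mv ⇑Q g (c₁ - κ • f) ∈ D j := by
    apply claim1 _ ((D i).sub_mem hc₁ ((D i).smul_mem _ hfD))
    rw [hκdef, ← mv_oR Q f hfQ0 c₁, mv_quad ⇑Q (oR Q f)]
    exact hc₁Q
  rw [mv_sub, mv_smul] at hr
  have hgf : mv ⇑Q g f ∈ D j := by
    have h5 : mv ⇑Q g f = κ⁻¹ • (mv ⇑Q g c₁ - (mv ⇑Q g c₁ - κ • mv ⇑Q g f)) := by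
      rw [sub_sub_cancel, smul_smul, inv_mul_cancel₀ hκ0, one_smul]
    rw [h5]
    exact (D j).smul_mem _ ((D j).sub_mem hj hr)
  have hy' : y = f - lam • c₁ := by
    rw [hfdef, add_sub_cancel_right]
  rw [hy', mv_sub, mv_smul]
  exact (D j).sub_mem hgf ((D j).smul_mem _ hj)

/-- Without mixed Eichler transformations and without new reflection vectors, every Eichler
transformation of `M` preserves every member. -/
theorem od_pres_gam (hQ : (QuadraticMap.polarBilin Q).Nondegenerate) (hn : 5 ≤ Fintype.card ι)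
    (h2 : (2 : F) ≠ 0) (hq : 5 ≤ Fintype.card F) (hD : ODec Q D)
    (h3 : ∀ i, 3 ≤ Module.finrank F (D i)) {M : Subgroup ↥(isometryGroup F ⇑Q)}
    (hM : HD Q D M) (hNM : NM D M) (hNG : NG D M) (u' b' : ι → F) (hu'Q : Q u' = 0)
    (hu'b' : QuadraticMap.polar ⇑Q u' b' = 0) (hE : oE Q u' b' ∈ M) :
    ∀ j, ∀ x ∈ D j, mv ⇑Q (oE Q u' b') x ∈ D j := by
  intro j
  have hf1 := finrank_inf_perpSub_ge Q (D j) u'
  have hf2 := finrank_inf_perpSub_ge Q (D j ⊓ perpSub Q u') b'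
  have hpos : 0 < Module.finrank F ↥(D j ⊓ perpSub Q u' ⊓ perpSub Q b') := by
    have := h3 j
    omega
  obtain ⟨z, hz0⟩ := Module.finrank_pos_iff_exists_ne_zero.mp hpos
  obtain ⟨x₁, hx₁def⟩ : ∃ x₁ : ι → F, x₁ = (z : ι → F) := ⟨_, rfl⟩
  have hx₁ : x₁ ∈ D j ⊓ perpSub Q u' ⊓ perpSub Q b' := by
    rw [hx₁def]
    exact z.2
  have hx₁0 : x₁ ≠ 0 := by
    rw [hx₁def]
    exact fun h => hz0 (Subtype.ext h)
  have hx₁D : x₁ ∈ D j := hx₁.1.1
  have hfix : mv ⇑Q (oE Q u' b') x₁ = x₁ := by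
    have e1 : QuadraticMap.polar ⇑Q u' x₁ = 0 := (mem_perpSub Q u' x₁).mp hx₁.1.2
    have e2 : QuadraticMap.polar ⇑Q b' x₁ = 0 := (mem_perpSub Q b' x₁).mp hx₁.2
    rw [mv_oE Q u' b' hu'Q hu'b', e1, e2]
    simp
  obtain ⟨a, ha, haQ, hha⟩ : ∃ a ∈ D j, Q a ≠ 0 ∧ mv ⇑Q (oE Q u' b') a ∈ D j := by
    by_cases hx₁Q : Q x₁ = 0
    · have hB1 := od_B1 hQ hn hD hM hNM _ hE j j x₁ hx₁D hx₁0 hx₁Q (by rw [hfix]; exact hx₁D)
      obtain ⟨a, ha, hxa, haQ⟩ := (hD.nd j).exists_ns_perp (h3 j) x₁ hx₁D hx₁0 hx₁Q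
      exact ⟨a, ha, haQ, hB1 a ha hxa⟩
    · exact ⟨x₁, hx₁D, hx₁Q, by rw [hfix]; exact hx₁D⟩
  have htr := od_gam_transfer hQ hn hD hM hNG _ hE a ⟨j, ha⟩ haQ ⟨j, hha⟩
  have hSt := od_stab h2 hq hD h3 (oE Q u' b') (Q a) haQ htr
  obtain ⟨j', hj'⟩ := hSt j
  have hjj : j' = j := by
    by_contra hjj
    have h9 := hj' x₁ hx₁D
    rw [hfix] at h9
    exact hx₁0 (hD.disj j' j hjj x₁ h9 hx₁D)
  rw [← hjj]
  rw [← hjj] at hj'
  exact hj'

/-- The reflection-pair branch: without mixed Eichler transformations and without new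
reflection vectors, `M` stabilises the decomposition. -/
theorem od_small (hQ : (QuadraticMap.polarBilin Q).Nondegenerate) (hn : 5 ≤ Fintype.card ι)
    (h2 : (2 : F) ≠ 0) (hq : 5 ≤ Fintype.card F) (hD : ODec Q D) (hπ : OProj Q D π)
    (h3 : ∀ i, 3 ≤ Module.finrank F (D i)) {M : Subgroup ↥(isometryGroup F ⇑Q)}
    (hM : HD Q D M) (hNM : NM D M) (hNG : NG D M) (i₀ : Fin t) : ∀ g ∈ M, St D g :=
  od_st_of_pres hQ hn h2 hD hπ h3 hM i₀
    (fun u' b' hu'Q hu'b' hE => od_pres_gam hQ hn h2 hq hD h3 hM hNM hNG u' b' hu'Q hu'b' hE)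

end ODGam

end Cfsg.Agent.Helper97.OD
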