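import Mathlib
import Cfsg.Prelude.Def_GeometricClasses
import Cfsg.Agent.Helper97.ODGam

/-!
Orthogonal decompositions: a new reflection vector (a non-singular `w` outside the members with
`r_w r_c ∈ M` for the vectors `c` of the members of the same norm) produces a mixed Eichler
transformation in `M` (helper97, for S5677).
-/

set_option autoImplicit false
set_option linter.unusedSectionVars false
set_option linter.unusedVariables false
set_option linter.unusedSimpArgs false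

universe u

namespace Cfsg.Agent.Helper97.OD

open Matrix Cfsg Cfsg.Geo Cfsg.Agent.Helper45 Cfsg.Agent.Helper94

section ODNew

variable {ι : Type} [Fintype ι] [DecidableEq ι] {F : Type u} [Field F] [Fintype F]
  {Q : QuadraticForm F (ι → F)} {t : ℕ} {D : Fin t → Submodule F (ι → F)}
  {π : Fin t → (ι → F) →ₗ[F] (ι → F)}

/-- A reflection fixes the vectors orthogonal to its root. -/
theorem od_R_fix (a x : ι → F) (haQ : Q a ≠ 0) (h : QuadraticMap.polar ⇑Q a x = 0) :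
    mv ⇑Q (oR Q a) x = x := by
  rw [mv_oR Q a haQ, h, mul_zero, zero_smul, sub_zero]

/-- The product of two reflections of a hyperbolic plane acts as a torus element. -/
theorem od_torus (s s' : ι → F) (hs : Q s = 0) (hs' : Q s' = 0)
    (hss' : QuadraticMap.polar ⇑Q s s' = 1) (ν μ : F) (hν : ν ≠ 0) (hμ : μ ≠ 0) (x : ι → F) :
    mv ⇑Q (oR Q (ν • (s - s'))) (mv ⇑Q (oR Q (s - μ • s')) x) =
      x + ((μ - 1) * QuadraticMap.polar ⇑Q x s') • s +
        ((μ⁻¹ - 1) * QuadraticMap.polar ⇑Q x s) • s' := by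
  have hs's : QuadraticMap.polar ⇑Q s' s = 1 := by rw [QuadraticMap.polar_comm]; exact hss'
  have e1 : Q (ν • (s - s')) = -(ν * ν) := by
    rw [od_q_smul, od_q_sub, hs, hs', hss']
    ring
  have e2 : Q (s - μ • s') = -μ := by
    rw [od_q_sub, od_q_smul, hs, hs', QuadraticMap.polar_smul_right, hss', smul_eq_mul]
    ring
  have h1 : Q (ν • (s - s')) ≠ 0 := by rw [e1]; exact neg_ne_zero.mpr (mul_ne_zero hν hν)
  have h2 : Q (s - μ • s') ≠ 0 := by rw [e2]; exact neg_ne_zero.mpr hμ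
  rw [mv_oR Q _ h2, mv_oR Q _ h1, e1, e2]
  simp only [QuadraticMap.polar_sub_left, QuadraticMap.polar_sub_right,
    QuadraticMap.polar_smul_left, QuadraticMap.polar_smul_right, od_pol_self, hs, hs', hss', hs's,
    smul_eq_mul]
  rw [QuadraticMap.polar_comm ⇑Q x s, QuadraticMap.polar_comm ⇑Q x s']
  funext i
  simp only [Pi.add_apply, Pi.sub_apply, Pi.smul_apply, smul_eq_mul]
  field_simp
  ring

/-- The product of the reflections in `w + e` and `w` is an Eichler transformation. -/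
theorem od_refl_eich (w e : ι → F) (hw : Q w ≠ 0) (he : Q e = 0)
    (hwe : QuadraticMap.polar ⇑Q w e = 0) :
    oR Q (w + e) * oR Q w = oE Q ((Q w)⁻¹ • e) w := by
  have hQ' : Q (w + e) = Q w := by rw [od_q_add, he, hwe, add_zero, add_zero]
  have hw' : Q (w + e) ≠ 0 := by rw [hQ']; exact hw
  have hu : Q ((Q w)⁻¹ • e) = 0 := by rw [od_q_smul, he, mul_zero]
  have hew : QuadraticMap.polar ⇑Q e w = 0 := by rw [QuadraticMap.polar_comm]; exact hwe
  have hub : QuadraticMap.polar ⇑Q ((Q w)⁻¹ • e) w = 0 := by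
    rw [QuadraticMap.polar_smul_left, hew, smul_zero]
  apply ext_mv
  intro x
  rw [mv_mul, mv_oR Q w hw, mv_oR Q _ hw', mv_oE Q _ _ hu hub, hQ']
  simp only [QuadraticMap.polar_add_left, QuadraticMap.polar_sub_right,
    QuadraticMap.polar_smul_left, QuadraticMap.polar_smul_right, od_pol_self, hew, smul_eq_mul]
  funext i
  simp only [Pi.add_apply, Pi.sub_apply, Pi.smul_apply, smul_eq_mul]
  field_simp
  ring

/-- If an element `y` of `M` permuting the vectors of the members moves a reflection vector `w`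
of `M` to `w + e` with `e` singular, then the Eichler transformation `E(Q(w)⁻¹ e, w)` lies in
`M`. -/
theorem od_gam_eich (hQ : (QuadraticMap.polarBilin Q).Nondegenerate) (hn : 5 ≤ Fintype.card ι)
    (h2 : (2 : F) ≠ 0) (hD : ODec Q D) (h3 : ∀ i, 3 ≤ Module.finrank F (D i))
    {M : Subgroup ↥(isometryGroup F ⇑Q)} (hM : HD Q D M) (i₀ : Fin t) (w : ι → F)
    (hw : Gam D M w) (y : ↥(isometryGroup F ⇑Q)) (hy : y ∈ M)
    (hyB : ∀ c, InB D c → InB D (mv ⇑Q y c)) (e : ι → F) (hye : mv ⇑Q y w = w + e)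
    (heQ : Q e = 0) :
    QuadraticMap.polar ⇑Q w e = 0 ∧ oE Q ((Q w)⁻¹ • e) w ∈ M := by
  obtain ⟨hwQ, hwG⟩ := hw
  have hwe : QuadraticMap.polar ⇑Q w e = 0 := by
    have h := mv_quad ⇑Q y w
    rw [hye, od_q_add, heQ, add_zero] at h
    linear_combination h
  refine ⟨hwe, ?_⟩
  obtain ⟨c, hc, hcQ⟩ := (hD.nd i₀).exists_val h2 (le_trans (by norm_num) (h3 i₀)) (Q w)
  have hcQ0 : Q c ≠ 0 := by rw [hcQ]; exact hwQ
  have h1 : oR Q w * oR Q c ∈ M := hwG c ⟨i₀, hc⟩ hcQ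
  have h2' : oR Q c * oR Q (mv ⇑Q y c) ∈ M :=
    od_RR_in hQ hn hD hM c _ ⟨i₀, hc⟩ (hyB c ⟨i₀, hc⟩) hcQ0 (by rw [mv_quad ⇑Q y])
  have h3' : oR Q (mv ⇑Q y c) * oR Q (mv ⇑Q y w) ∈ M := by
    have h4 : y * (oR Q c * oR Q w) * y⁻¹ = oR Q (mv ⇑Q y c) * oR Q (mv ⇑Q y w) := by
      rw [← oR_conj Q y c hcQ0, ← oR_conj Q y w hwQ]
      group
    rw [← h4]
    have h5 : oR Q c * oR Q w = (oR Q w * oR Q c)⁻¹ := by
      rw [_root_.mul_inv_rev, oR_inv, oR_inv]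
    rw [h5]
    exact M.mul_mem (M.mul_mem hy (M.inv_mem h1)) (M.inv_mem hy)
  have hcc : ∀ (a : ι → F) (z : ↥(isometryGroup F ⇑Q)), oR Q a * (oR Q a * z) = z := by
    intro a z
    rw [← mul_assoc, oR_mul_self, one_mul]
  have h6 : oR Q w * oR Q (mv ⇑Q y w) ∈ M := by
    have h7 : oR Q w * oR Q (mv ⇑Q y w) = (oR Q w * oR Q c) * (oR Q c * oR Q (mv ⇑Q y c)) *
        (oR Q (mv ⇑Q y c) * oR Q (mv ⇑Q y w)) := by
      simp only [mul_assoc, hcc]
    rw [h7]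
    exact M.mul_mem (M.mul_mem h1 h2') h3'
  rw [hye] at h6
  have h8 : oR Q (w + e) * oR Q w = (oR Q w * oR Q (w + e))⁻¹ := by
    rw [_root_.mul_inv_rev, oR_inv, oR_inv]
  rw [← od_refl_eich w e hwQ heQ hwe, h8]
  exact M.inv_mem h6

/-- Vectors of prescribed norm orthogonal to a vector that is zero or non-singular. -/
theorem od_exists_val_perp (h2 : (2 : F) ≠ 0) {W : Submodule F (ι → F)} (hW : ND Q W)
    (h3 : 3 ≤ Module.finrank F W) (x : ι → F) (hx : x ∈ W) (hx0 : x = 0 ∨ Q x ≠ 0) (η : F) :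
    ∃ z ∈ W, QuadraticMap.polar ⇑Q x z = 0 ∧ Q z = η := by
  rcases hx0 with rfl | hxQ
  · obtain ⟨z, hz, hzQ⟩ := hW.exists_val h2 (le_trans (by norm_num) h3) η
    exact ⟨z, hz, by simp, hzQ⟩
  · have h1 := finrank_inf_perpSub_ge Q W x
    obtain ⟨z, hz, hzQ⟩ := (hW.perp h2 x hx hxQ).exists_val h2 (by omega) η
    exact ⟨z, hz.1, (mem_perpSub Q x z).mp hz.2, hzQ⟩

/-- Case I: some component of the new reflection vector is singular and non-zero. -/
theorem od_new_I (hQ : (QuadraticMap.polarBilin Q).Nondegenerate) (hn : 5 ≤ Fintype.card ι)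
    (h2 : (2 : F) ≠ 0) (hq : 5 ≤ Fintype.card F) (hD : ODec Q D) (hπ : OProj Q D π)
    (h3 : ∀ i, 3 ≤ Module.finrank F (D i)) {M : Subgroup ↥(isometryGroup F ⇑Q)}
    (hM : HD Q D M) (i₀ : Fin t) (w : ι → F) (hw : Gam D M w) (hwB : ¬ InB D w) (m : Fin t)
    (hm0 : π m w ≠ 0) (hmQ : Q (π m w) = 0) :
    ∃ i u b, u ∈ D i ∧ u ≠ 0 ∧ Q u = 0 ∧ QuadraticMap.polar ⇑Q u b = 0 ∧ oE Q u b ∈ M ∧
      b ∉ D i := by
  obtain ⟨s, hsdef⟩ : ∃ s, s = π m w := ⟨_, rfl⟩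
  have hs : s ∈ D m := by
    rw [hsdef]
    exact hπ.mem m w
  rw [← hsdef] at hm0 hmQ
  have hpol : ∀ y ∈ D m, QuadraticMap.polar ⇑Q w y = QuadraticMap.polar ⇑Q s y := by
    intro y hy
    rw [hsdef]
    exact (hπ.pol m w y hy).symm
  obtain ⟨v, hv, hvQ, hsv⟩ := (hD.nd m).partner s hs hm0 hmQ
  obtain ⟨lam, hlam⟩ := od_poly4 hq 0 1 0 (-1) 0 (Or.inr (Or.inl one_ne_zero))
  have hl0 : lam ≠ 0 := by
    rintro rfl
    apply hlam
    ring
  have hl1 : lam * lam - 1 ≠ 0 := by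
    intro h
    apply hlam
    linear_combination lam * h
  have hQa : Q (lam • (s - v)) = -(lam * lam) := by
    rw [od_q_smul, od_q_sub, hmQ, hvQ, hsv]
    ring
  have hQb : Q (s - (lam * lam) • v) = -(lam * lam) := by
    rw [od_q_sub, od_q_smul, hmQ, hvQ, QuadraticMap.polar_smul_right, hsv, smul_eq_mul]
    ring
  have hne : -(lam * lam) ≠ 0 := neg_ne_zero.mpr (mul_ne_zero hl0 hl0)
  have ha : lam • (s - v) ∈ D m := (D m).smul_mem _ ((D m).sub_mem hs hv)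
  have hb : s - (lam * lam) • v ∈ D m := (D m).sub_mem hs ((D m).smul_mem _ hv)
  have hyM : oR Q (lam • (s - v)) * oR Q (s - (lam * lam) • v) ∈ M :=
    od_RR_in hQ hn hD hM _ _ ⟨m, ha⟩ ⟨m, hb⟩ (by rw [hQa]; exact hne) (by rw [hQa, hQb])
  have hyB : ∀ c, InB D c →
      InB D (mv ⇑Q (oR Q (lam • (s - v)) * oR Q (s - (lam * lam) • v)) c) := by
    rintro c ⟨l, hl⟩
    refine ⟨l, ?_⟩
    rw [mv_mul]
    exact od_R_maps hD m _ ha (by rw [hQa]; exact hne) l _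
      (od_R_maps hD m _ hb (by rw [hQb]; exact hne) l c hl)
  have e1 : QuadraticMap.polar ⇑Q w v = 1 := by
    rw [hpol v hv]
    exact hsv
  have e2 : QuadraticMap.polar ⇑Q w s = 0 := by
    rw [hpol s hs, od_pol_self, hmQ, mul_zero]
  have hyw : mv ⇑Q (oR Q (lam • (s - v)) * oR Q (s - (lam * lam) • v)) w =
      w + (lam * lam - 1) • s := by
    rw [mv_mul, od_torus s v hmQ hvQ hsv lam (lam * lam) hl0 (mul_ne_zero hl0 hl0) w, e1, e2,
      mul_one, mul_zero, zero_smul, add_zero]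
  have heQ : Q ((lam * lam - 1) • s) = 0 := by rw [od_q_smul, hmQ, mul_zero]
  obtain ⟨hwe, hE⟩ := od_gam_eich hQ hn h2 hD h3 hM i₀ w hw _ hyM hyB _ hyw heQ
  refine ⟨m, (Q w)⁻¹ • (lam * lam - 1) • s, w, (D m).smul_mem _ ((D m).smul_mem _ hs), ?_, ?_,
    ?_, hE, fun h => hwB ⟨m, h⟩⟩
  · exact smul_ne_zero (inv_ne_zero hw.1) (smul_ne_zero hl1 hm0)
  · rw [od_q_smul, heQ, mul_zero]
  · rw [QuadraticMap.polar_smul_left, QuadraticMap.polar_comm, hwe, smul_zero]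

theorem od_exists_third (ht : 3 ≤ t) (m m' : Fin t) : ∃ l : Fin t, l ≠ m ∧ l ≠ m' := by
  by_contra hcon
  push Not at hcon
  have h1 : (Finset.univ : Finset (Fin t)) ⊆ {m, m'} := by
    intro l _
    by_cases hl : l = m
    · rw [hl]
      exact Finset.mem_insert_self _ _
    · rw [hcon l hl]
      exact Finset.mem_insert_of_mem (Finset.mem_singleton_self _)
  have h2 := Finset.card_le_card h1
  have h3 : ({m, m'} : Finset (Fin t)).card ≤ 2 := Finset.card_le_two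
  rw [Finset.card_univ, Fintype.card_fin] at h2
  omega

/-- Case II: the non-zero components of the new reflection vector are non-singular. -/
theorem od_new_II (hQ : (QuadraticMap.polarBilin Q).Nondegenerate) (hn : 5 ≤ Fintype.card ι)
    (h2 : (2 : F) ≠ 0) (hq : 5 ≤ Fintype.card F) (hD : ODec Q D) (hπ : OProj Q D π)
    (h3 : ∀ i, 3 ≤ Module.finrank F (D i)) (ht : 3 ≤ t) {M : Subgroup ↥(isometryGroup F ⇑Q)}
    (hM : HD Q D M) (i₀ : Fin t) (w : ι → F) (hw : Gam D M w)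
    (hcomp : ∀ l, π l w = 0 ∨ Q (π l w) ≠ 0) (m m' : Fin t) (hmm' : m ≠ m')
    (hm : π m w ≠ 0) (hm' : π m' w ≠ 0) :
    ∃ i u b, u ∈ D i ∧ u ≠ 0 ∧ Q u = 0 ∧ QuadraticMap.polar ⇑Q u b = 0 ∧ oE Q u b ∈ M ∧
      b ∉ D i := by
  have hwQ : Q w ≠ 0 := hw.1
  have hmQ : Q (π m w) ≠ 0 := (hcomp m).resolve_left hm
  have hm'Q : Q (π m' w) ≠ 0 := (hcomp m').resolve_left hm'
  have hpol : ∀ l, ∀ y ∈ D l, QuadraticMap.polar ⇑Q w y = QuadraticMap.polar ⇑Q (π l w) y :=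
    fun l y hy => (hπ.pol l w y hy).symm
  -- the singular vector `s` and the vector `f` of `D m`
  obtain ⟨s, hs, hsQ, hws⟩ := (hD.nd m).exists_sing_np (h3 m) (π m w) (hπ.mem m w) hm
  have hs0 : s ≠ 0 := by
    rintro rfl
    apply hws
    simp
  obtain ⟨c, hc, hsc, hcQ⟩ := (hD.nd m).exists_ns_perp (h3 m) s hs hs0 hsQ
  obtain ⟨δ, hδdef⟩ : ∃ δ, δ = Q c := ⟨_, rfl⟩
  have hδ : δ ≠ 0 := by rw [hδdef]; exact hcQ
  obtain ⟨α, hαdef⟩ : ∃ α, α = -(Q c + QuadraticMap.polar ⇑Q (π m w) c) /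
      QuadraticMap.polar ⇑Q (π m w) s := ⟨_, rfl⟩
  obtain ⟨f, hfdef⟩ : ∃ f, f = α • s + c := ⟨_, rfl⟩
  have hf : f ∈ D m := by
    rw [hfdef]
    exact (D m).add_mem ((D m).smul_mem _ hs) hc
  have hfQ : Q f = δ := by
    rw [hfdef, od_q_add, od_q_smul, hsQ, QuadraticMap.polar_smul_left, hsc, hδdef]
    simp
  have hwf : QuadraticMap.polar ⇑Q w f = -δ := by
    rw [hpol m f hf, hfdef, QuadraticMap.polar_add_right, QuadraticMap.polar_smul_right, hαdef,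
      hδdef, smul_eq_mul]
    field_simp
    ring
  have hcs : QuadraticMap.polar ⇑Q c s = 0 := by rw [QuadraticMap.polar_comm]; exact hsc
  have hfs : QuadraticMap.polar ⇑Q f s = 0 := by
    rw [hfdef, QuadraticMap.polar_add_left, QuadraticMap.polar_smul_left, od_pol_self, hsQ, hcs]
    simp
  have hsf : QuadraticMap.polar ⇑Q s f = 0 := by rw [QuadraticMap.polar_comm]; exact hfs
  -- the hyperbolic partner `s'` of `s` orthogonal to `f`
  obtain ⟨v, hv, hvQ, hsv⟩ := (hD.nd m).partner s hs hs0 hsQ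
  have hvs : QuadraticMap.polar ⇑Q v s = 1 := by rw [QuadraticMap.polar_comm]; exact hsv
  obtain ⟨a, hadef⟩ : ∃ a, a = -(QuadraticMap.polar ⇑Q f v) / (2 * δ) := ⟨_, rfl⟩
  obtain ⟨s', hs'def⟩ : ∃ s', s' = v + a • f +
      (-(a * a * δ) - a * QuadraticMap.polar ⇑Q v f) • s := ⟨_, rfl⟩
  have hs' : s' ∈ D m := by
    rw [hs'def]
    exact (D m).add_mem ((D m).add_mem hv ((D m).smul_mem _ hf)) ((D m).smul_mem _ hs)
  have hss' : QuadraticMap.polar ⇑Q s s' = 1 := by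
    rw [hs'def]
    simp only [QuadraticMap.polar_add_right, QuadraticMap.polar_smul_right, od_pol_self, hsv,
      hsf, hsQ, smul_eq_mul, mul_zero, add_zero]
  have hfs' : QuadraticMap.polar ⇑Q f s' = 0 := by
    rw [hs'def]
    simp only [QuadraticMap.polar_add_right, QuadraticMap.polar_smul_right, od_pol_self, hfQ,
      hfs, smul_eq_mul, mul_zero, add_zero]
    rw [hadef]
    field_simp
    ring
  have hs'Q : Q s' = 0 := by
    rw [hs'def]
    simp only [od_q_add, od_q_smul, QuadraticMap.polar_add_left, QuadraticMap.polar_smul_left,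
      QuadraticMap.polar_smul_right, hvQ, hfQ, hsQ, hvs, hfs, smul_eq_mul, mul_zero, add_zero]
    ring
  have hs'0 : s' ≠ 0 := by
    rintro rfl
    rw [QuadraticMap.polar_zero_right] at hss'
    exact zero_ne_one hss'
  -- the vector `f'` of `D m'`
  obtain ⟨z, hz, hwz, hzQ⟩ := od_exists_val_perp h2 (hD.nd m') (h3 m') (π m' w) (hπ.mem m' w)
    (Or.inr hm'Q) (-δ - δ * δ / (4 * Q (π m' w)))
  obtain ⟨f', hf'def⟩ : ∃ f', f' = (δ / (2 * Q (π m' w))) • π m' w + z := ⟨_, rfl⟩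
  have hf' : f' ∈ D m' := by
    rw [hf'def]
    exact (D m').add_mem ((D m').smul_mem _ (hπ.mem m' w)) hz
  have h4 : (4 : F) ≠ 0 := by
    have : (4 : F) = 2 * 2 := by norm_num
    rw [this]
    exact mul_ne_zero h2 h2
  have hf'Q : Q f' = -δ := by
    rw [hf'def, od_q_add, od_q_smul, QuadraticMap.polar_smul_left, hwz, hzQ]
    simp only [smul_eq_mul, mul_zero, add_zero]
    field_simp
    ring
  have hwf' : QuadraticMap.polar ⇑Q w f' = δ := by
    rw [hpol m' f' hf', hf'def, QuadraticMap.polar_add_right, QuadraticMap.polar_smul_right,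
      od_pol_self, hwz, smul_eq_mul]
    field_simp
    ring
  have hff' : QuadraticMap.polar ⇑Q f f' = 0 := hD.perp m m' hmm' f hf f' hf'
  -- the element `y₁` with `y₁ w = w + (f + f')`
  obtain ⟨c2, hc2, hwc2, hc2Q⟩ := od_exists_val_perp h2 (hD.nd m) (h3 m) (π m w) (hπ.mem m w)
    (Or.inr hmQ) δ
  obtain ⟨c3, hc3, hwc3, hc3Q⟩ := od_exists_val_perp h2 (hD.nd m') (h3 m') (π m' w)
    (hπ.mem m' w) (Or.inr hm'Q) (-δ)
  have hfQ0 : Q f ≠ 0 := by rw [hfQ]; exact hδ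
  have hf'Q0 : Q f' ≠ 0 := by rw [hf'Q]; exact neg_ne_zero.mpr hδ
  have hc2Q0 : Q c2 ≠ 0 := by rw [hc2Q]; exact hδ
  have hc3Q0 : Q c3 ≠ 0 := by rw [hc3Q]; exact neg_ne_zero.mpr hδ
  have hy1 : oR Q f * oR Q c2 ∈ M :=
    od_RR_in hQ hn hD hM f c2 ⟨m, hf⟩ ⟨m, hc2⟩ hfQ0 (by rw [hfQ, hc2Q])
  have hy2 : oR Q f' * oR Q c3 ∈ M :=
    od_RR_in hQ hn hD hM f' c3 ⟨m', hf'⟩ ⟨m', hc3⟩ hf'Q0 (by rw [hf'Q, hc3Q])
  have hyB : ∀ x, InB D x → InB D (mv ⇑Q ((oR Q f * oR Q c2) * (oR Q f' * oR Q c3)) x) := by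
    rintro x ⟨l, hl⟩
    refine ⟨l, ?_⟩
    rw [mv_mul, mv_mul, mv_mul]
    exact od_R_maps hD m f hf hfQ0 l _ (od_R_maps hD m c2 hc2 hc2Q0 l _
      (od_R_maps hD m' f' hf' hf'Q0 l _ (od_R_maps hD m' c3 hc3 hc3Q0 l x hl)))
  have hc3w : QuadraticMap.polar ⇑Q c3 w = 0 := by
    rw [QuadraticMap.polar_comm, hpol m' c3 hc3]
    exact hwc3
  have hc2w : QuadraticMap.polar ⇑Q c2 w = 0 := by
    rw [QuadraticMap.polar_comm, hpol m c2 hc2]
    exact hwc2
  have hf'w : QuadraticMap.polar ⇑Q f' w = δ := by rw [QuadraticMap.polar_comm]; exact hwf'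
  have hfw : QuadraticMap.polar ⇑Q f w = -δ := by rw [QuadraticMap.polar_comm]; exact hwf
  have k1 : mv ⇑Q (oR Q c3) w = w := od_R_fix c3 w hc3Q0 hc3w
  have k2 : mv ⇑Q (oR Q f') w = w + f' := by
    rw [mv_oR Q f' hf'Q0, hf'Q, hf'w]
    have e : (-δ)⁻¹ * δ = -1 := by
      field_simp
    rw [e, neg_smul, one_smul, sub_neg_eq_add]
  have k3 : mv ⇑Q (oR Q c2) (w + f') = w + f' := by
    apply od_R_fix c2 _ hc2Q0
    rw [QuadraticMap.polar_add_right, hc2w, hD.perp m m' hmm' c2 hc2 f' hf', add_zero]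
  have k4 : mv ⇑Q (oR Q f) (w + f') = w + (f + f') := by
    rw [mv_oR Q f hfQ0, hfQ, QuadraticMap.polar_add_right, hfw, hff', add_zero]
    have e : δ⁻¹ * (-δ) = -1 := by
      field_simp
    rw [e, neg_smul, one_smul, sub_neg_eq_add]
    abel
  have hyw : mv ⇑Q ((oR Q f * oR Q c2) * (oR Q f' * oR Q c3)) w = w + (f + f') := by
    rw [mv_mul, mv_mul, mv_mul, k1, k2, k3, k4]
  have heQ : Q (f + f') = 0 := by
    rw [od_q_add, hfQ, hf'Q, hff']
    ring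
  obtain ⟨hwe, hE₀⟩ := od_gam_eich hQ hn h2 hD h3 hM i₀ w hw _ (M.mul_mem hy1 hy2) hyB _ hyw heQ
  obtain ⟨d', hd'def⟩ : ∃ d', d' = (Q w)⁻¹ • (f + f') := ⟨_, rfl⟩
  rw [← hd'def] at hE₀
  have hd'Q : Q d' = 0 := by rw [hd'def, od_q_smul, heQ, mul_zero]
  have hd'w : QuadraticMap.polar ⇑Q d' w = 0 := by
    rw [hd'def, QuadraticMap.polar_smul_left, QuadraticMap.polar_comm, hwe, smul_zero]
  have hwL : w ∈ LU M d' hd'Q := ⟨hd'w, hE₀⟩
  -- vectors of `D m` orthogonal to `f` are orthogonal to `d'`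
  have hd'perp : ∀ x ∈ D m, QuadraticMap.polar ⇑Q f x = 0 → QuadraticMap.polar ⇑Q x d' = 0 := by
    intro x hx hfx
    rw [hd'def, QuadraticMap.polar_smul_right, QuadraticMap.polar_add_right,
      QuadraticMap.polar_comm ⇑Q x f, hfx, hD.perp m m' hmm' x hx f' hf', add_zero, smul_zero]
  have hd'perp' : ∀ l, l ≠ m → l ≠ m' → ∀ x ∈ D l, QuadraticMap.polar ⇑Q x d' = 0 := by
    intro l hlm hlm' x hx
    rw [hd'def, QuadraticMap.polar_smul_right, QuadraticMap.polar_add_right,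
      hD.perp l m hlm x hx f hf, hD.perp l m' hlm' x hx f' hf', add_zero, smul_zero]
  obtain ⟨l, hlm, hlm'⟩ := od_exists_third ht m m'
  -- the torus
  have htor : ∀ μ : F, μ ≠ 0 → ((μ - 1) * QuadraticMap.polar ⇑Q w s') • s +
      ((μ⁻¹ - 1) * QuadraticMap.polar ⇑Q w s) • s' ∈ LU M d' hd'Q := by
    intro μ hμ
    obtain ⟨c₁, hc₁, hwc₁, hc₁Q⟩ := od_exists_val_perp h2 (hD.nd l) (h3 l) (π l w) (hπ.mem l w)
      (hcomp l) (-1)
    obtain ⟨c₂, hc₂, hwc₂, hc₂Q⟩ := od_exists_val_perp h2 (hD.nd l) (h3 l) (π l w) (hπ.mem l w)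
      (hcomp l) (-μ)
    have hQa1 : Q ((1 : F) • (s - s')) = -1 := by
      rw [one_smul, od_q_sub, hsQ, hs'Q, hss']
      ring
    have hQa2 : Q (s - μ • s') = -μ := by
      rw [od_q_sub, od_q_smul, hsQ, hs'Q, QuadraticMap.polar_smul_right, hss', smul_eq_mul]
      ring
    have ha1 : (1 : F) • (s - s') ∈ D m := (D m).smul_mem _ ((D m).sub_mem hs hs')
    have ha2 : s - μ • s' ∈ D m := (D m).sub_mem hs ((D m).smul_mem _ hs')
    have hQa10 : Q ((1 : F) • (s - s')) ≠ 0 := by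
      rw [hQa1]
      exact neg_ne_zero.mpr one_ne_zero
    have hQa20 : Q (s - μ • s') ≠ 0 := by
      rw [hQa2]
      exact neg_ne_zero.mpr hμ
    have hc₁Q0 : Q c₁ ≠ 0 := by
      rw [hc₁Q]
      exact neg_ne_zero.mpr one_ne_zero
    have hc₂Q0 : Q c₂ ≠ 0 := by
      rw [hc₂Q]
      exact neg_ne_zero.mpr hμ
    have hyM1 : oR Q ((1 : F) • (s - s')) * oR Q c₁ ∈ M :=
      od_RR_in hQ hn hD hM _ c₁ ⟨m, ha1⟩ ⟨l, hc₁⟩ hQa10 (by rw [hQa1, hc₁Q])
    have hyM2 : oR Q (s - μ • s') * oR Q c₂ ∈ M :=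
      od_RR_in hQ hn hD hM _ c₂ ⟨m, ha2⟩ ⟨l, hc₂⟩ hQa20 (by rw [hQa2, hc₂Q])
    have hfa1 : QuadraticMap.polar ⇑Q f ((1 : F) • (s - s')) = 0 := by
      rw [QuadraticMap.polar_smul_right, QuadraticMap.polar_sub_right, hfs, hfs', sub_zero,
        smul_zero]
    have hfa2 : QuadraticMap.polar ⇑Q f (s - μ • s') = 0 := by
      rw [QuadraticMap.polar_sub_right, QuadraticMap.polar_smul_right, hfs, hfs', smul_zero,
        sub_zero]
    have hfix_d : mv ⇑Q ((oR Q ((1 : F) • (s - s')) * oR Q c₁) * (oR Q (s - μ • s') * oR Q c₂))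
        d' = d' := by
      rw [mv_mul, mv_mul, mv_mul, od_R_fix c₂ d' hc₂Q0 (hd'perp' l hlm hlm' c₂ hc₂),
        od_R_fix _ d' hQa20 (hd'perp _ ha2 hfa2),
        od_R_fix c₁ d' hc₁Q0 (hd'perp' l hlm hlm' c₁ hc₁),
        od_R_fix _ d' hQa10 (hd'perp _ ha1 hfa1)]
    have hc₂w : QuadraticMap.polar ⇑Q c₂ w = 0 := by
      rw [QuadraticMap.polar_comm, hpol l c₂ hc₂]
      exact hwc₂
    have hc₁w : QuadraticMap.polar ⇑Q c₁ w = 0 := by
      rw [QuadraticMap.polar_comm, hpol l c₁ hc₁]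
      exact hwc₁
    have hyw2 : mv ⇑Q ((oR Q ((1 : F) • (s - s')) * oR Q c₁) * (oR Q (s - μ • s') * oR Q c₂)) w =
        w + ((μ - 1) * QuadraticMap.polar ⇑Q w s') • s +
          ((μ⁻¹ - 1) * QuadraticMap.polar ⇑Q w s) • s' := by
      rw [mv_mul, mv_mul, mv_mul, od_R_fix c₂ w hc₂Q0 hc₂w]
      have e : mv ⇑Q (oR Q c₁) (mv ⇑Q (oR Q (s - μ • s')) w) = mv ⇑Q (oR Q (s - μ • s')) w := by
        apply od_R_fix c₁ _ hc₁Q0
        rw [mv_oR Q _ hQa20, QuadraticMap.polar_sub_right, QuadraticMap.polar_smul_right, hc₁w,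
          hD.perp l m hlm c₁ hc₁ _ ha2, smul_zero, sub_zero]
      rw [e]
      exact od_torus s s' hsQ hs'Q hss' 1 μ one_ne_zero hμ w
    have h5 := LU_inv M d' hd'Q _ (M.mul_mem hyM1 hyM2) hfix_d w hwL
    rw [hyw2] at h5
    have h6 := (LU M d' hd'Q).sub_mem h5 hwL
    have h7 : w + ((μ - 1) * QuadraticMap.polar ⇑Q w s') • s +
        ((μ⁻¹ - 1) * QuadraticMap.polar ⇑Q w s) • s' - w =
        ((μ - 1) * QuadraticMap.polar ⇑Q w s') • s +
          ((μ⁻¹ - 1) * QuadraticMap.polar ⇑Q w s) • s' := by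
      abel
    rw [h7] at h6
    exact h6
  -- isolating a multiple of `s'`
  obtain ⟨t₀, ht₀⟩ := od_poly4 hq 0 2 3 1 0 (Or.inr (Or.inl h2))
  have ht0 : t₀ ≠ 0 := by
    rintro rfl
    apply ht₀
    ring
  have ht1 : 1 + t₀ ≠ 0 := by
    intro h
    apply ht₀
    linear_combination (t₀ * (1 + 2 * t₀)) * h
  have ht2 : 1 + 2 * t₀ ≠ 0 := by
    intro h
    apply ht₀
    linear_combination (t₀ * (1 + t₀)) * h
  have g1 := htor (1 + t₀) ht1
  have g2 := htor (1 + 2 * t₀) ht2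
  have g3 := (LU M d' hd'Q).sub_mem g2 ((LU M d' hd'Q).add_mem g1 g1)
  have hws' : QuadraticMap.polar ⇑Q w s = QuadraticMap.polar ⇑Q (π m w) s := hpol m s hs
  obtain ⟨κ, hκdef⟩ : ∃ κ, κ = (2 * t₀ ^ 2 / ((1 + t₀) * (1 + 2 * t₀))) *
      QuadraticMap.polar ⇑Q w s := ⟨_, rfl⟩
  have hκ0 : κ ≠ 0 := by
    rw [hκdef, hws']
    exact mul_ne_zero (div_ne_zero (mul_ne_zero h2 (pow_ne_zero 2 ht0)) (mul_ne_zero ht1 ht2)) hws
  have hvec : ((1 + 2 * t₀ - 1) * QuadraticMap.polar ⇑Q w s') • s +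
      (((1 + 2 * t₀)⁻¹ - 1) * QuadraticMap.polar ⇑Q w s) • s' -
      (((1 + t₀ - 1) * QuadraticMap.polar ⇑Q w s') • s +
        (((1 + t₀)⁻¹ - 1) * QuadraticMap.polar ⇑Q w s) • s' +
      (((1 + t₀ - 1) * QuadraticMap.polar ⇑Q w s') • s +
        (((1 + t₀)⁻¹ - 1) * QuadraticMap.polar ⇑Q w s) • s')) = κ • s' := by
    have e : ((1 + 2 * t₀)⁻¹ - 1) * QuadraticMap.polar ⇑Q w s -
        (((1 + t₀)⁻¹ - 1) * QuadraticMap.polar ⇑Q w s +
          ((1 + t₀)⁻¹ - 1) * QuadraticMap.polar ⇑Q w s) = κ := by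
      rw [hκdef]
      field_simp
      ring
    rw [← e]
    module
  rw [hvec] at g3
  obtain ⟨hd's', hEκ⟩ := g3
  have hκs'Q : Q (κ • s') = 0 := by rw [od_q_smul, hs'Q, mul_zero]
  have hsw := od_E_swap d' (κ • s') hd'Q hκs'Q hd's'
  refine ⟨m, κ • s', -d', (D m).smul_mem _ hs', smul_ne_zero hκ0 hs'0, hκs'Q, ?_, ?_, ?_⟩
  · rw [QuadraticMap.polar_neg_right, QuadraticMap.polar_comm, hd's', neg_zero]
  · rw [hsw]
    exact hEκ
  · intro hmem
    have h8 : d' ∈ D m := by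
      have := (D m).neg_mem hmem
      rwa [neg_neg] at this
    have h9 : f' ∈ D m := by
      have h10 : f' = Q w • d' - f := by
        rw [hd'def, smul_smul, mul_inv_cancel₀ hwQ, one_smul, add_sub_cancel_left]
      rw [h10]
      exact (D m).sub_mem ((D m).smul_mem _ h8) hf
    have h11 := hD.disj m m' hmm' f' h9 hf'
    rw [h11, QuadraticMap.map_zero] at hf'Q
    exact hδ (neg_eq_zero.mp hf'Q.symm)

/-- A new reflection vector produces a mixed Eichler transformation in `M`. -/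
theorem od_new (hQ : (QuadraticMap.polarBilin Q).Nondegenerate) (hn : 5 ≤ Fintype.card ι)
    (h2 : (2 : F) ≠ 0) (hq : 5 ≤ Fintype.card F) (hD : ODec Q D) (hπ : OProj Q D π)
    (h3 : ∀ i, 3 ≤ Module.finrank F (D i)) (ht : 3 ≤ t) {M : Subgroup ↥(isometryGroup F ⇑Q)}
    (hM : HD Q D M) (i₀ : Fin t) (w : ι → F) (hw : Gam D M w) (hwB : ¬ InB D w) :
    ∃ i u b, u ∈ D i ∧ u ≠ 0 ∧ Q u = 0 ∧ QuadraticMap.polar ⇑Q u b = 0 ∧ oE Q u b ∈ M ∧
      b ∉ D i := by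
  by_cases hI : ∃ m, π m w ≠ 0 ∧ Q (π m w) = 0
  · obtain ⟨m, hm0, hmQ⟩ := hI
    exact od_new_I hQ hn h2 hq hD hπ h3 hM i₀ w hw hwB m hm0 hmQ
  · push Not at hI
    have hcomp : ∀ l, π l w = 0 ∨ Q (π l w) ≠ 0 := by
      intro l
      by_cases h : π l w = 0
      · exact Or.inl h
      · exact Or.inr (hI l h)
    obtain ⟨m, m', hmm', hm, hm'⟩ := hπ.exists_two hQ hD w (fun i h => hwB ⟨i, h⟩) i₀
    exact od_new_II hQ hn h2 hq hD hπ h3 ht hM i₀ w hw hcomp m m' hmm' hm hm'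

/-- **Dichotomy for the overgroups of the decomposition stabiliser.** An overgroup `M` of the
stabiliser in `Ω` of an orthogonal decomposition into at least three isometric non-degenerate
members of dimension at least three (at least five when the field has three elements) either
contains `Ω` or stabilises the decomposition. -/
theorem od_main (hQ : (QuadraticMap.polarBilin Q).Nondegenerate) (hn : 5 ≤ Fintype.card ι)
    (h2 : (2 : F) ≠ 0) (hD : ODec Q D) (hπ : OProj Q D π)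
    (h3 : ∀ i, 3 ≤ Module.finrank F (D i))
    (hiso : ∀ i j, ∃ e : D i ≃ₗ[F] D j, ∀ w : D i, Q ((e w : D j) : ι → F) = Q (w : ι → F))
    (ht : 3 ≤ t) (hcase : (∀ i, 5 ≤ Module.finrank F (D i)) ∨ 5 ≤ Fintype.card F)
    {M : Subgroup ↥(isometryGroup F ⇑Q)} (hM : HD Q D M) (i₀ : Fin t) :
    Omega F ⇑Q ≤ M ∨ ∀ g ∈ M, St D g := by
  by_cases hNM : NM D M
  · right
    rcases hcase with h5 | hq
    · exact od_big hQ hn h2 hD hπ h5 hM hNM i₀
    · by_cases hNG : NG D M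
      · exact od_small hQ hn h2 hq hD hπ h3 hM hNM hNG i₀
      · exfalso
        unfold NG at hNG
        push Not at hNG
        obtain ⟨w, hw, hwB⟩ := hNG
        obtain ⟨i, u, b, hu, hu0, huQ, hub, hE, hb⟩ :=
          od_new hQ hn h2 hq hD hπ h3 ht hM i₀ w hw hwB
        exact hb (hNM i u hu hu0 huQ b hub hE)
  · left
    unfold NM at hNM
    push Not at hNM
    obtain ⟨i, u, hu, hu0, huQ, b, hub, hE, hb⟩ := hNM
    exact od_claimA hQ hn h2 hD hπ h3 hiso hM i u hu hu0 huQ b hub hE hb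

end ODNew

end Cfsg.Agent.Helper97.OD
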