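import Mathlib
import Cfsg.Prelude.Def_GeometricClasses
import Cfsg.Agent.Helper97.ODNew

/-!
Orthogonal decompositions: maximality in `Ω(Q)` of the stabiliser of an orthogonal decomposition
into at least three isometric non-degenerate members of dimension at least three, in odd
characteristic (helper97, for S5677).
-/

set_option autoImplicit false
set_option linter.unusedSectionVars false
set_option linter.unusedVariables false

universe u

namespace Cfsg.Agent.Helper97.OD

open Matrix Cfsg Cfsg.Geo Cfsg.Agent.Helper45 Cfsg.Agent.Helper94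

section ODFinal

variable {ι : Type} [Fintype ι] [DecidableEq ι] {F : Type u} [Field F] [Fintype F]

theorem od_two_ne_zero (hodd : Odd (Fintype.card F)) : (2 : F) ≠ 0 := by
  intro h2
  have hdvd : ringChar F ∣ 2 := ringChar.dvd (by exact_mod_cast h2)
  have hne1 : ringChar F ≠ 1 := CharP.ringChar_ne_one
  have h2' : ringChar F = 2 := by
    rcases (Nat.dvd_prime Nat.prime_two).mp hdvd with h | h
    · exact absurd h hne1
    · exact h
  have := FiniteField.even_card_iff_char_two.mp h2'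
  rw [Nat.odd_iff] at hodd
  omega

/-- The number of members times their dimension is the dimension of the space. -/
theorem od_card {t k : ℕ} (D : Fin t → Submodule F (ι → F)) (hD : IsMDecomposition k D) :
    t * k = Fintype.card ι := by
  classical
  have hint := DirectSum.isInternal_submodule_of_iSupIndep_of_iSup_eq_top hD.indep hD.iSup_eq_top
  have e := LinearEquiv.ofBijective (DirectSum.coeLinearMap D) hint
  have h1 := e.finrank_eq
  rw [Module.finrank_directSum, Module.finrank_fintype_fun_eq_card] at h1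
  rw [← h1]
  simp [hD.finrank_eq]

variable {Q : QuadraticForm F (ι → F)} {t : ℕ} {D : Fin t → Submodule F (ι → F)}

/-- An isometry mapping every member into a member lies in the decomposition stabiliser. -/
theorem od_stab_mem (hD : ODec Q D) (hpos : ∀ i, 0 < Module.finrank F (D i))
    (hfr : ∀ i j, Module.finrank F (D i) = Module.finrank F (D j))
    (g : ↥(isometryGroup F ⇑Q)) (hg : St D g) : (g : GL ι F) ∈ decompositionStabilizer D := by
  choose σ hσ using hg
  have hinj : Function.Injective (Matrix.toLin' ((g : GL ι F) : Matrix ι ι F)) := by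
    intro x y hxy
    rw [Matrix.toLin'_apply, Matrix.toLin'_apply] at hxy
    have h3 : mv ⇑Q g⁻¹ (mv ⇑Q g x) = mv ⇑Q g⁻¹ (mv ⇑Q g y) := congrArg _ hxy
    rw [mv_inv_cancel', mv_inv_cancel'] at h3
    exact h3
  have hmap : ∀ i, (D i).map (Matrix.toLin' ((g : GL ι F) : Matrix ι ι F)) = D (σ i) := by
    intro i
    apply Submodule.eq_of_le_of_finrank_eq
    · rw [Submodule.map_le_iff_le_comap]
      intro x hx
      rw [Submodule.mem_comap, Matrix.toLin'_apply]
      exact hσ i x hx
    · rw [← (Submodule.equivMapOfInjective _ hinj (D i)).finrank_eq]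
      exact hfr i (σ i)
  have hσinj : Function.Injective σ := by
    intro i i' hii
    by_contra hne
    have h1 : D i = D i' := by
      apply Submodule.map_injective_of_injective hinj
      rw [hmap i, hmap i', hii]
    obtain ⟨x, hx0⟩ := Module.finrank_pos_iff_exists_ne_zero.mp (hpos i)
    apply hx0
    apply Subtype.ext
    have hx' : (x : ι → F) ∈ D i' := by
      rw [← h1]
      exact x.2
    exact hD.disj i i' hne x x.2 hx'
  have hσbij : Function.Bijective σ := Finite.injective_iff_bijective.mp hσinj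
  show ∃ τ : Equiv.Perm (Fin t), ∀ i,
    (D i).map (Matrix.toLin' ((g : GL ι F) : Matrix ι ι F)) = D (τ i)
  exact ⟨Equiv.ofBijective σ hσbij, fun i => by rw [hmap i]; rfl⟩

/-- **Maximality of the stabiliser of an orthogonal decomposition** in `Ω(Q)`. -/
theorem od_max (hQ : (QuadraticMap.polarBilin Q).Nondegenerate) (hn : 5 ≤ Fintype.card ι)
    (h2 : (2 : F) ≠ 0) (hD : ODec Q D) (h3 : ∀ i, 3 ≤ Module.finrank F (D i))
    (hfr : ∀ i j, Module.finrank F (D i) = Module.finrank F (D j))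
    (hiso : ∀ i j, ∃ e : D i ≃ₗ[F] D j, ∀ w : D i, Q ((e w : D j) : ι → F) = Q (w : ι → F))
    (ht : 3 ≤ t) (hcase : (∀ i, 5 ≤ Module.finrank F (D i)) ∨ 5 ≤ Fintype.card F) :
    IsMaximalIn (omegaGL ⇑Q) (decompositionStabilizer D ⊓ omegaGL ⇑Q) := by
  obtain ⟨π, hπ⟩ := od_exists_proj hQ hD
  obtain ⟨i₀, hi₀⟩ : ∃ i₀ : Fin t, i₀ = ⟨0, by omega⟩ := ⟨_, rfl⟩
  obtain ⟨i₁, hi₁⟩ : ∃ i₁ : Fin t, i₁ = ⟨1, by omega⟩ := ⟨_, rfl⟩
  have h01 : i₀ ≠ i₁ := by
    rw [hi₀, hi₁]
    intro h
    have h' := congrArg Fin.val h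
    simp at h'
  have hpos : ∀ i, 0 < Module.finrank F (D i) := fun i => lt_of_lt_of_le (by norm_num) (h3 i)
  have hstab : ∀ g : ↥(isometryGroup F ⇑Q), St D g →
      (g : GL ι F) ∈ decompositionStabilizer D := fun g hg => od_stab_mem hD hpos hfr g hg
  constructor
  · rw [SetLike.lt_iff_le_and_exists]
    refine ⟨inf_le_right, ?_⟩
    obtain ⟨u, hu, hu0, huQ⟩ := exists_sing_in Q (D i₀) (h3 i₀)
    obtain ⟨b, hb, hb0, _⟩ := exists_sing_in Q (D i₁) (h3 i₁)
    have hub : QuadraticMap.polar ⇑Q u b = 0 := hD.perp i₀ i₁ h01 u hu b hb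
    refine ⟨((oE Q u b : ↥(isometryGroup F ⇑Q)) : GL ι F),
      Subgroup.mem_map_of_mem _ (oE_mem_omega Q hQ hn u b), fun hmem => ?_⟩
    obtain ⟨σ, hσ⟩ := hmem.1
    have hmaps : ∀ i, ∀ x ∈ D i, mv ⇑Q (oE Q u b) x ∈ D (σ i) := by
      intro i x hx
      rw [← hσ i]
      exact ⟨x, hx, Matrix.toLin'_apply _ _⟩
    have hpres : ∀ j, ∀ x ∈ D j, mv ⇑Q (oE Q u b) x ∈ D j := by
      intro j
      have hf1 := finrank_inf_perpSub_ge Q (D j) u
      have hf2 := finrank_inf_perpSub_ge Q (D j ⊓ perpSub Q u) b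
      have hpos' : 0 < Module.finrank F ↥(D j ⊓ perpSub Q u ⊓ perpSub Q b) := by
        have := h3 j
        omega
      obtain ⟨z, hz0⟩ := Module.finrank_pos_iff_exists_ne_zero.mp hpos'
      have hzD : (z : ι → F) ∈ D j := z.2.1.1
      have hfix : mv ⇑Q (oE Q u b) (z : ι → F) = (z : ι → F) := by
        have e1 : QuadraticMap.polar ⇑Q u (z : ι → F) = 0 := (mem_perpSub Q u _).mp z.2.1.2
        have e2 : QuadraticMap.polar ⇑Q b (z : ι → F) = 0 := (mem_perpSub Q b _).mp z.2.2
        rw [mv_oE Q u b huQ hub, e1, e2]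
        simp
      have hjj : σ j = j := by
        by_contra hjj
        have h9 := hmaps j _ hzD
        rw [hfix] at h9
        exact hz0 (Subtype.ext (hD.disj (σ j) j hjj _ h9 hzD))
      have h10 := hmaps j
      rw [hjj] at h10
      exact h10
    have hbu : ∀ c : F, b ≠ c • u := by
      intro c h
      apply hb0
      apply hD.disj i₁ i₀ (fun e => h01 e.symm) b hb
      rw [h]
      exact (D i₀).smul_mem _ hu
    obtain ⟨j, hj1, hj2⟩ := od_RB hQ h2 hD hπ i₀ u b hu0 huQ hub hbu hpres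
    have hj0 : j = i₀ := by
      by_contra hne
      exact hu0 (hD.disj j i₀ hne u hj1 hu)
    rw [hj0] at hj2
    exact hb0 (hD.disj i₀ i₁ h01 b hj2 hb)
  · intro M hHM hMG
    by_cases hMH : M = decompositionStabilizer D ⊓ omegaGL ⇑Q
    · exact Or.inl hMH
    right
    apply le_antisymm hMG
    obtain ⟨M', hM'⟩ : ∃ M' : Subgroup ↥(isometryGroup F ⇑Q),
        M' = M.comap (isometryGroup F ⇑Q).subtype := ⟨_, rfl⟩
    have hmemM' : ∀ g : ↥(isometryGroup F ⇑Q), g ∈ M' ↔ (g : GL ι F) ∈ M := by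
      intro g
      rw [hM']
      exact Subgroup.mem_comap
    suffices hΩ : Omega F ⇑Q ≤ M' by
      unfold omegaGL
      rw [Subgroup.map_le_iff_le_comap, ← hM']
      exact hΩ
    have hH : HD Q D M' := by
      rintro g hg ⟨α, hα⟩
      rw [hmemM']
      exact hHM ⟨hstab g (fun i => ⟨α i, hα i⟩), Subgroup.mem_map_of_mem _ hg⟩
    obtain ⟨y, hyM, hyH⟩ := SetLike.exists_of_lt (lt_of_le_of_ne hHM (Ne.symm hMH))
    obtain ⟨y', hy'Ω, rfl⟩ := Subgroup.mem_map.mp (hMG hyM)
    have hy'M : y' ∈ M' := (hmemM' y').mpr hyM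
    rcases od_main hQ hn h2 hD hπ h3 hiso ht hcase hH i₀ with h | h
    · exact h
    · exfalso
      exact hyH ⟨hstab y' (h y' hy'M), hMG hyM⟩

/-- **Maximality of the stabiliser of an orthogonal decomposition** in `Ω(Q)`, for a quadratic
form given as a function. -/
theorem od_max_fun (Q : (ι → F) → F) (hQ : IsNondegenerateQuadraticForm Q)
    (hn : 5 ≤ Fintype.card ι) (h2 : (2 : F) ≠ 0) {t : ℕ} (k : ℕ)
    (D : Fin t → Submodule F (ι → F)) (hD : IsOrthogonalMDecomposition Q k D) (hk : 3 ≤ k)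
    (ht : 3 ≤ t) (hcase : 5 ≤ k ∨ 5 ≤ Fintype.card F) :
    IsMaximalIn (omegaGL Q) (decompositionStabilizer D ⊓ omegaGL Q) := by
  obtain ⟨Qb, hQb⟩ : ∃ Qb : QuadraticForm F (ι → F), Qb = Helper98.op_qf Q hQ := ⟨_, rfl⟩
  have hcoe : ⇑Qb = Q := by
    rw [hQb]
    rfl
  have hnd : (QuadraticMap.polarBilin Qb).Nondegenerate := by
    rw [hQb]
    exact Helper98.op_qf_nondeg Q hQ
  have hfr := hD.decomp.decomp.finrank_eq
  have hOD : ODec Qb D := by
    refine ⟨fun i j hij x hx y hy => ?_, fun i x hx hx0 => ?_, hD.decomp.decomp.iSup_eq_top⟩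
    · rw [hcoe]
      exact hD.decomp.orthogonal i j hij x hx y hy
    · rw [hcoe]
      exact (hD.decomp.nondegenerate i x hx hx0).1
  have hiso : ∀ i j, ∃ e : D i ≃ₗ[F] D j,
      ∀ w : D i, Qb ((e w : D j) : ι → F) = Qb (w : ι → F) := by
    intro i j
    obtain ⟨e, he⟩ := hD.isometric i j
    refine ⟨e, fun w => ?_⟩
    have h1 := he w
    rw [← hcoe] at h1
    exact h1
  have key := od_max hnd hn h2 hOD (fun i => by rw [hfr i]; exact hk)
    (fun i j => by rw [hfr i, hfr j]) hiso ht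
    (hcase.imp (fun h i => by rw [hfr i]; exact h) id)
  rw [hcoe] at key
  exact key

end ODFinal

end Cfsg.Agent.Helper97.OD
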