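import Mathlib
import Cfsg.Agent.Helper96.OHDefs
import Cfsg.Agent.Helper31.OHOFIX
import Cfsg.Agent.Helper37.OHOSPLIT

set_option autoImplicit false
set_option linter.unusedSectionVars false
set_option linter.unusedVariables false

/-!
# CALL S5992 (helper96), piece OGOOD2 (helper97; double)

Uses the landed pieces OFIX (helper31) and OSPLIT (helper37).
-/

namespace Cfsg.Agent.Helper97.OH5992

open Module Polynomial Cfsg Cfsg.Geo
open Cfsg.Agent.Helper13.TIu Cfsg.Agent.Helper96.OH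

variable {ι : Type} [Fintype ι] [DecidableEq ι] {F : Type*} [Field F] (Q : (ι → F) → F)

/-- OGOOD2 (`r = 2`; uses OFIX with `r = 2`, OSPLIT, `oorth_symm`). -/
theorem o_good_two [Fintype F] (hQ : IsNondegenerateQuadraticForm Q) (h2 : (2 : F) ≠ 0)
    (T : Module.End F (ι → F)) (hT : OPres Q T) (hT2 : T ^ 2 = 1) (m : ℕ) (hme : Even m)
    (hm2 : 2 ≤ m) (hmn : m < Fintype.card ι) (hodd : Odd (Fintype.card ι)) :
    ∃ W : Submodule F (ι → F), (finrank F W = m ∧ ONd Q W ∧ OPl Q W) ∧ W.map T ≤ W := by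
  have h2' : ((2 : ℕ) : F) ≠ 0 := by exact_mod_cast h2
  obtain ⟨hFix, P, -, hPT, hP, hPk, hsup, horth, hdim⟩ :=
    Cfsg.Agent.Helper31.OH5992.o_fix Q hQ T hT 2 (by norm_num) h2' hT2 ⊤ le_top (ond_top Q hQ)
  rw [top_inf_eq] at hFix hsup horth hdim
  rw [finrank_top, Module.finrank_fintype_fun_eq_card] at hdim
  -- `T = 1` on the fixed space, `T = -1` on `P`
  have hTfix : ∀ x ∈ LinearMap.ker (T - 1), T x = x := by
    intro x hx
    have h := LinearMap.mem_ker.mp hx
    rw [LinearMap.sub_apply, Module.End.one_apply, sub_eq_zero] at h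
    exact h
  have hTT : ∀ y, T (T y) = y := by
    intro y
    have h := congrArg (fun f : Module.End F (ι → F) => f y) hT2
    simpa [pow_two] using h
  have hTP : ∀ y ∈ P, T y = -y := by
    intro y hy
    have hTy : T y ∈ P := hPT (Submodule.mem_map_of_mem hy)
    have h1 : T y + y ∈ P := P.add_mem hTy hy
    have h2k : T y + y ∈ LinearMap.ker (T - 1) := by
      rw [LinearMap.mem_ker, LinearMap.sub_apply, Module.End.one_apply, map_add, hTT]
      abel
    have h0 : T y + y ∈ P ⊓ LinearMap.ker (T - 1) := Submodule.mem_inf.mpr ⟨h1, h2k⟩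
    rw [hPk, Submodule.mem_bot] at h0
    exact eq_neg_of_add_eq_zero_left h0
  have hinvX : ∀ X : Submodule F (ι → F), X ≤ LinearMap.ker (T - 1) → X.map T ≤ X := by
    rintro X hX _ ⟨x, hx, rfl⟩
    rw [hTfix x (hX hx)]
    exact hx
  have hinvY : ∀ Y : Submodule F (ι → F), Y ≤ P → Y.map T ≤ Y := by
    rintro Y hY _ ⟨y, hy, rfl⟩
    rw [hTP y (hY hy)]
    exact Y.neg_mem hy
  rcases Nat.even_or_odd (finrank F (LinearMap.ker (T - 1) : Submodule F (ι → F))) with hev | hod
  · -- the fixed space is even-dimensional, so `P` is odd-dimensional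
    have hPodd : Odd (finrank F P) := by
      rcases Nat.even_or_odd (finrank F P) with hPe | hPo
      · exfalso
        have : Even (Fintype.card ι) := by rw [← hdim]; exact hPe.add hev
        exact (Nat.not_even_iff_odd.mpr hodd) this
      · exact hPo
    obtain ⟨X, Y, hX, hY, hdimXY, hnd, hpl⟩ :=
      Cfsg.Agent.Helper37.OH5992.o_split Q hQ h2 P (LinearMap.ker (T - 1)) hP hFix
        (oorth_symm Q horth) (by rw [sup_comm]; exact hsup) hPodd m hme hm2 hmn
    refine ⟨X ⊔ Y, ⟨hdimXY, hnd, hpl⟩, ?_⟩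
    rw [Submodule.map_sup]
    exact sup_le_sup (hinvY X hX) (hinvX Y hY)
  · obtain ⟨X, Y, hX, hY, hdimXY, hnd, hpl⟩ :=
      Cfsg.Agent.Helper37.OH5992.o_split Q hQ h2 (LinearMap.ker (T - 1)) P hFix hP
        horth hsup hod m hme hm2 hmn
    refine ⟨X ⊔ Y, ⟨hdimXY, hnd, hpl⟩, ?_⟩
    rw [Submodule.map_sup]
    exact sup_le_sup (hinvX X hX) (hinvY Y hY)

end Cfsg.Agent.Helper97.OH5992
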