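import Mathlib
import Cfsg.Prelude.Def_GeometricClasses
import Cfsg.Prelude.Def_Classical
import Cfsg.Agent.Helper65.S74Defs
import Cfsg.Agent.Helper35.TSSTDP
import Cfsg.Agent.Helper90.TSR2Main
import Cfsg.Agent.Helper20.S88R2SKSUBTYPE
import Cfsg.Agent.Helper10.S88R2NSC

set_option autoImplicit false
set_option linter.unusedSectionVars false
set_option linter.unusedVariables false

/-!
# CALL S74 (helper65; row S5974), stage R2B (helper97): `r = 2 ≠ p`, `⟹`.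

Port of helper90's S88 stage `s88_two_bad` (elliptic -> hyperbolic): if the condition fails then
`q ≡ 3 (4)`, `d` is even and `m ≡ 2 (4)`; the element of `Ω` with square `-1` fixes only
nondegenerate `m`-spaces of minus type.
-/

namespace Cfsg.Agent.Helper97.S74

open Module Cfsg Cfsg.Geo Cfsg.Agent.Helper65.S74
open scoped MatrixGroups

section stages

variable {F : Type*} [Field F] [Fintype F]

/-- R2B [BIG] (`r = 2 ≠ p`, `⟹`). -/
theorem s74_two_bad {p : ℕ} [Fact p.Prime] [CharP F p] {q : ℕ} (hq : Fintype.card F = q)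
    (d m : ℕ) (hd : 4 ≤ d) (hm : 2 ≤ m) (hme : Even m) (hmd : m < d) (hp2 : p ≠ 2)
    (hall : AllHyp (Cfsg.quadFormPlus d F) 2 m) :
    (2 * d) % 4 = 2 ∨ m % 4 = 0 ∨ q % 4 = 1 := by
  classical
  obtain ⟨hQ, hplus⟩ := Cfsg.Agent.Helper35.TS5973.ts_std_plus (F := F) d
  have hoddq : Odd (Fintype.card F) := by
    obtain ⟨n, hp, hc⟩ := FiniteField.card F p
    rw [hc]
    exact (hp.odd_of_ne_two hp2).pow
  have h2 : (2 : F) ≠ 0 := Cfsg.Agent.Helper70.TSR2.r2_two_ne hoddq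
  have hcard : Fintype.card (Fin d ⊕ Fin d) = 2 * d := by
    rw [Fintype.card_sum, Fintype.card_fin]
    omega
  have hne : Nonempty (Fin d ⊕ Fin d) := Fintype.card_pos_iff.mp (by omega)
  by_contra hcond
  push Not at hcond
  obtain ⟨hc1, hc2, hc3⟩ := hcond
  have hm1 : ¬ IsSquare (-1 : F) := by
    intro h
    have h' := (FiniteField.isSquare_neg_one_iff (F := F)).mp h
    rw [hq] at h' hoddq
    obtain ⟨k, hk⟩ := hoddq
    omega
  have hde : Even d := by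
    rcases Nat.even_or_odd d with h | ⟨k, hk⟩
    · exact h
    · exfalso
      omega
  obtain ⟨g, hg2⟩ := Cfsg.Agent.Helper60.TSR2.r2_skew_ex _ hQ h2 d (by omega) hcard hm1
    ⟨fun _ => hde, fun _ => hplus⟩
  have hgΩ : g ∈ Cfsg.Omega F (Cfsg.quadFormPlus d F) := by
    rw [Cfsg.Agent.Helper59.TSR2.r2_skew_omega _ hQ h2 d (by omega) hcard g hg2 hm1]
    obtain ⟨e, he⟩ := hde
    exact ⟨2 ^ e, by rw [he, pow_add]⟩
  have hInv : InvHyp (Cfsg.quadFormPlus d F)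
      ((g : GL (Fin d ⊕ Fin d) F) : Matrix (Fin d ⊕ Fin d) (Fin d ⊕ Fin d) F) m := by
    apply hall (g : GL (Fin d ⊕ Fin d) F)
      ((Cfsg.Agent.Helper90.TS5973.r2a_mem_omegaGL _ _).mpr ⟨g, hgΩ, rfl⟩)
    · exact ⟨-1, by rw [Cfsg.Agent.Helper90.TS5973.r2a_sq, hg2,
        Cfsg.Agent.Helper90.TS5973.r2a_neg_one]⟩
    · exact Cfsg.Agent.Helper10.S88R2.r2e_nonscalar _ hQ h2 hne _
        (Cfsg.Agent.Helper90.TS5973.r2a_iso _ g) hg2
  obtain ⟨W, ⟨hWdim, hWnd, hWpl⟩, hWinv⟩ := (invHyp_iff _ _ _).mp hInv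
  have hty := Cfsg.Agent.Helper20.S88R2.r2e_skew_sub_type _ hQ h2 _
    (Cfsg.Agent.Helper90.TS5973.r2a_iso _ g) hg2 hm1 W hWinv hWnd (m / 2)
    (by rw [hWdim]; obtain ⟨j, hj⟩ := hme; omega)
  obtain ⟨k, hk⟩ := hty.mp hWpl
  obtain ⟨j, hj⟩ := hme
  omega

end stages

end Cfsg.Agent.Helper97.S74
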