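import Mathlib
import Cfsg.Prelude.Def_GeometricClasses
import Cfsg.Prelude.Def_Classical
import Cfsg.Agent.Helper35.S88Defs
import Cfsg.Agent.Helper35.TSSTDM
import Cfsg.Agent.Helper97.S74T2G

set_option autoImplicit false
set_option linter.unusedSectionVars false
set_option linter.unusedVariables false

/-!
# CALL S90 (helper98; row S5990), stage T2G (helper97): `r = p = 2`, `⟸`.

The block profile of an involutory isometry in characteristic `2`
(`Cfsg.Agent.Helper97.S74.t2_profile`, module `Cfsg.Agent.Helper97.S74T2G`) for the standard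
minus-type space: the number `e` of elliptic planes is odd, and a sub-sum of blocks with an odd
number of elliptic planes is an invariant elliptic subspace.
-/

namespace Cfsg.Agent.Helper97.S90

open Module Cfsg Cfsg.Geo Cfsg.Agent.Helper35.S88 Cfsg.Agent.Helper96.OH
open scoped MatrixGroups

/-- ARITH (elliptic target): choice of the sub-profile with an odd number of elliptic planes. -/
theorem t2m_arith (d A h e k : ℕ) (hd : d = 2 * A + h + e) (he : Odd e) (hk1 : 1 ≤ k)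
    (hk : k < d) (hc : Even d ∨ Odd k) :
    ∃ a', a' ≤ A ∧ ∃ h', h' ≤ h ∧ ∃ e', e' ≤ e ∧ Odd e' ∧ 2 * a' + h' + e' = k := by
  obtain ⟨e₁, he₁⟩ := he
  rcases Nat.even_or_odd k with ⟨k₁, hk₁⟩ | ⟨k₁, hk₁⟩
  · have hde : Even d := by
      rcases hc with h | ⟨j, hj⟩
      · exact h
      · exfalso; omega
    obtain ⟨d₁, hd₁⟩ := hde
    refine ⟨min A (k₁ - 1), Nat.min_le_left _ _,
      1 + (k - 2 - 2 * min A (k₁ - 1) - 2 * min e₁ ((k - 2 - 2 * min A (k₁ - 1)) / 2)), ?_,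
      1 + 2 * min e₁ ((k - 2 - 2 * min A (k₁ - 1)) / 2), ?_, ⟨_, by ring⟩, ?_⟩ <;> omega
  · refine ⟨min A k₁, Nat.min_le_left _ _,
      k - 1 - 2 * min A k₁ - 2 * min e₁ ((k - 1 - 2 * min A k₁) / 2), ?_,
      1 + 2 * min e₁ ((k - 1 - 2 * min A k₁) / 2), ?_, ⟨_, by ring⟩, ?_⟩ <;> omega

section stages

variable {F : Type*} [Field F] [Fintype F]

/-- T2G [BIG, NEW] (`r = p = 2`, `⟸`). -/
theorem s90_two_even_good {p : ℕ} [Fact p.Prime] [CharP F p] (d m : ℕ) (hd : 4 ≤ d) (hm : 2 ≤ m)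
    (hme : Even m) (hmn : m + 2 ≤ 2 * d) (a b : F)
    (hab : ∀ x y : F, x ^ 2 + a * x * y + b * y ^ 2 = 0 → x = 0 ∧ y = 0) (hp2 : p = 2)
    (hcond : Even d ∨ m % 4 = 2) :
    AllEll (Cfsg.quadFormMinus (d - 1) F a b) 2 m := by
  classical
  subst hp2
  have h2 : (2 : F) = 0 := by
    have := CharP.cast_eq_zero F 2
    exact_mod_cast this
  obtain ⟨hQ, hminus⟩ := Cfsg.Agent.Helper35.TS5973.ts_std_minus (F := F) (d - 1) a b hab
  have hcard : Fintype.card ((Fin (d - 1) ⊕ Fin (d - 1)) ⊕ Fin 2) = 2 * d := by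
    rw [Fintype.card_sum, Fintype.card_sum, Fintype.card_fin, Fintype.card_fin]
    omega
  have hne : Nonempty ((Fin (d - 1) ⊕ Fin (d - 1)) ⊕ Fin 2) :=
    Fintype.card_pos_iff.mp (by omega)
  intro x hx hz hns
  obtain ⟨z, hz⟩ := hz
  obtain ⟨g, hgΩ, rfl⟩ := (Cfsg.Agent.Helper90.TS5973.r2a_mem_omegaGL _ x).mp hx
  have hM := Cfsg.Agent.Helper90.TS5973.r2a_iso (Cfsg.quadFormMinus (d - 1) F a b) g
  rw [Cfsg.Agent.Helper90.TS5973.r2a_sq] at hz
  have hz1 : ((g : GL ((Fin (d - 1) ⊕ Fin (d - 1)) ⊕ Fin 2) F) :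
        Matrix ((Fin (d - 1) ⊕ Fin (d - 1)) ⊕ Fin 2) ((Fin (d - 1) ⊕ Fin (d - 1)) ⊕ Fin 2) F) *
      ((g : GL ((Fin (d - 1) ⊕ Fin (d - 1)) ⊕ Fin 2) F) :
        Matrix ((Fin (d - 1) ⊕ Fin (d - 1)) ⊕ Fin 2) ((Fin (d - 1) ⊕ Fin (d - 1)) ⊕ Fin 2) F) =
      1 := by
    rcases Cfsg.Agent.Helper70.TSR2.r2_z _ hQ hne _ hM z hz with rfl | rfl
    · rwa [one_smul] at hz
    · have h11 : (-1 : F) = 1 := by linear_combination (-1 : F) * h2
      rw [hz, h11, one_smul]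
  obtain ⟨T, hTdef⟩ : ∃ T : Module.End F (((Fin (d - 1) ⊕ Fin (d - 1)) ⊕ Fin 2) → F),
      T = Matrix.toLin' ((g : GL ((Fin (d - 1) ⊕ Fin (d - 1)) ⊕ Fin 2) F) :
        Matrix ((Fin (d - 1) ⊕ Fin (d - 1)) ⊕ Fin 2) ((Fin (d - 1) ⊕ Fin (d - 1)) ⊕ Fin 2) F) :=
    ⟨_, rfl⟩
  have hT : OPres (Cfsg.quadFormMinus (d - 1) F a b) T := by
    intro v
    rw [hTdef, Matrix.toLin'_apply]
    exact hM v
  have hTT : ∀ v, T (T v) = v := by
    intro v
    rw [hTdef, Matrix.toLin'_apply, Matrix.toLin'_apply, Matrix.mulVec_mulVec, hz1,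
      Matrix.one_mulVec]
  obtain ⟨A, h, e, hdim, hprof⟩ := Cfsg.Agent.Helper97.S74.t2_profile
    (Cfsg.quadFormMinus (d - 1) F a b) hQ h2 T hT hTT _ ⊤ rfl le_top (ond_top _ hQ)
  rw [finrank_top, Module.finrank_fintype_fun_eq_card, hcard] at hdim
  obtain ⟨W₀, -, -, hW₀nd, hW₀dim, hW₀ty⟩ := hprof A le_rfl h le_rfl e le_rfl
  have hW₀top : W₀ = ⊤ := by
    apply Submodule.eq_top_of_finrank_eq
    rw [hW₀dim, Module.finrank_fintype_fun_eq_card, hcard]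
    omega
  have heo : Odd e := by
    rw [← Nat.not_even_iff_odd, ← hW₀ty, hW₀top]
    exact hminus
  obtain ⟨k, hk⟩ := hme
  have hc : Even d ∨ Odd k := by
    rcases hcond with h | h
    · exact Or.inl h
    · right
      exact ⟨k / 2, by omega⟩
  obtain ⟨a', ha', h', hh', e', he', heo', hsum⟩ :=
    t2m_arith d A h e k (by omega) heo (by omega) (by omega) hc
  obtain ⟨W, -, hWT, hWnd, hWdim, hWty⟩ := hprof a' ha' h' hh' e' he'
  rw [hTdef] at hWT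
  refine ⟨W, ⟨by rw [hWdim]; omega, hWnd, ?_⟩, hWT⟩
  intro hpl
  exact (Nat.not_even_iff_odd.mpr heo') (hWty.mp hpl)

end stages

end Cfsg.Agent.Helper97.S90
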