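import Mathlib
import Cfsg.Agent.Helper97.TGDefs

set_option autoImplicit false

/-!
Helper library (helper97), pieces FIXE / FIXF of CALL S2414: vectors fixed by the Levi embedding.
-/

universe u

namespace Cfsg.Agent.Helper97

open Cfsg Matrix Cfsg.Agent.Helper45 Cfsg.Agent.Helper98 Cfsg.Agent.Helper97.TG

variable {m : ℕ} {F : Type u} [Field F]

theorem tg_iota_fix_e (A : Matrix.SpecialLinearGroup (Fin m) F) (c : Fin m)
    (h : (A : Matrix (Fin m) (Fin m) F) *ᵥ Pi.single c 1 = Pi.single c 1) :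
    mv ⇑(QP m F) (iota m F A) (eV m F c) = eV m F c := by
  rw [mv_iota]
  have e1 : eV m F c ∘ Sum.inl = Pi.single c (1 : F) := by
    funext j
    simp [Pi.single_apply]
  have e2 : eV m F c ∘ Sum.inr = (0 : Fin m → F) := by
    funext j
    simp
  rw [e1, e2, h, Matrix.mulVec_zero]
  funext idx
  rcases idx with k | k
  · simp [Pi.single_apply]
  · simp

theorem tg_iota_fix_f (A : Matrix.SpecialLinearGroup (Fin m) F) (c : Fin m)
    (h : (A : Matrix (Fin m) (Fin m) F)ᵀ *ᵥ Pi.single c 1 = Pi.single c 1) :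
    mv ⇑(QP m F) (iota m F A) (fV m F c) = fV m F c := by
  rw [mv_iota]
  have e1 : fV m F c ∘ Sum.inl = (0 : Fin m → F) := by
    funext j
    simp
  have e2 : fV m F c ∘ Sum.inr = Pi.single c (1 : F) := by
    funext j
    simp [Pi.single_apply]
  have h3 : ((A⁻¹ : Matrix.SpecialLinearGroup (Fin m) F) : Matrix (Fin m) (Fin m) F)ᵀ *ᵥ
      Pi.single c (1 : F) = Pi.single c 1 := by
    conv_lhs => rw [← h]
    rw [Matrix.mulVec_mulVec, ← Matrix.transpose_mul, ← Matrix.SpecialLinearGroup.coe_mul,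
      mul_inv_cancel, Matrix.SpecialLinearGroup.coe_one, Matrix.transpose_one, Matrix.one_mulVec]
  rw [e1, e2, h3, Matrix.mulVec_zero]
  funext idx
  rcases idx with k | k
  · simp
  · simp [Pi.single_apply]

end Cfsg.Agent.Helper97
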