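import Mathlib
import Cfsg.Agent.Helper97.TGDefs

set_option autoImplicit false

/-!
Helper library (helper97), piece KSUM of CALL S2414: a singular basis vector `e_b` of the hyperbolic
form is a full Eichler centre of `M` as soon as the root elements `E(e_b, t e_j)` and `E(e_b, t f_j)`
(`j ≠ b`) lie in `M`.
-/

universe u

namespace Cfsg.Agent.Helper97

open Cfsg Matrix Cfsg.Agent.Helper45 Cfsg.Agent.Helper98 Cfsg.Agent.Helper97.TG

variable {m : ℕ} {F : Type u} [Field F]

theorem tg_centre_of_parts (M : Subgroup ↥(isometryGroup F ⇑(QP m F))) (b : Fin m)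
    (hE : ∀ (j : Fin m) (t : F), j ≠ b →
      eichO (QP m F) (eV m F b) (t • eV m F j) (QP_eV b) (polar_eV_smul_eV b j t) ∈ M)
    (hF : ∀ (j : Fin m) (hj : b ≠ j) (t : F),
      eichO (QP m F) (eV m F b) (t • fV m F j) (QP_eV b) (polar_eV_smul_fV b j hj t) ∈ M) :
    eV m F b ∈ op_C (QP m F) M := by
  classical
  refine ⟨QP_eV b, fun x hx => ?_⟩
  have hxb : x (Sum.inr b) = 0 := by rwa [polar_eV_left] at hx
  -- the predicate
  let P : (Fin m ⊕ Fin m → F) → Prop := fun y =>
    ∃ h : QuadraticMap.polar ⇑(QP m F) (eV m F b) y = 0, eichO (QP m F) (eV m F b) y (QP_eV b) h ∈ M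
  have hP0 : P 0 := by
    refine ⟨by rw [polar_eV_left]; rfl, ?_⟩
    have e : eichO (QP m F) (eV m F b) 0 (QP_eV b) (by rw [polar_eV_left]; rfl) = 1 := by
      apply ext_mv
      intro y
      rw [mv_eichO, eich_zero, mv_one]
    rw [e]
    exact M.one_mem
  have hPadd : ∀ y z, P y → P z → P (y + z) := by
    rintro y z ⟨hy, hyM⟩ ⟨hz, hzM⟩
    have hyz : QuadraticMap.polar ⇑(QP m F) (eV m F b) (y + z) = 0 := by
      rw [QuadraticMap.polar_add_right, hy, hz, add_zero]
    refine ⟨hyz, ?_⟩
    rw [← eichO_mul (QP m F) (eV m F b) y z (QP_eV b) hy hz hyz]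
    exact M.mul_mem hyM hzM
  have hPe : ∀ (j : Fin m) (t : F), P (t • eV m F j) := by
    intro j t
    refine ⟨polar_eV_smul_eV b j t, ?_⟩
    by_cases hj : j = b
    · subst hj
      have e : eichO (QP m F) (eV m F j) (t • eV m F j) (QP_eV j) (polar_eV_smul_eV j j t) = 1 := by
        apply ext_mv
        intro y
        rw [mv_eichO, mv_one]
        unfold Helper44.eich
        rw [QP_smul_eV, QuadraticMap.polar_smul_left, polar_eV_left]
        simp only [smul_eq_mul, zero_mul, sub_zero, smul_smul]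
        rw [mul_comm, add_sub_cancel_right]
      rw [e]
      exact M.one_mem
    · exact hE j t hj
  have hPf : ∀ (j : Fin m) (t : F), b ≠ j → P (t • fV m F j) := by
    intro j t hj
    exact ⟨polar_eV_smul_fV b j hj t, hF j hj t⟩
  have hx_eq : x = ∑ j : Fin m, (x (Sum.inl j) • eV m F j + x (Sum.inr j) • fV m F j) := by
    funext idx
    rcases idx with k | k
    · simp [Finset.sum_apply]
    · simp [Finset.sum_apply]
  have hPx : P (∑ j : Fin m, (x (Sum.inl j) • eV m F j + x (Sum.inr j) • fV m F j)) := by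
    apply Finset.sum_induction _ P hPadd hP0
    intro j _
    apply hPadd _ _ (hPe j _)
    by_cases hj : b = j
    · subst hj
      rw [hxb, zero_smul]
      exact hP0
    · exact hPf j _ hj
  rw [← hx_eq] at hPx
  obtain ⟨_, h⟩ := hPx
  exact h

end Cfsg.Agent.Helper97
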