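import Mathlib
import Cfsg.Agent.Helper97.TGDefs

set_option autoImplicit false

/-!
Helper library (helper97), piece S33 of CALL S2414: the element `s3 a b = E(e_a, e_b) E(f_a, f_b)`
has order dividing three in characteristic two.
-/

universe u

namespace Cfsg.Agent.Helper97

open Cfsg Matrix Cfsg.Agent.Helper45 Cfsg.Agent.Helper98 Cfsg.Agent.Helper97.TG

variable {m : ℕ} {F : Type u} [Field F]

theorem tg_mv_s3 (a b : Fin m) (hab : a ≠ b) (x : Fin m ⊕ Fin m → F) :
    mv ⇑(QP m F) (s3 a b) x =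
      x + x (Sum.inl b) • fV m F a - x (Sum.inl a) • fV m F b
        + (x (Sum.inr b) - x (Sum.inl a)) • eV m F a
        - (x (Sum.inr a) + x (Sum.inl b)) • eV m F b := by
  have hba : b ≠ a := fun h => hab h.symm
  unfold s3
  rw [mv_mul, mv_eichO, mv_eichO]
  unfold Helper44.eich
  rw [QP_eV, QP_fV]
  simp only [polar_eV_left, polar_fV_left, zero_mul, sub_zero]
  simp [hab, hba]

theorem tg_s3_inl_a (a b : Fin m) (hab : a ≠ b) (x : Fin m ⊕ Fin m → F) :
    mv ⇑(QP m F) (s3 a b) x (Sum.inl a) = x (Sum.inr b) := by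
  rw [tg_mv_s3 a b hab]
  simp [hab]

theorem tg_s3_inl_b (a b : Fin m) (hab : a ≠ b) (x : Fin m ⊕ Fin m → F) :
    mv ⇑(QP m F) (s3 a b) x (Sum.inl b) = - x (Sum.inr a) := by
  have hba : b ≠ a := fun h => hab h.symm
  rw [tg_mv_s3 a b hab]
  simp [hba]

theorem tg_s3_inr_a (a b : Fin m) (hab : a ≠ b) (x : Fin m ⊕ Fin m → F) :
    mv ⇑(QP m F) (s3 a b) x (Sum.inr a) = x (Sum.inr a) + x (Sum.inl b) := by
  rw [tg_mv_s3 a b hab]
  simp [hab]

theorem tg_s3_inr_b (a b : Fin m) (hab : a ≠ b) (x : Fin m ⊕ Fin m → F) :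
    mv ⇑(QP m F) (s3 a b) x (Sum.inr b) = x (Sum.inr b) - x (Sum.inl a) := by
  have hba : b ≠ a := fun h => hab h.symm
  rw [tg_mv_s3 a b hab]
  simp [hba]

theorem tg_s3_inl_other (a b k : Fin m) (hab : a ≠ b) (hka : k ≠ a) (hkb : k ≠ b)
    (x : Fin m ⊕ Fin m → F) :
    mv ⇑(QP m F) (s3 a b) x (Sum.inl k) = x (Sum.inl k) := by
  rw [tg_mv_s3 a b hab]
  simp [hka, hkb]

theorem tg_s3_inr_other (a b k : Fin m) (hab : a ≠ b) (hka : k ≠ a) (hkb : k ≠ b)
    (x : Fin m ⊕ Fin m → F) :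
    mv ⇑(QP m F) (s3 a b) x (Sum.inr k) = x (Sum.inr k) := by
  rw [tg_mv_s3 a b hab]
  simp [hka, hkb]

theorem tg_s3_pow [CharP F 2] (a b : Fin m) (hab : a ≠ b) : (s3 (F := F) a b) ^ 3 = 1 := by
  have h2 : (2 : F) = 0 := CharTwo.two_eq_zero
  apply ext_mv
  intro x
  rw [pow_succ, pow_succ, pow_one, mv_mul, mv_mul, mv_one]
  funext idx
  rcases idx with k | k
  · by_cases hka : k = a
    · subst hka
      rw [tg_s3_inl_a k b hab, tg_s3_inr_b k b hab, tg_s3_inr_b k b hab, tg_s3_inl_a k b hab]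
      linear_combination (-x (Sum.inl k)) * h2
    · by_cases hkb : k = b
      · subst hkb
        rw [tg_s3_inl_b a k hab, tg_s3_inr_a a k hab, tg_s3_inr_a a k hab, tg_s3_inl_b a k hab]
        linear_combination (-x (Sum.inl k)) * h2
      · rw [tg_s3_inl_other a b k hab hka hkb, tg_s3_inl_other a b k hab hka hkb,
          tg_s3_inl_other a b k hab hka hkb]
  · by_cases hka : k = a
    · subst hka
      rw [tg_s3_inr_a k b hab, tg_s3_inr_a k b hab, tg_s3_inl_b k b hab, tg_s3_inr_a k b hab,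
        tg_s3_inl_b k b hab, tg_s3_inr_a k b hab]
      linear_combination (-x (Sum.inr k)) * h2
    · by_cases hkb : k = b
      · subst hkb
        rw [tg_s3_inr_b a k hab, tg_s3_inr_b a k hab, tg_s3_inl_a a k hab, tg_s3_inr_b a k hab,
          tg_s3_inl_a a k hab, tg_s3_inr_b a k hab]
        linear_combination (-x (Sum.inr k)) * h2
      · rw [tg_s3_inr_other a b k hab hka hkb, tg_s3_inr_other a b k hab hka hkb,
          tg_s3_inr_other a b k hab hka hkb]

end Cfsg.Agent.Helper97
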