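import Mathlib
import Cfsg.Agent.Helper97.TGDefs

set_option autoImplicit false

/-!
Helper library (helper97), pieces SU1 SU2 S31 S32 of CALL S2414 (doubled): action of the auxiliary
elements `sU` and `s3` on basis vectors.
-/

universe u

namespace Cfsg.Agent.Helper97

open Cfsg Matrix Cfsg.Agent.Helper45 Cfsg.Agent.Helper98 Cfsg.Agent.Helper97.TG

variable {m : ℕ} {F : Type u} [Field F]

theorem tg_QP_eV_add_fV (a b : Fin m) (hab : a ≠ b) : QP m F (eV m F b + fV m F a) = 0 := by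
  rw [QP_apply]
  apply Finset.sum_eq_zero
  intro i _
  by_cases h1 : i = a
  · subst h1
    simp [hab]
  · simp [h1]

theorem tg_mv_sU (a b : Fin m) (hab : a ≠ b) (x : Fin m ⊕ Fin m → F) :
    mv ⇑(QP m F) (sU a b hab) x =
      x + (x (Sum.inr b) + x (Sum.inl a)) • (eV m F a - fV m F b)
        - (x (Sum.inr a) - x (Sum.inl b)) • (eV m F b + fV m F a) := by
  unfold sU
  rw [mv_eichO]
  unfold Helper44.eich
  rw [tg_QP_eV_add_fV a b hab]
  simp only [QuadraticMap.polar_add_left, QuadraticMap.polar_sub_left, polar_eV_left,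
    polar_fV_left, zero_mul, sub_zero]

theorem tg_sU_fV (a b : Fin m) (hab : a ≠ b) :
    mv ⇑(QP m F) (sU a b hab) (fV m F b) = eV m F a := by
  have hba : b ≠ a := fun h => hab h.symm
  rw [tg_mv_sU]
  simp [hab]

theorem tg_sU_eV (a b c : Fin m) (hab : a ≠ b) (hca : c ≠ a) (hcb : c ≠ b) :
    mv ⇑(QP m F) (sU a b hab) (eV m F c) = eV m F c := by
  have hac : a ≠ c := fun h => hca h.symm
  have hbc : b ≠ c := fun h => hcb h.symm
  rw [tg_mv_sU]
  simp [hac, hbc]

theorem tg_mv_s3' (a b : Fin m) (x : Fin m ⊕ Fin m → F) :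
    mv ⇑(QP m F) (s3 a b) x =
      (x + x (Sum.inl b) • fV m F a - x (Sum.inl a) • fV m F b)
        + ((x + x (Sum.inl b) • fV m F a - x (Sum.inl a) • fV m F b) (Sum.inr b)) • eV m F a
        - ((x + x (Sum.inl b) • fV m F a - x (Sum.inl a) • fV m F b) (Sum.inr a)) • eV m F b := by
  unfold s3
  rw [mv_mul, mv_eichO, mv_eichO]
  unfold Helper44.eich
  rw [QP_eV, QP_fV]
  simp only [polar_eV_left, polar_fV_left, zero_mul, sub_zero]

theorem tg_s3_eV_b (a b : Fin m) (hab : a ≠ b) :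
    mv ⇑(QP m F) (s3 a b) (eV m F b) = fV m F a := by
  have hba : b ≠ a := fun h => hab h.symm
  rw [tg_mv_s3']
  simp [hab, hba]

theorem tg_s3_eV (a b c : Fin m) (hca : c ≠ a) (hcb : c ≠ b) :
    mv ⇑(QP m F) (s3 a b) (eV m F c) = eV m F c := by
  have hac : a ≠ c := fun h => hca h.symm
  have hbc : b ≠ c := fun h => hcb h.symm
  rw [tg_mv_s3']
  simp [hac, hbc]

end Cfsg.Agent.Helper97
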