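import Mathlib
import Cfsg.Agent.Helper97.TGDefs
import Cfsg.Agent.Helper51.TGEXT
import Cfsg.Agent.Helper51.TGCEN
import Cfsg.Agent.Helper51.TGCH
import Cfsg.Agent.Helper51.TGCP
import Cfsg.Agent.Helper80.TGWDET
import Cfsg.Agent.Helper80.TGFIN
import Cfsg.Agent.Helper61.TGHDET
import Cfsg.Agent.Helper61.TGHORD
import Cfsg.Agent.Helper61.TGPOW
import Cfsg.Agent.Helper55.TGHFIX
import Cfsg.Agent.Helper55.TGXFIX
import Cfsg.Agent.Helper55.TGCOMM
import Cfsg.Agent.Helper27.TGIOM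
import Cfsg.Agent.Helper27.TGDS1
import Cfsg.Agent.Helper66.TGDS2
import Cfsg.Agent.Helper91.TGDS3
import Cfsg.Agent.Helper97.TGKSUM
import Cfsg.Agent.Helper97.TGFIXF
import Cfsg.Agent.Helper97.TGS33
import Cfsg.Agent.Helper97.TGSU
import Cfsg.Agent.Helper97.TGTV
import Cfsg.Agent.S2402
import Cfsg.Agent.S2403
import Cfsg.Agent.S0248

set_option autoImplicit false

/-!
Helper library (helper97): two-generation of `Ω⁺_{2m}(q)`, `m ≥ 4` (assembly for S2414).
Pieces by helpers 27, 51, 55, 61, 66, 80, 91 (CALL S2414).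
-/

universe u

namespace Cfsg.Agent.Helper97.TG

open Cfsg Matrix Cfsg.Agent.Helper45 Cfsg.Agent.Helper98 Cfsg.Agent.Helper97
  Cfsg.Agent.Helper51 Cfsg.Agent.Helper80 Cfsg.Agent.Helper61 Cfsg.Agent.Helper55
  Cfsg.Agent.Helper27 Cfsg.Agent.Helper66 Cfsg.Agent.Helper91

section key

variable {m : ℕ} {F : Type u} [Field F]

/-- action of a Levi transvection `E(e_i, c f_j)` -/
theorem mv_tv (i j : Fin m) (hij : i ≠ j) (c : F) (x : Fin m ⊕ Fin m → F) :
    mv ⇑(QP m F) (eichO (QP m F) (eV m F i) (c • fV m F j) (QP_eV i)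
      (polar_eV_smul_fV i j hij c)) x =
      x + (c * x (Sum.inl j)) • eV m F i - (x (Sum.inr i) * c) • fV m F j := by
  rw [mv_eichO]
  unfold Helper44.eich
  rw [QP_smul_fV, QuadraticMap.polar_smul_left, polar_fV_left, polar_eV_left, smul_smul]
  simp

theorem swap_e (b c : Fin m) (t : F) :
    eichO (QP m F) (eV m F b) (t • eV m F c) (QP_eV b) (polar_eV_smul_eV b c t) =
      eichO (QP m F) (eV m F c) ((-t) • eV m F b) (QP_eV c) (polar_eV_smul_eV c b (-t)) := by
  apply ext_mv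
  intro x
  rw [mv_eichO, mv_eichO]
  unfold Helper44.eich
  rw [QP_smul_eV, QP_smul_eV, QuadraticMap.polar_smul_left, QuadraticMap.polar_smul_left]
  simp only [polar_eV_left, smul_eq_mul, zero_mul, sub_zero, smul_smul]
  module

/-- **Key lemma.** A subgroup of the isometry group of the hyperbolic form that contains the Levi
transvections `E(e_i, c f_j)` and one element mapping some `f_a` to some `e_b` while fixing a third
`e_c` contains `Ω`. -/
theorem tg_key [Fintype F] (hm : 3 ≤ m) (M : Subgroup ↥(isometryGroup F ⇑(QP m F)))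
    (hL : ∀ (i j : Fin m) (hij : i ≠ j) (c : F),
      eichO (QP m F) (eV m F i) (c • fV m F j) (QP_eV i) (polar_eV_smul_fV i j hij c) ∈ M)
    (g : ↥(isometryGroup F ⇑(QP m F))) (hg : g ∈ M) (a b c : Fin m) (hca : c ≠ a) (hcb : c ≠ b)
    (h1 : mv ⇑(QP m F) g (fV m F a) = eV m F b) (h2 : mv ⇑(QP m F) g (eV m F c) = eV m F c) :
    Omega F ⇑(QP m F) ≤ M := by
  have hbc : b ≠ c := fun h => hcb h.symm
  -- Step 1: `E(e_c, t e_b) ∈ M`
  have s1 : ∀ t : F, eichO (QP m F) (eV m F c) (t • eV m F b) (QP_eV c)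
      (polar_eV_smul_eV c b t) ∈ M := by
    intro t
    have hu' : QP m F (mv ⇑(QP m F) g (eV m F c)) = 0 := by rw [h2]; exact QP_eV c
    have e2 : mv ⇑(QP m F) g (t • fV m F a) = t • eV m F b := by rw [mv_smul, h1]
    have hub' : QuadraticMap.polar ⇑(QP m F) (mv ⇑(QP m F) g (eV m F c))
        (mv ⇑(QP m F) g (t • fV m F a)) = 0 := by
      rw [h2, e2]; exact polar_eV_smul_eV c b t
    have e := conj_eichO (QP m F) g (eV m F c) (t • fV m F a) (QP_eV c)
      (polar_eV_smul_fV c a hca t) hu' hub'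
    rw [op_eichO_congr (QP m F) (QP_eV c) (polar_eV_smul_eV c b t) hu' hub' h2.symm e2.symm, ← e]
    exact M.mul_mem (M.mul_mem hg (hL c a hca t)) (M.inv_mem hg)
  -- Step 2: `E(e_b, t e_c) ∈ M`
  have s2 : ∀ t : F, eichO (QP m F) (eV m F b) (t • eV m F c) (QP_eV b)
      (polar_eV_smul_eV b c t) ∈ M := by
    intro t
    rw [swap_e]
    exact s1 (-t)
  -- Step 3: `E(e_b, t e_j) ∈ M` for all `j ≠ b`
  have s3 : ∀ (j : Fin m) (t : F), j ≠ b → eichO (QP m F) (eV m F b) (t • eV m F j) (QP_eV b)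
      (polar_eV_smul_eV b j t) ∈ M := by
    intro j t hjb
    by_cases hjc : j = c
    · subst hjc
      exact s2 t
    · have hT := hL j c hjc 1
      have e1 : mv ⇑(QP m F) (eichO (QP m F) (eV m F j) ((1 : F) • fV m F c) (QP_eV j)
          (polar_eV_smul_fV j c hjc 1)) (eV m F b) = eV m F b := by
        rw [mv_tv j c hjc 1]
        simp [hcb]
      have e2 : mv ⇑(QP m F) (eichO (QP m F) (eV m F j) ((1 : F) • fV m F c) (QP_eV j)
          (polar_eV_smul_fV j c hjc 1)) (t • eV m F c) = t • eV m F c + t • eV m F j := by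
        rw [mv_smul, mv_tv j c hjc 1]
        simp
      have hu' : QP m F (mv ⇑(QP m F) (eichO (QP m F) (eV m F j) ((1 : F) • fV m F c) (QP_eV j)
          (polar_eV_smul_fV j c hjc 1)) (eV m F b)) = 0 := by rw [e1]; exact QP_eV b
      have hsum : QuadraticMap.polar ⇑(QP m F) (eV m F b) (t • eV m F c + t • eV m F j) = 0 := by
        rw [QuadraticMap.polar_add_right, polar_eV_smul_eV, polar_eV_smul_eV, add_zero]
      have hub' : QuadraticMap.polar ⇑(QP m F) (mv ⇑(QP m F) (eichO (QP m F) (eV m F j)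
          ((1 : F) • fV m F c) (QP_eV j) (polar_eV_smul_fV j c hjc 1)) (eV m F b))
          (mv ⇑(QP m F) (eichO (QP m F) (eV m F j) ((1 : F) • fV m F c) (QP_eV j)
          (polar_eV_smul_fV j c hjc 1)) (t • eV m F c)) = 0 := by
        rw [e1, e2]; exact hsum
      have e := conj_eichO (QP m F) _ (eV m F b) (t • eV m F c) (QP_eV b)
        (polar_eV_smul_eV b c t) hu' hub'
      have e3 : eichO (QP m F) (eV m F b) (t • eV m F c + t • eV m F j) (QP_eV b) hsum ∈ M := by
        rw [op_eichO_congr (QP m F) (QP_eV b) hsum hu' hub' e1.symm e2.symm, ← e]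
        exact M.mul_mem (M.mul_mem hT (s2 t)) (M.inv_mem hT)
      rw [← eichO_mul (QP m F) (eV m F b) (t • eV m F c) (t • eV m F j) (QP_eV b)
        (polar_eV_smul_eV b c t) (polar_eV_smul_eV b j t) hsum] at e3
      exact (Subgroup.mul_mem_cancel_left M (s2 t)).mp e3
  -- Step 4: `e_b` is a full centre
  have hb : eV m F b ∈ op_C (QP m F) M :=
    tg_centre_of_parts M b s3 (fun j hj t => hL b j hj t)
  -- Step 5: `f_a` is a full centre
  have hfa : fV m F a ∈ op_C (QP m F) M := by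
    have := op_C_mv (QP m F) M g⁻¹ (M.inv_mem hg) (eV m F b) hb
    rwa [← h1, mv_inv_cancel'] at this
  have hn : 5 ≤ Fintype.card (Fin m ⊕ Fin m) := by
    rw [Fintype.card_sum, Fintype.card_fin]; omega
  by_cases hab : a = b
  · subst hab
    refine op_omega_le (QP m F) Helper44.plusQF_nondeg hn M (eV m F a) (fV m F a) hb hfa ?_
    rw [polar_eV_left]
    simp
  · have hz := op_C_mv (QP m F) M _ (hL a b hab 1) (eV m F b) hb
    refine op_omega_le (QP m F) Helper44.plusQF_nondeg hn M _ (fV m F a) hz hfa ?_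
    rw [polar_fV_right, mv_tv a b hab 1]
    simp [hab]

end key

section main

variable {F : Type u} [Field F] [Fintype F]

theorem tg_main (n : ℕ) (hn : 3 ≤ n) :
    ∃ a b : ↥(isometryGroup F ⇑(QP (n + 1) F)), a ∈ Omega F ⇑(QP (n + 1) F) ∧
      b ∈ Omega F ⇑(QP (n + 1) F) ∧
      Omega F ⇑(QP (n + 1) F) ≤ Subgroup.closure {a, b} := by
  classical
  have h01 : (0 : Fin (n + 1)) ≠ 1 := by
    intro h
    have := congrArg Fin.val h
    rw [Fin.val_zero, Fin.val_one'] at this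
    rw [Nat.mod_eq_of_lt (by omega)] at this
    omega
  obtain ⟨i2, hi2⟩ : ∃ i : Fin (n + 1), i.val = 2 := ⟨⟨2, by omega⟩, rfl⟩
  obtain ⟨i3, hi3⟩ : ∃ i : Fin (n + 1), i.val = 3 := ⟨⟨3, by omega⟩, rfl⟩
  have h23 : i2 ≠ i3 := fun h => by rw [h] at hi2; omega
  have h02 : (0 : Fin (n + 1)) ≠ i2 := fun h => by rw [← h, Fin.val_zero] at hi2; omega
  have h03 : (0 : Fin (n + 1)) ≠ i3 := fun h => by rw [← h, Fin.val_zero] at hi3; omega
  have hm3 : 3 ≤ n + 1 := by omega
  have hcard : 5 ≤ Fintype.card (Fin (n + 1) ⊕ Fin (n + 1)) := by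
    rw [Fintype.card_sum, Fintype.card_fin]; omega
  obtain ⟨x, hx⟩ : ∃ x : Matrix.SpecialLinearGroup (Fin (n + 1)) F,
      (x : Matrix (Fin (n + 1)) (Fin (n + 1)) F) =
        Matrix.transvection (0 : Fin (n + 1)) (1 : Fin (n + 1)) 1 :=
    ⟨⟨_, Matrix.det_transvection_of_ne _ _ h01 _⟩, rfl⟩
  obtain ⟨w, hw⟩ : ∃ w : Matrix.SpecialLinearGroup (Fin (n + 1)) F,
      (w : Matrix (Fin (n + 1)) (Fin (n + 1)) F) =
        Matrix.of (fun i j => if j.val = i.val + 1 then 1 else
          if i.val = n ∧ j.val = 0 then (-1) ^ n else 0) :=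
    ⟨⟨_, tg_cycW_det n⟩, rfl⟩
  have hx_eq := tg_iota_transvection x 0 1 h01 1 hx
  -- the Levi transvections, from all of `iota`
  have hLof : ∀ M : Subgroup ↥(isometryGroup F ⇑(QP (n + 1) F)),
      (∀ T : Matrix.SpecialLinearGroup (Fin (n + 1)) F, iota (n + 1) F T ∈ M) →
      ∀ (i j : Fin (n + 1)) (hij : i ≠ j) (c : F),
        eichO (QP (n + 1) F) (eV (n + 1) F i) (c • fV (n + 1) F j) (QP_eV i)
          (polar_eV_smul_fV i j hij c) ∈ M := by
    intro M hall i j hij c
    rw [← tg_iota_transvection ⟨Matrix.transvection i j c,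
      Matrix.det_transvection_of_ne i j hij c⟩ i j hij c rfl]
    exact hall _
  -- all of `iota` from two generators
  have hallof : ∀ (M : Subgroup ↥(isometryGroup F ⇑(QP (n + 1) F)))
      (y z : Matrix.SpecialLinearGroup (Fin (n + 1)) F),
      Subgroup.closure ({y, z} : Set (Matrix.SpecialLinearGroup (Fin (n + 1)) F)) ⊔
        Subgroup.center (Matrix.SpecialLinearGroup (Fin (n + 1)) F) = ⊤ →
      iota (n + 1) F y ∈ M → iota (n + 1) F z ∈ M →
      ∀ T : Matrix.SpecialLinearGroup (Fin (n + 1)) F, iota (n + 1) F T ∈ M := by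
    intro M y z hS hy hz T
    have htop : Subgroup.closure ({y, z} : Set (Matrix.SpecialLinearGroup (Fin (n + 1)) F)) = ⊤ := by
      rw [eq_top_iff, ← Cfsg.Agent.S0248.result (F := F) (n + 1) hm3]
      exact tg_commutator_le_of_sup_center _ hS
    have hT : T ∈ Subgroup.closure ({y, z} : Set (Matrix.SpecialLinearGroup (Fin (n + 1)) F)) := by
      rw [htop]; trivial
    have hle : Subgroup.map (iota (n + 1) F)
        (Subgroup.closure ({y, z} : Set (Matrix.SpecialLinearGroup (Fin (n + 1)) F))) ≤ M := by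
      rw [MonoidHom.map_closure, Subgroup.closure_le]
      rintro _ ⟨v, hv, rfl⟩
      rcases hv with rfl | rfl
      · exact hy
      · exact hz
    exact hle (Subgroup.mem_map_of_mem _ hT)
  by_cases hK : 3 < Fintype.card F
  · obtain ⟨k, hk⟩ := IsCyclic.exists_generator (α := Fˣ)
    obtain ⟨h, hh⟩ : ∃ h : Matrix.SpecialLinearGroup (Fin (n + 1)) F,
        (h : Matrix (Fin (n + 1)) (Fin (n + 1)) F) =
          Matrix.diagonal (fun i => if i.val = 0 then (k : F) else
            if i.val = 1 then ((k⁻¹ : Fˣ) : F) else 1) :=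
      ⟨⟨_, tg_h_det n (by omega) k⟩, rfl⟩
    have hS := Cfsg.Agent.S2402.result hK n (by omega) k hk h x w hh hx hw
    obtain ⟨p, hp⟩ := CharP.exists F
    have hfe2 := tg_iota_fix_e h i2 (tg_h_fix n k h hh i2 (by omega)).1
    have hfe3 := tg_iota_fix_e h i3 (tg_h_fix n k h hh i3 (by omega)).1
    have hff2 := tg_iota_fix_f h i2 (tg_h_fix n k h hh i2 (by omega)).2
    have hff3 := tg_iota_fix_f h i3 (tg_h_fix n k h hh i3 (by omega)).2
    have hgO : sU (F := F) i2 i3 h23 ∈ Omega F ⇑(QP (n + 1) F) :=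
      eichO_mem_omega (QP (n + 1) F) Helper44.plusQF_nondeg hcard _ _ _ _
    have hcomm : Commute (iota (n + 1) F h) (sU (F := F) i2 i3 h23) :=
      tg_commute_eichO (QP (n + 1) F) (iota (n + 1) F h) _ _ _ _
        (by rw [mv_sub, hfe2, hff3]) (by rw [mv_add, hfe3, hff2])
    have hord : (iota (n + 1) F h) ^ (Fintype.card F - 1) = 1 := by
      rw [← map_pow, tg_h_pow n k h hh, map_one]
    have hgp : (sU (F := F) i2 i3 h23) ^ p = 1 := tg_eichO_pow_char (QP (n + 1) F) p _ _ _ _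
    refine ⟨iota (n + 1) F h * sU i2 i3 h23, iota (n + 1) F (x * w),
      mul_mem (tg_iota_mem_omega hm3 h) hgO, tg_iota_mem_omega hm3 _, ?_⟩
    obtain ⟨hh', hg'⟩ := tg_coprime_extract (iota (n + 1) F h) (sU i2 i3 h23) hcomm _ _ hord hgp
      (tg_coprime_card p) (Subgroup.closure {iota (n + 1) F h * sU i2 i3 h23,
        iota (n + 1) F (x * w)}) (Subgroup.subset_closure (by simp))
    have hall := hallof _ h (x * w) hS hh' (Subgroup.subset_closure (by simp))
    exact tg_key hm3 _ (hLof _ hall) (sU i2 i3 h23) hg' i3 i2 0 h03 h02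
      (tg_sU_fV i2 i3 h23) (tg_sU_eV i2 i3 0 h23 h02 h03)
  · have hK' : Fintype.card F ≤ 3 := by omega
    have hS := Cfsg.Agent.S2403.result hK' n (by omega) x w hx hw
    have hfe2 := tg_iota_fix_e x i2 (tg_x_fix n x hx i2 (by omega)).1
    have hfe3 := tg_iota_fix_e x i3 (tg_x_fix n x hx i3 (by omega)).1
    have hff2 := tg_iota_fix_f x i2 (tg_x_fix n x hx i2 (by omega)).2
    have hff3 := tg_iota_fix_f x i3 (tg_x_fix n x hx i3 (by omega)).2
    rcases tg_char_small hK' with h2 | h3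
    · have hgO : s3 (F := F) i2 i3 ∈ Omega F ⇑(QP (n + 1) F) :=
        mul_mem (eichO_mem_omega (QP (n + 1) F) Helper44.plusQF_nondeg hcard _ _ _ _)
          (eichO_mem_omega (QP (n + 1) F) Helper44.plusQF_nondeg hcard _ _ _ _)
      have hcomm : Commute (iota (n + 1) F x) (s3 (F := F) i2 i3) :=
        (tg_commute_eichO (QP (n + 1) F) (iota (n + 1) F x) _ _ _ _ hfe2 hfe3).mul_right
          (tg_commute_eichO (QP (n + 1) F) (iota (n + 1) F x) _ _ _ _ hff2 hff3)
      have hord : (iota (n + 1) F x) ^ 2 = 1 := by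
        rw [hx_eq]; exact tg_eichO_pow_char (QP (n + 1) F) 2 _ _ _ _
      have hg3 : (s3 (F := F) i2 i3) ^ 3 = 1 := tg_s3_pow i2 i3 h23
      refine ⟨iota (n + 1) F x * s3 i2 i3, iota (n + 1) F w,
        mul_mem (tg_iota_mem_omega hm3 x) hgO, tg_iota_mem_omega hm3 _, ?_⟩
      obtain ⟨hx', hg'⟩ := tg_coprime_extract (iota (n + 1) F x) (s3 i2 i3) hcomm 2 3 hord hg3
        (by decide) (Subgroup.closure {iota (n + 1) F x * s3 i2 i3,
          iota (n + 1) F w}) (Subgroup.subset_closure (by simp))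
      have hall := hallof _ x w hS hx' (Subgroup.subset_closure (by simp))
      refine tg_key hm3 _ (hLof _ hall) (s3 i2 i3)⁻¹ (inv_mem hg') i2 i3 0 h02 h03 ?_ ?_
      · rw [← tg_s3_eV_b i2 i3 h23, mv_inv_cancel']
      · conv_lhs => rw [← tg_s3_eV (F := F) i2 i3 0 h02 h03]
        rw [mv_inv_cancel']
    · have hgO : dS (F := F) i2 i3 ∈ Omega F ⇑(QP (n + 1) F) :=
        refl_pair_mem_omega_all (QP (n + 1) F) Helper44.plusQF_nondeg (by omega) _ _ _ _
          (by rw [QP_eV_sub_fV, QP_eV_sub_fV])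
      have hcomm : Commute (iota (n + 1) F x) (dS (F := F) i2 i3) :=
        (tg_commute_reflO (QP (n + 1) F) (iota (n + 1) F x) _ _
            (by rw [mv_sub, hfe2, hff2])).mul_right
          (tg_commute_reflO (QP (n + 1) F) (iota (n + 1) F x) _ _ (by rw [mv_sub, hfe3, hff3]))
      have hord : (iota (n + 1) F x) ^ 3 = 1 := by
        rw [hx_eq]; exact tg_eichO_pow_char (QP (n + 1) F) 3 _ _ _ _
      have hg2 : (dS (F := F) i2 i3) ^ 2 = 1 := tg_dS_sq i2 i3 h23
      refine ⟨iota (n + 1) F x * dS i2 i3, iota (n + 1) F w,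
        mul_mem (tg_iota_mem_omega hm3 x) hgO, tg_iota_mem_omega hm3 _, ?_⟩
      obtain ⟨hx', hg'⟩ := tg_coprime_extract (iota (n + 1) F x) (dS i2 i3) hcomm 3 2 hord hg2
        (by decide) (Subgroup.closure {iota (n + 1) F x * dS i2 i3,
          iota (n + 1) F w}) (Subgroup.subset_closure (by simp))
      have hall := hallof _ x w hS hx' (Subgroup.subset_closure (by simp))
      exact tg_key hm3 _ (hLof _ hall) (dS i2 i3) hg' i2 i2 0 h02 h02
        (tg_dS_fV i2 i3 h23) (tg_dS_eV i2 i3 0 h02 h03)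

/-- `PΩ⁺_{2m}(F)`, `m ≥ 4`, is generated by two elements. -/
theorem tg_result (m : ℕ) (hm : 4 ≤ m) :
    ∃ a b : Cfsg.POmega F (Cfsg.quadFormPlus m F),
      Subgroup.closure ({a, b} : Set (Cfsg.POmega F (Cfsg.quadFormPlus m F))) = ⊤ := by
  obtain ⟨N, rfl⟩ : ∃ N, m = N + 1 := ⟨m - 1, by omega⟩
  obtain ⟨a, b, ha, hb, h⟩ := tg_main (F := F) N (by omega)
  exact tg_final (Cfsg.quadFormPlus (N + 1) F) a b ha hb h

end main

end Cfsg.Agent.Helper97.TG
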