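/-
helper97: piece CLASSE of CALL S5981 (helper98): a non-degenerate quadratic form in even dimension
over a finite field of odd characteristic is, in a suitable basis, the standard plus form or a
standard minus form.
-/
import Mathlib
import Cfsg.Prelude.Def_GeometricClasses
import Cfsg.Prelude.Def_Classical
import Cfsg.Agent.Helper43.QuadFin
import Cfsg.Agent.Helper97.THCLASSO

set_option autoImplicit false
set_option linter.unusedSectionVars false
set_option linter.unusedVariables false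
open Matrix Polynomial

namespace Cfsg.Agent.Helper97.THCLASSE

open Cfsg.Agent.Helper97.THCLASSO

variable {F : Type*} [Field F] [Fintype F]

/-- the matrix of an independent family of `n` vectors of `F^n` indexed through `ε` -/
theorem basis_mat {n : ℕ} {κ : Type} [Fintype κ] (ε : Fin n ≃ κ) (b : κ → (Fin n → F))
    (hb : ∀ v : κ → F, ∑ s, v s • b s = 0 → v = 0) :
    ∃ P : GL (Fin n) F, ∀ v : κ → F,
      (P : Matrix (Fin n) (Fin n) F) *ᵥ (v ∘ ε) = ∑ s, v s • b s := by
  classical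
  let P : Matrix (Fin n) (Fin n) F := Matrix.of fun i j => b (ε j) i
  have hP : ∀ v : κ → F, P *ᵥ (v ∘ ε) = ∑ s, v s • b s := by
    intro v
    funext i
    simp only [Matrix.mulVec, dotProduct, P, Matrix.of_apply, Function.comp_apply]
    rw [Equiv.sum_comp ε (fun s => b s i * v s), Finset.sum_apply]
    exact Finset.sum_congr rfl fun s _ => by simp [mul_comm]
  have hinj : Function.Injective P.mulVec := by
    rw [← Matrix.coe_mulVecLin, injective_iff_map_eq_zero]
    intro u hu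
    rw [Matrix.mulVecLin_apply] at hu
    have hu' : u = (u ∘ ε.symm) ∘ ε := by
      funext j
      simp
    rw [hu', hP] at hu
    have h := hb _ hu
    funext j
    have := congrFun h (ε j)
    simpa using this
  have hU : IsUnit P := Matrix.mulVec_injective_iff_isUnit.mp hinj
  exact ⟨hU.unit, fun v => by rw [IsUnit.unit_spec, hP]⟩

/-- CLASSE -/
theorem class_even (h2 : (2 : F) ≠ 0) (m : ℕ) (hm : 1 ≤ m) (Q : (Fin (2 * m) → F) → F)
    (hQ : Cfsg.Geo.IsNondegenerateQuadraticForm Q) :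
    (∃ (P : GL (Fin (2 * m)) F) (e : Fin (2 * m) ≃ Fin m ⊕ Fin m),
      ∀ v : Fin m ⊕ Fin m → F,
        Q ((P : Matrix (Fin (2 * m)) (Fin (2 * m)) F) *ᵥ (v ∘ e)) = Cfsg.quadFormPlus m F v) ∨
    (∃ (P : GL (Fin (2 * m)) F) (e : Fin (2 * m) ≃ (Fin (m - 1) ⊕ Fin (m - 1)) ⊕ Fin 2) (a b : F),
      (∀ x y : F, x ^ 2 + a * x * y + b * y ^ 2 = 0 → x = 0 ∧ y = 0) ∧
      ∀ v : (Fin (m - 1) ⊕ Fin (m - 1)) ⊕ Fin 2 → F,
        Q ((P : Matrix (Fin (2 * m)) (Fin (2 * m)) F) *ᵥ (v ∘ e)) = Cfsg.quadFormMinus (m - 1) F a b v) := by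
  classical
  obtain ⟨k, e, f, W, h0, hef, hee, hW, hani, hndW, hdim⟩ :=
    Helper43.witt_decomp (2 * m) (Fin (2 * m) → F) (qfOf Q hQ) (by simp) (qfOf_nondeg Q hQ)
  have hW2 := Helper43.finrank_le_two_of_anisotropic (qfOf Q hQ) W hani
  have hcase : (Module.finrank F W = 0 ∧ k = m) ∨ (Module.finrank F W = 2 ∧ k = m - 1) := by omega
  rcases hcase with ⟨hW0, hk⟩ | ⟨hW0, hk⟩
  · -- plus type
    subst hk
    left
    let ε : Fin (2 * k) ≃ Fin k ⊕ Fin k := Fintype.equivOfCardEq (by simp; ring)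
    let b : Fin k ⊕ Fin k → (Fin (2 * k) → F) := Sum.elim e f
    have hsum : ∀ v : Fin k ⊕ Fin k → F, ∑ s, v s • b s =
        ∑ i, v (Sum.inl i) • e i + ∑ i, v (Sum.inr i) • f i + 0 := by
      intro v
      simp [Fintype.sum_sum_type, b]
    have hz0 : ∀ i : Fin k, QuadraticMap.polar (qfOf Q hQ) (e i) 0 = 0 ∧
        QuadraticMap.polar (qfOf Q hQ) (f i) 0 = 0 := fun i => hW i 0 W.zero_mem
    obtain ⟨P, hP⟩ := basis_mat ε b (by
      intro v hv
      rw [hsum] at hv
      obtain ⟨h1, h2', -⟩ := Helper43.hyp_indep (qfOf Q hQ) e f hef hee _ _ _ hz0 hv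
      funext s
      rcases s with s | s
      · exact h1 s
      · exact h2' s)
    refine ⟨P, ε, fun v => ?_⟩
    rw [hP, hsum, ← qfOf_apply Q hQ, hyp_value h2 (qfOf Q hQ) e f h0 hef hee _ _ _ hz0,
      QuadraticMap.map_zero, add_zero]
    rfl
  · -- minus type
    subst hk
    right
    obtain ⟨x, hxW, y, hyW, ζ, hζ, hQx, hxy, hQy, hind⟩ :=
      Helper43.anisotropic_plane (qfOf Q hQ) W hW0 hani hndW
    let ε : Fin (2 * m) ≃ (Fin (m - 1) ⊕ Fin (m - 1)) ⊕ Fin 2 :=
      Fintype.equivOfCardEq (by simp; omega)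
    let b : (Fin (m - 1) ⊕ Fin (m - 1)) ⊕ Fin 2 → (Fin (2 * m) → F) :=
      Sum.elim (Sum.elim e f) ![x, y]
    have hsum : ∀ v : (Fin (m - 1) ⊕ Fin (m - 1)) ⊕ Fin 2 → F, ∑ s, v s • b s =
        ∑ i, v (Sum.inl (Sum.inl i)) • e i + ∑ i, v (Sum.inl (Sum.inr i)) • f i +
          (v (Sum.inr 0) • x + v (Sum.inr 1) • y) := by
      intro v
      simp [Fintype.sum_sum_type, b, Fin.sum_univ_two]
    have hz0 : ∀ (s t : F) (i : Fin (m - 1)),
        QuadraticMap.polar (qfOf Q hQ) (e i) (s • x + t • y) = 0 ∧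
        QuadraticMap.polar (qfOf Q hQ) (f i) (s • x + t • y) = 0 :=
      fun s t i => hW i _ (W.add_mem (W.smul_mem s hxW) (W.smul_mem t hyW))
    obtain ⟨P, hP⟩ := basis_mat ε b (by
      intro v hv
      rw [hsum] at hv
      obtain ⟨h1, h2', h3⟩ := Helper43.hyp_indep (qfOf Q hQ) e f hef hee _ _ _ (hz0 _ _) hv
      obtain ⟨h4, h5⟩ := hind _ _ h3
      funext s
      rcases s with (s | s) | s
      · exact h1 s
      · exact h2' s
      · fin_cases s
        · exact h4
        · exact h5)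
    refine ⟨P, ε, 1, ζ, ?_, fun v => ?_⟩
    · intro s t hst
      by_cases ht : t = 0
      · subst ht
        refine ⟨?_, rfl⟩
        have : s ^ 2 = 0 := by simpa using hst
        exact pow_eq_zero_iff (two_ne_zero) |>.mp this
      · exfalso
        apply hζ (s / t)
        field_simp
        linear_combination hst
    · rw [hP, hsum, ← qfOf_apply Q hQ, hyp_value h2 (qfOf Q hQ) e f h0 hef hee _ _ _ (hz0 _ _)]
      have hxy' : QuadraticMap.polar (qfOf Q hQ) (v (Sum.inr 0) • x) (v (Sum.inr 1) • y) =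
          v (Sum.inr 0) * v (Sum.inr 1) := by
        rw [QuadraticMap.polar_smul_left, QuadraticMap.polar_smul_right, hxy]
        simp
      have hQz : (qfOf Q hQ) (v (Sum.inr 0) • x + v (Sum.inr 1) • y) =
          v (Sum.inr 0) ^ 2 + 1 * v (Sum.inr 0) * v (Sum.inr 1) + ζ * v (Sum.inr 1) ^ 2 := by
        have := QuadraticMap.map_add (⇑(qfOf Q hQ)) (v (Sum.inr 0) • x) (v (Sum.inr 1) • y)
        rw [this, QuadraticMap.map_smul, QuadraticMap.map_smul, hQx, hQy, hxy']
        simp only [smul_eq_mul]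
        ring
      rw [hQz]
      rfl

end Cfsg.Agent.Helper97.THCLASSE
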