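/-
helper97: shared lemmas for the diagonal "bad element" pieces DBA / DBB / DBC of CALL S5981
(helper98): eigenvalue multiplicities of a conjugate of a diagonal matrix via ranks.
-/
import Mathlib
import Cfsg.Prelude.Def_GeometricClasses

set_option autoImplicit false
open Matrix

namespace Cfsg.Agent.Helper97.THDiag

variable {F : Type*} [Field F]

/-- rank of `diagonal d - l` plus the multiplicity of `l` is `n` -/
theorem rank_diag_sub [DecidableEq F] {n : ℕ} (d : Fin n → F) (l : F) :
    (Matrix.diagonal d - l • (1 : Matrix (Fin n) (Fin n) F)).rank +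
      (Finset.univ.filter (fun j => d j = l)).card = n := by
  have h1 : Matrix.diagonal d - l • (1 : Matrix (Fin n) (Fin n) F) =
      Matrix.diagonal (fun j => d j - l) := by
    ext i j
    by_cases h : i = j
    · subst h
      simp
    · simp [Matrix.diagonal_apply_ne _ h, Matrix.one_apply_ne h]
  rw [h1, Matrix.rank_diagonal, Fintype.card_subtype]
  have h2 : (Finset.univ.filter (fun j => d j - l ≠ 0)) =
      (Finset.univ.filter (fun j => ¬ d j = l)) := by
    apply Finset.filter_congr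
    intro j _
    rw [sub_ne_zero]
  rw [h2, add_comm, Finset.card_filter_add_card_filter_not, Finset.card_univ, Fintype.card_fin]

/-- a conjugate of a diagonal matrix lying in a subgroup whose elements have the rank symmetry
`rank (y - l) = rank (y - c / l)` has symmetric multiplicities -/
theorem conj_mult [DecidableEq F] {n : ℕ} (d : Fin n → F) (x : GL (Fin n) F)
    (hx : (x : Matrix (Fin n) (Fin n) F) = Matrix.diagonal d)
    (H : Subgroup (GL (Fin n) F))
    (hH : ∀ y ∈ H, ∃ c : F, c ≠ 0 ∧ ∀ l : F, l ≠ 0 →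
      ((y : Matrix (Fin n) (Fin n) F) - l • (1 : Matrix (Fin n) (Fin n) F)).rank =
        ((y : Matrix (Fin n) (Fin n) F) - (c / l) • (1 : Matrix (Fin n) (Fin n) F)).rank)
    (g : GL (Fin n) F) (hg : g⁻¹ * x * g ∈ H) :
    ∃ c : F, c ≠ 0 ∧ ∀ l : F, l ≠ 0 →
      (Finset.univ.filter (fun j => d j = l)).card =
        (Finset.univ.filter (fun j => d j = c / l)).card := by
  obtain ⟨c, hc, hr⟩ := hH _ hg
  refine ⟨c, hc, fun l hl => ?_⟩
  have hrank : ∀ t : F, (((g⁻¹ * x * g : GL (Fin n) F) : Matrix (Fin n) (Fin n) F) -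
      t • (1 : Matrix (Fin n) (Fin n) F)).rank =
      (Matrix.diagonal d - t • (1 : Matrix (Fin n) (Fin n) F)).rank := by
    intro t
    have e : ((g⁻¹ * x * g : GL (Fin n) F) : Matrix (Fin n) (Fin n) F) -
        t • (1 : Matrix (Fin n) (Fin n) F) =
        ((g⁻¹ : GL (Fin n) F) : Matrix (Fin n) (Fin n) F) *
          (Matrix.diagonal d - t • (1 : Matrix (Fin n) (Fin n) F)) *
          (g : Matrix (Fin n) (Fin n) F) := by
      have hgi : ((g⁻¹ : GL (Fin n) F) : Matrix (Fin n) (Fin n) F) *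
          (g : Matrix (Fin n) (Fin n) F) = 1 := by
        rw [← Units.val_mul, inv_mul_cancel, Units.val_one]
      rw [Units.val_mul, Units.val_mul, hx, Matrix.mul_sub, Matrix.sub_mul, Matrix.mul_smul,
        Matrix.mul_one, Matrix.smul_mul, hgi]
    have hdg : IsUnit (g : Matrix (Fin n) (Fin n) F).det :=
      (Matrix.isUnit_iff_isUnit_det _).mp g.isUnit
    have hdgi : IsUnit ((g⁻¹ : GL (Fin n) F) : Matrix (Fin n) (Fin n) F).det :=
      (Matrix.isUnit_iff_isUnit_det _).mp (g⁻¹).isUnit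
    rw [e, Matrix.rank_mul_eq_left_of_isUnit_det _ _ hdg,
      Matrix.rank_mul_eq_right_of_isUnit_det _ _ hdgi]
  have h1 := hr l hl
  rw [hrank, hrank] at h1
  have h2 := rank_diag_sub d l
  have h3 := rank_diag_sub d (c / l)
  omega

/-- the invertible diagonal matrix -/
theorem exists_diag_gl {n : ℕ} (d : Fin n → F) (hd : ∀ j, d j ≠ 0) :
    ∃ x : GL (Fin n) F, (x : Matrix (Fin n) (Fin n) F) = Matrix.diagonal d := by
  have hdet : (Matrix.diagonal d).det ≠ 0 := by
    rw [Matrix.det_diagonal]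
    exact Finset.prod_ne_zero_iff.mpr fun j _ => hd j
  exact ⟨Matrix.GeneralLinearGroup.mkOfDetNeZero _ hdet, rfl⟩

theorem diag_mem_sl {n : ℕ} (d : Fin n → F) (x : GL (Fin n) F)
    (hx : (x : Matrix (Fin n) (Fin n) F) = Matrix.diagonal d) (hprod : ∏ j, d j = 1) :
    x ∈ Cfsg.Geo.specialLinear (Fin n) F := by
  unfold Cfsg.Geo.specialLinear
  rw [MonoidHom.mem_ker]
  apply Units.ext
  rw [Matrix.GeneralLinearGroup.val_det_apply, hx, Matrix.det_diagonal, hprod]
  rfl

theorem diag_pow {n : ℕ} (d : Fin n → F) (x : GL (Fin n) F)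
    (hx : (x : Matrix (Fin n) (Fin n) F) = Matrix.diagonal d) (r : ℕ) :
    ((x ^ r : GL (Fin n) F) : Matrix (Fin n) (Fin n) F) = Matrix.diagonal (fun j => d j ^ r) := by
  rw [Units.val_pow_eq_pow_val, hx, Matrix.diagonal_pow]
  rfl

theorem diag_pow_eq_one {n : ℕ} (d : Fin n → F) (x : GL (Fin n) F)
    (hx : (x : Matrix (Fin n) (Fin n) F) = Matrix.diagonal d) (r : ℕ) (hr : ∀ j, d j ^ r = 1) :
    x ^ r = 1 := by
  apply Units.ext
  rw [diag_pow d x hx, Units.val_one]
  have : (fun j => d j ^ r) = fun _ => (1 : F) := funext hr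
  rw [this]
  exact Matrix.diagonal_one

theorem diag_not_scalar {n : ℕ} (d : Fin n → F) (x : GL (Fin n) F)
    (hx : (x : Matrix (Fin n) (Fin n) F) = Matrix.diagonal d) (i j : Fin n) (hij : d i ≠ d j)
    (z : F) : (x : Matrix (Fin n) (Fin n) F) ≠ z • (1 : Matrix (Fin n) (Fin n) F) := by
  intro h
  rw [hx] at h
  have h1 := congrFun (congrFun h i) i
  have h2 := congrFun (congrFun h j) j
  simp at h1 h2
  exact hij (h1.trans h2.symm)

end Cfsg.Agent.Helper97.THDiag
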