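/-
helper97: piece DBA of CALL S5981 (helper98): the diagonal element diag(ω, ω, ω⁻², 1, …, 1) of
prime order `r ≥ 5` is not conjugate into a subgroup whose elements have symmetric eigenvalue
ranks (`(n, r) ≠ (5, 5)`).
-/
import Mathlib
import Cfsg.Prelude.Def_GeometricClasses
import Cfsg.Agent.Helper97.THDiag

set_option autoImplicit false
set_option linter.unusedSectionVars false
open Matrix Polynomial

namespace Cfsg.Agent.Helper97.THDBA

open Cfsg.Agent.Helper97.THDiag

variable {F : Type*} [Field F] [Fintype F]

/-- DBA -/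
theorem bad_diag_a {n : ℕ} (hn : 3 ≤ n) (r : ℕ) (hr : r.Prime) (hr5 : 5 ≤ r) (hnr : ¬ (n = 5 ∧ r = 5))
    (ω : F) (hω1 : ω ≠ 1) (hωr : ω ^ r = 1) (H : Subgroup (GL (Fin n) F))
    (hH : ∀ y ∈ H, ∃ c : F, c ≠ 0 ∧ ∀ l : F, l ≠ 0 →
      ((y : Matrix (Fin n) (Fin n) F) - l • (1 : Matrix (Fin n) (Fin n) F)).rank =
        ((y : Matrix (Fin n) (Fin n) F) - (c / l) • (1 : Matrix (Fin n) (Fin n) F)).rank) :
    ∃ x : GL (Fin n) F, x ∈ Cfsg.Geo.specialLinear (Fin n) F ∧ x ^ r = 1 ∧
      (∀ z : F, (x : Matrix (Fin n) (Fin n) F) ≠ z • (1 : Matrix (Fin n) (Fin n) F)) ∧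
      ∀ g : GL (Fin n) F, g⁻¹ * x * g ∉ H := by
  classical
  have hω0 : ω ≠ 0 := by
    rintro rfl
    rw [zero_pow (by omega)] at hωr
    exact zero_ne_one hωr
  have hord : orderOf ω = r := by
    have : Fact r.Prime := ⟨hr⟩
    exact orderOf_eq_prime hωr hω1
  -- no small power of ω is one
  have hpow : ∀ k : ℕ, 0 < k → k < 5 ∨ k = 6 → ω ^ k ≠ 1 := by
    intro k hk0 hk h
    have hdvd : r ∣ k := by
      rw [← hord]
      exact orderOf_dvd_of_pow_eq_one h
    have hle := Nat.le_of_dvd hk0 hdvd
    rcases hk with hk | hk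
    · omega
    · subst hk
      have : r = 5 ∨ r = 6 := by omega
      rcases this with rfl | rfl
      · omega
      · exact absurd hr (by decide)
  set w2 : F := ω ^ (r - 2) with hw2
  have hw2ω : w2 * ω ^ 2 = 1 := by
    rw [hw2, ← pow_add, show r - 2 + 2 = r by omega, hωr]
  have hw20 : w2 ≠ 0 := pow_ne_zero _ hω0
  have hw2r : w2 ^ r = 1 := by
    rw [hw2, ← pow_mul, mul_comm, pow_mul, hωr, one_pow]
  have hωw2 : ω ≠ w2 := by
    intro h
    apply hpow 3 (by omega) (by omega)
    rw [← hw2ω, ← h]
    ring
  have hw21 : w2 ≠ 1 := by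
    intro h
    apply hpow 2 (by omega) (by omega)
    rw [← hw2ω, h, one_mul]
  let i2 : Fin n := ⟨2, by omega⟩
  let d : Fin n → F := fun j => if (j : ℕ) < 2 then ω else if j = i2 then w2 else 1
  have hi2 : ∀ j : Fin n, j = i2 ↔ (j : ℕ) = 2 := by
    intro j
    rw [Fin.ext_iff]
  have hd0 : ∀ j, d j ≠ 0 := by
    intro j
    simp only [d]
    split_ifs
    · exact hω0
    · exact hw20
    · exact one_ne_zero
  have hdω : ∀ j, d j = ω ↔ (j : ℕ) < 2 := by
    intro j
    simp only [d]
    split_ifs with h h'
    · simp [h]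
    · simp only [h, iff_false]
      exact fun h'' => hωw2 h''.symm
    · simp only [h, iff_false]
      exact fun h'' => hω1 h''.symm
  have hdw2 : ∀ j, d j = w2 ↔ j = i2 := by
    intro j
    simp only [d]
    split_ifs with h h'
    · have : j ≠ i2 := by
        rw [Ne, hi2]
        omega
      simp only [this, iff_false]
      exact hωw2
    · simp [h']
    · simp only [h', iff_false]
      exact fun h'' => hw21 h''.symm
  have hd1 : ∀ j, d j = 1 ↔ ¬ (j : ℕ) < 3 := by
    intro j
    simp only [d]
    split_ifs with h h'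
    · have : (j : ℕ) < 3 := by omega
      simp only [this, not_true_eq_false, iff_false]
      exact hω1
    · have : (j : ℕ) < 3 := by
        rw [hi2] at h'
        omega
      simp only [this, not_true_eq_false, iff_false]
      exact hw21
    · have : ¬ (j : ℕ) < 3 := by
        rw [hi2] at h'
        omega
      simp [this]
  have hT2 : (Finset.univ.filter (fun j : Fin n => (j : ℕ) < 2)).card = 2 := by
    rw [Fin.card_filter_val_lt]
    omega
  have hT3 : (Finset.univ.filter (fun j : Fin n => (j : ℕ) < 3)).card = 3 := by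
    rw [Fin.card_filter_val_lt]
    omega
  have hmω : (Finset.univ.filter (fun j => d j = ω)).card = 2 := by
    rw [← hT2]
    congr 1
    apply Finset.filter_congr
    intro j _
    exact hdω j
  have hmw2 : (Finset.univ.filter (fun j => d j = w2)).card = 1 := by
    have : (Finset.univ.filter (fun j => d j = w2)) = {i2} := by
      ext j
      simp [hdw2]
    rw [this, Finset.card_singleton]
  have hm1 : (Finset.univ.filter (fun j => d j = 1)).card = n - 3 := by
    have h1 : (Finset.univ.filter (fun j => d j = 1)) =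
        (Finset.univ.filter (fun j : Fin n => ¬ (j : ℕ) < 3)) := by
      apply Finset.filter_congr
      intro j _
      exact hd1 j
    have h2 := Finset.card_filter_add_card_filter_not (s := (Finset.univ : Finset (Fin n)))
      (fun j : Fin n => (j : ℕ) < 3)
    rw [Finset.card_univ, Fintype.card_fin, hT3] at h2
    rw [h1]
    omega
  have hval : ∀ l : F, 0 < (Finset.univ.filter (fun j => d j = l)).card →
      l = ω ∨ l = w2 ∨ l = 1 := by
    intro l hl
    obtain ⟨j, hj⟩ := Finset.card_pos.mp hl
    rw [Finset.mem_filter] at hj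
    rw [← hj.2]
    simp only [d]
    split_ifs
    · exact Or.inl rfl
    · exact Or.inr (Or.inl rfl)
    · exact Or.inr (Or.inr rfl)
  have hprod : ∏ j, d j = 1 := by
    simp only [d]
    rw [Finset.prod_ite, Finset.prod_const, hT2, Finset.prod_ite_eq']
    have : i2 ∈ Finset.univ.filter (fun j : Fin n => ¬ (j : ℕ) < 2) := by
      simp [i2]
    rw [if_pos this, mul_comm]
    exact hw2ω
  obtain ⟨x, hx⟩ := exists_diag_gl d hd0
  refine ⟨x, diag_mem_sl d x hx hprod, diag_pow_eq_one d x hx r ?_, ?_, ?_⟩
  · intro j
    simp only [d]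
    split_ifs
    · exact hωr
    · exact hw2r
    · exact one_pow r
  · refine diag_not_scalar d x hx ⟨0, by omega⟩ i2 ?_
    have h0 : d ⟨0, by omega⟩ = ω := (hdω _).mpr (by simp)
    have h1 : d i2 = w2 := (hdw2 _).mpr rfl
    rw [h0, h1]
    exact hωw2
  · intro g hg
    obtain ⟨c, hc, hm⟩ := conj_mult d x hx H hH g hg
    have h1 := hm ω hω0
    rw [hmω] at h1
    have h3 := hm w2 hw20
    rw [hmw2] at h3
    have hdiv : c / w2 = c * ω ^ 2 := by
      rw [div_eq_iff hw20, mul_assoc, mul_comm (ω ^ 2) w2, hw2ω, mul_one]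
    rw [hdiv] at h3
    rcases hval (c / ω) (by omega) with h | h | h
    · -- c = ω * ω
      have hcω : c = ω * ω := by
        field_simp at h
        rw [h]
        ring
      rw [hcω] at h3
      rcases hval (ω * ω * ω ^ 2) (by omega) with h' | h' | h'
      · apply hpow 3 (by omega) (by omega)
        have : ω * (ω ^ 3 - 1) = 0 := by linear_combination h'
        rcases mul_eq_zero.mp this with h'' | h''
        · exact absurd h'' hω0
        · exact sub_eq_zero.mp h''
      · apply hpow 6 (by omega) (by omega)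
        rw [← hw2ω, ← h']
        ring
      · apply hpow 4 (by omega) (by omega)
        rw [← h']
        ring
    · rw [h, hmw2] at h1
      omega
    · -- c = ω, n = 5
      rw [h, hm1] at h1
      have hn5 : n = 5 := by omega
      have hcω : c = ω := by
        field_simp at h
        exact h
      rw [hcω] at h3
      rcases hval (ω * ω ^ 2) (by omega) with h' | h' | h'
      · apply hpow 2 (by omega) (by omega)
        have : ω * (ω ^ 2 - 1) = 0 := by linear_combination h'
        rcases mul_eq_zero.mp this with h'' | h''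
        · exact absurd h'' hω0
        · exact sub_eq_zero.mp h''
      · have h5 : ω ^ 5 = 1 := by
          rw [← hw2ω, ← h']
          ring
        have hdvd : r ∣ 5 := by
          rw [← hord]
          exact orderOf_dvd_of_pow_eq_one h5
        have hle := Nat.le_of_dvd (by omega) hdvd
        exact hnr ⟨hn5, by omega⟩
      · apply hpow 3 (by omega) (by omega)
        rw [← h']
        ring

end Cfsg.Agent.Helper97.THDBA
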