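/-
helper97: piece DBB of CALL S5981 (helper98): the diagonal element diag(μ, …, μ, μ^(1-n)) is not
conjugate into a subgroup whose elements have symmetric eigenvalue ranks.
-/
import Mathlib
import Cfsg.Prelude.Def_GeometricClasses
import Cfsg.Agent.Helper97.THDiag

set_option autoImplicit false
set_option linter.unusedSectionVars false
open Matrix Polynomial

namespace Cfsg.Agent.Helper97.THDBB

open Cfsg.Agent.Helper97.THDiag

variable {F : Type*} [Field F] [Fintype F]

/-- DBB -/
theorem bad_diag_b (h2 : (2 : F) ≠ 0) {n : ℕ} (hn : 3 ≤ n) (r : ℕ) (hr : r.Prime) (hr2 : r ≠ 2)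
    (μ : F) (hμ : μ ^ (n * r) = 1) (hμn : μ ^ n ≠ 1) (H : Subgroup (GL (Fin n) F))
    (hH : ∀ y ∈ H, ∃ c : F, c ≠ 0 ∧ ∀ l : F, l ≠ 0 →
      ((y : Matrix (Fin n) (Fin n) F) - l • (1 : Matrix (Fin n) (Fin n) F)).rank =
        ((y : Matrix (Fin n) (Fin n) F) - (c / l) • (1 : Matrix (Fin n) (Fin n) F)).rank) :
    ∃ x : GL (Fin n) F, x ∈ Cfsg.Geo.specialLinear (Fin n) F ∧
      (∃ z : F, ((x ^ r : GL (Fin n) F) : Matrix (Fin n) (Fin n) F) = z • (1 : Matrix (Fin n) (Fin n) F)) ∧
      (∀ z : F, (x : Matrix (Fin n) (Fin n) F) ≠ z • (1 : Matrix (Fin n) (Fin n) F)) ∧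
      ∀ g : GL (Fin n) F, g⁻¹ * x * g ∉ H := by
  classical
  have hr0 : 0 < r := hr.pos
  have hμ0 : μ ≠ 0 := by
    rintro rfl
    rw [zero_pow (by positivity)] at hμ
    exact zero_ne_one hμ
  set μ' : F := (μ ^ (n - 1))⁻¹ with hμ'
  have hμ'0 : μ' ≠ 0 := inv_ne_zero (pow_ne_zero _ hμ0)
  have hμμ' : μ ^ (n - 1) * μ' = 1 := mul_inv_cancel₀ (pow_ne_zero _ hμ0)
  have hne : μ' ≠ μ := by
    intro h
    apply hμn
    rw [h, ← pow_succ] at hμμ'
    rwa [show n - 1 + 1 = n by omega] at hμμ'
  have hμ'r : μ' ^ r = μ ^ r := by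
    have h1 : (μ ^ (n - 1) * μ') ^ r = 1 := by rw [hμμ', one_pow]
    have h3 : μ ^ ((n - 1) * r) * μ ^ r = 1 := by
      rw [← pow_add, show (n - 1) * r + r = n * r by
        obtain ⟨k, rfl⟩ : ∃ k, n = k + 1 := ⟨n - 1, by omega⟩
        simp [Nat.add_mul]]
      exact hμ
    rw [mul_pow, ← pow_mul] at h1
    have hne0 : μ ^ ((n - 1) * r) ≠ 0 := pow_ne_zero _ hμ0
    exact mul_left_cancel₀ hne0 (h1.trans h3.symm)
  let d : Fin n → F := fun j => if (j : ℕ) < n - 1 then μ else μ'
  have hd0 : ∀ j, d j ≠ 0 := by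
    intro j
    simp only [d]
    split_ifs
    · exact hμ0
    · exact hμ'0
  have hdμ : ∀ j, d j = μ ↔ (j : ℕ) < n - 1 := by
    intro j
    simp only [d]
    split_ifs with h
    · simp [h]
    · simp only [h, iff_false]
      exact hne
  have hdμ' : ∀ j, d j = μ' ↔ ¬ (j : ℕ) < n - 1 := by
    intro j
    simp only [d]
    split_ifs with h
    · simp only [h, not_true_eq_false, iff_false]
      exact fun h' => hne h'.symm
    · simp [h]
  have hT : (Finset.univ.filter (fun j : Fin n => (j : ℕ) < n - 1)).card = n - 1 := by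
    rw [Fin.card_filter_val_lt]
    omega
  have hT' : (Finset.univ.filter (fun j : Fin n => ¬ (j : ℕ) < n - 1)).card = 1 := by
    have h2 := Finset.card_filter_add_card_filter_not (s := (Finset.univ : Finset (Fin n)))
      (fun j : Fin n => (j : ℕ) < n - 1)
    rw [Finset.card_univ, Fintype.card_fin, hT] at h2
    omega
  have hmμ : (Finset.univ.filter (fun j => d j = μ)).card = n - 1 := by
    rw [← hT]
    congr 1
    apply Finset.filter_congr
    intro j _
    exact hdμ j
  have hmμ' : (Finset.univ.filter (fun j => d j = μ')).card = 1 := by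
    rw [← hT']
    congr 1
    apply Finset.filter_congr
    intro j _
    exact hdμ' j
  have hval : ∀ l : F, 0 < (Finset.univ.filter (fun j => d j = l)).card → l = μ ∨ l = μ' := by
    intro l hl
    obtain ⟨j, hj⟩ := Finset.card_pos.mp hl
    rw [Finset.mem_filter] at hj
    rw [← hj.2]
    simp only [d]
    split_ifs
    · exact Or.inl rfl
    · exact Or.inr rfl
  have hprod : ∏ j, d j = 1 := by
    simp only [d]
    rw [Finset.prod_ite, Finset.prod_const, Finset.prod_const, hT, hT', pow_one, hμμ']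
  obtain ⟨x, hx⟩ := exists_diag_gl d hd0
  refine ⟨x, diag_mem_sl d x hx hprod, ⟨μ ^ r, ?_⟩, ?_, ?_⟩
  · rw [diag_pow d x hx r]
    have : (fun j => d j ^ r) = fun _ => μ ^ r := by
      funext j
      simp only [d]
      split_ifs
      · rfl
      · exact hμ'r
    rw [this]
    ext i j
    by_cases h : i = j
    · subst h
      simp
    · simp [Matrix.diagonal_apply_ne _ h, Matrix.one_apply_ne h]
  · refine diag_not_scalar d x hx ⟨0, by omega⟩ ⟨n - 1, by omega⟩ ?_
    have h0 : d ⟨0, by omega⟩ = μ := (hdμ _).mpr (by simp; omega)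
    have h1 : d ⟨n - 1, by omega⟩ = μ' := (hdμ' _).mpr (by simp)
    rw [h0, h1]
    exact fun h => hne h.symm
  · intro g hg
    obtain ⟨c, hc, hm⟩ := conj_mult d x hx H hH g hg
    have h1 := hm μ hμ0
    rw [hmμ] at h1
    have hcμ : c = μ * μ := by
      rcases hval (c / μ) (by omega) with h | h
      · field_simp at h
        rw [h]
        ring
      · rw [h, hmμ'] at h1
        omega
    have h3 := hm μ' hμ'0
    rw [hmμ'] at h3
    have hcμ' : c = μ' * μ' := by
      rcases hval (c / μ') (by omega) with h | h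
      · rw [h, hmμ] at h3
        omega
      · field_simp at h
        rw [h]
        ring
    have hsum : μ' = -μ := by
      have : (μ' - μ) * (μ' + μ) = 0 := by
        rw [hcμ] at hcμ'
        linear_combination -hcμ'
      rcases mul_eq_zero.mp this with h | h
      · exact absurd (sub_eq_zero.mp h) hne
      · exact eq_neg_of_add_eq_zero_left h
    have hodd : Odd r := hr.odd_of_ne_two hr2
    rw [hsum, hodd.neg_pow] at hμ'r
    have : (2 : F) * μ ^ r = 0 := by linear_combination -hμ'r
    rcases mul_eq_zero.mp this with h | h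
    · exact h2 h
    · exact pow_ne_zero _ hμ0 h

end Cfsg.Agent.Helper97.THDBB
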