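/-
helper97: piece DBC of CALL S5981 (helper98): the diagonal element diag(ω, ω, ω, 1, …, 1) of
order 3 is not conjugate into a subgroup whose elements have symmetric eigenvalue ranks
(`n ≥ 4`, `n ≠ 6`).
-/
import Mathlib
import Cfsg.Prelude.Def_GeometricClasses
import Cfsg.Agent.Helper97.THDiag

set_option autoImplicit false
set_option linter.unusedSectionVars false
open Matrix Polynomial

namespace Cfsg.Agent.Helper97.THDBC

open Cfsg.Agent.Helper97.THDiag

variable {F : Type*} [Field F] [Fintype F]

/-- DBC -/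
theorem bad_diag_c {n : ℕ} (hn : 4 ≤ n) (hn6 : n ≠ 6) (ω : F) (hω1 : ω ≠ 1) (hω3 : ω ^ 3 = 1)
    (H : Subgroup (GL (Fin n) F))
    (hH : ∀ y ∈ H, ∃ c : F, c ≠ 0 ∧ ∀ l : F, l ≠ 0 →
      ((y : Matrix (Fin n) (Fin n) F) - l • (1 : Matrix (Fin n) (Fin n) F)).rank =
        ((y : Matrix (Fin n) (Fin n) F) - (c / l) • (1 : Matrix (Fin n) (Fin n) F)).rank) :
    ∃ x : GL (Fin n) F, x ∈ Cfsg.Geo.specialLinear (Fin n) F ∧ x ^ 3 = 1 ∧
      (∀ z : F, (x : Matrix (Fin n) (Fin n) F) ≠ z • (1 : Matrix (Fin n) (Fin n) F)) ∧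
      ∀ g : GL (Fin n) F, g⁻¹ * x * g ∉ H := by
  classical
  have hω0 : ω ≠ 0 := by
    rintro rfl
    simp at hω3
  let d : Fin n → F := fun j => if (j : ℕ) < 3 then ω else 1
  have hd0 : ∀ j, d j ≠ 0 := by
    intro j
    simp only [d]
    split_ifs
    · exact hω0
    · exact one_ne_zero
  have hdω : ∀ j, d j = ω ↔ (j : ℕ) < 3 := by
    intro j
    simp only [d]
    split_ifs with h
    · simp [h]
    · simp only [h, iff_false]
      exact fun h' => hω1 h'.symm
  have hd1 : ∀ j, d j = 1 ↔ ¬ (j : ℕ) < 3 := by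
    intro j
    simp only [d]
    split_ifs with h
    · simp only [h, not_true_eq_false, iff_false]
      exact hω1
    · simp [h]
  have hT : (Finset.univ.filter (fun j : Fin n => (j : ℕ) < 3)).card = 3 := by
    rw [Fin.card_filter_val_lt]
    omega
  have hmω : (Finset.univ.filter (fun j => d j = ω)).card = 3 := by
    rw [← hT]
    congr 1
    apply Finset.filter_congr
    intro j _
    exact hdω j
  have hm1 : (Finset.univ.filter (fun j => d j = 1)).card = n - 3 := by
    have h1 : (Finset.univ.filter (fun j => d j = 1)) =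
        (Finset.univ.filter (fun j : Fin n => ¬ (j : ℕ) < 3)) := by
      apply Finset.filter_congr
      intro j _
      exact hd1 j
    have h2 := Finset.card_filter_add_card_filter_not (s := (Finset.univ : Finset (Fin n)))
      (fun j : Fin n => (j : ℕ) < 3)
    rw [Finset.card_univ, Fintype.card_fin, hT] at h2
    rw [h1]
    omega
  have hval : ∀ l : F, 0 < (Finset.univ.filter (fun j => d j = l)).card → l = ω ∨ l = 1 := by
    intro l hl
    obtain ⟨j, hj⟩ := Finset.card_pos.mp hl
    rw [Finset.mem_filter] at hj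
    rw [← hj.2]
    simp only [d]
    split_ifs
    · exact Or.inl rfl
    · exact Or.inr rfl
  have hprod : ∏ j, d j = 1 := by
    simp only [d]
    rw [Finset.prod_ite, Finset.prod_const, Finset.prod_const_one, mul_one, hT, hω3]
  obtain ⟨x, hx⟩ := exists_diag_gl d hd0
  refine ⟨x, diag_mem_sl d x hx hprod, diag_pow_eq_one d x hx 3 ?_, ?_, ?_⟩
  · intro j
    simp only [d]
    split_ifs
    · exact hω3
    · exact one_pow 3
  · refine diag_not_scalar d x hx ⟨0, by omega⟩ ⟨3, by omega⟩ ?_
    simp only [d]
    norm_num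
    exact hω1
  · intro g hg
    obtain ⟨c, hc, hm⟩ := conj_mult d x hx H hH g hg
    have h1 := hm ω hω0
    rw [hmω] at h1
    rcases hval (c / ω) (by omega) with h | h
    · -- c = ω * ω
      have hcω : c = ω * ω := by
        field_simp at h
        rw [h]
        ring
      have h2 := hm 1 one_ne_zero
      rw [hm1, div_one, hcω] at h2
      rcases hval (ω * ω) (by omega) with h' | h'
      · have : ω * (ω - 1) = 0 := by linear_combination h'
        rcases mul_eq_zero.mp this with h'' | h''
        · exact hω0 h''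
        · exact hω1 (sub_eq_zero.mp h'')
      · apply hω1
        have : ω ^ 3 = ω := by
          rw [pow_succ, pow_two, h', one_mul]
        rw [← this, hω3]
    · rw [h, hm1] at h1
      omega

end Cfsg.Agent.Helper97.THDBC
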