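import Mathlib
import Cfsg.Agent.Helper97.TMDefs
import Cfsg.Agent.Helper93.TMAN
import Cfsg.Agent.Helper93.TMCASES
import Cfsg.Agent.Helper47.TMDIAG
import Cfsg.Agent.Helper44.TMEINV
import Cfsg.Agent.Helper93.TMEX2
import Cfsg.Agent.Helper42.TMFIXM
import Cfsg.Agent.Helper53.TMG5A
import Cfsg.Agent.Helper29.TMG5B
import Cfsg.Agent.Helper29.TMG5C
import Cfsg.Agent.Helper29.TMG5D
import Cfsg.Agent.Helper84.TMG5FIX
import Cfsg.Agent.Helper99.TMGUA
import Cfsg.Agent.Helper42.TMIOMM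
import Cfsg.Agent.Helper44.TMKSE
import Cfsg.Agent.Helper44.TMKSF
import Cfsg.Agent.Helper57.TML5
import Cfsg.Agent.Helper52.TMSPE
import Cfsg.Agent.Helper93.TMSPF
import Cfsg.Agent.Helper44.TMTDC
import Cfsg.Agent.Helper84.TMTDS
import Cfsg.Agent.Helper42.TMTVM
import Cfsg.Agent.Helper97.TMG5MV
import Cfsg.Agent.Helper51.TGEXT
import Cfsg.Agent.Helper51.TGCEN
import Cfsg.Agent.Helper51.TGCH
import Cfsg.Agent.Helper51.TGCP
import Cfsg.Agent.Helper80.TGWDET
import Cfsg.Agent.Helper80.TGFIN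
import Cfsg.Agent.Helper61.TGHDET
import Cfsg.Agent.Helper61.TGHORD
import Cfsg.Agent.Helper61.TGPOW
import Cfsg.Agent.Helper55.TGHFIX
import Cfsg.Agent.Helper55.TGXFIX
import Cfsg.Agent.Helper55.TGCOMM
import Cfsg.Agent.S2402
import Cfsg.Agent.S2403
import Cfsg.Agent.S0248

set_option autoImplicit false

/-!
Helper library (helper97): two-generation of `Ω⁻_{2m}(q)`, `m ≥ 4` (assembly for S2415).
-/

universe u

namespace Cfsg.Agent.Helper97.TM

open Cfsg Matrix Cfsg.Agent.Helper45 Cfsg.Agent.Helper98 Cfsg.Agent.Helper97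
  Cfsg.Agent.Helper51 Cfsg.Agent.Helper80 Cfsg.Agent.Helper61 Cfsg.Agent.Helper55
  Cfsg.Agent.Helper29 Cfsg.Agent.Helper42 Cfsg.Agent.Helper44 Cfsg.Agent.Helper47 Cfsg.Agent.Helper52 Cfsg.Agent.Helper53 Cfsg.Agent.Helper57 Cfsg.Agent.Helper84 Cfsg.Agent.Helper93 Cfsg.Agent.Helper99

section key

variable {k : ℕ} {F : Type u} [Field F] {a b : F}

/-- action of a Levi transvection `E(e_i, c f_j)` -/
theorem mv_tvM (i j : Fin k) (hij : i ≠ j) (c : F) (x : (Fin k ⊕ Fin k) ⊕ Fin 2 → F) :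
    mv ⇑(QM k F a b) (eichO (QM k F a b) (eM k F i) (c • fM k F j) (QM_eM i)
      (polar_eM_smul_fM i j hij c)) x =
      x + (c * x (Sum.inl (Sum.inl j))) • eM k F i - (x (Sum.inl (Sum.inr i)) * c) • fM k F j := by
  rw [mv_eichO]
  unfold Helper44.eich
  rw [QM_smul_fM, QuadraticMap.polar_smul_left, polar_fM_left, polar_eM_left, smul_smul]
  simp

theorem polar_fM_smul_eM (i j : Fin k) (hij : i ≠ j) (c : F) :
    QuadraticMap.polar ⇑(QM k F a b) (fM k F i) (c • eM k F j) = 0 := by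
  rw [polar_fM_left]
  simp [hij]

theorem swap_ef (i j : Fin k) (hij : i ≠ j) (c : F) :
    eichO (QM k F a b) (fM k F i) (c • eM k F j) (QM_fM i) (polar_fM_smul_eM i j hij c) =
      eichO (QM k F a b) (eM k F j) ((-c) • fM k F i) (QM_eM j)
        (polar_eM_smul_fM j i (fun h => hij h.symm) (-c)) := by
  apply ext_mv
  intro x
  rw [mv_eichO, mv_eichO]
  unfold Helper44.eich
  rw [QM_smul_eM, QM_smul_fM, QuadraticMap.polar_smul_left, QuadraticMap.polar_smul_left]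
  simp only [polar_eM_left, polar_fM_left, smul_eq_mul, zero_mul, sub_zero, smul_smul]
  module

/-- **Key lemma.** A subgroup of the isometry group of the minus-type form that contains the Levi
transvections `E(e_i, c f_j)` and whose Eichler parameter spaces at `e_{i0}`, `f_{i0}` contain
`e_{i2}`, resp. `f_{i2}`, and the anisotropic plane, contains `Ω`. -/
theorem tm_key [Fintype F] (hk : 2 ≤ k)
    (hab : ∀ z₁ z₂ : F, z₁ ^ 2 + a * z₁ * z₂ + b * z₂ ^ 2 = 0 → z₁ = 0 ∧ z₂ = 0)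
    (M : Subgroup ↥(isometryGroup F ⇑(QM k F a b)))
    (hL : ∀ (i j : Fin k) (hij : i ≠ j) (c : F),
      eichO (QM k F a b) (eM k F i) (c • fM k F j) (QM_eM i) (polar_eM_smul_fM i j hij c) ∈ M)
    (i0 i2 : Fin k) (h02 : i0 ≠ i2)
    (hE : eM k F i2 ∈ tD (QM k F a b) M (eM k F i0) (QM_eM i0))
    (hEz : ∀ l : Fin 2, zM k F l ∈ tD (QM k F a b) M (eM k F i0) (QM_eM i0))
    (hF : fM k F i2 ∈ tD (QM k F a b) M (fM k F i0) (QM_fM i0))
    (hFz : ∀ l : Fin 2, zM k F l ∈ tD (QM k F a b) M (fM k F i0) (QM_fM i0)) :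
    Omega F ⇑(QM k F a b) ≤ M := by
  have h20 : i2 ≠ i0 := fun h => h02 h.symm
  -- `e_{i0}` is a full centre
  have he : eM k F i0 ∈ op_C (QM k F a b) M := by
    refine tm_centre_e M i0 ?_ ?_ hEz
    · intro j hj
      by_cases hj2 : j = i2
      · rw [hj2]; exact hE
      · have hT := hL j i2 hj2 1
        have e1 : mv ⇑(QM k F a b) (eichO (QM k F a b) (eM k F j) ((1 : F) • fM k F i2) (QM_eM j)
            (polar_eM_smul_fM j i2 hj2 1)) (eM k F i0) = eM k F i0 := by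
          rw [mv_tvM j i2 hj2 1]
          simp [h20]
        have e2 : mv ⇑(QM k F a b) (eichO (QM k F a b) (eM k F j) ((1 : F) • fM k F i2) (QM_eM j)
            (polar_eM_smul_fM j i2 hj2 1)) (eM k F i2) = eM k F i2 + eM k F j := by
          rw [mv_tvM j i2 hj2 1]
          simp
        have h3 := tm_tD_stable (QM k F a b) M (eM k F i0) (QM_eM i0) _ hT e1 _ hE
        rw [e2] at h3
        have h4 := Submodule.sub_mem _ h3 hE
        rwa [add_sub_cancel_left] at h4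
    · intro j hj
      have hj' : i0 ≠ j := fun h => hj h.symm
      have hp : QuadraticMap.polar ⇑(QM k F a b) (eM k F i0) (fM k F j) = 0 := by
        rw [polar_eM_left]
        simp [hj']
      exact ⟨hp, fun c => hL i0 j hj' c⟩
  -- `f_{i0}` is a full centre
  have hf : fM k F i0 ∈ op_C (QM k F a b) M := by
    refine tm_centre_f M i0 ?_ ?_ hFz
    · intro j hj
      have hj' : i0 ≠ j := fun h => hj h.symm
      have hp : QuadraticMap.polar ⇑(QM k F a b) (fM k F i0) (eM k F j) = 0 := by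
        rw [polar_fM_left]
        simp [hj']
      refine ⟨hp, fun c => ?_⟩
      have := hL j i0 hj (-c)
      rw [← swap_ef i0 j (fun h => hj h.symm) c] at this
      exact this
    · intro j hj
      by_cases hj2 : j = i2
      · rw [hj2]; exact hF
      · have hT := hL i2 j (fun h => hj2 h.symm) 1
        have e1 : mv ⇑(QM k F a b) (eichO (QM k F a b) (eM k F i2) ((1 : F) • fM k F j) (QM_eM i2)
            (polar_eM_smul_fM i2 j (fun h => hj2 h.symm) 1)) (fM k F i0) = fM k F i0 := by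
          rw [mv_tvM i2 j (fun h => hj2 h.symm) 1]
          simp [h20]
        have e2 : mv ⇑(QM k F a b) (eichO (QM k F a b) (eM k F i2) ((1 : F) • fM k F j) (QM_eM i2)
            (polar_eM_smul_fM i2 j (fun h => hj2 h.symm) 1)) (fM k F i2) =
            fM k F i2 - fM k F j := by
          rw [mv_tvM i2 j (fun h => hj2 h.symm) 1]
          simp
        have h3 := tm_tD_stable (QM k F a b) M (fM k F i0) (QM_fM i0) _ hT e1 _ hF
        rw [e2] at h3
        have h4 := Submodule.sub_mem _ hF h3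
        rwa [sub_sub_cancel] at h4
  have hn : 5 ≤ Fintype.card ((Fin k ⊕ Fin k) ⊕ Fin 2) := by
    rw [Fintype.card_sum, Fintype.card_sum, Fintype.card_fin, Fintype.card_fin]; omega
  refine op_omega_le (QM k F a b) (Helper45.minusQF_nondeg' k a b hab) hn M (eM k F i0)
    (fM k F i0) he hf ?_
  rw [polar_eM_left]
  simp

end key

section main

variable {F : Type u} [Field F] [Fintype F]

theorem tm_kappa2 (hK : Fintype.card F ≤ 3) (a b : F)
    (hab : ∀ z₁ z₂ : F, z₁ ^ 2 + a * z₁ * z₂ + b * z₂ ^ 2 = 0 → z₁ = 0 ∧ z₂ = 0) :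
    a + 2 * b ≠ 4 := by
  rcases tm_cases hK a b hab with ⟨h2, rfl, rfl⟩ | ⟨h3, ⟨rfl, rfl⟩ | ⟨rfl, rfl⟩ | ⟨rfl, rfl⟩⟩
  · intro h
    have : (1 : F) = 0 := by linear_combination (-1 : F) * h
    exact one_ne_zero this
  · intro h
    have h3' : (3 : F) = 0 := by exact_mod_cast CharP.cast_eq_zero F 3
    have : (1 : F) = 0 := by linear_combination h + h3'
    exact one_ne_zero this
  · intro h
    have h3' : (3 : F) = 0 := by exact_mod_cast CharP.cast_eq_zero F 3
    have : (1 : F) = 0 := by linear_combination h + 2 * h3'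
    exact one_ne_zero this
  · intro h
    have h3' : (3 : F) = 0 := by exact_mod_cast CharP.cast_eq_zero F 3
    have : (1 : F) = 0 := by linear_combination (-1 : F) * h - 2 * h3'
    exact one_ne_zero this

theorem tm_main (n : ℕ) (hn : 2 ≤ n) (a b : F)
    (hab : ∀ z₁ z₂ : F, z₁ ^ 2 + a * z₁ * z₂ + b * z₂ ^ 2 = 0 → z₁ = 0 ∧ z₂ = 0) :
    ∃ g h : ↥(isometryGroup F ⇑(QM (n + 1) F a b)), g ∈ Omega F ⇑(QM (n + 1) F a b) ∧
      h ∈ Omega F ⇑(QM (n + 1) F a b) ∧
      Omega F ⇑(QM (n + 1) F a b) ≤ Subgroup.closure {g, h} := by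
  classical
  have h01 : (0 : Fin (n + 1)) ≠ 1 := by
    intro h
    have := congrArg Fin.val h
    rw [Fin.val_zero, Fin.val_one'] at this
    rw [Nat.mod_eq_of_lt (by omega)] at this
    omega
  obtain ⟨i2, hi2⟩ : ∃ i : Fin (n + 1), i.val = 2 := ⟨⟨2, by omega⟩, rfl⟩
  have h02 : (0 : Fin (n + 1)) ≠ i2 := fun h => by rw [← h, Fin.val_zero] at hi2; omega
  have h20 : i2 ≠ (0 : Fin (n + 1)) := fun h => h02 h.symm
  have h12 : (1 : Fin (n + 1)) ≠ i2 := fun h => by
    have := congrArg Fin.val h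
    rw [Fin.val_one', Nat.mod_eq_of_lt (by omega), hi2] at this
    omega
  have hm3 : 3 ≤ n + 1 := by omega
  have hcard : 5 ≤ Fintype.card ((Fin (n + 1) ⊕ Fin (n + 1)) ⊕ Fin 2) := by
    rw [Fintype.card_sum, Fintype.card_sum, Fintype.card_fin, Fintype.card_fin]; omega
  have hnd := Helper45.minusQF_nondeg' (n + 1) a b hab
  obtain ⟨x, hx⟩ : ∃ x : Matrix.SpecialLinearGroup (Fin (n + 1)) F,
      (x : Matrix (Fin (n + 1)) (Fin (n + 1)) F) =
        Matrix.transvection (0 : Fin (n + 1)) (1 : Fin (n + 1)) 1 :=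
    ⟨⟨_, Matrix.det_transvection_of_ne _ _ h01 _⟩, rfl⟩
  obtain ⟨w, hw⟩ : ∃ w : Matrix.SpecialLinearGroup (Fin (n + 1)) F,
      (w : Matrix (Fin (n + 1)) (Fin (n + 1)) F) =
        Matrix.of (fun i j => if j.val = i.val + 1 then 1 else
          if i.val = n ∧ j.val = 0 then (-1) ^ n else 0) :=
    ⟨⟨_, tg_cycW_det n⟩, rfl⟩
  have hx_eq := tm_iotaM_transvection (a := a) (b := b) x 0 1 h01 1 hx
  -- the Levi transvections, from all of `iotaM`
  have hLof : ∀ M : Subgroup ↥(isometryGroup F ⇑(QM (n + 1) F a b)),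
      (∀ T : Matrix.SpecialLinearGroup (Fin (n + 1)) F, iotaM (n + 1) F a b T ∈ M) →
      ∀ (i j : Fin (n + 1)) (hij : i ≠ j) (c : F),
        eichO (QM (n + 1) F a b) (eM (n + 1) F i) (c • fM (n + 1) F j) (QM_eM i)
          (polar_eM_smul_fM i j hij c) ∈ M := by
    intro M hall i j hij c
    rw [← tm_iotaM_transvection ⟨Matrix.transvection i j c,
      Matrix.det_transvection_of_ne i j hij c⟩ i j hij c rfl]
    exact hall _
  -- all of `iotaM` from two generators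
  have hallof : ∀ (M : Subgroup ↥(isometryGroup F ⇑(QM (n + 1) F a b)))
      (y z : Matrix.SpecialLinearGroup (Fin (n + 1)) F),
      Subgroup.closure ({y, z} : Set (Matrix.SpecialLinearGroup (Fin (n + 1)) F)) ⊔
        Subgroup.center (Matrix.SpecialLinearGroup (Fin (n + 1)) F) = ⊤ →
      iotaM (n + 1) F a b y ∈ M → iotaM (n + 1) F a b z ∈ M →
      ∀ T : Matrix.SpecialLinearGroup (Fin (n + 1)) F, iotaM (n + 1) F a b T ∈ M := by
    intro M y z hS hy hz T
    have htop : Subgroup.closure ({y, z} : Set (Matrix.SpecialLinearGroup (Fin (n + 1)) F)) = ⊤ := by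
      rw [eq_top_iff, ← Cfsg.Agent.S0248.result (F := F) (n + 1) hm3]
      exact tg_commutator_le_of_sup_center _ hS
    have hT : T ∈ Subgroup.closure ({y, z} : Set (Matrix.SpecialLinearGroup (Fin (n + 1)) F)) := by
      rw [htop]; trivial
    have hle : Subgroup.map (iotaM (n + 1) F a b)
        (Subgroup.closure ({y, z} : Set (Matrix.SpecialLinearGroup (Fin (n + 1)) F))) ≤ M := by
      rw [MonoidHom.map_closure, Subgroup.closure_le]
      rintro _ ⟨v, hv, rfl⟩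
      rcases hv with rfl | rfl
      · exact hy
      · exact hz
    exact hle (Subgroup.mem_map_of_mem _ hT)
  -- the two seeds of the parameter spaces
  have seedE : ∀ M : Subgroup ↥(isometryGroup F ⇑(QM (n + 1) F a b)),
      (∀ (i j : Fin (n + 1)) (hij : i ≠ j) (c : F),
        eichO (QM (n + 1) F a b) (eM (n + 1) F i) (c • fM (n + 1) F j) (QM_eM i)
          (polar_eM_smul_fM i j hij c) ∈ M) →
      fM (n + 1) F i2 ∈ tD (QM (n + 1) F a b) M (eM (n + 1) F 0) (QM_eM 0) := by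
    intro M hL
    have hp0 : QuadraticMap.polar ⇑(QM (n + 1) F a b) (eM (n + 1) F 0) (fM (n + 1) F i2) = 0 := by
      rw [polar_eM_left]
      simp [h02]
    exact ⟨hp0, fun c => hL 0 i2 h02 c⟩
  have seedF : ∀ M : Subgroup ↥(isometryGroup F ⇑(QM (n + 1) F a b)),
      (∀ (i j : Fin (n + 1)) (hij : i ≠ j) (c : F),
        eichO (QM (n + 1) F a b) (eM (n + 1) F i) (c • fM (n + 1) F j) (QM_eM i)
          (polar_eM_smul_fM i j hij c) ∈ M) →
      eM (n + 1) F i2 ∈ tD (QM (n + 1) F a b) M (fM (n + 1) F 0) (QM_fM 0) := by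
    intro M hL
    have hp0 : QuadraticMap.polar ⇑(QM (n + 1) F a b) (fM (n + 1) F 0) (eM (n + 1) F i2) = 0 := by
      rw [polar_fM_left]
      simp [h02]
    refine ⟨hp0, fun c => ?_⟩
    have := hL i2 0 h20 (-c)
    rw [← swap_ef 0 i2 h02 c] at this
    exact this
  by_cases hK : 3 < Fintype.card F
  · obtain ⟨k, hk⟩ := IsCyclic.exists_generator (α := Fˣ)
    obtain ⟨h, hh⟩ : ∃ h : Matrix.SpecialLinearGroup (Fin (n + 1)) F,
        (h : Matrix (Fin (n + 1)) (Fin (n + 1)) F) =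
          Matrix.diagonal (fun i => if i.val = 0 then (k : F) else
            if i.val = 1 then ((k⁻¹ : Fˣ) : F) else 1) :=
      ⟨⟨_, tg_h_det n (by omega) k⟩, rfl⟩
    have hS := Cfsg.Agent.S2402.result hK n (by omega) k hk h x w hh hx hw
    obtain ⟨p, hp⟩ := CharP.exists F
    have hfe2 := tm_iotaM_fix_e (a := a) (b := b) h i2 (tg_h_fix n k h hh i2 (by omega)).1
    have hff2 := tm_iotaM_fix_f (a := a) (b := b) h i2 (tg_h_fix n k h hh i2 (by omega)).2
    have hgO : gU a b i2 ∈ Omega F ⇑(QM (n + 1) F a b) :=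
      eichO_mem_omega (QM (n + 1) F a b) hnd hcard _ _ _ _
    have hcomm : Commute (iotaM (n + 1) F a b h) (gU a b i2) :=
      tg_commute_eichO (QM (n + 1) F a b) (iotaM (n + 1) F a b h) _ _ _ _
        (by rw [mv_sub, mv_add, hfe2, hff2, tm_iotaM_fix_z])
        (by rw [mv_sub, mv_smul, hff2, tm_iotaM_fix_z])
    have hord : (iotaM (n + 1) F a b h) ^ (Fintype.card F - 1) = 1 := by
      rw [← map_pow, tg_h_pow n k h hh, map_one]
    have hgp : (gU a b i2) ^ p = 1 := tg_eichO_pow_char (QM (n + 1) F a b) p _ _ _ _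
    refine ⟨iotaM (n + 1) F a b h * gU a b i2, iotaM (n + 1) F a b (x * w),
      mul_mem (tm_iotaM_mem_omega hm3 h) hgO, tm_iotaM_mem_omega hm3 _, ?_⟩
    obtain ⟨hh', hg'⟩ := tg_coprime_extract (iotaM (n + 1) F a b h) (gU a b i2) hcomm _ _ hord hgp
      (tg_coprime_card p) (Subgroup.closure {iotaM (n + 1) F a b h * gU a b i2,
        iotaM (n + 1) F a b (x * w)}) (Subgroup.subset_closure (by simp))
    have hall := hallof _ h (x * w) hS hh' (Subgroup.subset_closure (by simp))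
    generalize Subgroup.closure {iotaM (n + 1) F a b h * gU a b i2,
        iotaM (n + 1) F a b (x * w)} = M at hg' hall ⊢
    have hL := hLof M hall
    obtain ⟨t, ht0, ht1⟩ := tm_exists_ne (K := F) (by omega)
    obtain ⟨A, hA1, hA2, hA3, hA4⟩ := tm_diag a b (0 : Fin (n + 1)) 1 i2 h01 h02 h12 t ht0
    have hδ := hall A
    have hgE : ∀ v ∈ tD (QM (n + 1) F a b) M (eM (n + 1) F 0) (QM_eM 0),
        mv ⇑(QM (n + 1) F a b) (gU a b i2) v ∈
          tD (QM (n + 1) F a b) M (eM (n + 1) F 0) (QM_eM 0) := fun v hv =>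
      tm_tD_stable (QM (n + 1) F a b) M _ _ _ hg' (tm_gU_other_e a b i2 0 h02) v hv
    have hδE : ∀ v ∈ tD (QM (n + 1) F a b) M (eM (n + 1) F 0) (QM_eM 0),
        mv ⇑(QM (n + 1) F a b) (iotaM (n + 1) F a b A) v ∈
          tD (QM (n + 1) F a b) M (eM (n + 1) F 0) (QM_eM 0) := fun v hv =>
      tm_tD_stable (QM (n + 1) F a b) M _ _ _ hδ hA3 v hv
    have hgF : ∀ v ∈ tD (QM (n + 1) F a b) M (fM (n + 1) F 0) (QM_fM 0),
        mv ⇑(QM (n + 1) F a b) (gU a b i2) v ∈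
          tD (QM (n + 1) F a b) M (fM (n + 1) F 0) (QM_fM 0) := fun v hv =>
      tm_tD_stable (QM (n + 1) F a b) M _ _ _ hg' (tm_gU_other_f a b i2 0 h02) v hv
    have hδF : ∀ v ∈ tD (QM (n + 1) F a b) M (fM (n + 1) F 0) (QM_fM 0),
        mv ⇑(QM (n + 1) F a b) (iotaM (n + 1) F a b A) v ∈
          tD (QM (n + 1) F a b) M (fM (n + 1) F 0) (QM_fM 0) := fun v hv =>
      tm_tD_stable (QM (n + 1) F a b) M _ _ _ hδ hA4 v hv
    have hTe := tm_span_gU_e a b hab i2 _ (seedE M hL) hgE (iotaM (n + 1) F a b A) t ht0 ht1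
      hA1 hA2 (fun j => tm_iotaM_fix_z A j) hδE
    have hTf1 := tm_span_gU_f a b hab i2 _ (seedF M hL) hgF (iotaM (n + 1) F a b A) t ht0 ht1
      hA1 hA2 (fun j => tm_iotaM_fix_z A j) hδF
    have hTf := tm_span_gU_e a b hab i2 _ hTf1 hgF (iotaM (n + 1) F a b A) t ht0 ht1
      hA1 hA2 (fun j => tm_iotaM_fix_z A j) hδF
    exact tm_key (by omega) hab M hL 0 i2 h02 hTe.1 (Fin.forall_fin_two.2 ⟨hTe.2.1, hTe.2.2⟩)
      hTf1 (Fin.forall_fin_two.2 ⟨hTf.2.1, hTf.2.2⟩)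
  · have hK' : Fintype.card F ≤ 3 := by omega
    have hS := Cfsg.Agent.S2403.result hK' n (by omega) x w hx hw
    have hfe2 := tm_iotaM_fix_e (a := a) (b := b) x i2 (tg_x_fix n x hx i2 (by omega)).1
    have hff2 := tm_iotaM_fix_f (a := a) (b := b) x i2 (tg_x_fix n x hx i2 (by omega)).2
    obtain ⟨hb0, -, hab1⟩ := tm_aniso a b hab
    have hκ := tm_kappa2 hK' a b hab
    have hgO : g5 a b i2 ∈ Omega F ⇑(QM (n + 1) F a b) :=
      mul_mem (eichO_mem_omega (QM (n + 1) F a b) hnd hcard _ _ _ _)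
        (eichO_mem_omega (QM (n + 1) F a b) hnd hcard _ _ _ _)
    have hcomm : Commute (iotaM (n + 1) F a b x) (g5 a b i2) :=
      (tg_commute_eichO (QM (n + 1) F a b) (iotaM (n + 1) F a b x) _ _ _ _ hfe2
          (tm_iotaM_fix_z x 1)).mul_right
        (tg_commute_eichO (QM (n + 1) F a b) (iotaM (n + 1) F a b x) _ _ _ _ hff2
          (by rw [mv_add, tm_iotaM_fix_z, tm_iotaM_fix_z]))
    obtain ⟨p, hp5, hord⟩ : ∃ p : ℕ, Nat.Coprime p 5 ∧ (iotaM (n + 1) F a b x) ^ p = 1 := by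
      rcases tg_char_small hK' with h2 | h3
      · exact ⟨2, by decide, by
          rw [hx_eq]; exact tg_eichO_pow_char (QM (n + 1) F a b) 2 _ _ _ _⟩
      · exact ⟨3, by decide, by
          rw [hx_eq]; exact tg_eichO_pow_char (QM (n + 1) F a b) 3 _ _ _ _⟩
    have hg5 : (g5 a b i2) ^ 5 = 1 := by
      rcases tm_cases hK' a b hab with ⟨h2, rfl, rfl⟩ | ⟨h3, ⟨rfl, rfl⟩ | ⟨rfl, rfl⟩ | ⟨rfl, rfl⟩⟩
      · exact tm_g5_pow_A i2
      · exact tm_g5_pow_B i2
      · exact tm_g5_pow_C i2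
      · exact tm_g5_pow_D i2
    refine ⟨iotaM (n + 1) F a b x * g5 a b i2, iotaM (n + 1) F a b w,
      mul_mem (tm_iotaM_mem_omega hm3 x) hgO, tm_iotaM_mem_omega hm3 _, ?_⟩
    obtain ⟨hx', hg'⟩ := tg_coprime_extract (iotaM (n + 1) F a b x) (g5 a b i2) hcomm p 5 hord hg5
      hp5 (Subgroup.closure {iotaM (n + 1) F a b x * g5 a b i2,
        iotaM (n + 1) F a b w}) (Subgroup.subset_closure (by simp))
    have hall := hallof _ x w hS hx' (Subgroup.subset_closure (by simp))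
    generalize Subgroup.closure {iotaM (n + 1) F a b x * g5 a b i2,
        iotaM (n + 1) F a b w} = M at hg' hall ⊢
    have hL := hLof M hall
    -- the parameter space at `e_0`
    have hκ1 : QuadraticMap.polar ⇑(QM (n + 1) F a b) (zM (n + 1) F 1)
        (zM (n + 1) F 0 + zM (n + 1) F 1) ≠ 4 := by
      rw [polar_zM1_left]
      simpa using hκ
    have hTe := tm_span_pair (QM (n + 1) F a b) (eM (n + 1) F i2) (fM (n + 1) F i2)
      (zM (n + 1) F 1) (zM (n + 1) F 0 + zM (n + 1) F 1) (QM_eM i2) (QM_fM i2)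
      (by rw [polar_eM_left]; simp)
      (polar_eM_zM a b i2 _ (by simp)) (polar_fM_zM a b i2 _ (by simp))
      (polar_eM_zM a b i2 _ (by simp)) (polar_fM_zM a b i2 _ (by simp))
      (by rw [QM_zM1]; exact hb0) hκ1
      (tD (QM (n + 1) F a b) M (eM (n + 1) F 0) (QM_eM 0)) (seedE M hL)
      (fun v hv => tm_tD_stable (QM (n + 1) F a b) M _ _ (g5 a b i2) hg'
        (tm_g5_other_e a b i2 0 h02) v hv)
    -- the parameter space at `f_0`
    have hq1 : QuadraticMap.polar ⇑(QM (n + 1) F a b) (fM (n + 1) F i2)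
        (-(zM (n + 1) F 0 + zM (n + 1) F 1)) = 0 := polar_fM_zM a b i2 _ (by simp)
    have hq2 : QuadraticMap.polar ⇑(QM (n + 1) F a b) (eM (n + 1) F i2)
        (-zM (n + 1) F 1) = 0 := polar_eM_zM a b i2 _ (by simp)
    have hinv : (g5 a b i2)⁻¹ =
        eichO (QM (n + 1) F a b) (fM (n + 1) F i2) (-(zM (n + 1) F 0 + zM (n + 1) F 1))
          (QM_fM i2) hq1 *
        eichO (QM (n + 1) F a b) (eM (n + 1) F i2) (-zM (n + 1) F 1) (QM_eM i2) hq2 := by
      unfold g5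
      rw [_root_.mul_inv_rev, tm_eichO_inv (QM (n + 1) F a b) (fM (n + 1) F i2) _ (QM_fM i2) _ hq1,
        tm_eichO_inv (QM (n + 1) F a b) (eM (n + 1) F i2) _ (QM_eM i2) _ hq2]
    have hfix : mv ⇑(QM (n + 1) F a b) (g5 a b i2)⁻¹ (fM (n + 1) F 0) = fM (n + 1) F 0 := by
      conv_lhs => rw [← tm_g5_other_f a b i2 0 h02]
      rw [mv_inv_cancel']
    have hκ2 : QuadraticMap.polar ⇑(QM (n + 1) F a b) (-(zM (n + 1) F 0 + zM (n + 1) F 1))
        (-zM (n + 1) F 1) ≠ 4 := by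
      rw [QuadraticMap.polar_neg_left, QuadraticMap.polar_neg_right, neg_neg,
        QuadraticMap.polar_comm]
      exact hκ1
    have hTf := tm_span_pair (QM (n + 1) F a b) (fM (n + 1) F i2) (eM (n + 1) F i2)
      (-(zM (n + 1) F 0 + zM (n + 1) F 1)) (-zM (n + 1) F 1) (QM_fM i2) (QM_eM i2)
      (by rw [polar_fM_left]; simp)
      hq1 (polar_eM_zM a b i2 _ (by simp))
      (polar_fM_zM a b i2 _ (by simp)) hq2
      (by rw [QuadraticMap.map_neg, tm_QM_z01]; exact hab1) hκ2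
      (tD (QM (n + 1) F a b) M (fM (n + 1) F 0) (QM_fM 0)) (seedF M hL)
      (fun v hv => by
        rw [← hinv]
        exact tm_tD_stable (QM (n + 1) F a b) M _ _ (g5 a b i2)⁻¹ (inv_mem hg') hfix v hv)
    have hz1E := hTe.2.1
    have hz0E : zM (n + 1) F 0 ∈ tD (QM (n + 1) F a b) M (eM (n + 1) F 0) (QM_eM 0) := by
      have := Submodule.sub_mem _ hTe.2.2 hz1E
      rwa [add_sub_cancel_right] at this
    have hz1F : zM (n + 1) F 1 ∈ tD (QM (n + 1) F a b) M (fM (n + 1) F 0) (QM_fM 0) :=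
      neg_mem_iff.mp hTf.2.2
    have hz0F : zM (n + 1) F 0 ∈ tD (QM (n + 1) F a b) M (fM (n + 1) F 0) (QM_fM 0) := by
      have := Submodule.sub_mem _ (neg_mem_iff.mp hTf.2.1) hz1F
      rwa [add_sub_cancel_right] at this
    exact tm_key (by omega) hab M hL 0 i2 h02 hTe.1 (Fin.forall_fin_two.2 ⟨hz0E, hz1E⟩)
      hTf.1 (Fin.forall_fin_two.2 ⟨hz0F, hz1F⟩)

/-- `PΩ⁻_{2m}(F)`, `m ≥ 4`, is generated by two elements. -/
theorem tm_result (m : ℕ) (hm : 4 ≤ m) (a b : F)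
    (hab : ∀ z₁ z₂ : F, z₁ ^ 2 + a * z₁ * z₂ + b * z₂ ^ 2 = 0 → z₁ = 0 ∧ z₂ = 0) :
    ∃ g h : Cfsg.POmega F (Cfsg.quadFormMinus (m - 1) F a b),
      Subgroup.closure ({g, h} : Set (Cfsg.POmega F (Cfsg.quadFormMinus (m - 1) F a b))) = ⊤ := by
  obtain ⟨N, hN⟩ : ∃ N, m - 1 = N + 1 := ⟨m - 2, by omega⟩
  rw [hN]
  obtain ⟨g, h, hg, hh, hle⟩ := tm_main (F := F) N (by omega) a b hab
  exact tg_final (Cfsg.quadFormMinus (N + 1) F a b) g h hg hh hle

end main

end Cfsg.Agent.Helper97.TM
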