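import Mathlib
import Cfsg.Agent.Helper97.TNDefs
import Cfsg.Agent.Helper20.TNEZMV
import Cfsg.Agent.Helper33.TNIOM2
import Cfsg.Agent.Helper24.TNIOM3
import Cfsg.Agent.Helper24.TNKSEO
import Cfsg.Agent.Helper3.TNKSFO
import Cfsg.Agent.Helper3.TNN0A
import Cfsg.Agent.Helper3.TNN0B
import Cfsg.Agent.Helper83.TNNDO
import Cfsg.Agent.Helper80.TNPULL
import Cfsg.Agent.Helper83.TNROOT
import Cfsg.Agent.Helper83.TNSQ2
import Cfsg.Agent.Helper78.TNTOR
import Cfsg.Agent.Helper24.TNTVO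
import Cfsg.Agent.Helper76.TNWE
import Cfsg.Agent.Helper33.TNWF
import Cfsg.Agent.Helper84.TMTDS
import Cfsg.Agent.Helper51.TGEXT
import Cfsg.Agent.Helper51.TGCP
import Cfsg.Agent.Helper80.TGWDET
import Cfsg.Agent.Helper80.TGFIN
import Cfsg.Agent.Helper61.TGPOW
import Cfsg.Agent.Helper55.TGCOMM

set_option autoImplicit false

/-!
Helper library (helper97): two-generation of `Ω_{2m+1}(q)`, `m ≥ 2`, `q` odd (assembly for S2413).
-/

universe u

namespace Cfsg.Agent.Helper97.TN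

open Cfsg Matrix Cfsg.Agent.Helper45 Cfsg.Agent.Helper98 Cfsg.Agent.Helper97
  Cfsg.Agent.Helper97.TM Cfsg.Agent.Helper51 Cfsg.Agent.Helper80 Cfsg.Agent.Helper61
  Cfsg.Agent.Helper55 Cfsg.Agent.Helper84
  Cfsg.Agent.Helper20 Cfsg.Agent.Helper24 Cfsg.Agent.Helper3 Cfsg.Agent.Helper33 Cfsg.Agent.Helper76 Cfsg.Agent.Helper78 Cfsg.Agent.Helper83

section key

variable {m : ℕ} {F : Type u} [Field F]

/-- **Key lemma.** A subgroup of the isometry group of the odd-dimensional form whose Eichler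
parameter spaces at `e_{i0}` and `f_{i0}` contain `z`, and which contains the short root elements
`E(e_j, z)`, `E(f_j, z)` for `j ≠ i0`, contains `Ω`. -/
theorem tn_key [Fintype F] (hm : 2 ≤ m) (h2 : (2 : F) ≠ 0)
    (hnd : (QuadraticMap.polarBilin (QO m F)).Nondegenerate)
    (M : Subgroup ↥(isometryGroup F ⇑(QO m F))) (i0 : Fin m)
    (hZe : zO m F ∈ tD (QO m F) M (eO m F i0) (QO_eO i0))
    (hZf : zO m F ∈ tD (QO m F) M (fO m F i0) (QO_fO i0))
    (hE : ∀ j, j ≠ i0 → eichO (QO m F) (eO m F j) ((1 : F) • zO m F) (QO_eO j)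
      (polar_eO_smul_zO j 1) ∈ M)
    (hF : ∀ j, j ≠ i0 → eichO (QO m F) (fO m F j) ((1 : F) • zO m F) (QO_fO j)
      (polar_fO_smul_zO j 1) ∈ M) :
    Omega F ⇑(QO m F) ≤ M := by
  have he : eO m F i0 ∈ op_C (QO m F) M := by
    refine tn_centre_e M i0 ?_ ?_ hZe
    · intro j hj
      have hj' : i0 ≠ j := fun h => hj h.symm
      have e1 : mv ⇑(QO m F) (eichO (QO m F) (eO m F j) ((1 : F) • zO m F) (QO_eO j)
          (polar_eO_smul_zO j 1)) (eO m F i0) = eO m F i0 := by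
        rw [tn_mv_ez]
        simp
      have e2 : mv ⇑(QO m F) (eichO (QO m F) (eO m F j) ((1 : F) • zO m F) (QO_eO j)
          (polar_eO_smul_zO j 1)) (zO m F) = zO m F + (2 : F) • eO m F j := by
        rw [tn_mv_ez]
        simp
      have h3 := tm_tD_stable (QO m F) M (eO m F i0) (QO_eO i0) _ (hE j hj) e1 _ hZe
      rw [e2] at h3
      have h4 := Submodule.sub_mem _ h3 hZe
      rw [add_sub_cancel_left] at h4
      exact (Submodule.smul_mem_iff _ h2).mp h4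
    · intro j hj
      have hj' : i0 ≠ j := fun h => hj h.symm
      have e1 : mv ⇑(QO m F) (eichO (QO m F) (fO m F j) ((1 : F) • zO m F) (QO_fO j)
          (polar_fO_smul_zO j 1)) (eO m F i0) = eO m F i0 := by
        rw [tn_mv_fz]
        simp [hj]
      have e2 : mv ⇑(QO m F) (eichO (QO m F) (fO m F j) ((1 : F) • zO m F) (QO_fO j)
          (polar_fO_smul_zO j 1)) (zO m F) = zO m F + (2 : F) • fO m F j := by
        rw [tn_mv_fz]
        simp
      have h3 := tm_tD_stable (QO m F) M (eO m F i0) (QO_eO i0) _ (hF j hj) e1 _ hZe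
      rw [e2] at h3
      have h4 := Submodule.sub_mem _ h3 hZe
      rw [add_sub_cancel_left] at h4
      exact (Submodule.smul_mem_iff _ h2).mp h4
  have hf : fO m F i0 ∈ op_C (QO m F) M := by
    refine tn_centre_f M i0 ?_ ?_ hZf
    · intro j hj
      have hj' : i0 ≠ j := fun h => hj h.symm
      have e1 : mv ⇑(QO m F) (eichO (QO m F) (eO m F j) ((1 : F) • zO m F) (QO_eO j)
          (polar_eO_smul_zO j 1)) (fO m F i0) = fO m F i0 := by
        rw [tn_mv_ez]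
        simp [hj]
      have e2 : mv ⇑(QO m F) (eichO (QO m F) (eO m F j) ((1 : F) • zO m F) (QO_eO j)
          (polar_eO_smul_zO j 1)) (zO m F) = zO m F + (2 : F) • eO m F j := by
        rw [tn_mv_ez]
        simp
      have h3 := tm_tD_stable (QO m F) M (fO m F i0) (QO_fO i0) _ (hE j hj) e1 _ hZf
      rw [e2] at h3
      have h4 := Submodule.sub_mem _ h3 hZf
      rw [add_sub_cancel_left] at h4
      exact (Submodule.smul_mem_iff _ h2).mp h4
    · intro j hj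
      have hj' : i0 ≠ j := fun h => hj h.symm
      have e1 : mv ⇑(QO m F) (eichO (QO m F) (fO m F j) ((1 : F) • zO m F) (QO_fO j)
          (polar_fO_smul_zO j 1)) (fO m F i0) = fO m F i0 := by
        rw [tn_mv_fz]
        simp
      have e2 : mv ⇑(QO m F) (eichO (QO m F) (fO m F j) ((1 : F) • zO m F) (QO_fO j)
          (polar_fO_smul_zO j 1)) (zO m F) = zO m F + (2 : F) • fO m F j := by
        rw [tn_mv_fz]
        simp
      have h3 := tm_tD_stable (QO m F) M (fO m F i0) (QO_fO i0) _ (hF j hj) e1 _ hZf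
      rw [e2] at h3
      have h4 := Submodule.sub_mem _ h3 hZf
      rw [add_sub_cancel_left] at h4
      exact (Submodule.smul_mem_iff _ h2).mp h4
  have hn : 5 ≤ Fintype.card (Unit ⊕ (Fin m ⊕ Fin m)) := by
    rw [Fintype.card_sum, Fintype.card_sum, Fintype.card_fin, Fintype.card_unit]; omega
  refine op_omega_le (QO m F) hnd hn M (eO m F i0) (fO m F i0) he hf ?_
  rw [polar_eO_left]
  simp

end key

section core

variable {F : Type u} [Field F] [Fintype F]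

/-- the generation argument, for abstract elements `t`, `b` with the right action -/
theorem tn_core (n : ℕ) (hn : 1 ≤ n) (h2 : (2 : F) ≠ 0)
    (hnd : (QuadraticMap.polarBilin (QO (n + 1) F)).Nondegenerate)
    (M : Subgroup ↥(isometryGroup F ⇑(QO (n + 1) F)))
    (k : Fˣ) (hk : ∀ x : Fˣ, x ∈ Subgroup.zpowers k)
    (t : ↥(isometryGroup F ⇑(QO (n + 1) F))) (ht : t ∈ M)
    (ht1 : mv ⇑(QO (n + 1) F) t (eO (n + 1) F 1) = ((k : F) ^ 2) • eO (n + 1) F 1)
    (htz : mv ⇑(QO (n + 1) F) t (zO (n + 1) F) = zO (n + 1) F)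
    (hu : eichO (QO (n + 1) F) (eO (n + 1) F 0) (zO (n + 1) F) (QO_eO 0) (polar_eO_zO 0) ∈ M)
    (b : ↥(isometryGroup F ⇑(QO (n + 1) F))) (hb : b ∈ M)
    (hb_e : ∀ c d : Fin (n + 1), c.val = d.val + 1 →
      mv ⇑(QO (n + 1) F) b (eO (n + 1) F c) = eO (n + 1) F d)
    (hb_f : ∀ c d : Fin (n + 1), c.val = d.val + 1 →
      mv ⇑(QO (n + 1) F) b (fO (n + 1) F c) = fO (n + 1) F d)
    (s : F) (hs : s ≠ 0)
    (hb_f0 : mv ⇑(QO (n + 1) F) b (fO (n + 1) F 0) = s • eO (n + 1) F (Fin.last n))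
    (hb_z : mv ⇑(QO (n + 1) F) b (zO (n + 1) F) = -zO (n + 1) F) :
    Omega F ⇑(QO (n + 1) F) ≤ M := by
  have hv1 : (1 : Fin (n + 1)).val = (0 : Fin (n + 1)).val + 1 := by
    rw [Fin.val_one', Nat.mod_eq_of_lt (by omega), Fin.val_zero]
  have hbneg : mv ⇑(QO (n + 1) F) b (-zO (n + 1) F) = zO (n + 1) F := by
    rw [← neg_one_smul F (zO (n + 1) F), mv_smul, hb_z, neg_one_smul, neg_neg]
  have e1 : mv ⇑(QO (n + 1) F) b⁻¹ (eO (n + 1) F 0) = eO (n + 1) F 1 := by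
    conv_lhs => rw [← hb_e 1 0 hv1]
    rw [mv_inv_cancel']
  have e2 : mv ⇑(QO (n + 1) F) b⁻¹ (zO (n + 1) F) = -zO (n + 1) F := by
    conv_lhs => rw [← hbneg]
    rw [mv_inv_cancel']
  have hδ : b * t * b⁻¹ ∈ M := M.mul_mem (M.mul_mem hb ht) (M.inv_mem hb)
  have hδu : mv ⇑(QO (n + 1) F) (b * t * b⁻¹) (eO (n + 1) F 0) =
      ((k : F) ^ 2) • eO (n + 1) F 0 := by
    rw [mv_mul, mv_mul, e1, ht1, mv_smul, hb_e 1 0 hv1]
  have hδz : mv ⇑(QO (n + 1) F) (b * t * b⁻¹) (zO (n + 1) F) = zO (n + 1) F := by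
    rw [mv_mul, mv_mul, e2, ← neg_one_smul F (zO (n + 1) F), mv_smul, htz, mv_smul, hb_z,
      neg_one_smul, neg_neg]
  have hz0 : zO (n + 1) F ∈ tD (QO (n + 1) F) M (eO (n + 1) F 0) (QO_eO 0) :=
    tn_root_full (QO (n + 1) F) tn_sq_add_sq M (eO (n + 1) F 0) (zO (n + 1) F) (QO_eO 0)
      (polar_eO_zO 0) _ hδ k hk hδu hδz hu
  have hze : ∀ j (hj : j < n + 1),
      zO (n + 1) F ∈ tD (QO (n + 1) F) M (eO (n + 1) F ⟨j, hj⟩) (QO_eO _) := by
    intro j
    induction j with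
    | zero => intro hj; exact hz0
    | succ j ih =>
      intro hj
      have h3 := tn_tD_pull (QO (n + 1) F) M b hb (eO (n + 1) F ⟨j, by omega⟩)
        (eO (n + 1) F ⟨j + 1, hj⟩) (QO_eO _) (QO_eO _) 1 one_ne_zero
        (by rw [one_smul]; exact hb_e _ _ rfl) (zO (n + 1) F) (-zO (n + 1) F) hbneg
        (ih (by omega))
      exact neg_mem_iff.mp h3
  have hzf0 : zO (n + 1) F ∈ tD (QO (n + 1) F) M (fO (n + 1) F 0) (QO_fO 0) :=
    neg_mem_iff.mp (tn_tD_pull (QO (n + 1) F) M b hb (eO (n + 1) F (Fin.last n))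
      (fO (n + 1) F 0) (QO_eO _) (QO_fO 0) s hs hb_f0 (zO (n + 1) F) (-zO (n + 1) F) hbneg
      (hze n (by omega)))
  have hzf : ∀ j (hj : j < n + 1),
      zO (n + 1) F ∈ tD (QO (n + 1) F) M (fO (n + 1) F ⟨j, hj⟩) (QO_fO _) := by
    intro j
    induction j with
    | zero => intro hj; exact hzf0
    | succ j ih =>
      intro hj
      have h3 := tn_tD_pull (QO (n + 1) F) M b hb (fO (n + 1) F ⟨j, by omega⟩)
        (fO (n + 1) F ⟨j + 1, hj⟩) (QO_fO _) (QO_fO _) 1 one_ne_zero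
        (by rw [one_smul]; exact hb_f _ _ rfl) (zO (n + 1) F) (-zO (n + 1) F) hbneg
        (ih (by omega))
      exact neg_mem_iff.mp h3
  refine tn_key (by omega) h2 hnd M 0 hz0 hzf0 ?_ ?_
  · intro j _
    obtain ⟨_, hc⟩ := hze j.val j.isLt
    exact hc 1
  · intro j _
    obtain ⟨_, hc⟩ := hzf j.val j.isLt
    exact hc 1

theorem tn_main (n : ℕ) (hn : 1 ≤ n) (hodd : Odd (Fintype.card F)) :
    ∃ g h : ↥(isometryGroup F ⇑(QO (n + 1) F)), g ∈ Omega F ⇑(QO (n + 1) F) ∧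
      h ∈ Omega F ⇑(QO (n + 1) F) ∧
      Omega F ⇑(QO (n + 1) F) ≤ Subgroup.closure {g, h} := by
  classical
  have h2 : (2 : F) ≠ 0 := Helper43.two_ne_zero_of_odd_card rfl hodd
  have hnd := tn_nondeg (F := F) (n + 1) h2
  have hcard : 5 ≤ Fintype.card (Unit ⊕ (Fin (n + 1) ⊕ Fin (n + 1))) := by
    rw [Fintype.card_sum, Fintype.card_sum, Fintype.card_fin, Fintype.card_unit]; omega
  have h01 : (0 : Fin (n + 1)) ≠ 1 := by
    intro h
    have := congrArg Fin.val h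
    rw [Fin.val_zero, Fin.val_one'] at this
    rw [Nat.mod_eq_of_lt (by omega)] at this
    omega
  have h10 : (1 : Fin (n + 1)) ≠ 0 := fun h => h01 h.symm
  obtain ⟨w, hw⟩ : ∃ w : Matrix.SpecialLinearGroup (Fin (n + 1)) F,
      (w : Matrix (Fin (n + 1)) (Fin (n + 1)) F) =
        Matrix.of (fun i j => if j.val = i.val + 1 then 1 else
          if i.val = n ∧ j.val = 0 then (-1) ^ n else 0) :=
    ⟨⟨_, tg_cycW_det n⟩, rfl⟩
  obtain ⟨k, hk⟩ := IsCyclic.exists_generator (α := Fˣ)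
  obtain ⟨p, hp⟩ := CharP.exists F
  -- the torus element
  have ht_e0 : mv ⇑(QO (n + 1) F) (tor (1 : Fin (n + 1)) k) (eO (n + 1) F 0) =
      eO (n + 1) F 0 := by
    rw [tn_mv_tor]
    simp [h10]
  have ht_z : mv ⇑(QO (n + 1) F) (tor (1 : Fin (n + 1)) k) (zO (n + 1) F) = zO (n + 1) F := by
    rw [tn_mv_tor]
    simp
  have ht_e1 : mv ⇑(QO (n + 1) F) (tor (1 : Fin (n + 1)) k) (eO (n + 1) F 1) =
      ((k : F) ^ 2) • eO (n + 1) F 1 := by
    rw [tn_mv_tor, eO_ee, eO_ff, if_pos rfl, mul_one, mul_zero, zero_smul, add_zero]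
    module
  have htO : tor (1 : Fin (n + 1)) k ∈ Omega F ⇑(QO (n + 1) F) :=
    refl_pair_mem_omega_all (QO (n + 1) F) hnd (by omega) _ _ _ _ (by rw [QO_tor1, QO_tor2])
  have huO : eichO (QO (n + 1) F) (eO (n + 1) F 0) (zO (n + 1) F) (QO_eO 0) (polar_eO_zO 0) ∈
      Omega F ⇑(QO (n + 1) F) := eichO_mem_omega (QO (n + 1) F) hnd hcard _ _ _ _
  have hn0O : n0 (F := F) (0 : Fin (n + 1)) ∈ Omega F ⇑(QO (n + 1) F) :=
    mul_mem (mul_mem (eichO_mem_omega (QO (n + 1) F) hnd hcard _ _ _ _)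
      (eichO_mem_omega (QO (n + 1) F) hnd hcard _ _ _ _))
      (eichO_mem_omega (QO (n + 1) F) hnd hcard _ _ _ _)
  have hwO : iotaO (n + 1) F w ∈ Omega F ⇑(QO (n + 1) F) := by
    by_cases h1 : n = 1
    · exact tn_iotaO_w2_mem_omega n h1 hnd w hw
    · exact tn_iotaO_mem_omega (by omega) w
  have hcomm : Commute (tor (1 : Fin (n + 1)) k)
      (eichO (QO (n + 1) F) (eO (n + 1) F 0) (zO (n + 1) F) (QO_eO 0) (polar_eO_zO 0)) :=
    tg_commute_eichO (QO (n + 1) F) _ _ _ _ _ ht_e0 ht_z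
  have hord : (tor (F := F) (1 : Fin (n + 1)) k) ^ (Fintype.card F - 1) = 1 := tn_tor_pow 1 k
  have hup : (eichO (QO (n + 1) F) (eO (n + 1) F 0) (zO (n + 1) F) (QO_eO 0)
      (polar_eO_zO 0)) ^ p = 1 := tg_eichO_pow_char (QO (n + 1) F) p _ _ _ _
  -- the Coxeter element
  have hb_e : ∀ c d : Fin (n + 1), c.val = d.val + 1 →
      mv ⇑(QO (n + 1) F) (iotaO (n + 1) F w * n0 (0 : Fin (n + 1))) (eO (n + 1) F c) =
        eO (n + 1) F d := by
    intro c d h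
    have hc : c ≠ 0 := by
      intro h0
      rw [h0, Fin.val_zero] at h
      omega
    rw [mv_mul, tn_n0_other_e 0 c hc, tn_w_e n w hw c d h]
  have hb_f : ∀ c d : Fin (n + 1), c.val = d.val + 1 →
      mv ⇑(QO (n + 1) F) (iotaO (n + 1) F w * n0 (0 : Fin (n + 1))) (fO (n + 1) F c) =
        fO (n + 1) F d := by
    intro c d h
    have hc : c ≠ 0 := by
      intro h0
      rw [h0, Fin.val_zero] at h
      omega
    rw [mv_mul, tn_n0_other_f 0 c hc, tn_w_f n w hw c d h]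
  have hb_f0 : mv ⇑(QO (n + 1) F) (iotaO (n + 1) F w * n0 (0 : Fin (n + 1))) (fO (n + 1) F 0) =
      (-(-1 : F) ^ n) • eO (n + 1) F (Fin.last n) := by
    rw [mv_mul, tn_n0_f, ← neg_one_smul F (eO (n + 1) F 0), mv_smul, tn_w_e0 n w hw, smul_smul,
      neg_one_mul]
  have hb_z : mv ⇑(QO (n + 1) F) (iotaO (n + 1) F w * n0 (0 : Fin (n + 1))) (zO (n + 1) F) =
      -zO (n + 1) F := by
    rw [mv_mul, tn_n0_z, ← neg_one_smul F (zO (n + 1) F), mv_smul, tn_w_z]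
  have hs : (-(-1 : F) ^ n) ≠ 0 := neg_ne_zero.mpr (pow_ne_zero _ (neg_ne_zero.mpr one_ne_zero))
  refine ⟨tor (1 : Fin (n + 1)) k *
      eichO (QO (n + 1) F) (eO (n + 1) F 0) (zO (n + 1) F) (QO_eO 0) (polar_eO_zO 0),
    iotaO (n + 1) F w * n0 (0 : Fin (n + 1)), mul_mem htO huO, mul_mem hwO hn0O, ?_⟩
  obtain ⟨ht', hu'⟩ := tg_coprime_extract (tor (1 : Fin (n + 1)) k)
    (eichO (QO (n + 1) F) (eO (n + 1) F 0) (zO (n + 1) F) (QO_eO 0) (polar_eO_zO 0)) hcomm _ _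
    hord hup (tg_coprime_card p)
    (Subgroup.closure {tor (1 : Fin (n + 1)) k *
      eichO (QO (n + 1) F) (eO (n + 1) F 0) (zO (n + 1) F) (QO_eO 0) (polar_eO_zO 0),
      iotaO (n + 1) F w * n0 (0 : Fin (n + 1))}) (Subgroup.subset_closure (by simp))
  exact tn_core n hn h2 hnd _ k hk _ ht' ht_e1 ht_z hu' _ (Subgroup.subset_closure (by simp))
    hb_e hb_f _ hs hb_f0 hb_z

/-- `PΩ_{2m+1}(F)`, `m ≥ 2`, `|F|` odd, is generated by two elements. -/
theorem tn_result (hodd : Odd (Fintype.card F)) (m : ℕ) (hm : 2 ≤ m) :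
    ∃ a b : Cfsg.POmega F (Cfsg.quadFormOdd m F),
      Subgroup.closure ({a, b} : Set (Cfsg.POmega F (Cfsg.quadFormOdd m F))) = ⊤ := by
  obtain ⟨N, rfl⟩ : ∃ N, m = N + 1 := ⟨m - 1, by omega⟩
  obtain ⟨g, h, hg, hh, hle⟩ := tn_main (F := F) N (by omega) hodd
  exact tg_final (Cfsg.quadFormOdd (N + 1) F) g h hg hh hle

end core

end Cfsg.Agent.Helper97.TN
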