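-- helper97 library: the maximal subgroups of SU_9(q).
import Cfsg.Agent.Helper97.U9Sq
import Cfsg.Agent.Helper35.UnMax
import Cfsg.Agent.Helper96.CompositeCases

set_option autoImplicit false
set_option linter.unusedSectionVars false
set_option linter.unusedVariables false
set_option maxHeartbeats 1000000
open Cfsg Cfsg.Geo Matrix
open scoped Kronecker

namespace Cfsg.Agent.Helper97.U9

open Cfsg.Agent.Helper97 Cfsg.Agent.Helper35

variable {F : Type*} [Field F]

theorem two_eq_zero_of_card_four [Fintype F] (hF : Fintype.card F = 2 ^ 2) : (2 : F) = 0 := by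
  obtain ⟨p, hchar⟩ := CharP.exists F
  have hp : p.Prime :=
    (CharP.char_is_prime_or_zero F p).resolve_right (CharP.char_ne_zero_of_finite F p)
  have : Fact p.Prime := ⟨hp⟩
  obtain ⟨e, -, he⟩ := FiniteField.card F p
  have h3 : 2 ∣ p ^ (e : ℕ) := by
    rw [← he, hF]
    norm_num
  have h4 : 2 ∣ p := Nat.Prime.dvd_of_dvd_pow Nat.prime_two h3
  have h5 : p = 2 := ((Nat.prime_dvd_prime_iff_eq Nat.prime_two hp).mp h4).symm
  have h6 := CharP.cast_eq_zero F p
  rw [h5] at h6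
  exact_mod_cast h6

/-- Every maximal subgroup of `SU_9(q)` is of one of the listed types. -/
theorem su9_max [Fintype F] (q : ℕ) (hF : Fintype.card F = q ^ 2)
    (H : Subgroup (GL (Fin 9) F))
    (hH : IsMaximalIn (GU 9 F q ⊓ specialLinear (Fin 9) F) H) :
    (∃ W : Submodule F (Fin 9 → F), W ≠ ⊥ ∧ IsTotallySingularFor (hermForm 9 F q) W ∧
      H = subspaceStabilizer W ⊓ (GU 9 F q ⊓ specialLinear (Fin 9) F)) ∨
    (∃ W : Submodule F (Fin 9 → F), W ≠ ⊥ ∧ IsNondegenerateOn (hermForm 9 F q) W ∧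
      2 * Module.finrank F W < 9 ∧
      H = subspaceStabilizer W ⊓ (GU 9 F q ⊓ specialLinear (Fin 9) F)) ∨
    (∃ D : Fin 9 → Submodule F (Fin 9 → F),
      IsNondegenerateMDecomposition (hermForm 9 F q) 1 D ∧
      H = decompositionStabilizer D ⊓ (GU 9 F q ⊓ specialLinear (Fin 9) F)) ∨
    (∃ D : Fin 3 → Submodule F (Fin 9 → F),
      IsNondegenerateMDecomposition (hermForm 9 F q) 3 D ∧
      H = decompositionStabilizer D ⊓ (GU 9 F q ⊓ specialLinear (Fin 9) F)) ∨
    (∃ K : Subalgebra F (Matrix (Fin 9) (Fin 9) F), IsFieldSubalgebra 3 K ∧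
      IsAdjointClosedFor (hermForm 9 F q) K ∧
      H = subalgebraNormalizer K ⊓ (GU 9 F q ⊓ specialLinear (Fin 9) F)) ∨
    (∃ (F₀ : Subfield F) (r : ℕ) (P : GL (Fin 9) F), r.Prime ∧ Odd r ∧
      Fintype.card F = Nat.card F₀ ^ r ∧ IsFormRationalStructure (hermForm 9 F q) F₀ 1 P ∧
      H = subfieldSubgroup F₀ P ⊓ (GU 9 F q ⊓ specialLinear (Fin 9) F)) ∨
    (Odd q ∧ ∃ (F₀ : Subfield F) (P : GL (Fin 9) F), Fintype.card F = Nat.card F₀ ^ 2 ∧
      IsFormRationalStructure (hermForm 9 F q) F₀ 1 P ∧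
      H = subfieldSubgroup F₀ P ⊓ (GU 9 F q ⊓ specialLinear (Fin 9) F)) ∨
    (∃ (p : ℕ) (R : Subgroup (GL (Fin 9) F)), p.Prime ∧ q = p ∧ p % 3 = 2 ∧
      IsSymplecticTypeGroup 3 R ∧ ActsAbsolutelyIrreducibly (matrixSet R) ∧
      R ≤ similarityGroup (hermForm 9 F q) ∧ Nat.card R = 243 ∧
      Nat.card (Subgroup.center R) = 3 ∧
      H = subgroupNormalizer R ⊓ (GU 9 F q ⊓ specialLinear (Fin 9) F)) ∨
    (3 ≤ q ∧ ∃ (e : Fin 9 ≃ (Fin 2 → Fin 3)) (P : GL (Fin 9) F)
      (f₁ : (Fin 3 → F) → (Fin 3 → F) → F), IsUnitaryFormPow q f₁ ∧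
      IsTensorPowerFormStructure (fun x : F => x ^ q) (hermForm 9 F q) f₁ e P ∧
      H = tensorWreathSubgroup 3 2 e P ⊓ (GU 9 F q ⊓ specialLinear (Fin 9) F)) ∨
    InUnitaryResidualClass H := by
  classical
  obtain ⟨σ, h⟩ := exists_sigma hF
  have hHG : H ≤ GU 9 F q ⊓ specialLinear (Fin 9) F := hH.1.le
  have hHGU : H ≤ GU 9 F q := hHG.trans inf_le_left
  have hq2 := two_le_of_card hF
  have hnz : NeZero 9 := ⟨by norm_num⟩
  -- the subfield outcome
  have hsubf : ∀ (F₁ : Subfield F) (r : ℕ) (P : GL (Fin 9) F), r.Prime →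
      Fintype.card F = Nat.card F₁ ^ r → H ≤ subfieldSubgroup F₁ P →
      IsFormRationalStructure (hermForm 9 F q) F₁ 1 P → (Odd r ∨ (r = 2 ∧ Odd q)) →
      (∃ (F₀ : Subfield F) (r : ℕ) (P : GL (Fin 9) F), r.Prime ∧ Odd r ∧
        Fintype.card F = Nat.card F₀ ^ r ∧ IsFormRationalStructure (hermForm 9 F q) F₀ 1 P ∧
        H = subfieldSubgroup F₀ P ⊓ (GU 9 F q ⊓ specialLinear (Fin 9) F)) ∨
      (Odd q ∧ ∃ (F₀ : Subfield F) (P : GL (Fin 9) F), Fintype.card F = Nat.card F₀ ^ 2 ∧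
        IsFormRationalStructure (hermForm 9 F q) F₀ 1 P ∧
        H = subfieldSubgroup F₀ P ⊓ (GU 9 F q ⊓ specialLinear (Fin 9) F)) := by
    intro F₁ r P hr hcard hle hrat hro
    rcases hro with hro | ⟨rfl, hqodd⟩
    · have hr3 : 3 ≤ r := by
        have := hr.two_le
        obtain ⟨m, hm⟩ := hro
        omega
      exact Or.inl ⟨F₁, r, P, hr, hro, hcard, hrat, eq_inf_of_isMaximalIn_gen hH hle
        (h.notSU_subfield_odd hF (by norm_num) F₁ r hr3 hcard P)⟩
    · exact Or.inr ⟨hqodd, F₁, P, hcard, hrat, eq_inf_of_isMaximalIn_gen hH hle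
        (h.notSU_subfield_two hF (by norm_num) hqodd F₁ hcard P hrat)⟩
  have hout := un_coreD h hF (by norm_num) (by decide) H hHGU
  unfold UnOutcomeD at hout
  rcases hout with ⟨W, hW0, hW1, hts, hle⟩ | ⟨W, hW0, hW1, hnd, hdim, hle⟩ | ⟨t, k, D, hD, hle⟩ |
    ⟨k, D, hD, hts, hle⟩ | ⟨r, K, hr, hrodd, hK, hac, hle⟩ |
    ⟨n₁, n₂, e, P, A, S, hn₁, hn₁₂, hA, hSh, hAdet, hSdet, hG, hle⟩ |
    ⟨F₀, r, P, hr, hcard, hle, hrat, hro⟩ | hres | ⟨N, hN⟩ | ⟨N, S, d, k, e, Pm, ρ, hCP⟩
  · exact Or.inl ⟨W, hW0, hts,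
      eq_inf_of_isMaximalIn_gen hH hle (h.notSU_subspace hF (by norm_num) W hW0 hW1)⟩
  · exact Or.inr (Or.inl ⟨W, hW0, hnd, hdim,
      eq_inf_of_isMaximalIn_gen hH hle (h.notSU_subspace hF (by norm_num) W hW0 hW1)⟩)
  · -- a non-degenerate decomposition
    have htk : t * k = 9 := isMDecomposition_card D hD.decomp
    have ht := hD.decomp.two_le
    have hkpos := hD.decomp.pos
    have hk : k = 1 ∨ k = 3 := by
      have hkle : k ≤ 4 := by nlinarith
      interval_cases k <;> omega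
    rcases hk with rfl | rfl
    · obtain rfl : t = 9 := by omega
      exact Or.inr (Or.inr (Or.inl ⟨D, hD,
        eq_inf_of_isMaximalIn_gen hH hle (h.notSU_decomp hF (by norm_num) D hD)⟩))
    · obtain rfl : t = 3 := by omega
      exact Or.inr (Or.inr (Or.inr (Or.inl ⟨D, hD,
        eq_inf_of_isMaximalIn_gen hH hle (un_notSU_ndecomp h hF (by norm_num) D hD)⟩)))
  · -- a pair of totally singular subspaces: impossible in odd dimension
    exfalso
    have hk : 2 * k = 9 := isMDecomposition_card D hD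
    omega
  · -- an extension field
    have hdvd : r ∣ 9 := by
      have h1 := Helper96.Sy.dvd_finrank_of_inv K hK.inv ⊤ (fun _ _ _ _ => Submodule.mem_top)
      rw [hK.finrank_eq, finrank_top, Module.finrank_fin_fun] at h1
      exact h1
    have hr3 : r = 3 :=
      (Nat.prime_dvd_prime_iff_eq hr Nat.prime_three).mp
        (hr.dvd_of_dvd_pow (show r ∣ 3 ^ 2 from hdvd))
    subst hr3
    exact Or.inr (Or.inr (Or.inr (Or.inr (Or.inl ⟨K, hK, hac,
      eq_inf_of_isMaximalIn_gen hH hle (h.notSU_fieldNormalizer hF (by norm_num) K hK.inv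
        (not_all_scalar_of_finrank K (by rw [hK.finrank_eq]; norm_num)))⟩))))
  · -- a tensor decomposition: both factors have dimension three
    have hprod : n₁ * n₂ = 9 := Helper96.card_of_equiv_prod e
    have hn3 : n₁ = 3 := by
      have h3 : n₁ ≤ 3 := by nlinarith
      interval_cases n₁ <;> omega
    subst hn3
    obtain rfl : n₂ = 3 := by omega
    have hleW := hle.trans (Helper96.tensor_le_wreath e P)
    obtain ⟨U, V, Y, hU, hY, hPY, heq⟩ :=
      un_square_max h hF (by norm_num) H hH e P A S hA hSh hAdet hSdet hG hleW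
    by_cases hq3 : 3 ≤ q
    · exact Or.inr (Or.inr (Or.inr (Or.inr (Or.inr (Or.inr (Or.inr (Or.inr (Or.inl
        ⟨hq3, e.trans (Helper96.eps 3), P * Y, _, std_unitaryFormPow h 3,
          power_form_of_unitary h _ _ hPY, heq⟩))))))))
    · exfalso
      obtain rfl : q = 2 := by omega
      exact un_square_not_tensor h (two_eq_zero_of_card_four hF) (by norm_num) H e (P * Y) hPY heq
        (hle.trans (tensor_le_mul e P Y U V hY))
  · -- a subfield
    rcases hsubf F₀ r P hr hcard hle hrat hro with h1 | h1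
    · exact Or.inr (Or.inr (Or.inr (Or.inr (Or.inr (Or.inl h1)))))
    · exact Or.inr (Or.inr (Or.inr (Or.inr (Or.inr (Or.inr (Or.inl h1))))))
  · exact Or.inr (Or.inr (Or.inr (Or.inr (Or.inr (Or.inr (Or.inr (Or.inr (Or.inr hres))))))))
  · -- class two
    obtain ⟨r, j, hr, hj, hpow⟩ := hN.pow
    have hr3 : r = 3 := by
      have h3 : 3 ∣ r ^ j := by rw [← hj]; norm_num
      exact ((Nat.prime_dvd_prime_iff_eq Nat.prime_three hr).mp
        (Nat.Prime.dvd_of_dvd_pow Nat.prime_three h3)).symm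
    subst hr3
    have hNGU : N ≤ GU 9 F q := hN.le.trans hHGU
    rcases un_c2_three h hF H N hHGU hN hpow with ⟨F₀, hF₀, B, hB⟩ |
      ⟨hqp, hqm, hsymp, hcardN, hcardZ⟩
    · obtain ⟨F₁, s, hle1, hs, hcard⟩ := exists_prime_index_subfield F₀ hF₀
      obtain ⟨P', hnorm, hrat, hro⟩ := h.unitary_subfield_structure hF (by norm_num) (by decide) N
        hNGU hN.absIrred F₁ s hs hcard B (fun x hx i j => hle1 (hB x hx i j))
      have hle : H ≤ subfieldSubgroup F₁ P' := fun g hg => hnorm g (hN.normal g hg)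
      rcases hsubf F₁ s P' hs hcard hle hrat hro with h1 | h1
      · exact Or.inr (Or.inr (Or.inr (Or.inr (Or.inr (Or.inl h1)))))
      · exact Or.inr (Or.inr (Or.inr (Or.inr (Or.inr (Or.inr (Or.inl h1))))))
    · exact Or.inr (Or.inr (Or.inr (Or.inr (Or.inr (Or.inr (Or.inr (Or.inl
        ⟨q, N, hqp, rfl, hqm, hsymp, hN.absIrred, hNGU.trans IsSigma.GU_le_similarity, by rw [hcardN],
          hcardZ, eq_inf_of_isMaximalIn_gen hH (le_subgroupNormalizer H N hN.normal)
            (notSU_c2 h hF (by norm_num) N hN.absIrred hN.comm)⟩)))))))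
  · -- a central product: two factors of dimension three
    obtain ⟨t, ht, hnt⟩ := hCP.pow
    have hdk : d * k = 9 := Helper96.card_of_equiv_prod e
    have hd2 := hCP.two_le
    have hd3 : d = 3 := by
      have h1 : d ^ 2 ≤ d ^ t := Nat.pow_le_pow_right (by omega) ht
      have h2 : d ≤ 3 := by nlinarith
      interval_cases d <;> omega
    subst hd3
    obtain rfl : k = 3 := by omega
    have hSGU : S ≤ GU 9 F q := hCP.sub.trans (hCP.le.trans hHGU)
    obtain ⟨A, C, hG, hAdet, hCdet, hA, hC⟩ := un_tensor_gram h hCP.tensor hSGU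
    have hleW : H ≤ tensorWreathSubgroup 3 2 (e.trans (Helper96.eps 3)) Pm := by
      intro g hg
      rcases hCP.comm g hg with h1 | h1
      · apply Helper96.tensor_le_wreath e Pm
        apply hCP.tensor.normalizer_mem g
        · intro x hx
          have := Helper97.conj_mem_cj (h := g) hx
          rwa [h1] at this
        · intro x hx
          rw [← h1] at hx
          exact Helper97.mem_cj.mp hx
      · exact Helper96.cp_swap_mem S e Pm ρ hCP.tensor g h1
    obtain ⟨U, V, Y, hU, hY, hPY, heq⟩ :=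
      un_square_max h hF (by norm_num) H hH e Pm A C hA hC hAdet hCdet hG hleW
    by_cases hq3 : 3 ≤ q
    · exact Or.inr (Or.inr (Or.inr (Or.inr (Or.inr (Or.inr (Or.inr (Or.inr (Or.inl
        ⟨hq3, e.trans (Helper96.eps 3), Pm * Y, _, std_unitaryFormPow h 3,
          power_form_of_unitary h _ _ hPY, heq⟩))))))))
    · exfalso
      obtain rfl : q = 2 := by omega
      exact un_cp_not_two h hF hCP.tensor hSGU hCP.subPerfect hCP.notScalar

end Cfsg.Agent.Helper97.U9
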