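-- helper97 library: subfield subgroups of SU_n: unitary transvections and Eichler elements.
import Cfsg.Agent.Helper97.SGAvg
import Cfsg.Agent.Helper98.USub3
import Cfsg.Agent.Helper13.UnitTv2

set_option autoImplicit false
set_option linter.unusedSimpArgs false
set_option linter.unusedVariables false
set_option linter.unusedSectionVars false
open Cfsg Cfsg.Geo Matrix
open Cfsg.Agent.Helper93 (tv tv_mulVec tv_mem_SL)
open Cfsg.Agent.Helper98 (us_ut us_ut_mulVec us_ut_mem us_ut_conj us_ut_smul us_mem_GU_iff us_h_dot)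
open Cfsg.Agent.Helper5 (frobQ frobQ_apply frobQ_frobQ)
open Cfsg.Agent.Helper13 (uh_add_left uh_smul_left uh_add_right uh_smul_right uh_conj uh_zero_left
  uh_zero_right uh_neg_left uh_neg_right uh_sub_left uh_sub_right uh_single_right uh_single_left
  uh_single_single)

namespace Cfsg.Agent.Helper97.USF

variable {F : Type*} [Field F] [Fintype F] {n q : ℕ}

theorem ugl_ext {g h : GL (Fin n) F}
    (H : ∀ x : Fin n → F, (g : Matrix (Fin n) (Fin n) F) *ᵥ x
      = (h : Matrix (Fin n) (Fin n) F) *ᵥ x) : g = h :=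
  SG.sf_gl_ext H

theorem umat_ext {A B : Matrix (Fin n) (Fin n) F} (h : ∀ x, A *ᵥ x = B *ᵥ x) : A = B := by
  ext i j
  have h1 := congrFun (h (Pi.single j 1)) i
  simpa [Matrix.mulVec_single_one] using h1

theorem ugl_mul_mulVec (g h : GL (Fin n) F) (x : Fin n → F) :
    ((g * h : GL (Fin n) F) : Matrix (Fin n) (Fin n) F) *ᵥ x
      = (g : Matrix (Fin n) (Fin n) F) *ᵥ ((h : Matrix (Fin n) (Fin n) F) *ᵥ x) := by
  rw [Units.val_mul, mulVec_mulVec]

theorem ugl_inv_mulVec (g : GL (Fin n) F) (x : Fin n → F) :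
    ((g⁻¹ : GL (Fin n) F) : Matrix (Fin n) (Fin n) F) *ᵥ ((g : Matrix (Fin n) (Fin n) F) *ᵥ x)
      = x := by
  rw [mulVec_mulVec, ← Units.val_mul, inv_mul_cancel, Units.val_one, one_mulVec]

theorem ugl_mulVec_inv (g : GL (Fin n) F) (x : Fin n → F) :
    (g : Matrix (Fin n) (Fin n) F) *ᵥ (((g⁻¹ : GL (Fin n) F) : Matrix (Fin n) (Fin n) F) *ᵥ x)
      = x := by
  rw [mulVec_mulVec, ← Units.val_mul, mul_inv_cancel, Units.val_one, one_mulVec]

theorem gu_apply {g : GL (Fin n) F} (hg : g ∈ GU n F q) (x y : Fin n → F) :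
    hermForm n F q ((g : Matrix (Fin n) (Fin n) F) *ᵥ x) ((g : Matrix (Fin n) (Fin n) F) *ᵥ y)
      = hermForm n F q x y := (us_mem_GU_iff g).mp hg x y

theorem gu_apply_inv {g : GL (Fin n) F} (hg : g ∈ GU n F q) (x y : Fin n → F) :
    hermForm n F q (((g⁻¹ : GL (Fin n) F) : Matrix (Fin n) (Fin n) F) *ᵥ x) y
      = hermForm n F q x ((g : Matrix (Fin n) (Fin n) F) *ᵥ y) := by
  rw [← gu_apply hg, ugl_mulVec_inv]

/-! ### Unitary transvections -/

open Classical in
/-- The unitary transvection `x ↦ x + c h(x,u) u` (trivial when `u` is not isotropic). -/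
noncomputable def utGL (q : ℕ) (u : Fin n → F) (c : F) : GL (Fin n) F :=
  if hu : hermForm n F q u u = 0 then us_ut n q u c hu else 1

theorem utGL_eq {u : Fin n → F} (hu : hermForm n F q u u = 0) (c : F) :
    utGL q u c = us_ut n q u c hu := by
  rw [utGL, dif_pos hu]

theorem utGL_mulVec {u : Fin n → F} (hu : hermForm n F q u u = 0) (c : F) (x : Fin n → F) :
    (utGL q u c : Matrix (Fin n) (Fin n) F) *ᵥ x = x + (c * hermForm n F q x u) • u := by
  rw [utGL_eq hu, us_ut_mulVec]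

theorem utGL_mem (hF : Fintype.card F = q ^ 2) {u : Fin n → F} (hu : hermForm n F q u u = 0)
    {c : F} (hc : frobQ hF c = -c) : utGL q u c ∈ GU n F q ⊓ specialLinear (Fin n) F := by
  rw [utGL_eq hu]
  exact us_ut_mem hF u c hu (by rw [← frobQ_apply hF, hc])

theorem utGL_conj {g : GL (Fin n) F} (hg : g ∈ GU n F q) {u : Fin n → F}
    (hu : hermForm n F q u u = 0) (c : F) :
    g * utGL q u c * g⁻¹ = utGL q ((g : Matrix (Fin n) (Fin n) F) *ᵥ u) c := by
  have hu' : hermForm n F q ((g : Matrix (Fin n) (Fin n) F) *ᵥ u)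
      ((g : Matrix (Fin n) (Fin n) F) *ᵥ u) = 0 := by rw [gu_apply hg, hu]
  rw [utGL_eq hu, utGL_eq hu', us_ut_conj g hg u c hu hu']

theorem utGL_smul (hF : Fintype.card F = q ^ 2) (l : F) {u : Fin n → F}
    (hu : hermForm n F q u u = 0) (c : F) :
    utGL q (l • u) c = utGL q u (c * (l * frobQ hF l)) := by
  have hu' : hermForm n F q (l • u) (l • u) = 0 := by
    rw [uh_smul_left, uh_smul_right hF, hu, mul_zero, mul_zero]
  rw [utGL_eq hu, utGL_eq hu', us_ut_smul hF l u c hu hu', frobQ_apply]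

theorem utGL_add {u : Fin n → F} (hu : hermForm n F q u u = 0) (c d : F) :
    utGL q u (c + d) = utGL q u c * utGL q u d := by
  apply ugl_ext
  intro x
  rw [ugl_mul_mulVec, utGL_mulVec hu, utGL_mulVec hu, utGL_mulVec hu, uh_add_left, uh_smul_left,
    hu]
  module

theorem utGL_zero (u : Fin n → F) : utGL q u 0 = 1 := by
  by_cases hu : hermForm n F q u u = 0
  · apply ugl_ext
    intro x
    rw [utGL_mulVec hu, zero_mul, zero_smul, add_zero, Units.val_one, one_mulVec]
  · rw [utGL, dif_neg hu]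

theorem utGL_inv {u : Fin n → F} (hu : hermForm n F q u u = 0) (c : F) :
    (utGL q u c)⁻¹ = utGL q u (-c) := by
  rw [inv_eq_iff_mul_eq_one, ← utGL_add hu, add_neg_cancel, utGL_zero]

theorem utGL_fix {w : Fin n → F} (hw : hermForm n F q w w = 0) {x : Fin n → F}
    (hx : hermForm n F q x w = 0) (c : F) :
    (utGL q w c : Matrix (Fin n) (Fin n) F) *ᵥ x = x := by
  rw [utGL_mulVec hw, hx, mul_zero, zero_smul, add_zero]

/-! ### Eichler elements -/

open Classical in
/-- The Eichler element `x ↦ x + h(x,u) y - h(x,y) u` for `u` isotropic and `y ⊥ u`. -/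
noncomputable def ueGL (q : ℕ) (u y : Fin n → F) : GL (Fin n) F :=
  if h : (fun j => (u j) ^ q) ⬝ᵥ y = 0 ∧ (fun j => -((y j) ^ q)) ⬝ᵥ u = 0 then
    tv y (fun j => (u j) ^ q) h.1 * tv u (fun j => -((y j) ^ q)) h.2
  else 1

theorem neg_dot (y z : Fin n → F) :
    (fun j => -((y j) ^ q)) ⬝ᵥ z = - hermForm n F q z y := by
  rw [show (fun j => -((y j) ^ q)) = -(fun j => (y j) ^ q) from rfl, neg_dotProduct, us_h_dot]

theorem ueGL_cond {u y : Fin n → F} (hyu : hermForm n F q y u = 0)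
    (huy : hermForm n F q u y = 0) :
    (fun j => (u j) ^ q) ⬝ᵥ y = 0 ∧ (fun j => -((y j) ^ q)) ⬝ᵥ u = 0 :=
  ⟨by rw [us_h_dot, hyu], by rw [neg_dot, huy, neg_zero]⟩

theorem ueGL_mulVec {u y : Fin n → F} (hu : hermForm n F q u u = 0)
    (hyu : hermForm n F q y u = 0) (huy : hermForm n F q u y = 0) (x : Fin n → F) :
    (ueGL q u y : Matrix (Fin n) (Fin n) F) *ᵥ x
      = x + hermForm n F q x u • y - hermForm n F q x y • u := by
  rw [ueGL, dif_pos (ueGL_cond hyu huy), ugl_mul_mulVec, tv_mulVec, tv_mulVec, us_h_dot, neg_dot,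
    uh_add_left, uh_smul_left, hu]
  module

theorem uh_symm0 (hF : Fintype.card F = q ^ 2) {x y : Fin n → F}
    (h : hermForm n F q x y = 0) : hermForm n F q y x = 0 := by
  rw [← uh_conj hF, h, map_zero]

theorem ueGL_mem (hF : Fintype.card F = q ^ 2) {u y : Fin n → F}
    (hu : hermForm n F q u u = 0) (hy : hermForm n F q y y = 0)
    (hyu : hermForm n F q y u = 0) :
    ueGL q u y ∈ GU n F q ⊓ specialLinear (Fin n) F := by
  have huy := uh_symm0 hF hyu
  constructor
  · refine (us_mem_GU_iff _).mpr (fun a b => ?_)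
    rw [ueGL_mulVec hu hyu huy, ueGL_mulVec hu hyu huy]
    simp only [uh_add_left, uh_add_right hF, uh_sub_left, uh_sub_right hF, uh_smul_left,
      uh_smul_right hF, uh_conj hF, hu, hy, hyu, huy]
    ring
  · rw [ueGL, dif_pos (ueGL_cond hyu huy)]
    exact (specialLinear (Fin n) F).mul_mem (tv_mem_SL _ _ _) (tv_mem_SL _ _ _)

theorem ueGL_conj {g : GL (Fin n) F} (hg : g ∈ GU n F q) {u y : Fin n → F}
    (hu : hermForm n F q u u = 0) (hyu : hermForm n F q y u = 0)
    (huy : hermForm n F q u y = 0) :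
    g * ueGL q u y * g⁻¹ = ueGL q ((g : Matrix (Fin n) (Fin n) F) *ᵥ u)
      ((g : Matrix (Fin n) (Fin n) F) *ᵥ y) := by
  apply ugl_ext
  intro x
  rw [ugl_mul_mulVec, ugl_mul_mulVec, ueGL_mulVec hu hyu huy,
    ueGL_mulVec (by rw [gu_apply hg, hu]) (by rw [gu_apply hg, hyu]) (by rw [gu_apply hg, huy]),
    mulVec_sub, mulVec_add, mulVec_smul, mulVec_smul, ugl_mulVec_inv, gu_apply_inv hg,
    gu_apply_inv hg]

theorem ueGL_smul_left (hF : Fintype.card F = q ^ 2) (l : F) {u y : Fin n → F}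
    (hu : hermForm n F q u u = 0) (hyu : hermForm n F q y u = 0) :
    ueGL q (l • u) y = ueGL q u (frobQ hF l • y) := by
  have huy := uh_symm0 hF hyu
  apply ugl_ext
  intro x
  rw [ueGL_mulVec (by rw [uh_smul_left, uh_smul_right hF, hu, mul_zero, mul_zero])
      (by rw [uh_smul_right hF, hyu, mul_zero]) (by rw [uh_smul_left, huy, mul_zero]),
    ueGL_mulVec hu (by rw [uh_smul_left, hyu, mul_zero])
      (by rw [uh_smul_right hF, huy, mul_zero])]
  simp only [uh_smul_right hF, frobQ_frobQ]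
  module

theorem ueGL_mul (hF : Fintype.card F = q ^ 2) {u y₁ y₂ : Fin n → F}
    (hu : hermForm n F q u u = 0) (h1 : hermForm n F q y₁ u = 0)
    (h2 : hermForm n F q y₂ u = 0) (h21 : hermForm n F q y₂ y₁ = 0) :
    ueGL q u y₁ * ueGL q u y₂ = ueGL q u (y₁ + y₂) := by
  have h1' := uh_symm0 hF h1
  have h2' := uh_symm0 hF h2
  apply ugl_ext
  intro x
  rw [ugl_mul_mulVec, ueGL_mulVec hu h2 h2', ueGL_mulVec hu h1 h1',
    ueGL_mulVec hu (by rw [uh_add_left, h1, h2, add_zero])
      (by rw [uh_add_right hF, h1', h2', add_zero])]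
  simp only [uh_add_left, uh_sub_left, uh_smul_left, uh_add_right hF, hu, h2, h21, h1']
  module

theorem ueGL_zero (hF : Fintype.card F = q ^ 2) {u : Fin n → F}
    (hu : hermForm n F q u u = 0) : ueGL q u (0 : Fin n → F) = 1 := by
  apply ugl_ext
  intro x
  rw [ueGL_mulVec hu (uh_zero_left _) (uh_zero_right hF _), uh_zero_right hF, Units.val_one,
    one_mulVec]
  module

theorem ueGL_inv (hF : Fintype.card F = q ^ 2) {u y : Fin n → F}
    (hu : hermForm n F q u u = 0) (hy : hermForm n F q y y = 0)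
    (hyu : hermForm n F q y u = 0) : (ueGL q u y)⁻¹ = ueGL q u (-y) := by
  rw [inv_eq_iff_mul_eq_one, ueGL_mul hF hu hyu (by rw [uh_neg_left, hyu, neg_zero])
    (by rw [uh_neg_left, hy, neg_zero]), add_neg_cancel, ueGL_zero hF hu]

theorem utGL_ueGL_comm (hF : Fintype.card F = q ^ 2) {u Y : Fin n → F}
    (hu : hermForm n F q u u = 0) (hYu : hermForm n F q Y u = 0) (c : F) :
    utGL q u c * ueGL q u Y = ueGL q u Y * utGL q u c := by
  have huY := uh_symm0 hF hYu
  apply ugl_ext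
  intro x
  rw [ugl_mul_mulVec, ugl_mul_mulVec, ueGL_mulVec hu hYu huY, utGL_mulVec hu, utGL_mulVec hu,
    ueGL_mulVec hu hYu huY]
  simp only [uh_add_left, uh_sub_left, uh_smul_left, hu, hYu, huY]
  module

/-- The Heisenberg commutator relation. -/
theorem ueGL_heis (hF : Fintype.card F = q ^ 2) {u Y z : Fin n → F}
    (hu : hermForm n F q u u = 0) (hYu : hermForm n F q Y u = 0)
    (hzu : hermForm n F q z u = 0) :
    ueGL q u Y * ueGL q u z
      = utGL q u (hermForm n F q Y z - hermForm n F q z Y) * (ueGL q u z * ueGL q u Y) := by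
  have huY := uh_symm0 hF hYu
  have huz := uh_symm0 hF hzu
  apply ugl_ext
  intro x
  rw [ugl_mul_mulVec, ugl_mul_mulVec, ugl_mul_mulVec, ueGL_mulVec hu hzu huz,
    ueGL_mulVec hu hYu huY, ueGL_mulVec hu hYu huY, ueGL_mulVec hu hzu huz, utGL_mulVec hu]
  simp only [uh_add_left, uh_sub_left, uh_smul_left, hu, hYu, huY, hzu, huz]
  module

/-- An Eichler element with a trace-zero parameter is a product of three transvections. -/
theorem ueGL_param (hF : Fintype.card F = q ^ 2) {u y : Fin n → F}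
    (hu : hermForm n F q u u = 0) (hy : hermForm n F q y y = 0)
    (hyu : hermForm n F q y u = 0) {c : F} (hc : frobQ hF c = -c) :
    ueGL q u (c • y) = utGL q (u + y) c * utGL q u (-c) * utGL q y (-c) := by
  have huy := uh_symm0 hF hyu
  have huy2 : hermForm n F q (u + y) (u + y) = 0 := by
    simp only [uh_add_left, uh_add_right hF, hu, hy, hyu, huy, add_zero]
  apply ugl_ext
  intro x
  rw [ugl_mul_mulVec, ugl_mul_mulVec, utGL_mulVec hy, utGL_mulVec hu, utGL_mulVec huy2,
    ueGL_mulVec hu (by rw [uh_smul_left, hyu, mul_zero])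
      (by rw [uh_smul_right hF, huy, mul_zero])]
  simp only [uh_add_left, uh_add_right hF, uh_smul_left, uh_smul_right hF, hu, hy, hyu, huy, hc]
  module

/-- Changing the `u`-coordinate of the centre of a transvection. -/
theorem utGL_shift (hF : Fintype.card F = q ^ 2) {u y : Fin n → F}
    (hu : hermForm n F q u u = 0) (hy : hermForm n F q y y = 0)
    (hyu : hermForm n F q y u = 0) (α β δ τ : F) (hτ : frobQ hF τ = -τ) :
    utGL q ((α + β * δ) • u + β • y) τ
      = utGL q (α • u + β • y) τ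
        * utGL q u (τ * ((α + β * δ) * frobQ hF (α + β * δ) - α * frobQ hF α))
        * ueGL q u ((τ * frobQ hF δ * (β * frobQ hF β)) • y) := by
  have huy := uh_symm0 hF hyu
  have hiso : ∀ a b : F, hermForm n F q (a • u + b • y) (a • u + b • y) = 0 := by
    intro a b
    simp only [uh_add_left, uh_add_right hF, uh_smul_left, uh_smul_right hF, hu, hy, hyu, huy,
      mul_zero, add_zero]
  apply ugl_ext
  intro x
  rw [ugl_mul_mulVec, ugl_mul_mulVec, utGL_mulVec (hiso _ _), utGL_mulVec (hiso _ _),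
    utGL_mulVec hu, ueGL_mulVec hu (by rw [uh_smul_left, hyu, mul_zero])
      (by rw [uh_smul_right hF, huy, mul_zero])]
  simp only [uh_add_left, uh_sub_left, uh_add_right hF, uh_smul_left, uh_smul_right hF, hu, hy,
    hyu, huy, hτ, map_mul, map_add, map_neg, frobQ_frobQ]
  module

/-- A transvection interchanging (up to a scalar) the two members of a hyperbolic pair. -/
theorem utGL_swap (hF : Fintype.card F = q ^ 2) {y f : Fin n → F}
    (hy : hermForm n F q y y = 0) (hf : hermForm n F q f f = 0)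
    (hfy : hermForm n F q f y = 1) {t : F} (ht : frobQ hF t = -t) (ht0 : t ≠ 0) :
    hermForm n F q (y + t • f) (y + t • f) = 0 ∧
      (utGL q (y + t • f) t⁻¹ : Matrix (Fin n) (Fin n) F) *ᵥ y = (-t) • f := by
  have hyf : hermForm n F q y f = 1 := by rw [← uh_conj hF, hfy, map_one]
  have hiso : hermForm n F q (y + t • f) (y + t • f) = 0 := by
    simp only [uh_add_left, uh_add_right hF, uh_smul_left, uh_smul_right hF, hy, hf, hfy, hyf, ht]
    ring
  refine ⟨hiso, ?_⟩
  rw [utGL_mulVec hiso]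
  simp only [uh_add_right hF, uh_smul_right hF, hy, hyf, ht]
  have e : t⁻¹ * (0 + -t * 1) = -1 := by
    rw [zero_add, mul_one, mul_neg, inv_mul_cancel₀ ht0]
  rw [e]
  module

/-! ### Rational vectors and the subfield group -/

/-- A vector with all coordinates in the subfield. -/
def IsRat (F₀ : Subfield F) (v : Fin n → F) : Prop := ∀ j, v j ∈ F₀

variable {F₀ : Subfield F}

theorem IsRat.add {u v : Fin n → F} (hu : IsRat F₀ u) (hv : IsRat F₀ v) :
    IsRat F₀ (u + v) := fun j => add_mem (hu j) (hv j)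

theorem IsRat.sub {u v : Fin n → F} (hu : IsRat F₀ u) (hv : IsRat F₀ v) :
    IsRat F₀ (u - v) := fun j => sub_mem (hu j) (hv j)

theorem IsRat.neg {u : Fin n → F} (hu : IsRat F₀ u) : IsRat F₀ (-u) :=
  fun j => neg_mem (hu j)

theorem IsRat.smul {u : Fin n → F} (hu : IsRat F₀ u) {c : F} (hc : c ∈ F₀) :
    IsRat F₀ (c • u) := fun j => mul_mem hc (hu j)

theorem isRat_zero : IsRat F₀ (0 : Fin n → F) := fun _ => zero_mem _

theorem isRat_single (j : Fin n) : IsRat F₀ (Pi.single j (1 : F)) := by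
  intro k
  rw [Pi.single_apply]
  split_ifs
  · exact one_mem _
  · exact zero_mem _

theorem IsRat.herm (hF : Fintype.card F = q ^ 2) (hst : ∀ x ∈ F₀, frobQ hF x ∈ F₀)
    {u v : Fin n → F} (hu : IsRat F₀ u) (hv : IsRat F₀ v) : hermForm n F q u v ∈ F₀ := by
  unfold hermForm
  exact sum_mem fun i _ => mul_mem (hu i) (by rw [← frobQ_apply hF]; exact hst _ (hv i))

/-- The subfield subgroup of `SU_n` in standard position. -/
def usH (F₀ : Subfield F) (n q : ℕ) : Subgroup (GL (Fin n) F) :=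
  subfieldSubgroup F₀ (1 : GL (Fin n) F) ⊓ (GU n F q ⊓ specialLinear (Fin n) F)

theorem mem_sub_of_rat {g : GL (Fin n) F} (c : F) (hc : c ≠ 0)
    (h : ∀ j, IsRat F₀ (c • ((g : Matrix (Fin n) (Fin n) F) *ᵥ Pi.single j 1))) :
    g ∈ subfieldSubgroup F₀ (1 : GL (Fin n) F) := by
  rw [SG.mem_subfieldSubgroup_one]
  refine ⟨c, hc, fun i j => ?_⟩
  have := h j i
  rwa [Matrix.mulVec_single_one] at this

theorem rat_mulVec {A : Matrix (Fin n) (Fin n) F} (hA : A ∈ SG.ratMat F₀ (Fin n))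
    {v : Fin n → F} (hv : IsRat F₀ v) : IsRat F₀ (A *ᵥ v) := by
  intro i
  rw [Matrix.mulVec, dotProduct]
  exact sum_mem fun j _ => mul_mem (hA i j) (hv j)

theorem utGL_rat (hF : Fintype.card F = q ^ 2) (hst : ∀ x ∈ F₀, frobQ hF x ∈ F₀)
    {u : Fin n → F} (hur : IsRat F₀ u) (hu : hermForm n F q u u = 0) {c : F} (hc : c ∈ F₀)
    (hcW : frobQ hF c = -c) : utGL q u c ∈ usH F₀ n q := by
  refine ⟨mem_sub_of_rat 1 one_ne_zero fun j => ?_, utGL_mem hF hu hcW⟩
  rw [one_smul, utGL_mulVec hu]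
  exact (isRat_single j).add (hur.smul (mul_mem hc ((isRat_single j).herm hF hst hur)))

theorem ueGL_rat (hF : Fintype.card F = q ^ 2) (hst : ∀ x ∈ F₀, frobQ hF x ∈ F₀)
    {u y : Fin n → F} (hur : IsRat F₀ u) (hyr : IsRat F₀ y) (hu : hermForm n F q u u = 0)
    (hy : hermForm n F q y y = 0) (hyu : hermForm n F q y u = 0) :
    ueGL q u y ∈ usH F₀ n q := by
  refine ⟨mem_sub_of_rat 1 one_ne_zero fun j => ?_, ueGL_mem hF hu hy hyu⟩
  rw [one_smul, ueGL_mulVec hu hyu (uh_symm0 hF hyu)]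
  exact ((isRat_single j).add (hyr.smul ((isRat_single j).herm hF hst hur))).sub
    (hur.smul ((isRat_single j).herm hF hst hyr))

theorem rat_of_map {h : GL (Fin n) F} (hh : h ∈ subfieldSubgroup F₀ (1 : GL (Fin n) F))
    {u v : Fin n → F} (hu : IsRat F₀ u) (hv : IsRat F₀ v) (hv0 : v ≠ 0)
    (huv : (h : Matrix (Fin n) (Fin n) F) *ᵥ u = v) :
    (h : Matrix (Fin n) (Fin n) F) ∈ SG.ratMat F₀ (Fin n) := by
  obtain ⟨d, hd0, hdrat⟩ := (SG.mem_subfieldSubgroup_one F₀ h).mp hh
  have h1 := rat_mulVec hdrat hu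
  rw [smul_mulVec, huv] at h1
  have : ∃ j, v j ≠ 0 := by
    by_contra hcon
    push Not at hcon
    exact hv0 (funext hcon)
  obtain ⟨j, hj⟩ := this
  have hd : d ∈ F₀ := by
    have h2 := h1 j
    rw [Pi.smul_apply, smul_eq_mul] at h2
    have e : d = d * v j * (v j)⁻¹ := by field_simp
    rw [e]
    exact mul_mem h2 (inv_mem (hv j))
  have e : (h : Matrix (Fin n) (Fin n) F) = d⁻¹ • (d • (h : Matrix (Fin n) (Fin n) F)) := by
    rw [smul_smul, inv_mul_cancel₀ hd0, one_smul]
  rw [e]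
  exact SG.smul_mem_ratMat hdrat (inv_mem hd)

end Cfsg.Agent.Helper97.USF
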