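-- helper97 library: subfield subgroups of SU_n: the rational frame, partners and rational moves.
import Cfsg.Agent.Helper97.USFBasic

set_option autoImplicit false
set_option linter.unusedSimpArgs false
set_option linter.unusedVariables false
set_option linter.unusedSectionVars false
open Cfsg Cfsg.Geo Matrix
open Cfsg.Agent.Helper5 (frobQ frobQ_apply frobQ_frobQ)
open Cfsg.Agent.Helper13 (uh_add_left uh_smul_left uh_add_right uh_smul_right uh_conj uh_zero_left
  uh_zero_right uh_neg_left uh_neg_right uh_sub_left uh_sub_right uh_single_right uh_single_left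
  uh_single_single)

namespace Cfsg.Agent.Helper97.USF

variable {F : Type*} [Field F] [Fintype F] {q N : ℕ} {hF : Fintype.card F = q ^ 2}
  {F₀ : Subfield F}

/-- The index `k < 13` in `Fin (N + 13)`. -/
def ix (N : ℕ) (k : Fin 13) : Fin (N + 13) := Fin.castLE (Nat.le_add_left 13 N) k

@[simp] theorem ix_inj {a b : Fin 13} : ix N a = ix N b ↔ a = b :=
  (Fin.castLE_injective _).eq_iff

/-- The data of a unitary subfield configuration: field constants in `F₀` and the transitivity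
properties of the subfield group. -/
structure UD (F₀ : Subfield F) (hF : Fintype.card F = q ^ 2) (N : ℕ) where
  a : F
  c : F
  τ : F
  ω : F
  ha : a ∈ F₀
  hc : c ∈ F₀
  hτ : τ ∈ F₀
  hω : ω ∈ F₀
  aN : a * frobQ hF a = -1
  cT : c + frobQ hF c = 1
  τW : frobQ hF τ = -τ
  τ0 : τ ≠ 0
  ωne : frobQ hF ω ≠ ω
  stab : ∀ x ∈ F₀, frobQ hF x ∈ F₀
  trans : ∀ u : Fin (N + 13) → F, IsRat F₀ u → u ≠ 0 → hermForm (N + 13) F q u u = 0 →
    ∃ k ∈ usH F₀ (N + 13) q, (k : Matrix (Fin (N + 13)) (Fin (N + 13)) F) *ᵥ u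
      = Pi.single (ix N 0) 1 + a • Pi.single (ix N 1) 1
  ortho : ∀ i j : Fin (N + 13), i ≠ j → ∃ k ∈ usH F₀ (N + 13) q,
    (k : Matrix (Fin (N + 13)) (Fin (N + 13)) F) *ᵥ Pi.single i 1 = Pi.single (ix N 0) 1 ∧
    (k : Matrix (Fin (N + 13)) (Fin (N + 13)) F) *ᵥ Pi.single j 1 = Pi.single (ix N 1) 1

variable (D : UD F₀ hF N)

/-- The rational isotropic vector `e_j + a e_j'`. -/
def Ei (j j' : Fin (N + 13)) : Fin (N + 13) → F := Pi.single j 1 + D.a • Pi.single j' 1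

/-- The rational isotropic vector `c e_j - σ(c) a e_j'`, a hyperbolic partner of `Ei`. -/
noncomputable def Fi (j j' : Fin (N + 13)) : Fin (N + 13) → F :=
  D.c • Pi.single j 1 - (frobQ hF D.c * D.a) • Pi.single j' 1

theorem Ei_apply (j j' i : Fin (N + 13)) :
    Ei D j j' i = (if i = j then 1 else 0) + D.a * (if i = j' then 1 else 0) := by
  simp [Ei, Pi.single_apply]

theorem Fi_apply (j j' i : Fin (N + 13)) :
    Fi D j j' i = D.c * (if i = j then 1 else 0)
      - frobQ hF D.c * D.a * (if i = j' then 1 else 0) := by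
  simp [Fi, Pi.single_apply]

theorem uh_Ei_right (v : Fin (N + 13) → F) (j j' : Fin (N + 13)) :
    hermForm (N + 13) F q v (Ei D j j') = v j + frobQ hF D.a * v j' := by
  rw [Ei, uh_add_right hF, uh_smul_right hF, uh_single_right hF, uh_single_right hF]

theorem uh_Fi_right (v : Fin (N + 13) → F) (j j' : Fin (N + 13)) :
    hermForm (N + 13) F q v (Fi D j j')
      = frobQ hF D.c * v j - D.c * frobQ hF D.a * v j' := by
  rw [Fi, uh_sub_right hF, uh_smul_right hF, uh_smul_right hF, uh_single_right hF,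
    uh_single_right hF, map_mul, frobQ_frobQ]

theorem uh_Ei_left (v : Fin (N + 13) → F) (j j' : Fin (N + 13)) :
    hermForm (N + 13) F q (Ei D j j') v = frobQ hF (v j) + D.a * frobQ hF (v j') := by
  rw [← uh_conj hF, uh_Ei_right, map_add, map_mul, frobQ_frobQ]

theorem uh_Fi_left (v : Fin (N + 13) → F) (j j' : Fin (N + 13)) :
    hermForm (N + 13) F q (Fi D j j') v
      = D.c * frobQ hF (v j) - frobQ hF D.c * D.a * frobQ hF (v j') := by
  rw [← uh_conj hF, uh_Fi_right, map_sub, map_mul, map_mul, map_mul, frobQ_frobQ, frobQ_frobQ]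

theorem isRat_Ei (j j' : Fin (N + 13)) : IsRat F₀ (Ei D j j') :=
  (isRat_single j).add ((isRat_single j').smul D.ha)

theorem isRat_Fi (j j' : Fin (N + 13)) : IsRat F₀ (Fi D j j') :=
  ((isRat_single j).smul D.hc).sub ((isRat_single j').smul (mul_mem (D.stab _ D.hc) D.ha))

theorem Ei_iso {j j' : Fin (N + 13)} (h : j ≠ j') :
    hermForm (N + 13) F q (Ei D j j') (Ei D j j') = 0 := by
  rw [uh_Ei_right, Ei_apply, Ei_apply]
  simp only [if_true, if_neg h, if_neg h.symm, mul_zero, add_zero, zero_add, mul_one]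
  linear_combination D.aN

theorem Fi_iso {j j' : Fin (N + 13)} (h : j ≠ j') :
    hermForm (N + 13) F q (Fi D j j') (Fi D j j') = 0 := by
  rw [uh_Fi_right, Fi_apply, Fi_apply]
  simp only [if_true, if_neg h, if_neg h.symm, mul_zero, sub_zero, zero_sub, mul_one]
  linear_combination (D.c * frobQ hF D.c) * D.aN

theorem Fi_Ei {j j' : Fin (N + 13)} (h : j ≠ j') :
    hermForm (N + 13) F q (Fi D j j') (Ei D j j') = 1 := by
  rw [uh_Ei_right, Fi_apply, Fi_apply]
  simp only [if_true, if_neg h, if_neg h.symm, mul_zero, sub_zero, zero_sub, mul_one]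
  linear_combination D.cT - frobQ hF D.c * D.aN

theorem Ei_Fi {j j' : Fin (N + 13)} (h : j ≠ j') :
    hermForm (N + 13) F q (Ei D j j') (Fi D j j') = 1 := by
  rw [uh_Fi_right, Ei_apply, Ei_apply]
  simp only [if_true, if_neg h, if_neg h.symm, mul_zero, add_zero, zero_add, mul_one]
  linear_combination D.cT - D.c * D.aN

/-- Two coordinate pairs are disjoint. -/
def Dj (j j' k k' : Fin (N + 13)) : Prop := j ≠ k ∧ j ≠ k' ∧ j' ≠ k ∧ j' ≠ k'

theorem Dj.symm {j j' k k' : Fin (N + 13)} (h : Dj j j' k k') : Dj k k' j j' :=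
  ⟨h.1.symm, h.2.2.1.symm, h.2.1.symm, h.2.2.2.symm⟩

theorem dj_ix {a a' b b' : Fin 13} (h : a ≠ b ∧ a ≠ b' ∧ a' ≠ b ∧ a' ≠ b') :
    Dj (ix N a) (ix N a') (ix N b) (ix N b') :=
  ⟨fun e => h.1 (ix_inj.mp e), fun e => h.2.1 (ix_inj.mp e), fun e => h.2.2.1 (ix_inj.mp e),
    fun e => h.2.2.2 (ix_inj.mp e)⟩

theorem Ei_Ei_disj {j j' k k' : Fin (N + 13)} (h : Dj j j' k k') :
    hermForm (N + 13) F q (Ei D j j') (Ei D k k') = 0 := by
  rw [uh_Ei_right, Ei_apply, Ei_apply]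
  simp only [if_neg h.1.symm, if_neg h.2.1.symm, if_neg h.2.2.1.symm, if_neg h.2.2.2.symm,
    mul_zero, add_zero]

theorem Fi_Ei_disj {j j' k k' : Fin (N + 13)} (h : Dj j j' k k') :
    hermForm (N + 13) F q (Fi D j j') (Ei D k k') = 0 := by
  rw [uh_Ei_right, Fi_apply, Fi_apply]
  simp only [if_neg h.1.symm, if_neg h.2.1.symm, if_neg h.2.2.1.symm, if_neg h.2.2.2.symm,
    mul_zero, add_zero, sub_zero]

theorem Ei_Fi_disj {j j' k k' : Fin (N + 13)} (h : Dj j j' k k') :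
    hermForm (N + 13) F q (Ei D j j') (Fi D k k') = 0 := by
  rw [uh_Fi_right, Ei_apply, Ei_apply]
  simp only [if_neg h.1.symm, if_neg h.2.1.symm, if_neg h.2.2.1.symm, if_neg h.2.2.2.symm,
    mul_zero, add_zero, sub_zero]

theorem Fi_Fi_disj {j j' k k' : Fin (N + 13)} (h : Dj j j' k k') :
    hermForm (N + 13) F q (Fi D j j') (Fi D k k') = 0 := by
  rw [uh_Fi_right, Fi_apply, Fi_apply]
  simp only [if_neg h.1.symm, if_neg h.2.1.symm, if_neg h.2.2.1.symm, if_neg h.2.2.2.symm,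
    mul_zero, add_zero, sub_zero]

theorem single_eq_EF {j j' : Fin (N + 13)} (h : j ≠ j') :
    (Pi.single j 1 : Fin (N + 13) → F) = frobQ hF D.c • Ei D j j' + Fi D j j' := by
  have e : (Pi.single j 1 : Fin (N + 13) → F)
      = (D.c + frobQ hF D.c) • (Pi.single j 1 : Fin (N + 13) → F) := by rw [D.cT, one_smul]
  rw [Ei, Fi]
  conv_lhs => rw [e]
  module

/-! ### The base hyperbolic pair and vectors supported away from it -/

/-- The base rational isotropic vector. -/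
abbrev E0 : Fin (N + 13) → F := Ei D (ix N 0) (ix N 1)

/-- Its rational hyperbolic partner. -/
noncomputable abbrev F0 : Fin (N + 13) → F := Fi D (ix N 0) (ix N 1)

theorem ix01 : ix N 0 ≠ ix N 1 := fun e => by simp at e

theorem E0_iso : hermForm (N + 13) F q (E0 D) (E0 D) = 0 := Ei_iso D ix01

theorem F0_iso : hermForm (N + 13) F q (F0 D) (F0 D) = 0 := Fi_iso D ix01

theorem F0_E0 : hermForm (N + 13) F q (F0 D) (E0 D) = 1 := Fi_Ei D ix01

theorem E0_F0 : hermForm (N + 13) F q (E0 D) (F0 D) = 1 := Ei_Fi D ix01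

theorem E0_ne_zero : E0 D ≠ 0 := by
  intro h
  have h1 := F0_E0 D
  rw [h, uh_zero_right hF] at h1
  exact zero_ne_one h1

/-- A vector with vanishing first two coordinates. -/
def Hi2 (v : Fin (N + 13) → F) : Prop := v (ix N 0) = 0 ∧ v (ix N 1) = 0

variable {D}

theorem Hi2.perpE {v : Fin (N + 13) → F} (hv : Hi2 v) : hermForm (N + 13) F q v (E0 D) = 0 := by
  rw [uh_Ei_right, hv.1, hv.2, mul_zero, add_zero]

theorem Hi2.perpF {v : Fin (N + 13) → F} (hv : Hi2 v) : hermForm (N + 13) F q v (F0 D) = 0 := by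
  rw [uh_Fi_right, hv.1, hv.2, mul_zero, mul_zero, sub_zero]

theorem Hi2.perpE' {v : Fin (N + 13) → F} (hv : Hi2 v) : hermForm (N + 13) F q (E0 D) v = 0 :=
  uh_symm0 hF hv.perpE

theorem Hi2.perpF' {v : Fin (N + 13) → F} (hv : Hi2 v) : hermForm (N + 13) F q (F0 D) v = 0 :=
  uh_symm0 hF hv.perpF

theorem Hi2.add {u v : Fin (N + 13) → F} (hu : Hi2 u) (hv : Hi2 v) : Hi2 (u + v) :=
  ⟨by rw [Pi.add_apply, hu.1, hv.1, add_zero], by rw [Pi.add_apply, hu.2, hv.2, add_zero]⟩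

theorem Hi2.sub {u v : Fin (N + 13) → F} (hu : Hi2 u) (hv : Hi2 v) : Hi2 (u - v) :=
  ⟨by rw [Pi.sub_apply, hu.1, hv.1, sub_zero], by rw [Pi.sub_apply, hu.2, hv.2, sub_zero]⟩

theorem Hi2.smul {u : Fin (N + 13) → F} (hu : Hi2 u) (c : F) : Hi2 (c • u) :=
  ⟨by rw [Pi.smul_apply, hu.1, smul_zero], by rw [Pi.smul_apply, hu.2, smul_zero]⟩

theorem hi2_zero : Hi2 (0 : Fin (N + 13) → F) := ⟨rfl, rfl⟩

theorem hi2_single {j : Fin (N + 13)} (h0 : j ≠ ix N 0) (h1 : j ≠ ix N 1) :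
    Hi2 (Pi.single j 1 : Fin (N + 13) → F) :=
  ⟨by rw [Pi.single_apply, if_neg h0.symm], by rw [Pi.single_apply, if_neg h1.symm]⟩

variable (D)

theorem hi2_Ei {j j' : Fin (N + 13)} (h : Dj j j' (ix N 0) (ix N 1)) : Hi2 (Ei D j j') :=
  (hi2_single h.1 h.2.1).add ((hi2_single h.2.2.1 h.2.2.2).smul _)

theorem hi2_Fi {j j' : Fin (N + 13)} (h : Dj j j' (ix N 0) (ix N 1)) : Hi2 (Fi D j j') :=
  ((hi2_single h.1 h.2.1).smul _).sub ((hi2_single h.2.2.1 h.2.2.2).smul _)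

/-- A vector orthogonal to `E0` differs from a vector supported away from the base pair by a
multiple of `E0`. -/
theorem hi2_of_perp {v : Fin (N + 13) → F} (hv : hermForm (N + 13) F q v (E0 D) = 0) :
    Hi2 (v - v (ix N 0) • E0 D) := by
  rw [uh_Ei_right] at hv
  have h01 : ix N 0 ≠ ix N 1 := ix01
  constructor
  · simp only [E0, Pi.sub_apply, Pi.smul_apply, Ei_apply, if_true, if_neg h01, smul_eq_mul,
      mul_zero, add_zero, mul_one, sub_self]
  · simp only [E0, Pi.sub_apply, Pi.smul_apply, Ei_apply, if_true, if_neg h01.symm, smul_eq_mul,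
      mul_one, zero_add]
    linear_combination (-D.a) * hv + v (ix N 1) * D.aN

/-- The decomposition of an arbitrary vector along the base hyperbolic pair. -/
theorem hi2_decomp (v : Fin (N + 13) → F) :
    Hi2 (v - hermForm (N + 13) F q v (F0 D) • E0 D - hermForm (N + 13) F q v (E0 D) • F0 D) := by
  have h01 : ix N 0 ≠ ix N 1 := ix01
  rw [uh_Ei_right, uh_Fi_right]
  constructor
  · simp only [E0, F0, Pi.sub_apply, Pi.smul_apply, Ei_apply, Fi_apply, if_true, if_neg h01,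
      smul_eq_mul, mul_zero, add_zero, sub_zero, mul_one]
    linear_combination (-(v (ix N 0))) * D.cT
  · simp only [E0, F0, Pi.sub_apply, Pi.smul_apply, Ei_apply, Fi_apply, if_true, if_neg h01.symm,
      smul_eq_mul, mul_zero, zero_add, zero_sub, mul_one]
    linear_combination (v (ix N 1)) * D.aN
      + (D.a * frobQ hF D.a * v (ix N 1)) * D.cT

/-- A rational isotropic partner. -/
theorem exists_partner (D : UD F₀ hF N) {y x : Fin (N + 13) → F} (hyr : IsRat F₀ y) (hxr : IsRat F₀ x)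
    (hy : hermForm (N + 13) F q y y = 0) (hyx : hermForm (N + 13) F q y x ≠ 0) :
    ∃ z : Fin (N + 13) → F, IsRat F₀ z ∧ hermForm (N + 13) F q z z = 0 ∧
      hermForm (N + 13) F q y z = 1 ∧ ∃ κ₁ κ₂ : F, z = κ₁ • x + κ₂ • y := by
  set η := hermForm (N + 13) F q y x with hη
  have hxy : hermForm (N + 13) F q x y = frobQ hF η := by rw [hη, uh_conj hF]
  have hση : frobQ hF η ≠ 0 := by
    intro h
    apply hyx
    have := congrArg (frobQ hF) h
    rwa [frobQ_frobQ, map_zero] at this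
  set ξ := hermForm (N + 13) F q x x with hξ
  have hξσ : frobQ hF ξ = ξ := by rw [hξ, uh_conj hF]
  have hηr : η ∈ F₀ := hyr.herm hF D.stab hxr
  have hξr : ξ ∈ F₀ := hxr.herm hF D.stab hxr
  set κ₁ : F := (frobQ hF η)⁻¹ with hκ₁
  set κ₂ : F := -(D.c * ξ) / (η * frobQ hF η) with hκ₂
  have hκ₁r : κ₁ ∈ F₀ := inv_mem (D.stab _ hηr)
  have hκ₂r : κ₂ ∈ F₀ :=
    div_mem (neg_mem (mul_mem D.hc hξr)) (mul_mem hηr (D.stab _ hηr))
  refine ⟨κ₁ • x + κ₂ • y, (hxr.smul hκ₁r).add (hyr.smul hκ₂r), ?_, ?_, κ₁, κ₂, rfl⟩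
  · simp only [uh_add_left, uh_add_right hF, uh_smul_left, uh_smul_right hF, hy, hxy, ← hη, ← hξ]
    have e1 : frobQ hF κ₁ = η⁻¹ := by rw [hκ₁, map_inv₀, frobQ_frobQ]
    have e2 : frobQ hF κ₂ = -(frobQ hF D.c * ξ) / (η * frobQ hF η) := by
      rw [hκ₂, map_div₀, map_neg, map_mul, map_mul, frobQ_frobQ, hξσ, mul_comm (frobQ hF η) η]
    rw [e1, e2, hκ₁, hκ₂]
    have hc' : frobQ hF D.c = 1 - D.c := by linear_combination D.cT
    rw [hc']
    field_simp
    ring
  · simp only [uh_add_right hF, uh_smul_right hF, hy, ← hη, mul_zero, add_zero]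
    rw [hκ₁, map_inv₀, frobQ_frobQ, inv_mul_cancel₀ hyx]

/-! ### Rational moves -/

theorem move1 {y f : Fin (N + 13) → F} (hyr : IsRat F₀ y) (hfr : IsRat F₀ f)
    (hy : hermForm (N + 13) F q y y = 0) (hf : hermForm (N + 13) F q f f = 0)
    (hfy : hermForm (N + 13) F q f y = 1) :
    ∃ k ∈ usH F₀ (N + 13) q,
      (k : Matrix (Fin (N + 13)) (Fin (N + 13)) F) *ᵥ y = (-D.τ) • f ∧
      ∀ x : Fin (N + 13) → F, hermForm (N + 13) F q x y = 0 → hermForm (N + 13) F q x f = 0 →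
        (k : Matrix (Fin (N + 13)) (Fin (N + 13)) F) *ᵥ x = x := by
  obtain ⟨hiso, hsw⟩ := utGL_swap hF hy hf hfy D.τW D.τ0
  refine ⟨utGL q (y + D.τ • f) D.τ⁻¹,
    utGL_rat hF D.stab (hyr.add (hfr.smul D.hτ)) hiso (inv_mem D.hτ)
      (by rw [map_inv₀, D.τW, inv_neg]), hsw, fun x hxy hxf => utGL_fix hiso ?_ _⟩
  rw [uh_add_right hF, uh_smul_right hF, hxy, hxf, mul_zero, add_zero]

theorem move2 {y f y' : Fin (N + 13) → F} (hyr : IsRat F₀ y) (hfr : IsRat F₀ f)
    (hy'r : IsRat F₀ y') (hy : hermForm (N + 13) F q y y = 0)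
    (hf : hermForm (N + 13) F q f f = 0) (hy' : hermForm (N + 13) F q y' y' = 0)
    (hfy : hermForm (N + 13) F q f y = 1) (hy'f : hermForm (N + 13) F q y' f = 1) :
    ∃ k ∈ usH F₀ (N + 13) q,
      (k : Matrix (Fin (N + 13)) (Fin (N + 13)) F) *ᵥ y = (D.τ * D.τ) • y' ∧
      ∀ x : Fin (N + 13) → F, hermForm (N + 13) F q x y = 0 → hermForm (N + 13) F q x f = 0 →
        hermForm (N + 13) F q x y' = 0 →
        (k : Matrix (Fin (N + 13)) (Fin (N + 13)) F) *ᵥ x = x := by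
  obtain ⟨k₁, hk₁, hk₁y, hk₁x⟩ := move1 D hyr hfr hy hf hfy
  obtain ⟨k₂, hk₂, hk₂f, hk₂x⟩ := move1 D hfr hy'r hf hy' hy'f
  refine ⟨k₂ * k₁, (usH F₀ (N + 13) q).mul_mem hk₂ hk₁, ?_, fun x h1 h2 h3 => ?_⟩
  · rw [ugl_mul_mulVec, hk₁y, mulVec_smul, hk₂f, smul_smul]
    congr 1
    ring
  · rw [ugl_mul_mulVec, hk₁x x h1 h2, hk₂x x h2 h3]

end Cfsg.Agent.Helper97.USF
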