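-- helper97 library: subfield subgroups of SU_n: overgroups with only rational transvections at a
-- rational centre; elements fixing a rational isotropic point.
import Cfsg.Agent.Helper97.USFFrame

set_option autoImplicit false
set_option linter.unusedSimpArgs false
set_option linter.unusedVariables false
set_option linter.unusedSectionVars false
open Cfsg Cfsg.Geo Matrix
open Cfsg.Agent.Helper5 (frobQ frobQ_apply frobQ_frobQ)
open Cfsg.Agent.Helper13 (uh_add_left uh_smul_left uh_add_right uh_smul_right uh_conj uh_zero_left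
  uh_zero_right uh_neg_left uh_neg_right uh_sub_left uh_sub_right uh_single_right uh_single_left
  uh_single_single)

namespace Cfsg.Agent.Helper97.USF

variable {F : Type*} [Field F] [Fintype F] {q N : ℕ} {hF : Fintype.card F = q ^ 2}
  {F₀ : Subfield F} {D : UD F₀ hF N} {M : Subgroup (GL (Fin (N + 13)) F)}

/-- An overgroup of the subfield group inside `SU_n` all of whose transvections with centre `E0`
are rational. -/
structure Ctx (D : UD F₀ hF N) (M : Subgroup (GL (Fin (N + 13)) F)) : Prop where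
  le : usH F₀ (N + 13) q ≤ M
  gu : M ≤ GU (N + 13) F q ⊓ specialLinear (Fin (N + 13)) F
  rat : ∀ c : F, frobQ hF c = -c → utGL q (E0 D) c ∈ M → c ∈ F₀

theorem gu_apply_left {g : GL (Fin (N + 13)) F} (hg : g ∈ GU (N + 13) F q)
    (x y : Fin (N + 13) → F) :
    hermForm (N + 13) F q ((g : Matrix (Fin (N + 13)) (Fin (N + 13)) F) *ᵥ x) y
      = hermForm (N + 13) F q x
        (((g⁻¹ : GL (Fin (N + 13)) F) : Matrix (Fin (N + 13)) (Fin (N + 13)) F) *ᵥ y) := by
  rw [← gu_apply hg x, ugl_mulVec_inv]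

theorem frob_ne_zero {x : F} (hx : x ≠ 0) : frobQ hF x ≠ 0 := by
  intro h
  apply hx
  have := congrArg (frobQ hF) h
  rwa [frobQ_frobQ, map_zero] at this

theorem mem_of_mul_mem {a b : F} (ha : a ∈ F₀) (ha0 : a ≠ 0) (h : a * b ∈ F₀) : b ∈ F₀ := by
  have e : b = a⁻¹ * (a * b) := by rw [← mul_assoc, inv_mul_cancel₀ ha0, one_mul]
  rw [e]
  exact mul_mem (inv_mem ha) h

/-- From `η σ(δ) + σ(η) δ ∈ F₀` for `δ = 1, ω` we get `η ∈ F₀`. -/
theorem mem_of_twist (D : UD F₀ hF N) {η : F} (h1 : η + frobQ hF η ∈ F₀)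
    (h2 : η * frobQ hF D.ω + frobQ hF η * D.ω ∈ F₀) : η ∈ F₀ := by
  have h3 : (frobQ hF D.ω - D.ω) * η ∈ F₀ := by
    have e : (frobQ hF D.ω - D.ω) * η
        = (η * frobQ hF D.ω + frobQ hF η * D.ω) - D.ω * (η + frobQ hF η) := by ring
    rw [e]
    exact sub_mem h2 (mul_mem D.hω h1)
  exact mem_of_mul_mem (sub_mem (D.stab _ D.hω) D.hω) (sub_ne_zero.mpr D.ωne) h3

/-- Lemma Q: an element `T(E0,c) ε(E0,Y)` of `M` has `h(Y,z) ∈ F₀` for all rational isotropic
`z ⊥ E0`. -/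
theorem lemQg (hc : Ctx D M) {Y : Fin (N + 13) → F}
    (hYE : hermForm (N + 13) F q Y (E0 D) = 0) (c₁ : F)
    (hm : utGL q (E0 D) c₁ * ueGL q (E0 D) Y ∈ M) {z : Fin (N + 13) → F} (hzr : IsRat F₀ z)
    (hz : hermForm (N + 13) F q z z = 0) (hzE : hermForm (N + 13) F q z (E0 D) = 0) :
    hermForm (N + 13) F q Y z ∈ F₀ := by
  have hE := E0_iso D
  have key : ∀ z : Fin (N + 13) → F, IsRat F₀ z → hermForm (N + 13) F q z z = 0 →
      hermForm (N + 13) F q z (E0 D) = 0 →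
      hermForm (N + 13) F q Y z - hermForm (N + 13) F q z Y ∈ F₀ := by
    intro z hzr hz hzE
    set d := hermForm (N + 13) F q Y z - hermForm (N + 13) F q z Y with hd
    set a := utGL q (E0 D) c₁ with ha
    set b := ueGL q (E0 D) Y with hb
    set c := ueGL q (E0 D) z with hcdef
    set t := utGL q (E0 D) d with ht
    have hcM : c ∈ M := hc.le (ueGL_rat hF D.stab (isRat_Ei D _ _) hzr hE hz hzE)
    have hheis : b * c = t * (c * b) := ueGL_heis hF hE hYE hzE
    have hac : a * c = c * a := utGL_ueGL_comm hF hE hzE c₁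
    have hat : a * t = t * a := by
      rw [ha, ht, ← utGL_add hE, ← utGL_add hE, add_comm c₁ d]
    have e1 : a * b * c = t * (c * (a * b)) := by
      calc a * b * c = a * (b * c) := mul_assoc _ _ _
        _ = a * (t * (c * b)) := by rw [hheis]
        _ = (a * t) * (c * b) := by rw [mul_assoc]
        _ = (t * a) * (c * b) := by rw [hat]
        _ = t * ((a * c) * b) := by simp only [mul_assoc]
        _ = t * ((c * a) * b) := by rw [hac]
        _ = t * (c * (a * b)) := by simp only [mul_assoc]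
    have e2 : t = a * b * c * (c * (a * b))⁻¹ := by rw [e1, mul_inv_cancel_right]
    have htM : t ∈ M := by
      rw [e2]
      exact M.mul_mem (M.mul_mem hm hcM) (M.inv_mem (M.mul_mem hcM hm))
    refine hc.rat d ?_ htM
    rw [hd, map_sub, uh_conj hF, uh_conj hF]
    ring
  set η := hermForm (N + 13) F q Y z with hη
  have hzY : hermForm (N + 13) F q z Y = frobQ hF η := by rw [hη, uh_conj hF]
  have h1 := key z hzr hz hzE
  have h2 := key (D.ω • z) (hzr.smul D.hω)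
    (by rw [uh_smul_left, uh_smul_right hF, hz, mul_zero, mul_zero])
    (by rw [uh_smul_left, hzE, mul_zero])
  rw [hzY] at h1
  rw [uh_smul_right hF, uh_smul_left, hzY, ← hη] at h2
  have h3 : (frobQ hF D.ω - D.ω) * η ∈ F₀ := by
    have e : (frobQ hF D.ω - D.ω) * η
        = (frobQ hF D.ω * η - D.ω * frobQ hF η) - D.ω * (η - frobQ hF η) := by ring
    rw [e]
    exact sub_mem h2 (mul_mem D.hω h1)
  exact mem_of_mul_mem (sub_mem (D.stab _ D.hω) D.hω) (sub_ne_zero.mpr D.ωne) h3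

theorem hi2_exists_coord {y : Fin (N + 13) → F} (hy2 : Hi2 y) (hy0 : y ≠ 0) :
    ∃ j : Fin (N + 13), j ≠ ix N 0 ∧ j ≠ ix N 1 ∧ y j ≠ 0 := by
  obtain ⟨j, hj⟩ : ∃ j, y j ≠ 0 := by
    by_contra hcon
    push Not at hcon
    exact hy0 (funext hcon)
  exact ⟨j, fun h => hj (by rw [h, hy2.1]), fun h => hj (by rw [h, hy2.2]), hj⟩

/-- Lemma AB: a transvection in `M` with centre `α E0 + β y` (`y` rational isotropic, supported
away from the base pair). -/
theorem lemAB (hc : Ctx D M) {y : Fin (N + 13) → F} (hyr : IsRat F₀ y)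
    (hy : hermForm (N + 13) F q y y = 0) (hy2 : Hi2 y) (hy0 : y ≠ 0) (α β : F) {τ' : F}
    (hτr : τ' ∈ F₀) (hτW : frobQ hF τ' = -τ') (hτ0 : τ' ≠ 0)
    (hT : utGL q (α • E0 D + β • y) τ' ∈ M) :
    β * frobQ hF β ∈ F₀ ∧ α * frobQ hF β ∈ F₀ := by
  have hE := E0_iso D
  have hyE : hermForm (N + 13) F q y (E0 D) = 0 := hy2.perpE
  have hEy : hermForm (N + 13) F q (E0 D) y = 0 := hy2.perpE'
  obtain ⟨j, hj0, hj1, hyj⟩ := hi2_exists_coord hy2 hy0
  have hx2 : Hi2 (Pi.single j 1 : Fin (N + 13) → F) := hi2_single hj0 hj1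
  obtain ⟨z, hzr, hz, hyz, κ₁, κ₂, hzdef⟩ := exists_partner D hyr (isRat_single j) hy
    (by rw [uh_single_right hF]; exact hyj)
  have hz2 : Hi2 z := by rw [hzdef]; exact (hx2.smul _).add (hy2.smul _)
  have hzE : hermForm (N + 13) F q z (E0 D) = 0 := hz2.perpE
  have hEz : hermForm (N + 13) F q (E0 D) z = 0 := hz2.perpE'
  have hiso : ∀ a b : F, hermForm (N + 13) F q (a • E0 D + b • y) (a • E0 D + b • y) = 0 := by
    intro a b
    simp only [uh_add_left, uh_add_right hF, uh_smul_left, uh_smul_right hF, hE, hy, hyE, hEy,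
      mul_zero, add_zero]
  have step : ∀ δ : F, δ ∈ F₀ →
      utGL q (E0 D) (τ' * ((α + β * δ) * frobQ hF (α + β * δ) - α * frobQ hF α))
        * ueGL q (E0 D) ((τ' * frobQ hF δ * (β * frobQ hF β)) • y) ∈ M := by
    intro δ hδ
    set B := ueGL q (E0 D) ((-(frobQ hF δ)) • z) with hB
    have hBH : B ∈ usH F₀ (N + 13) q :=
      ueGL_rat hF D.stab (isRat_Ei D _ _) (hzr.smul (neg_mem (D.stab _ hδ))) hE
        (by rw [uh_smul_left, uh_smul_right hF, hz, mul_zero, mul_zero])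
        (by rw [uh_smul_left, hzE, mul_zero])
    have hBw : (B : Matrix (Fin (N + 13)) (Fin (N + 13)) F) *ᵥ (α • E0 D + β • y)
        = (α + β * δ) • E0 D + β • y := by
      rw [hB, ueGL_mulVec hE (by rw [uh_smul_left, hzE, mul_zero])
        (by rw [uh_smul_right hF, hEz, mul_zero])]
      simp only [uh_add_left, uh_smul_left, uh_smul_right hF, hE, hyE, hEz, hyz, map_neg,
        frobQ_frobQ]
      module
    have h1 := M.mul_mem (M.mul_mem (hc.le hBH) hT) (M.inv_mem (hc.le hBH))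
    rw [utGL_conj hBH.2.1 (hiso α β), hBw, utGL_shift hF hE hy hyE α β δ τ' hτW, mul_assoc] at h1
    have h2 := M.mul_mem (M.inv_mem hT) h1
    rwa [inv_mul_cancel_left] at h2
  have hNβ : β * frobQ hF β ∈ F₀ := by
    have h1 := step 1 (one_mem _)
    have h2 := lemQg hc (Y := (τ' * frobQ hF 1 * (β * frobQ hF β)) • y)
      (by rw [uh_smul_left, hyE, mul_zero]) _ h1 hzr hz hzE
    rw [uh_smul_left, hyz, mul_one, map_one, mul_one] at h2
    exact mem_of_mul_mem hτr hτ0 h2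
  refine ⟨hNβ, ?_⟩
  have hg : ∀ δ : F, δ ∈ F₀ →
      α * frobQ hF β * frobQ hF δ + frobQ hF (α * frobQ hF β) * δ ∈ F₀ := by
    intro δ hδ
    have h1 := step δ hδ
    have hθ : τ' * frobQ hF δ * (β * frobQ hF β) ∈ F₀ :=
      mul_mem (mul_mem hτr (D.stab _ hδ)) hNβ
    have h2 : ueGL q (E0 D) ((τ' * frobQ hF δ * (β * frobQ hF β)) • y) ∈ M :=
      hc.le (ueGL_rat hF D.stab (isRat_Ei D _ _) (hyr.smul hθ) hE
        (by rw [uh_smul_left, uh_smul_right hF, hy, mul_zero, mul_zero])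
        (by rw [uh_smul_left, hyE, mul_zero]))
    have h3 := M.mul_mem h1 (M.inv_mem h2)
    rw [mul_inv_cancel_right] at h3
    have h4 := hc.rat _ (by
      simp only [map_mul, map_sub, map_add, frobQ_frobQ, hτW]
      ring) h3
    have h5 := mem_of_mul_mem hτr hτ0 h4
    have e : α * frobQ hF β * frobQ hF δ + frobQ hF (α * frobQ hF β) * δ
        = ((α + β * δ) * frobQ hF (α + β * δ) - α * frobQ hF α)
          - (β * frobQ hF β) * (δ * frobQ hF δ) := by
      simp only [map_mul, map_add, frobQ_frobQ]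
      ring
    rw [e]
    exact sub_mem h5 (mul_mem hNβ (mul_mem hδ (D.stab _ hδ)))
  have h1 := hg 1 (one_mem _)
  have h2 := hg D.ω D.hω
  rw [map_one, mul_one, mul_one] at h1
  exact mem_of_twist D h1 h2

theorem exists_hi_ne (j : Fin (N + 13)) :
    ∃ j' : Fin (N + 13), j' ≠ j ∧ j' ≠ ix N 0 ∧ j' ≠ ix N 1 := by
  by_cases h : j = ix N 2
  · exact ⟨ix N 3, by rw [h]; simp, by simp, by simp⟩
  · exact ⟨ix N 2, fun e => h e.symm, by simp, by simp⟩

/-- A vector whose pairings with all rational isotropic vectors orthogonal to `E0` are rational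
has rational coordinates away from the base pair. -/
theorem coord_rat (D : UD F₀ hF N) {Y : Fin (N + 13) → F}
    (hY : ∀ z : Fin (N + 13) → F, IsRat F₀ z → hermForm (N + 13) F q z z = 0 →
      hermForm (N + 13) F q z (E0 D) = 0 → hermForm (N + 13) F q Y z ∈ F₀)
    (j : Fin (N + 13)) (hj0 : j ≠ ix N 0) (hj1 : j ≠ ix N 1) : Y j ∈ F₀ := by
  obtain ⟨j', hj'j, hj'0, hj'1⟩ := exists_hi_ne (N := N) j
  have hd : Dj j j' (ix N 0) (ix N 1) := ⟨hj0, hj1, hj'0, hj'1⟩
  have h1 := hY _ (isRat_Ei D j j') (Ei_iso D hj'j.symm) (hi2_Ei D hd).perpE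
  have h2 := hY _ (isRat_Fi D j j') (Fi_iso D hj'j.symm) (hi2_Fi D hd).perpE
  have e : Y j = D.c * hermForm (N + 13) F q Y (Ei D j j')
      + hermForm (N + 13) F q Y (Fi D j j') := by
    rw [← uh_single_right hF Y j, single_eq_EF D hj'j.symm, uh_add_right hF, uh_smul_right hF,
      frobQ_frobQ]
  rw [e]
  exact add_mem (mul_mem D.hc h1) h2

/-- The rational decomposition of a vector orthogonal to `E0`. -/
theorem rat_decomp (D : UD F₀ hF N) {Y : Fin (N + 13) → F}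
    (hYE : hermForm (N + 13) F q Y (E0 D) = 0)
    (hY : ∀ j : Fin (N + 13), j ≠ ix N 0 → j ≠ ix N 1 → Y j ∈ F₀) :
    IsRat F₀ (Y - Y (ix N 0) • E0 D) ∧ Hi2 (Y - Y (ix N 0) • E0 D) := by
  have h2 := hi2_of_perp D hYE
  refine ⟨fun j => ?_, h2⟩
  by_cases hj0 : j = ix N 0
  · rw [hj0, h2.1]; exact zero_mem _
  by_cases hj1 : j = ix N 1
  · rw [hj1, h2.2]; exact zero_mem _
  simp only [E0, Pi.sub_apply, Pi.smul_apply, Ei_apply, if_neg hj0, if_neg hj1, smul_eq_mul,
    mul_zero, add_zero, sub_zero]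
  exact hY j hj0 hj1

theorem eigen_ne_zero {k : GL (Fin (N + 13)) F} {v : Fin (N + 13) → F} (hv : v ≠ 0) {lam : F}
    (hkE : (k : Matrix (Fin (N + 13)) (Fin (N + 13)) F) *ᵥ v = lam • v) : lam ≠ 0 := by
  rintro rfl
  rw [zero_smul] at hkE
  have := ugl_inv_mulVec k v
  rw [hkE, mulVec_zero] at this
  exact hv this.symm

theorem eigen_inv {k : GL (Fin (N + 13)) F} {v : Fin (N + 13) → F} {lam : F} (hlam : lam ≠ 0)
    (hkE : (k : Matrix (Fin (N + 13)) (Fin (N + 13)) F) *ᵥ v = lam • v) :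
    ((k⁻¹ : GL (Fin (N + 13)) F) : Matrix (Fin (N + 13)) (Fin (N + 13)) F) *ᵥ v = lam⁻¹ • v := by
  have := ugl_inv_mulVec k v
  rw [hkE, mulVec_smul] at this
  calc ((k⁻¹ : GL (Fin (N + 13)) F) : Matrix (Fin (N + 13)) (Fin (N + 13)) F) *ᵥ v
      = lam⁻¹ • (lam • ((k⁻¹ : GL (Fin (N + 13)) F) :
          Matrix (Fin (N + 13)) (Fin (N + 13)) F) *ᵥ v) := by
        rw [smul_smul, inv_mul_cancel₀ hlam, one_smul]
    _ = lam⁻¹ • v := by rw [this]

/-- The norm of the eigenvalue at `E0` of an element of `M` is rational. -/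
theorem PLnorm (hc : Ctx D M) {k : GL (Fin (N + 13)) F} (hk : k ∈ M) (lam : F)
    (hkE : (k : Matrix (Fin (N + 13)) (Fin (N + 13)) F) *ᵥ E0 D = lam • E0 D) :
    lam * frobQ hF lam ∈ F₀ := by
  have hE := E0_iso D
  have hgu := (hc.gu hk).1
  have h1 := M.mul_mem (M.mul_mem hk (hc.le (utGL_rat hF D.stab (isRat_Ei D _ _) hE D.hτ D.τW)))
    (M.inv_mem hk)
  rw [utGL_conj hgu hE, hkE, utGL_smul hF lam hE] at h1
  have h2 := hc.rat _ (by
    simp only [map_mul, frobQ_frobQ, D.τW]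
    ring) h1
  exact mem_of_mul_mem D.hτ D.τ0 h2

/-- Columns of an element of `M` fixing the point `⟨E0⟩`. -/
theorem PLcol (hc : Ctx D M) {k : GL (Fin (N + 13)) F} (hk : k ∈ M) (lam : F)
    (hkE : (k : Matrix (Fin (N + 13)) (Fin (N + 13)) F) *ᵥ E0 D = lam • E0 D)
    {y : Fin (N + 13) → F} (hyr : IsRat F₀ y) (hy : hermForm (N + 13) F q y y = 0)
    (hy2 : Hi2 y) (hy0 : y ≠ 0) :
    IsRat F₀ (frobQ hF lam • ((k : Matrix (Fin (N + 13)) (Fin (N + 13)) F) *ᵥ y)) := by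
  have hE := E0_iso D
  have hgu := (hc.gu hk).1
  have hlam : lam ≠ 0 := eigen_ne_zero (E0_ne_zero D) hkE
  have hσlam : frobQ hF lam ≠ 0 := frob_ne_zero hlam
  have hkinv := eigen_inv hlam hkE
  have hN := PLnorm hc hk lam hkE
  have hyE : hermForm (N + 13) F q y (E0 D) = 0 := hy2.perpE
  have hkyE : hermForm (N + 13) F q ((k : Matrix (Fin (N + 13)) (Fin (N + 13)) F) *ᵥ y) (E0 D)
      = 0 := by
    have h1 := gu_apply hgu y (E0 D)
    rw [hkE, uh_smul_right hF, hyE] at h1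
    exact (mul_eq_zero.mp h1).resolve_left hσlam
  have hky : hermForm (N + 13) F q ((k : Matrix (Fin (N + 13)) (Fin (N + 13)) F) *ᵥ y)
      ((k : Matrix (Fin (N + 13)) (Fin (N + 13)) F) *ᵥ y) = 0 := by rw [gu_apply hgu, hy]
  set Y : Fin (N + 13) → F := frobQ hF lam • ((k : Matrix (Fin (N + 13)) (Fin (N + 13)) F) *ᵥ y)
    with hY
  have hYE : hermForm (N + 13) F q Y (E0 D) = 0 := by rw [hY, uh_smul_left, hkyE, mul_zero]
  have hYY : hermForm (N + 13) F q Y Y = 0 := by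
    rw [hY, uh_smul_left, uh_smul_right hF, hky, mul_zero, mul_zero]
  have hgY : utGL q (E0 D) 0 * ueGL q (E0 D) Y ∈ M := by
    have h1 := M.mul_mem (M.mul_mem hk (hc.le (ueGL_rat hF D.stab (isRat_Ei D _ _) hyr hE hy hyE)))
      (M.inv_mem hk)
    rw [ueGL_conj hgu hE hyE (uh_symm0 hF hyE), hkE, ueGL_smul_left hF lam hE hkyE] at h1
    rw [utGL_zero, one_mul]
    exact h1
  have hQ : ∀ z : Fin (N + 13) → F, IsRat F₀ z → hermForm (N + 13) F q z z = 0 →
      hermForm (N + 13) F q z (E0 D) = 0 → hermForm (N + 13) F q Y z ∈ F₀ :=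
    fun z hzr hz hzE => lemQg hc hYE 0 hgY hzr hz hzE
  have hcoord := coord_rat D hQ
  obtain ⟨hy₁r, hy₁2⟩ := rat_decomp D hYE hcoord
  set μ : F := Y (ix N 0) with hμ
  set y₁ : Fin (N + 13) → F := Y - μ • E0 D with hy₁
  have hYdec : Y = μ • E0 D + (1 : F) • y₁ := by rw [hy₁]; module
  have hy₁0 : y₁ ≠ 0 := by
    intro h0
    have h1 : Y = μ • E0 D := sub_eq_zero.1 h0
    have h2 : (k : Matrix (Fin (N + 13)) (Fin (N + 13)) F) *ᵥ y
        = ((frobQ hF lam)⁻¹ * μ) • E0 D := by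
      rw [← smul_smul, ← h1, hY, smul_smul, inv_mul_cancel₀ hσlam, one_smul]
    have h3 := ugl_inv_mulVec k y
    rw [h2, mulVec_smul, hkinv, smul_smul] at h3
    have h4 := hy2.1
    rw [← h3] at h4
    simp only [E0, Pi.smul_apply, Ei_apply, if_true, if_neg (ix01 (N := N)), smul_eq_mul,
      mul_zero, add_zero, mul_one] at h4
    apply hy0
    rw [← h3, h4, zero_smul]
  have hy₁iso : hermForm (N + 13) F q y₁ y₁ = 0 := by
    rw [hy₁]
    simp only [uh_sub_left, uh_sub_right hF, uh_smul_left, uh_smul_right hF, hYY, hYE,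
      uh_symm0 hF hYE, hE, mul_zero, sub_zero]
  set τ' : F := D.τ * ((frobQ hF lam)⁻¹ * frobQ hF (frobQ hF lam)⁻¹) with hτ'
  have hτ'e : τ' = D.τ * (lam * frobQ hF lam)⁻¹ := by
    rw [hτ', map_inv₀, frobQ_frobQ, mul_inv, mul_comm lam⁻¹]
  have hτ'r : τ' ∈ F₀ := by rw [hτ'e]; exact mul_mem D.hτ (inv_mem hN)
  have hτ'W : frobQ hF τ' = -τ' := by
    rw [hτ'e, map_mul, map_inv₀, map_mul, frobQ_frobQ, D.τW, mul_comm (frobQ hF lam) lam]
    ring
  have hτ'0 : τ' ≠ 0 := by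
    rw [hτ'e]
    exact mul_ne_zero D.τ0 (inv_ne_zero (mul_ne_zero hlam hσlam))
  have hT : utGL q (μ • E0 D + (1 : F) • y₁) τ' ∈ M := by
    have h1 := M.mul_mem (M.mul_mem hk (hc.le (utGL_rat hF D.stab hyr hy D.hτ D.τW)))
      (M.inv_mem hk)
    have e : (k : Matrix (Fin (N + 13)) (Fin (N + 13)) F) *ᵥ y = (frobQ hF lam)⁻¹ • Y := by
      rw [hY, smul_smul, inv_mul_cancel₀ hσlam, one_smul]
    rw [utGL_conj hgu hy, e, utGL_smul hF _ hYY, ← hτ', hYdec] at h1
    exact h1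
  obtain ⟨-, hμF⟩ := lemAB hc hy₁r hy₁iso hy₁2 hy₁0 μ 1 hτ'r hτ'W hτ'0 hT
  rw [map_one, mul_one] at hμF
  rw [hYdec, one_smul]
  exact ((isRat_Ei D _ _).smul hμF).add hy₁r

end Cfsg.Agent.Helper97.USF
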