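-- helper97 library: subfield subgroups of SU_n: an element of M fixing a rational isotropic point
-- lies in the subfield group.
import Cfsg.Agent.Helper97.USFRoot

set_option autoImplicit false
set_option linter.unusedSimpArgs false
set_option linter.unusedVariables false
set_option linter.unusedSectionVars false
open Cfsg Cfsg.Geo Matrix
open Cfsg.Agent.Helper5 (frobQ frobQ_apply frobQ_frobQ)
open Cfsg.Agent.Helper13 (uh_add_left uh_smul_left uh_add_right uh_smul_right uh_conj uh_zero_left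
  uh_zero_right uh_neg_left uh_neg_right uh_sub_left uh_sub_right uh_single_right uh_single_left
  uh_single_single)

namespace Cfsg.Agent.Helper97.USF

variable {F : Type*} [Field F] [Fintype F] {q N : ℕ} {hF : Fintype.card F = q ^ 2}
  {F₀ : Subfield F} {D : UD F₀ hF N} {M : Subgroup (GL (Fin (N + 13)) F)}

theorem a_ne_zero (D : UD F₀ hF N) : D.a ≠ 0 := by
  intro h
  have := D.aN
  rw [h, zero_mul] at this
  exact absurd this (by norm_num)

theorem single_eq_EF' (D : UD F₀ hF N) {j j' : Fin (N + 13)} (h : j ≠ j') :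
    (Pi.single j' 1 : Fin (N + 13) → F) = D.a⁻¹ • (D.c • Ei D j j' - Fi D j j') := by
  have e : D.c • Ei D j j' - Fi D j j'
      = ((D.c + frobQ hF D.c) * D.a) • (Pi.single j' 1 : Fin (N + 13) → F) := by
    rw [Ei, Fi]
    module
  rw [e, D.cT, one_mul, smul_smul, inv_mul_cancel₀ (a_ne_zero D), one_smul]

theorem Ei_ne_zero (D : UD F₀ hF N) {j j' : Fin (N + 13)} (h : j ≠ j') : Ei D j j' ≠ 0 := by
  intro h0
  have h1 := Fi_Ei D h
  rw [h0, uh_zero_right hF] at h1
  exact zero_ne_one h1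

theorem Fi_ne_zero (D : UD F₀ hF N) {j j' : Fin (N + 13)} (h : j ≠ j') : Fi D j j' ≠ 0 := by
  intro h0
  have h1 := Ei_Fi D h
  rw [h0, uh_zero_right hF] at h1
  exact zero_ne_one h1

/-- Rational coordinates away from the base pair, from pairings with the frame vectors. -/
theorem coord_rat' (D : UD F₀ hF N) {Y : Fin (N + 13) → F}
    (hY : ∀ z : Fin (N + 13) → F, IsRat F₀ z → hermForm (N + 13) F q z z = 0 → Hi2 z → z ≠ 0 →
      hermForm (N + 13) F q Y z ∈ F₀)
    (j : Fin (N + 13)) (hj0 : j ≠ ix N 0) (hj1 : j ≠ ix N 1) : Y j ∈ F₀ := by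
  obtain ⟨j', hj'j, hj'0, hj'1⟩ := exists_hi_ne (N := N) j
  have hd : Dj j j' (ix N 0) (ix N 1) := ⟨hj0, hj1, hj'0, hj'1⟩
  have h1 := hY _ (isRat_Ei D j j') (Ei_iso D hj'j.symm) (hi2_Ei D hd) (Ei_ne_zero D hj'j.symm)
  have h2 := hY _ (isRat_Fi D j j') (Fi_iso D hj'j.symm) (hi2_Fi D hd) (Fi_ne_zero D hj'j.symm)
  have e : Y j = D.c * hermForm (N + 13) F q Y (Ei D j j')
      + hermForm (N + 13) F q Y (Fi D j j') := by
    rw [← uh_single_right hF Y j, single_eq_EF D hj'j.symm, uh_add_right hF, uh_smul_right hF,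
      frobQ_frobQ]
  rw [e]
  exact add_mem (mul_mem D.hc h1) h2

/-- An element of `M` fixing the rational isotropic point `⟨E0⟩` lies in the subfield group. -/
theorem lemPL (hc : Ctx D M) {k : GL (Fin (N + 13)) F} (hk : k ∈ M) (lam : F)
    (hkE : (k : Matrix (Fin (N + 13)) (Fin (N + 13)) F) *ᵥ E0 D = lam • E0 D) :
    k ∈ usH F₀ (N + 13) q := by
  have hE := E0_iso D
  have hgu := (hc.gu hk).1
  have hlam : lam ≠ 0 := eigen_ne_zero (E0_ne_zero D) hkE
  have hσlam : frobQ hF lam ≠ 0 := frob_ne_zero hlam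
  have hkinv := eigen_inv hlam hkE
  have hN := PLnorm hc hk lam hkE
  have hkiM := M.inv_mem hk
  have h01 : ix N 0 ≠ ix N 1 := ix01
  have hcol : ∀ j : Fin (N + 13), j ≠ ix N 0 → j ≠ ix N 1 →
      IsRat F₀ (frobQ hF lam • ((k : Matrix (Fin (N + 13)) (Fin (N + 13)) F) *ᵥ Pi.single j 1)) := by
    intro j hj0 hj1
    obtain ⟨j', hj'j, hj'0, hj'1⟩ := exists_hi_ne (N := N) j
    have hd : Dj j j' (ix N 0) (ix N 1) := ⟨hj0, hj1, hj'0, hj'1⟩
    have h1 := PLcol hc hk lam hkE (isRat_Ei D j j') (Ei_iso D hj'j.symm) (hi2_Ei D hd)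
      (Ei_ne_zero D hj'j.symm)
    have h2 := PLcol hc hk lam hkE (isRat_Fi D j j') (Fi_iso D hj'j.symm) (hi2_Fi D hd)
      (Fi_ne_zero D hj'j.symm)
    rw [single_eq_EF D hj'j.symm, mulVec_add, mulVec_smul, smul_add, smul_comm]
    exact (h1.smul (D.stab _ D.hc)).add h2
  set v' : Fin (N + 13) → F :=
    frobQ hF lam • ((k : Matrix (Fin (N + 13)) (Fin (N + 13)) F) *ᵥ F0 D) with hv'
  have hv'z : ∀ z : Fin (N + 13) → F, IsRat F₀ z → hermForm (N + 13) F q z z = 0 → Hi2 z →
      z ≠ 0 → hermForm (N + 13) F q v' z ∈ F₀ := by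
    intro z hzr hz hz2 hz0
    have h1 := PLcol hc hkiM lam⁻¹ hkinv hzr hz hz2 hz0
    set r : Fin (N + 13) → F := frobQ hF lam⁻¹ •
      (((k⁻¹ : GL (Fin (N + 13)) F) : Matrix (Fin (N + 13)) (Fin (N + 13)) F) *ᵥ z) with hr
    have e : ((k⁻¹ : GL (Fin (N + 13)) F) : Matrix (Fin (N + 13)) (Fin (N + 13)) F) *ᵥ z
        = frobQ hF lam • r := by
      rw [hr, smul_smul, ← map_mul, mul_inv_cancel₀ hlam, map_one, one_smul]
    rw [hv', uh_smul_left, gu_apply_left hgu, e, uh_smul_right hF, frobQ_frobQ, ← mul_assoc,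
      mul_comm (frobQ hF lam) lam]
    exact mul_mem hN ((isRat_Fi D _ _).herm hF D.stab h1)
  have hv'E : hermForm (N + 13) F q v' (E0 D) = 1 := by
    rw [hv', uh_smul_left, gu_apply_left hgu, hkinv, uh_smul_right hF, F0_E0, mul_one, ← map_mul,
      mul_inv_cancel₀ hlam, map_one]
  have hv'iso : hermForm (N + 13) F q v' v' = 0 := by
    rw [hv', uh_smul_left, uh_smul_right hF, gu_apply hgu, F0_iso, mul_zero, mul_zero]
  have hv'coord := coord_rat' D hv'z
  set γ : F := v' (ix N 0) - D.c with hγ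
  set R : Fin (N + 13) → F := v' - γ • E0 D with hR
  have hv1 : v' (ix N 0) + frobQ hF D.a * v' (ix N 1) = 1 := by
    rw [← hv'E]
    exact (uh_Ei_right D v' _ _).symm
  have hRr : IsRat F₀ R := by
    intro j
    by_cases hj0 : j = ix N 0
    · have e : R j = D.c := by
        rw [hj0]
        simp only [hR, E0, Pi.sub_apply, Pi.smul_apply, Ei_apply, if_true, if_neg h01, smul_eq_mul,
          mul_zero, add_zero, mul_one]
        rw [hγ]
        ring
      rw [e]
      exact D.hc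
    by_cases hj1 : j = ix N 1
    · have e : R j = -(D.a * frobQ hF D.c) := by
        rw [hj1]
        simp only [hR, E0, Pi.sub_apply, Pi.smul_apply, Ei_apply, if_true, if_neg h01.symm,
          smul_eq_mul, zero_add, mul_one]
        rw [hγ]
        linear_combination D.a * D.cT - D.a * hv1 + v' (ix N 1) * D.aN
      rw [e]
      exact neg_mem (mul_mem D.ha (D.stab _ D.hc))
    · simp only [hR, E0, Pi.sub_apply, Pi.smul_apply, Ei_apply, if_neg hj0, if_neg hj1, smul_eq_mul,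
        mul_zero, add_zero, sub_zero]
      exact hv'coord j hj0 hj1
  have hRE : hermForm (N + 13) F q R (E0 D) = 1 := by
    rw [hR, uh_sub_left, uh_smul_left γ, hE, mul_zero, sub_zero, hv'E]
  have hER : hermForm (N + 13) F q (E0 D) R = 1 := by rw [← uh_conj hF, hRE, map_one]
  have hγγ : γ + frobQ hF γ ∈ F₀ := by
    have h1 : hermForm (N + 13) F q v' v'
        = hermForm (N + 13) F q R R + frobQ hF γ + γ := by
      have e : v' = R + γ • E0 D := by rw [hR]; abel
      conv_lhs => rw [e]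
      simp only [uh_add_left, uh_add_right hF, uh_smul_left, uh_smul_right hF, hE, hRE, hER]
      ring
    have h2 : γ + frobQ hF γ = -hermForm (N + 13) F q R R := by
      linear_combination hv'iso - h1
    rw [h2]
    exact neg_mem (hRr.herm hF D.stab hRr)
  set w₀ : F := γ * frobQ hF D.c - D.c * frobQ hF γ with hw₀
  set c₀ : F := -(w₀ * (lam * frobQ hF lam)⁻¹) with hc₀
  have hc₀W : frobQ hF c₀ = -c₀ := by
    rw [hc₀, hw₀]
    simp only [map_neg, map_mul, map_sub, map_inv₀, frobQ_frobQ]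
    rw [mul_comm (frobQ hF lam) lam]
    ring
  set k₀ : GL (Fin (N + 13)) F := k * utGL q (E0 D) c₀ with hk₀
  have hk₀x : ∀ x : Fin (N + 13) → F,
      (k₀ : Matrix (Fin (N + 13)) (Fin (N + 13)) F) *ᵥ x
        = (k : Matrix (Fin (N + 13)) (Fin (N + 13)) F) *ᵥ x
          + (c₀ * hermForm (N + 13) F q x (E0 D) * lam) • E0 D := by
    intro x
    rw [hk₀, ugl_mul_mulVec, utGL_mulVec hE, mulVec_add, mulVec_smul, hkE, smul_smul]
  have hkey : γ - w₀ ∈ F₀ := by
    have e : γ - w₀ = D.c * (γ + frobQ hF γ) := by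
      rw [hw₀]
      linear_combination (-γ) * D.cT
    rw [e]
    exact mul_mem D.hc hγγ
  have hcolE : IsRat F₀ (frobQ hF lam •
      ((k₀ : Matrix (Fin (N + 13)) (Fin (N + 13)) F) *ᵥ E0 D)) := by
    rw [hk₀x, hE, mul_zero, zero_mul, zero_smul, add_zero, hkE, smul_smul, mul_comm]
    exact (isRat_Ei D _ _).smul hN
  have hcolF : IsRat F₀ (frobQ hF lam •
      ((k₀ : Matrix (Fin (N + 13)) (Fin (N + 13)) F) *ᵥ F0 D)) := by
    rw [hk₀x, F0_E0, mul_one, smul_add, ← hv', smul_smul]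
    have e : v' + (frobQ hF lam * (c₀ * lam)) • E0 D = R + (γ - w₀) • E0 D := by
      have e1 : frobQ hF lam * (c₀ * lam) = -w₀ := by
        rw [hc₀]
        field_simp
      rw [e1, hR]
      module
    rw [e]
    exact hRr.add ((isRat_Ei D _ _).smul hkey)
  have hk₀sub : k₀ ∈ subfieldSubgroup F₀ (1 : GL (Fin (N + 13)) F) := by
    refine mem_sub_of_rat (frobQ hF lam) hσlam fun j => ?_
    by_cases hj0 : j = ix N 0
    · rw [hj0, single_eq_EF D h01, mulVec_add, mulVec_smul, smul_add, smul_comm]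
      exact (hcolE.smul (D.stab _ D.hc)).add hcolF
    by_cases hj1 : j = ix N 1
    · rw [hj1, single_eq_EF' D h01, mulVec_smul, mulVec_sub, mulVec_smul, smul_comm, smul_sub,
        smul_comm (frobQ hF lam) D.c]
      exact ((hcolE.smul D.hc).sub hcolF).smul (inv_mem D.ha)
    · rw [hk₀x, (hi2_single hj0 hj1).perpE, mul_zero, zero_mul, zero_smul, add_zero]
      exact hcol j hj0 hj1
  have hk₀H : k₀ ∈ usH F₀ (N + 13) q :=
    ⟨hk₀sub, Subgroup.mul_mem _ (hc.gu hk) (utGL_mem hF hE hc₀W)⟩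
  have hst : utGL q (E0 D) c₀ ∈ M := by
    have h1 := M.mul_mem (M.inv_mem hk) (hc.le hk₀H)
    rwa [hk₀, inv_mul_cancel_left] at h1
  have hc₀F := hc.rat c₀ hc₀W hst
  have hstH : utGL q (E0 D) c₀ ∈ usH F₀ (N + 13) q :=
    utGL_rat hF D.stab (isRat_Ei D _ _) hE hc₀F hc₀W
  have e : k = k₀ * (utGL q (E0 D) c₀)⁻¹ := by rw [hk₀, mul_inv_cancel_right]
  rw [e]
  exact Subgroup.mul_mem _ hk₀H (Subgroup.inv_mem _ hstH)

end Cfsg.Agent.Helper97.USF
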