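-- helper97 library: subfield subgroups of SU_n: conjugates of rational Eichler elements (free action).
import Cfsg.Agent.Helper97.USFPL
import Cfsg.Agent.Helper97.SFRoot

set_option autoImplicit false
set_option linter.unusedSimpArgs false
set_option linter.unusedVariables false
set_option linter.unusedSectionVars false
open Cfsg Cfsg.Geo Matrix
open Cfsg.Agent.Helper5 (frobQ frobQ_apply frobQ_frobQ)
open Cfsg.Agent.Helper13 (uh_add_left uh_smul_left uh_add_right uh_smul_right uh_conj uh_zero_left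
  uh_zero_right uh_neg_left uh_neg_right uh_sub_left uh_sub_right uh_single_right uh_single_left
  uh_single_single)

namespace Cfsg.Agent.Helper97.USF

variable {F : Type*} [Field F] [Fintype F] {q N : ℕ} {hF : Fintype.card F = q ^ 2}
  {F₀ : Subfield F} {D : UD F₀ hF N} {M : Subgroup (GL (Fin (N + 13)) F)}

/-- The rational isotropic vector with parameters `t`. -/
def yVec (D : UD F₀ hF N) (t : F₀ × F₀ × F₀) : Fin (N + 13) → F :=
  (t.1 : F) • Ei D (ix N 2) (ix N 3) + (t.2.1 : F) • Ei D (ix N 4) (ix N 5)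
    + (t.2.2 : F) • Ei D (ix N 6) (ix N 7)

theorem yVec_rat (D : UD F₀ hF N) (t : F₀ × F₀ × F₀) : IsRat F₀ (yVec D t) :=
  (((isRat_Ei D _ _).smul t.1.2).add ((isRat_Ei D _ _).smul t.2.1.2)).add
    ((isRat_Ei D _ _).smul t.2.2.2)

theorem yVec_add (D : UD F₀ hF N) (s t : F₀ × F₀ × F₀) :
    yVec D (s + t) = yVec D s + yVec D t := by
  simp only [yVec, Prod.fst_add, Prod.snd_add, Subfield.coe_add]
  module

theorem yVec_zero (D : UD F₀ hF N) : yVec D (0 : F₀ × F₀ × F₀) = 0 := by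
  simp [yVec]

theorem yVec_hi2 (D : UD F₀ hF N) (t : F₀ × F₀ × F₀) : Hi2 (yVec D t) :=
  (((hi2_Ei D (dj_ix (by decide))).smul _).add ((hi2_Ei D (dj_ix (by decide))).smul _)).add
    ((hi2_Ei D (dj_ix (by decide))).smul _)

theorem yVec_yVec (D : UD F₀ hF N) (s t : F₀ × F₀ × F₀) :
    hermForm (N + 13) F q (yVec D s) (yVec D t) = 0 := by
  have h23 : ix N 2 ≠ ix N 3 := fun e => by simp at e
  have h45 : ix N 4 ≠ ix N 5 := fun e => by simp at e
  have h67 : ix N 6 ≠ ix N 7 := fun e => by simp at e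
  simp only [yVec, uh_add_left, uh_add_right hF, uh_smul_left, uh_smul_right hF, Ei_iso D h23,
    Ei_iso D h45, Ei_iso D h67,
    Ei_Ei_disj D (dj_ix (N := N) (a := 2) (a' := 3) (b := 4) (b' := 5) (by decide)),
    Ei_Ei_disj D (dj_ix (N := N) (a := 2) (a' := 3) (b := 6) (b' := 7) (by decide)),
    Ei_Ei_disj D (dj_ix (N := N) (a := 4) (a' := 5) (b := 2) (b' := 3) (by decide)),
    Ei_Ei_disj D (dj_ix (N := N) (a := 4) (a' := 5) (b := 6) (b' := 7) (by decide)),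
    Ei_Ei_disj D (dj_ix (N := N) (a := 6) (a' := 7) (b := 2) (b' := 3) (by decide)),
    Ei_Ei_disj D (dj_ix (N := N) (a := 6) (a' := 7) (b := 4) (b' := 5) (by decide)),
    mul_zero, add_zero]

theorem yVec_coord (D : UD F₀ hF N) (t : F₀ × F₀ × F₀) :
    yVec D t (ix N 2) = t.1 ∧ yVec D t (ix N 4) = t.2.1 ∧ yVec D t (ix N 6) = t.2.2 := by
  refine ⟨?_, ?_, ?_⟩ <;> simp [yVec, Ei_apply]

theorem yVec_ne_zero (D : UD F₀ hF N) {t : F₀ × F₀ × F₀} (ht : t ≠ 0) : yVec D t ≠ 0 := by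
  intro h
  obtain ⟨h1, h2, h3⟩ := yVec_coord D t
  rw [h] at h1 h2 h3
  apply ht
  refine Prod.ext (Subtype.ext h1.symm) (Prod.ext (Subtype.ext h2.symm) (Subtype.ext h3.symm))

/-- The rational Eichler element with parameters `t`. -/
noncomputable def rho (D : UD F₀ hF N) (t : F₀ × F₀ × F₀) : GL (Fin (N + 13)) F :=
  ueGL q (E0 D) (yVec D t)

theorem rho_mem (D : UD F₀ hF N) (t : F₀ × F₀ × F₀) : rho D t ∈ usH F₀ (N + 13) q :=
  ueGL_rat hF D.stab (isRat_Ei D _ _) (yVec_rat D t) (E0_iso D) (yVec_yVec D t t)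
    (yVec_hi2 D t).perpE

theorem rho_add (D : UD F₀ hF N) (s t : F₀ × F₀ × F₀) : rho D (s + t) = rho D s * rho D t := by
  rw [rho, rho, rho, ueGL_mul hF (E0_iso D) (yVec_hi2 D s).perpE (yVec_hi2 D t).perpE
    (yVec_yVec D t s), yVec_add]

theorem rho_zero (D : UD F₀ hF N) : rho D (0 : F₀ × F₀ × F₀) = 1 := by
  rw [rho, yVec_zero, ueGL_zero hF (E0_iso D)]

theorem rho_inv (D : UD F₀ hF N) (t : F₀ × F₀ × F₀) : (rho D t)⁻¹ = rho D (-t) := by
  rw [inv_eq_iff_mul_eq_one, ← rho_add, add_neg_cancel, rho_zero]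

theorem ueGL_pow {n : ℕ} (hF : Fintype.card F = q ^ 2) {u y : Fin n → F}
    (hu : hermForm n F q u u = 0) (hy : hermForm n F q y y = 0)
    (hyu : hermForm n F q y u = 0) (k : ℕ) :
    (ueGL q u y) ^ k = ueGL q u ((k : F) • y) := by
  induction k with
  | zero => rw [pow_zero, Nat.cast_zero, zero_smul, ueGL_zero hF hu]
  | succ k ih =>
    rw [pow_succ, ih, ueGL_mul hF hu (by rw [uh_smul_left, hyu, mul_zero]) hyu
      (by rw [uh_smul_right hF, hy, mul_zero])]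
    congr 1
    push_cast
    module

/-- If a conjugate by `g ∈ M` of a nontrivial rational Eichler element `rho D t` lies in the
subfield group, then so does `g`. -/
theorem lemFree (hc : Ctx D M) {g : GL (Fin (N + 13)) F} (hg : g ∈ M) {t : F₀ × F₀ × F₀}
    (ht : t ≠ 0) (hsg : g⁻¹ * rho D t * g ∈ usH F₀ (N + 13) q) : g ∈ usH F₀ (N + 13) q := by
  set p := ringChar F with hp
  have : Fact p.Prime := ⟨CharP.char_is_prime F p⟩
  have hE := E0_iso D
  have hgu := (hc.gu hg).1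
  have hgui := (hc.gu (M.inv_mem hg)).1
  set E := E0 D with hEdef
  set y := yVec D t with hy
  have hyE : hermForm (N + 13) F q y E = 0 := (yVec_hi2 D t).perpE
  have hEy : hermForm (N + 13) F q E y = 0 := (yVec_hi2 D t).perpE'
  have hyy : hermForm (N + 13) F q y y = 0 := yVec_yVec D t t
  set a₁ := ((g⁻¹ : GL (Fin (N + 13)) F) : Matrix (Fin (N + 13)) (Fin (N + 13)) F) *ᵥ E with ha₁
  set b₁ := ((g⁻¹ : GL (Fin (N + 13)) F) : Matrix (Fin (N + 13)) (Fin (N + 13)) F) *ᵥ y with hb₁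
  have haa : hermForm (N + 13) F q a₁ a₁ = 0 := by rw [ha₁, gu_apply hgui, hE]
  have hbb : hermForm (N + 13) F q b₁ b₁ = 0 := by rw [hb₁, gu_apply hgui, hyy]
  have hba : hermForm (N + 13) F q b₁ a₁ = 0 := by rw [ha₁, hb₁, gu_apply hgui, hyE]
  have hab : hermForm (N + 13) F q a₁ b₁ = 0 := by rw [ha₁, hb₁, gu_apply hgui, hEy]
  set s' := g⁻¹ * rho D t * g with hs'
  have hs'e : s' = ueGL q a₁ b₁ := by
    have := ueGL_conj hgui hE hyE hEy
    rw [inv_inv] at this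
    rw [hs', rho]
    exact this
  have hs'p : s' ^ p = 1 := by
    rw [hs'e, ueGL_pow hF haa hbb hba, CharP.cast_eq_zero, zero_smul, ueGL_zero hF haa]
  obtain ⟨d, hd0, hdrat⟩ := (SG.mem_subfieldSubgroup_one F₀ s').mp hsg.1
  have hdp : d ^ p ∈ F₀ := by
    have h1 : (d • (s' : Matrix (Fin (N + 13)) (Fin (N + 13)) F)) ^ p
        ∈ SG.ratMat F₀ (Fin (N + 13)) := pow_mem hdrat p
    rw [smul_pow, ← Units.val_pow_eq_pow_val, hs'p, Units.val_one] at h1
    have h2 := h1 (ix N 0) (ix N 0)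
    simpa using h2
  have hd : d ∈ F₀ := SF.sf_frob F₀ p d hdp
  have hs'rat : (s' : Matrix (Fin (N + 13)) (Fin (N + 13)) F) ∈ SG.ratMat F₀ (Fin (N + 13)) := by
    have : (s' : Matrix (Fin (N + 13)) (Fin (N + 13)) F)
        = d⁻¹ • (d • (s' : Matrix (Fin (N + 13)) (Fin (N + 13)) F)) := by
      rw [smul_smul, inv_mul_cancel₀ hd0, one_smul]
    rw [this]
    exact SG.smul_mem_ratMat hdrat (inv_mem hd)
  have hNr : ∀ x : Fin (N + 13) → F, IsRat F₀ x →
      IsRat F₀ (hermForm (N + 13) F q x a₁ • b₁ - hermForm (N + 13) F q x b₁ • a₁) := by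
    intro x hx
    have h1 := (rat_mulVec hs'rat hx).sub hx
    have e : (s' : Matrix (Fin (N + 13)) (Fin (N + 13)) F) *ᵥ x - x
        = hermForm (N + 13) F q x a₁ • b₁ - hermForm (N + 13) F q x b₁ • a₁ := by
      rw [hs'e, ueGL_mulVec haa hba hab]
      abel
    rwa [e] at h1
  have hind : ∀ α β : F, α • a₁ + β • b₁ = 0 → α = 0 ∧ β = 0 := by
    intro α β h
    have h1 := congrArg (fun v => (g : Matrix (Fin (N + 13)) (Fin (N + 13)) F) *ᵥ v) h
    simp only [mulVec_add, mulVec_smul, mulVec_zero] at h1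
    rw [ha₁, hb₁, ugl_mulVec_inv, ugl_mulVec_inv] at h1
    have h2 := congrFun h1 (ix N 0)
    have hy0 : y (ix N 0) = 0 := (yVec_hi2 D t).1
    simp only [hEdef, E0, Pi.add_apply, Pi.smul_apply, Ei_apply, if_true, if_neg (ix01 (N := N)),
      smul_eq_mul, mul_zero, add_zero, mul_one, hy0, Pi.zero_apply] at h2
    refine ⟨h2, ?_⟩
    rw [h2, zero_smul, zero_add] at h1
    rcases smul_eq_zero.mp h1 with h3 | h3
    · exact h3
    · exact absurd h3 (yVec_ne_zero D ht)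
  have ha₁0 : a₁ ≠ 0 := by
    intro h
    have := hind 1 0 (by rw [h]; simp)
    exact one_ne_zero this.1
  obtain ⟨j₁, hj₁⟩ : ∃ j, a₁ j ≠ 0 := by
    by_contra hcon
    push Not at hcon
    exact ha₁0 (funext hcon)
  set p₁ := hermForm (N + 13) F q (Pi.single j₁ 1) a₁ with hp₁
  set q₁ := hermForm (N + 13) F q (Pi.single j₁ 1) b₁ with hq₁
  have hp₁0 : p₁ ≠ 0 := by
    rw [hp₁, uh_single_left hF]
    exact frob_ne_zero hj₁
  set c' : Fin (N + 13) → F := frobQ hF p₁ • b₁ - frobQ hF q₁ • a₁ with hc'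
  have hc'0 : c' ≠ 0 := by
    intro h
    have := hind (-frobQ hF q₁) (frobQ hF p₁) (by rw [← h, hc']; module)
    exact frob_ne_zero hp₁0 this.2
  obtain ⟨j₂, hj₂⟩ : ∃ j, c' j ≠ 0 := by
    by_contra hcon
    push Not at hcon
    exact hc'0 (funext hcon)
  set p₂ := hermForm (N + 13) F q (Pi.single j₂ 1) a₁ with hp₂
  set q₂ := hermForm (N + 13) F q (Pi.single j₂ 1) b₁ with hq₂
  set Δ := p₁ * q₂ - p₂ * q₁ with hΔ
  have hΔ0 : Δ ≠ 0 := by
    have h1 : hermForm (N + 13) F q (Pi.single j₂ 1) c' = Δ := by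
      rw [hc', uh_sub_right hF, uh_smul_right hF, uh_smul_right hF, frobQ_frobQ, frobQ_frobQ,
        ← hp₂, ← hq₂, hΔ]
      ring
    rw [← h1, uh_single_left hF]
    exact frob_ne_zero hj₂
  set a' := p₁ • b₁ - q₁ • a₁ with ha'
  set b' := p₂ • b₁ - q₂ • a₁ with hb'
  have ha'r : IsRat F₀ a' := hNr _ (isRat_single j₁)
  have hb'r : IsRat F₀ b' := hNr _ (isRat_single j₂)
  have ha'0 : a' ≠ 0 := by
    intro h
    have := hind (-q₁) p₁ (by rw [← h, ha']; module)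
    exact hp₁0 this.2
  have ha₁e : a₁ = Δ⁻¹ • (p₂ • a' - p₁ • b') := by
    rw [ha', hb', eq_comm, inv_smul_eq_iff₀ hΔ0, hΔ]
    module
  have ha'iso : hermForm (N + 13) F q a' a' = 0 := by
    rw [ha']
    simp only [uh_sub_left, uh_sub_right hF, uh_smul_left, uh_smul_right hF, haa, hbb, hab, hba,
      mul_zero, sub_zero]
  have hb'iso : hermForm (N + 13) F q b' b' = 0 := by
    rw [hb']
    simp only [uh_sub_left, uh_sub_right hF, uh_smul_left, uh_smul_right hF, haa, hbb, hab, hba,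
      mul_zero, sub_zero]
  have hb'a' : hermForm (N + 13) F q b' a' = 0 := by
    rw [ha', hb']
    simp only [uh_sub_left, uh_sub_right hF, uh_smul_left, uh_smul_right hF, haa, hbb, hab, hba,
      mul_zero, sub_zero]
  obtain ⟨h₁, hh₁, hh₁a⟩ := D.trans a' ha'r ha'0 ha'iso
  have hh₁a' : (h₁ : Matrix (Fin (N + 13)) (Fin (N + 13)) F) *ᵥ a' = E0 D := hh₁a
  set b'' := (h₁ : Matrix (Fin (N + 13)) (Fin (N + 13)) F) *ᵥ b' with hb''
  have hh₁rat := rat_of_map hh₁.1 ha'r (isRat_Ei D (ix N 0) (ix N 1)) (E0_ne_zero D) hh₁a'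
  have hb''r : IsRat F₀ b'' := rat_mulVec hh₁rat hb'r
  have hb''E : hermForm (N + 13) F q b'' (E0 D) = 0 := by
    rw [hb'', ← hh₁a', gu_apply hh₁.2.1, hb'a']
  have hb''iso : hermForm (N + 13) F q b'' b'' = 0 := by
    rw [hb'', gu_apply hh₁.2.1, hb'iso]
  set c := b'' (ix N 0) with hcdef
  set y₁ := b'' - c • E0 D with hy₁
  have hy₁2 : Hi2 y₁ := hi2_of_perp D hb''E
  have hy₁r : IsRat F₀ y₁ := hb''r.sub ((isRat_Ei D _ _).smul (hb''r _))
  have hy₁iso : hermForm (N + 13) F q y₁ y₁ = 0 := by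
    rw [hy₁]
    simp only [uh_sub_left, uh_sub_right hF, uh_smul_left, uh_smul_right hF, hb''iso, hb''E,
      uh_symm0 hF hb''E, E0_iso D, mul_zero, sub_zero]
  have hy₁0 : y₁ ≠ 0 := by
    intro h0
    have h1 : b'' = c • E0 D := sub_eq_zero.1 h0
    have h2 : b' = c • a' := by
      have := ugl_inv_mulVec h₁ b'
      rw [← hb'', h1, ← hh₁a', ← mulVec_smul, ugl_inv_mulVec] at this
      exact this.symm
    have h3 := hind (-q₂ + c * q₁) (p₂ - c * p₁) (by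
      have : b' - c • a' = 0 := sub_eq_zero.2 h2
      rw [← this, ha', hb']
      module)
    apply hΔ0
    rw [hΔ]
    have e1 : q₂ = c * q₁ := by linear_combination -h3.1
    have e2 : p₂ = c * p₁ := sub_eq_zero.1 h3.2
    rw [e1, e2]
    ring
  set k := h₁ * g⁻¹ with hk
  have hkM : k ∈ M := M.mul_mem (hc.le hh₁) (M.inv_mem hg)
  set α := Δ⁻¹ * (p₂ - p₁ * c) with hα
  set β := -(Δ⁻¹ * p₁) with hβ
  have hkE : (k : Matrix (Fin (N + 13)) (Fin (N + 13)) F) *ᵥ E0 D = α • E0 D + β • y₁ := by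
    have e : b'' = y₁ + c • E0 D := by rw [hy₁]; abel
    rw [hk, ugl_mul_mulVec, ← hEdef, ← ha₁, ha₁e, mulVec_smul, mulVec_sub, mulVec_smul,
      mulVec_smul, ← hb'', hh₁a', e, hα, hβ]
    module
  have hβ0 : β ≠ 0 := neg_ne_zero.mpr (mul_ne_zero (inv_ne_zero hΔ0) hp₁0)
  have hT : utGL q (α • E0 D + β • y₁) D.τ ∈ M := by
    have h1 := M.mul_mem (M.mul_mem hkM (hc.le (utGL_rat hF D.stab (isRat_Ei D _ _) (E0_iso D)
      D.hτ D.τW))) (M.inv_mem hkM)
    rwa [utGL_conj (hc.gu hkM).1 (E0_iso D), hkE] at h1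
  obtain ⟨hP1, hP2⟩ := lemAB hc hy₁r hy₁iso hy₁2 hy₁0 α β D.hτ D.τW D.τ0 hT
  set w₁ := (α * frobQ hF β) • E0 D + (β * frobQ hF β) • y₁ with hw₁
  have hw₁r : IsRat F₀ w₁ := ((isRat_Ei D _ _).smul hP2).add (hy₁r.smul hP1)
  have hσβ : frobQ hF β ≠ 0 := frob_ne_zero hβ0
  have hw₁e : w₁ = frobQ hF β • (α • E0 D + β • y₁) := by rw [hw₁]; module
  have hkE' : (k : Matrix (Fin (N + 13)) (Fin (N + 13)) F) *ᵥ E0 D = (frobQ hF β)⁻¹ • w₁ := by
    rw [hkE, hw₁e, smul_smul, inv_mul_cancel₀ hσβ, one_smul]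
  have hw₁0 : w₁ ≠ 0 := by
    intro h
    have h1 := ugl_inv_mulVec k (E0 D)
    rw [hkE', h, smul_zero, mulVec_zero] at h1
    exact E0_ne_zero D h1.symm
  have hw₁iso : hermForm (N + 13) F q w₁ w₁ = 0 := by
    have h1 : hermForm (N + 13) F q ((k : Matrix (Fin (N + 13)) (Fin (N + 13)) F) *ᵥ E0 D)
        ((k : Matrix (Fin (N + 13)) (Fin (N + 13)) F) *ᵥ E0 D) = 0 := by
      rw [gu_apply (hc.gu hkM).1, E0_iso D]
    rw [hw₁e, ← hkE, uh_smul_left, uh_smul_right hF, h1, mul_zero, mul_zero]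
  obtain ⟨h₃, hh₃, hh₃w⟩ := D.trans w₁ hw₁r hw₁0 hw₁iso
  have hh₃w' : (h₃ : Matrix (Fin (N + 13)) (Fin (N + 13)) F) *ᵥ w₁ = E0 D := hh₃w
  have hfin : ((h₃ * k : GL (Fin (N + 13)) F) : Matrix (Fin (N + 13)) (Fin (N + 13)) F)
      *ᵥ E0 D = (frobQ hF β)⁻¹ • E0 D := by
    rw [ugl_mul_mulVec, hkE', mulVec_smul, hh₃w']
  have h4 := lemPL hc (M.mul_mem (hc.le hh₃) hkM) _ hfin
  have h5 : g⁻¹ ∈ usH F₀ (N + 13) q := by
    have e : g⁻¹ = h₁⁻¹ * h₃⁻¹ * (h₃ * k) := by rw [hk]; group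
    rw [e]
    exact Subgroup.mul_mem _ (Subgroup.mul_mem _ (Subgroup.inv_mem _ hh₁)
      (Subgroup.inv_mem _ hh₃)) h4
  have := Subgroup.inv_mem _ h5
  rwa [inv_inv] at this

end Cfsg.Agent.Helper97.USF
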