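-- helper97 library: subfield subgroups of SU_n: the averaging argument (step 2).
import Cfsg.Agent.Helper97.USFFree

set_option autoImplicit false
set_option linter.unusedSimpArgs false
set_option linter.unusedVariables false
set_option linter.unusedSectionVars false
set_option linter.style.haveILetI false
open Cfsg Cfsg.Geo Matrix
open Cfsg.Agent.Helper5 (frobQ frobQ_apply frobQ_frobQ)
open Cfsg.Agent.Helper13 (uh_add_left uh_smul_left uh_add_right uh_smul_right uh_conj uh_zero_left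
  uh_zero_right uh_neg_left uh_neg_right uh_sub_left uh_sub_right uh_single_right uh_single_left
  uh_single_single)

namespace Cfsg.Agent.Helper97.USF

/-- Lemma N for arbitrary parametrisations: the sum of the conjugates of any matrix under a
rational unipotent group with three parameters vanishes. -/
theorem lemN' {κ : Type} [Fintype κ] [DecidableEq κ] {F : Type*} [Field F] (F₀ : Subfield F)
    [Fintype F₀] (f₁ f₂ f₃ : F₀ → Matrix κ κ F) (Z : Matrix κ κ F) :
    ∑ t : F₀ × F₀ × F₀,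
      (1 + (f₁ t.1 + f₂ t.2.1 + f₃ t.2.2)) * Z * (1 - (f₁ t.1 + f₂ t.2.1 + f₃ t.2.2)) = 0 := by
  set G₁ : Matrix κ κ F → Matrix κ κ F → Matrix κ κ F :=
    fun A B => Z + A * Z + B * Z - Z * A - Z * B - A * Z * A - A * Z * B - B * Z * A - B * Z * B
    with hG₁
  set G₂ : Matrix κ κ F → Matrix κ κ F → Matrix κ κ F :=
    fun A C => C * Z - Z * C - A * Z * C - C * Z * A - C * Z * C with hG₂
  set G₃ : Matrix κ κ F → Matrix κ κ F → Matrix κ κ F :=
    fun B C => -(B * Z * C) - C * Z * B with hG₃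
  have key : ∀ A B C : Matrix κ κ F,
      (1 + (A + B + C)) * Z * (1 - (A + B + C)) = G₁ A B + G₂ A C + G₃ B C := by
    intro A B C
    rw [hG₁, hG₂, hG₃]
    noncomm_ring
  simp only [key, Finset.sum_add_distrib]
  have h1 : ∑ t : F₀ × F₀ × F₀, G₁ (f₁ t.1) (f₂ t.2.1) = 0 :=
    SG.sf_sum3_12 F₀ (fun a b => G₁ (f₁ a) (f₂ b))
  have h2 : ∑ t : F₀ × F₀ × F₀, G₂ (f₁ t.1) (f₃ t.2.2) = 0 :=
    SG.sf_sum3_13 F₀ (fun a c => G₂ (f₁ a) (f₃ c))
  have h3 : ∑ t : F₀ × F₀ × F₀, G₃ (f₂ t.2.1) (f₃ t.2.2) = 0 :=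
    SG.sf_sum3_23 F₀ (fun b c => G₃ (f₂ b) (f₃ c))
  rw [h1, h2, h3, add_zero, add_zero]

variable {F : Type*} [Field F] [Fintype F] {q N : ℕ} {hF : Fintype.card F = q ^ 2}
  {F₀ : Subfield F} {D : UD F₀ hF N} {M : Subgroup (GL (Fin (N + 13)) F)}

/-- The rank-one matrix `x ↦ h(x,u) v`. -/
def Nuv {n : ℕ} (q : ℕ) (u v : Fin n → F) : Matrix (Fin n) (Fin n) F :=
  Matrix.of fun i j => v i * (u j) ^ q

theorem Nuv_mulVec {n : ℕ} (u v x : Fin n → F) :
    Nuv q u v *ᵥ x = hermForm n F q x u • v := by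
  ext i
  simp only [Nuv, mulVec, dotProduct, of_apply, Pi.smul_apply, smul_eq_mul, hermForm]
  rw [Finset.sum_mul]
  exact Finset.sum_congr rfl fun j _ => by ring

theorem Nuv_conj {n : ℕ} {g : GL (Fin n) F} (hg : g ∈ GU n F q) (u v : Fin n → F) :
    (g : Matrix (Fin n) (Fin n) F) * Nuv q u v * ((g⁻¹ : GL (Fin n) F) : Matrix (Fin n) (Fin n) F)
      = Nuv q ((g : Matrix (Fin n) (Fin n) F) *ᵥ u) ((g : Matrix (Fin n) (Fin n) F) *ᵥ v) := by
  apply umat_ext
  intro x
  rw [← mulVec_mulVec, ← mulVec_mulVec, Nuv_mulVec, Nuv_mulVec, mulVec_smul, gu_apply_inv hg]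

theorem Nuv_apply {n : ℕ} (u v : Fin n → F) (a b : Fin n) : Nuv q u v a b = v a * (u b) ^ q := rfl

/-- The matrices `R_k(s)` with `rho D t = 1 + Σ R_k(t_k)`. -/
noncomputable def Rk (D : UD F₀ hF N) (j j' : Fin (N + 13)) (s : F₀) :
    Matrix (Fin (N + 13)) (Fin (N + 13)) F :=
  (s : F) • Nuv q (E0 D) (Ei D j j') - frobQ hF (s : F) • Nuv q (Ei D j j') (E0 D)

theorem rho_val (D : UD F₀ hF N) (t : F₀ × F₀ × F₀) :
    (rho D t : Matrix (Fin (N + 13)) (Fin (N + 13)) F)
      = 1 + (Rk D (ix N 2) (ix N 3) t.1 + Rk D (ix N 4) (ix N 5) t.2.1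
        + Rk D (ix N 6) (ix N 7) t.2.2) := by
  apply umat_ext
  intro x
  rw [rho, ueGL_mulVec (E0_iso D) (yVec_hi2 D t).perpE (yVec_hi2 D t).perpE']
  simp only [add_mulVec, sub_mulVec, smul_mulVec, one_mulVec, Rk, Nuv_mulVec, yVec,
    uh_add_right hF, uh_smul_right hF]
  module

theorem Rk_neg (D : UD F₀ hF N) (j j' : Fin (N + 13)) (s : F₀) : Rk D j j' (-s) = -Rk D j j' s := by
  simp only [Rk, Subfield.coe_neg, map_neg, neg_smul]
  abel

theorem rho_inv_val (D : UD F₀ hF N) (t : F₀ × F₀ × F₀) :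
    (((rho D t)⁻¹ : GL (Fin (N + 13)) F) : Matrix (Fin (N + 13)) (Fin (N + 13)) F)
      = 1 - (Rk D (ix N 2) (ix N 3) t.1 + Rk D (ix N 4) (ix N 5) t.2.1
        + Rk D (ix N 6) (ix N 7) t.2.2) := by
  rw [rho_inv, rho_val]
  simp only [Prod.fst_neg, Prod.snd_neg, Rk_neg]
  abel

section Avg

open Classical

variable [Fintype (GL (Fin (N + 13)) F ⧸ subfieldSubgroup F₀ (1 : GL (Fin (N + 13)) F))]

/-- The averaging operator agrees with the retraction on the matrices commuting with the rational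
Eichler group `rho D t`. -/
theorem sfE_root [Fintype F₀] (hc : Ctx D M) (X : Matrix (Fin (N + 13)) (Fin (N + 13)) F)
    (hX : ∀ t : F₀ × F₀ × F₀, (rho D t : Matrix (Fin (N + 13)) (Fin (N + 13)) F) * X
      * (((rho D t)⁻¹ : GL (Fin (N + 13)) F) : Matrix (Fin (N + 13)) (Fin (N + 13)) F) = X) :
    SG.sfE F₀ M (ix N 0) X = SG.sfPi F₀ (Fin (N + 13)) X := by
  set i₀ : Fin (N + 13) := ix N 0 with hi₀
  have h1mem : (QuotientGroup.mk 1 : GL (Fin (N + 13)) F ⧸
      subfieldSubgroup F₀ (1 : GL (Fin (N + 13)) F)) ∈ SG.sfQ F₀ M :=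
    SG.mem_sfQ.mpr ⟨1, M.one_mem, rfl⟩
  rw [SG.sfE_apply, ← Finset.add_sum_erase _ _ h1mem, SG.sfF_mk, SG.sfPiAt_one]
  have hrest : ∑ q' ∈ (SG.sfQ F₀ M).erase (QuotientGroup.mk 1), SG.sfF F₀ i₀ X q' = 0 := by
    refine SG.orbit_sum_zero (A := F₀ × F₀ × F₀) (fun t q' => rho D t • q') ?_ ?_
      (SG.sfF F₀ i₀ X) ?_ _ _ rfl ?_ ?_
    · intro q'
      show rho D (0 : F₀ × F₀ × F₀) • q' = q'
      rw [rho_zero, one_smul]
    · intro a b q'
      show rho D (a + b) • q' = rho D a • (rho D b • q')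
      rw [rho_add, mul_smul]
    · intro q'
      induction q' using QuotientGroup.induction_on with
      | H g =>
        have hterm : ∀ t : F₀ × F₀ × F₀,
            SG.sfF F₀ i₀ X (rho D t • (QuotientGroup.mk g : GL (Fin (N + 13)) F ⧸
                subfieldSubgroup F₀ (1 : GL (Fin (N + 13)) F)))
              = (rho D t : Matrix (Fin (N + 13)) (Fin (N + 13)) F) * SG.sfPiAt F₀ g X
                * (((rho D t)⁻¹ : GL (Fin (N + 13)) F) :
                  Matrix (Fin (N + 13)) (Fin (N + 13)) F) := by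
          intro t
          have h1 := SG.sfF_conj i₀ (rho D t) X
            (rho D t • (QuotientGroup.mk g : GL (Fin (N + 13)) F ⧸
              subfieldSubgroup F₀ (1 : GL (Fin (N + 13)) F)))
          rw [inv_smul_smul, SG.sfF_mk, hX t] at h1
          exact h1
        simp only [hterm, rho_val, rho_inv_val]
        exact lemN' F₀ _ _ _ _
    · intro t q' hq
      rw [Finset.mem_erase] at hq ⊢
      refine ⟨fun h => hq.1 ?_, (SG.smul_mem_sfQ (hc.le (rho_mem D t)) q').mp hq.2⟩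
      have h2 : q' = (rho D t)⁻¹ • (QuotientGroup.mk 1 : GL (Fin (N + 13)) F ⧸
          subfieldSubgroup F₀ (1 : GL (Fin (N + 13)) F)) := by
        rw [← h, inv_smul_smul]
      rw [h2, MulAction.Quotient.smul_mk, smul_eq_mul, mul_one]
      exact QuotientGroup.eq.mpr (by simpa using (rho_mem D t).1)
    · intro t q' hq hfix
      by_contra ht
      rw [Finset.mem_erase] at hq
      obtain ⟨g, hg, rfl⟩ := SG.mem_sfQ.mp hq.2
      apply hq.1
      have hfix' : (QuotientGroup.mk (rho D t * g) : GL (Fin (N + 13)) F ⧸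
          subfieldSubgroup F₀ (1 : GL (Fin (N + 13)) F)) = QuotientGroup.mk g := hfix
      have h1 : (rho D t * g)⁻¹ * g ∈ subfieldSubgroup F₀ (1 : GL (Fin (N + 13)) F) :=
        QuotientGroup.eq.mp hfix'
      have h2 : g⁻¹ * rho D t * g ∈ usH F₀ (N + 13) q := by
        refine ⟨?_, Subgroup.mul_mem _ (Subgroup.mul_mem _ (Subgroup.inv_mem _ (hc.gu hg))
          (rho_mem D t).2) (hc.gu hg)⟩
        have h3 := (subfieldSubgroup F₀ (1 : GL (Fin (N + 13)) F)).inv_mem h1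
        have e : ((rho D t * g)⁻¹ * g)⁻¹ = g⁻¹ * rho D t * g := by group
        rwa [e] at h3
      have h3 := lemFree hc hg ht h2
      exact QuotientGroup.eq.mpr (by simpa using h3.1)
  rw [hrest, add_zero]

end Avg

/-- A coordinate outside the support of the rational Eichler group. -/
def Hi8 (a : Fin (N + 13)) : Prop := ∀ k : Fin 13, k.val < 8 → a ≠ ix N k

theorem rho_fix (D : UD F₀ hF N) (t : F₀ × F₀ × F₀) {a : Fin (N + 13)} (ha : Hi8 a) :
    (rho D t : Matrix (Fin (N + 13)) (Fin (N + 13)) F) *ᵥ Pi.single a 1 = Pi.single a 1 := by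
  have h1 : hermForm (N + 13) F q (Pi.single a 1) (E0 D) = 0 := by
    rw [uh_single_left hF]
    simp only [E0, Ei_apply, if_neg (ha 0 (by decide)), if_neg (ha 1 (by decide)), mul_zero,
      add_zero, map_zero]
  have h2 : hermForm (N + 13) F q (Pi.single a 1) (yVec D t) = 0 := by
    rw [uh_single_left hF]
    simp only [yVec, Pi.add_apply, Pi.smul_apply, Ei_apply, if_neg (ha 2 (by decide)),
      if_neg (ha 3 (by decide)), if_neg (ha 4 (by decide)), if_neg (ha 5 (by decide)),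
      if_neg (ha 6 (by decide)), if_neg (ha 7 (by decide)), mul_zero, add_zero, smul_zero,
      map_zero]
  rw [rho, ueGL_mulVec (E0_iso D) (yVec_hi2 D t).perpE (yVec_hi2 D t).perpE', h1, h2]
  module

theorem hq_ne_zero (hF : Fintype.card F = q ^ 2) : q ≠ 0 := by
  rintro rfl
  have h1 : 1 < Fintype.card F := Fintype.one_lt_card
  rw [hF] at h1
  simp at h1

/-- The matrix unit as a rank-one matrix. -/
theorem unit_apply (hF : Fintype.card F = q ^ 2) (i j a b : Fin (N + 13)) :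
    Nuv q (Pi.single j (1 : F)) (Pi.single i (1 : F)) a b = if a = i ∧ b = j then 1 else 0 := by
  rw [Nuv_apply, Pi.single_apply, Pi.single_apply]
  by_cases h1 : a = i
  · by_cases h2 : b = j
    · simp [h1, h2]
    · simp [h1, h2, hq_ne_zero hF]
  · simp [h1]

theorem unit_rat (hF : Fintype.card F = q ^ 2) (i j : Fin (N + 13)) :
    Nuv q (Pi.single j (1 : F)) (Pi.single i (1 : F)) ∈ SG.ratMat F₀ (Fin (N + 13)) := by
  intro a b
  rw [unit_apply hF]
  split_ifs
  · exact one_mem _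
  · exact zero_mem _

theorem mat_eq_sum_units (hF : Fintype.card F = q ^ 2)
    (X : Matrix (Fin (N + 13)) (Fin (N + 13)) F) :
    X = ∑ i, ∑ j, X i j • Nuv q (Pi.single j (1 : F)) (Pi.single i (1 : F)) := by
  ext a b
  rw [Matrix.sum_apply, Finset.sum_eq_single a]
  · rw [Matrix.sum_apply, Finset.sum_eq_single b]
    · rw [Matrix.smul_apply, unit_apply hF, if_pos ⟨rfl, rfl⟩, smul_eq_mul, mul_one]
    · intro j _ hj
      rw [Matrix.smul_apply, unit_apply hF, if_neg (fun h => hj h.2.symm), smul_zero]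
    · intro h
      exact absurd (Finset.mem_univ b) h
  · intro i _ hi
    rw [Matrix.sum_apply]
    refine Finset.sum_eq_zero fun j _ => ?_
    rw [Matrix.smul_apply, unit_apply hF, if_neg (fun h => hi h.1.symm), smul_zero]
  · intro h
    exact absurd (Finset.mem_univ a) h

/-- Step 2: an overgroup of the subfield group inside `SU_n` all of whose transvections with
centre `E0` are rational is the subfield group. -/
theorem us_step2 (hc : Ctx D M) : M ≤ usH F₀ (N + 13) q := by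
  classical
  haveI : Fintype F₀ := Fintype.ofFinite _
  haveI : Fintype (GL (Fin (N + 13)) F ⧸ subfieldSubgroup F₀ (1 : GL (Fin (N + 13)) F)) :=
    Fintype.ofFinite _
  set i₀ : Fin (N + 13) := ix N 0 with hi₀
  have h8 : Hi8 (ix N 8) := fun k hk e => by
    have := ix_inj.mp e
    rw [← this] at hk
    exact absurd hk (by decide)
  have h9 : Hi8 (ix N 9) := fun k hk e => by
    have := ix_inj.mp e
    rw [← this] at hk
    exact absurd hk (by decide)
  have hroot : ∀ a b : Fin (N + 13), Hi8 a → Hi8 b → ∀ θ : F,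
      θ • Nuv q (Pi.single b (1 : F)) (Pi.single a (1 : F)) ∈ SG.sfP F₀ M i₀ := by
    intro a b ha hb θ
    refine SG.mem_sfP.mpr (sfE_root hc _ (fun t => ?_))
    rw [Matrix.mul_smul, Matrix.smul_mul, Nuv_conj (rho_mem D t).2.1, rho_fix D t ha,
      rho_fix D t hb]
  have h89 : ix N 8 ≠ ix N 9 := fun e => by simp at e
  obtain ⟨k₁, hk₁, hk₁8, hk₁9⟩ := D.ortho (ix N 8) (ix N 9) h89
  have hmove : ∀ i j : Fin (N + 13), i ≠ j → ∃ g ∈ usH F₀ (N + 13) q,
      (g : Matrix (Fin (N + 13)) (Fin (N + 13)) F) *ᵥ Pi.single (ix N 8) 1 = Pi.single i 1 ∧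
      (g : Matrix (Fin (N + 13)) (Fin (N + 13)) F) *ᵥ Pi.single (ix N 9) 1 = Pi.single j 1 := by
    intro i j hij
    obtain ⟨k₂, hk₂, hk₂i, hk₂j⟩ := D.ortho i j hij
    refine ⟨k₂⁻¹ * k₁, Subgroup.mul_mem _ (Subgroup.inv_mem _ hk₂) hk₁, ?_, ?_⟩
    · rw [ugl_mul_mulVec, hk₁8, ← hk₂i, ugl_inv_mulVec]
    · rw [ugl_mul_mulVec, hk₁9, ← hk₂j, ugl_inv_mulVec]
  have hspread : ∀ (g : GL (Fin (N + 13)) F), g ∈ usH F₀ (N + 13) q →
      ∀ (a b : Fin (N + 13)), Hi8 a → Hi8 b → ∀ θ : F,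
      θ • Nuv q ((g : Matrix (Fin (N + 13)) (Fin (N + 13)) F) *ᵥ Pi.single b (1 : F))
        ((g : Matrix (Fin (N + 13)) (Fin (N + 13)) F) *ᵥ Pi.single a (1 : F))
        ∈ SG.sfP F₀ M i₀ := by
    intro g hg a b ha hb θ
    refine SG.sfP_conj i₀ (hc.le hg) hg.1 (hroot a b ha hb θ) ?_
    have e : (g : Matrix (Fin (N + 13)) (Fin (N + 13)) F)
          * Nuv q (Pi.single b (1 : F)) (Pi.single a (1 : F))
        = Nuv q ((g : Matrix (Fin (N + 13)) (Fin (N + 13)) F) *ᵥ Pi.single b (1 : F))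
            ((g : Matrix (Fin (N + 13)) (Fin (N + 13)) F) *ᵥ Pi.single a (1 : F))
          * (g : Matrix (Fin (N + 13)) (Fin (N + 13)) F) := by
      rw [← Nuv_conj hg.2.1, Matrix.mul_assoc _ _ (g : Matrix (Fin (N + 13)) (Fin (N + 13)) F),
        ← Units.val_mul, inv_mul_cancel, Units.val_one, Matrix.mul_one]
    rw [Matrix.mul_smul, Matrix.smul_mul, e]
  have hunits : ∀ (i j : Fin (N + 13)) (θ : F),
      θ • Nuv q (Pi.single j (1 : F)) (Pi.single i (1 : F)) ∈ SG.sfP F₀ M i₀ := by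
    intro i j θ
    by_cases hij : i = j
    · subst hij
      obtain ⟨j', hj'⟩ : ∃ j' : Fin (N + 13), i ≠ j' := by
        by_cases h : i = ix N 0
        · exact ⟨ix N 1, by rw [h]; exact ix01⟩
        · exact ⟨ix N 0, h⟩
      obtain ⟨g, hg, hg8, -⟩ := hmove i j' hj'
      have := hspread g hg (ix N 8) (ix N 8) h8 h8 θ
      rwa [hg8] at this
    · obtain ⟨g, hg, hg8, hg9⟩ := hmove i j hij
      have := hspread g hg (ix N 8) (ix N 9) h8 h9 θ
      rwa [hg8, hg9] at this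
  have hall : ∀ X : Matrix (Fin (N + 13)) (Fin (N + 13)) F, X ∈ SG.sfP F₀ M i₀ := by
    intro X
    rw [mat_eq_sum_units hF X]
    exact sum_mem fun i _ => sum_mem fun j _ => hunits i j _
  intro m' hm'
  have hent : ∀ i j a b : Fin (N + 13),
      (m' : Matrix (Fin (N + 13)) (Fin (N + 13)) F) a i
        * ((m'⁻¹ : GL (Fin (N + 13)) F) : Matrix (Fin (N + 13)) (Fin (N + 13)) F) j b ∈ F₀ := by
    intro i j a b
    set Z := Nuv q (Pi.single j (1 : F)) (Pi.single i (1 : F)) with hZ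
    set Y := (m' : Matrix (Fin (N + 13)) (Fin (N + 13)) F) * Z
      * ((m'⁻¹ : GL (Fin (N + 13)) F) : Matrix (Fin (N + 13)) (Fin (N + 13)) F) with hY
    have hEY : SG.sfE F₀ M i₀ Y = Y := by
      rw [hY, SG.sfE_conj i₀ hm', SG.mem_sfP.mp (hall Z), SG.sfPi_rat (unit_rat hF i j)]
    have hYrat : Y ∈ SG.ratMat F₀ (Fin (N + 13)) :=
      SG.mem_ratMat_of_sfPi_eq (by rw [← SG.mem_sfP.mp (hall Y)]; exact hEY)
    have h1 := hYrat a b
    have h2 : Y a b = (m' : Matrix (Fin (N + 13)) (Fin (N + 13)) F) a i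
        * ((m'⁻¹ : GL (Fin (N + 13)) F) : Matrix (Fin (N + 13)) (Fin (N + 13)) F) j b := by
      have h3 := congrFun (show Y *ᵥ Pi.single b 1
          = (((m'⁻¹ : GL (Fin (N + 13)) F) : Matrix (Fin (N + 13)) (Fin (N + 13)) F) j b)
            • ((m' : Matrix (Fin (N + 13)) (Fin (N + 13)) F) *ᵥ Pi.single i 1) by
        rw [hY, ← mulVec_mulVec, ← mulVec_mulVec, hZ, Nuv_mulVec, uh_single_right hF, mulVec_smul,
          Matrix.mulVec_single_one]
        rfl) a
      rw [Matrix.mulVec_single_one, Pi.smul_apply, Matrix.mulVec_single_one, smul_eq_mul,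
        mul_comm] at h3
      exact h3
    rwa [h2] at h1
  obtain ⟨j, b, hjb⟩ : ∃ j b : Fin (N + 13),
      ((m'⁻¹ : GL (Fin (N + 13)) F) : Matrix (Fin (N + 13)) (Fin (N + 13)) F) j b ≠ 0 := by
    by_contra hcon
    push Not at hcon
    have h0 : ((m'⁻¹ : GL (Fin (N + 13)) F) : Matrix (Fin (N + 13)) (Fin (N + 13)) F) = 0 := by
      ext j b
      exact hcon j b
    have h1 : (m' : Matrix (Fin (N + 13)) (Fin (N + 13)) F)
        * ((m'⁻¹ : GL (Fin (N + 13)) F) : Matrix (Fin (N + 13)) (Fin (N + 13)) F) = 1 := by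
      rw [← Units.val_mul, mul_inv_cancel, Units.val_one]
    rw [h0, Matrix.mul_zero] at h1
    have h2 := congrFun (congrFun h1 i₀) i₀
    simp at h2
  refine ⟨(SG.mem_subfieldSubgroup_one F₀ m').mpr ⟨_, hjb, fun a i => ?_⟩, hc.gu hm'⟩
  rw [Matrix.smul_apply, smul_eq_mul, mul_comm]
  exact hent i j a b

end Cfsg.Agent.Helper97.USF
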