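-- helper97 library: subfield subgroups of SU_n: a non-rational transvection with rational centre
-- generates SU_n together with the subfield group (step 1), part 1: the parameter algebra.
import Cfsg.Agent.Helper97.USFPL
import Cfsg.Agent.Helper97.SFStep1

set_option autoImplicit false
set_option linter.unusedSimpArgs false
set_option linter.unusedVariables false
set_option linter.unusedSectionVars false
set_option linter.style.haveILetI false
open Cfsg Cfsg.Geo Matrix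
open Cfsg.Agent.Helper5 (frobQ frobQ_apply frobQ_frobQ)
open Cfsg.Agent.Helper13 (uh_add_left uh_smul_left uh_add_right uh_smul_right uh_conj uh_zero_left
  uh_zero_right uh_neg_left uh_neg_right uh_sub_left uh_sub_right uh_single_right uh_single_left
  uh_single_single)

namespace Cfsg.Agent.Helper97.USF

variable {F : Type*} [Field F] [Fintype F] {q N : ℕ} {hF : Fintype.card F = q ^ 2}
  {F₀ : Subfield F} {D : UD F₀ hF N} {M : Subgroup (GL (Fin (N + 13)) F)}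

/-- The commutator relation between two Eichler elements with different centres. -/
theorem comm3 {n : ℕ} (hF : Fintype.card F = q ^ 2) {u z u' y' : Fin n → F}
    (hu : hermForm n F q u u = 0) (hu' : hermForm n F q u' u' = 0)
    (hz : hermForm n F q z z = 0)
    (hzu : hermForm n F q z u = 0) (hy'u' : hermForm n F q y' u' = 0)
    (hu'u : hermForm n F q u' u = 0) (hu'z : hermForm n F q u' z = 0)
    (hy'z : hermForm n F q y' z = 0) (ν μ : F) :
    ueGL q u (ν • z) * ueGL q u' (μ • y') * (ueGL q u (ν • z))⁻¹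
      = ueGL q u' (μ • y') * ueGL q u' ((μ * ν * hermForm n F q y' u) • z) := by
  have hνzu : hermForm n F q (ν • z) u = 0 := by rw [uh_smul_left, hzu, mul_zero]
  have huνz : hermForm n F q u (ν • z) = 0 := uh_symm0 hF hνzu
  have hA : ueGL q u (ν • z) ∈ GU n F q :=
    (ueGL_mem hF hu (by rw [uh_smul_left, uh_smul_right hF, hz, mul_zero, mul_zero]) hνzu).1
  have hμy'u' : hermForm n F q (μ • y') u' = 0 := by rw [uh_smul_left, hy'u', mul_zero]
  have hzu' : hermForm n F q z u' = 0 := uh_symm0 hF hu'z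
  have hzy' : hermForm n F q z y' = 0 := uh_symm0 hF hy'z
  have e1 : (ueGL q u (ν • z) : Matrix (Fin n) (Fin n) F) *ᵥ u' = u' := by
    rw [ueGL_mulVec hu hνzu huνz, hu'u, uh_smul_right hF, hu'z]
    module
  have e2 : (ueGL q u (ν • z) : Matrix (Fin n) (Fin n) F) *ᵥ (μ • y')
      = μ • y' + (μ * ν * hermForm n F q y' u) • z := by
    rw [ueGL_mulVec hu hνzu huνz, uh_smul_left, uh_smul_left, uh_smul_right hF, hy'z]
    module
  rw [ueGL_conj hA hu' hμy'u' (uh_symm0 hF hμy'u'), e1, e2,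
    ueGL_mul hF hu' hμy'u' (by rw [uh_smul_left, hzu', mul_zero])
      (by rw [uh_smul_left, uh_smul_right hF, hzy', mul_zero, mul_zero])]

theorem utGL_zero_vec {n : ℕ} (c : F) : utGL q (0 : Fin n → F) c = 1 := by
  apply ugl_ext
  intro x
  rw [utGL_mulVec (uh_zero_left _), smul_zero, add_zero, Units.val_one, one_mulVec]

/-- The vectors `z` with `ε(E0, ν z) ∈ M` for all `ν`. -/
def ZG (D : UD F₀ hF N) (M : Subgroup (GL (Fin (N + 13)) F)) (z : Fin (N + 13) → F) : Prop :=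
  ∀ ν : F, ueGL q (E0 D) (ν • z) ∈ M

theorem ZG_move (hle : usH F₀ (N + 13) q ≤ M) {z z' : Fin (N + 13) → F}
    (hzE : hermForm (N + 13) F q z (E0 D) = 0) (hz : ZG D M z) {k : GL (Fin (N + 13)) F}
    (hk : k ∈ usH F₀ (N + 13) q)
    (hkE : (k : Matrix (Fin (N + 13)) (Fin (N + 13)) F) *ᵥ E0 D = E0 D) {l : F} (hl0 : l ≠ 0)
    (hkz : (k : Matrix (Fin (N + 13)) (Fin (N + 13)) F) *ᵥ z = l • z') : ZG D M z' := by
  intro ν
  have h0 : hermForm (N + 13) F q ((ν * l⁻¹) • z) (E0 D) = 0 := by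
    rw [uh_smul_left, hzE, mul_zero]
  have h1 := M.mul_mem (M.mul_mem (hle hk) (hz (ν * l⁻¹))) (M.inv_mem (hle hk))
  rw [ueGL_conj hk.2.1 (E0_iso D) h0 (uh_symm0 hF h0), hkE, mulVec_smul, hkz, smul_smul,
    inv_mul_cancel_right₀ hl0] at h1
  exact h1

section frame2

variable (D)

theorem ix23 : ix N 2 ≠ ix N 3 := fun e => by simp at e

theorem ix45 : ix N 4 ≠ ix N 5 := fun e => by simp at e

theorem d12 : Dj (ix N 2) (ix N 3) (ix N 4) (ix N 5) := dj_ix (by decide)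

theorem d21 : Dj (ix N 4) (ix N 5) (ix N 2) (ix N 3) := dj_ix (by decide)

theorem d10 : Dj (ix N 2) (ix N 3) (ix N 0) (ix N 1) := dj_ix (by decide)

theorem d20 : Dj (ix N 4) (ix N 5) (ix N 0) (ix N 1) := dj_ix (by decide)

/-- A rational element fixing `E0` and moving `E₁` to a multiple of `F₂`. -/
theorem exists_kmove : ∃ k ∈ usH F₀ (N + 13) q,
    (k : Matrix (Fin (N + 13)) (Fin (N + 13)) F) *ᵥ E0 D = E0 D ∧
    (k : Matrix (Fin (N + 13)) (Fin (N + 13)) F) *ᵥ Ei D (ix N 2) (ix N 3)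
      = (D.τ * D.τ) • Fi D (ix N 4) (ix N 5) := by
  have hf : hermForm (N + 13) F q (Fi D (ix N 2) (ix N 3) + Ei D (ix N 4) (ix N 5))
      (Fi D (ix N 2) (ix N 3) + Ei D (ix N 4) (ix N 5)) = 0 := by
    simp only [uh_add_left, uh_add_right hF, Fi_iso D ix23, Ei_iso D ix45, Fi_Ei_disj D d12,
      Ei_Fi_disj D d21, add_zero]
  obtain ⟨k, hk, hky, hkx⟩ := move2 D (isRat_Ei D (ix N 2) (ix N 3))
    ((isRat_Fi D (ix N 2) (ix N 3)).add (isRat_Ei D (ix N 4) (ix N 5)))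
    (isRat_Fi D (ix N 4) (ix N 5)) (Ei_iso D ix23) hf (Fi_iso D ix45)
    (by rw [uh_add_left, Fi_Ei D ix23, Ei_Ei_disj D d21, add_zero])
    (by rw [uh_add_right hF, Fi_Fi_disj D d21, Fi_Ei D ix45, zero_add])
  refine ⟨k, hk, hkx _ (hi2_Ei D d10).perpE' ?_ (hi2_Fi D d20).perpE', hky⟩
  rw [uh_add_right hF, (hi2_Fi D d10).perpE', (hi2_Ei D d20).perpE', add_zero]

/-- A rational element fixing `E₁` and moving `E0` to a multiple of `E₂`. -/
theorem exists_kmove' : ∃ k ∈ usH F₀ (N + 13) q,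
    (k : Matrix (Fin (N + 13)) (Fin (N + 13)) F) *ᵥ Ei D (ix N 2) (ix N 3)
      = Ei D (ix N 2) (ix N 3) ∧
    (k : Matrix (Fin (N + 13)) (Fin (N + 13)) F) *ᵥ E0 D
      = (D.τ * D.τ) • Ei D (ix N 4) (ix N 5) := by
  have hf : hermForm (N + 13) F q (F0 D + Fi D (ix N 4) (ix N 5))
      (F0 D + Fi D (ix N 4) (ix N 5)) = 0 := by
    simp only [uh_add_left, uh_add_right hF, F0_iso D, Fi_iso D ix45, (hi2_Fi D d20).perpF,
      (hi2_Fi D d20).perpF', add_zero]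
  obtain ⟨k, hk, hky, hkx⟩ := move2 D (isRat_Ei D (ix N 0) (ix N 1))
    ((isRat_Fi D (ix N 0) (ix N 1)).add (isRat_Fi D (ix N 4) (ix N 5)))
    (isRat_Ei D (ix N 4) (ix N 5)) (E0_iso D) hf (Ei_iso D ix45)
    (by rw [uh_add_left, F0_E0 D, (hi2_Fi D d20).perpE, add_zero])
    (by rw [uh_add_right hF, (hi2_Ei D d20).perpF, Ei_Fi D ix45, zero_add])
  refine ⟨k, hk, hkx _ (hi2_Ei D d10).perpE ?_ (Ei_Ei_disj D d12), hky⟩
  rw [uh_add_right hF, (hi2_Ei D d10).perpF, Ei_Fi_disj D d12, add_zero]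

end frame2

theorem tau_sq_ne (D : UD F₀ hF N) : D.τ * D.τ ≠ 0 := mul_ne_zero D.τ0 D.τ0

theorem tau_sq_frob (D : UD F₀ hF N) : frobQ hF (D.τ * D.τ) = D.τ * D.τ := by
  rw [map_mul, D.τW]
  ring

/-- `ν ∈ S ⇒ ε(E0, ν τ² F₂) ∈ M`. -/
theorem lam_a (hle : usH F₀ (N + 13) q ≤ M) {ν : F}
    (hν : ueGL q (E0 D) (ν • Ei D (ix N 2) (ix N 3)) ∈ M) :
    ueGL q (E0 D) ((ν * (D.τ * D.τ)) • Fi D (ix N 4) (ix N 5)) ∈ M := by
  obtain ⟨k, hk, hkE, hk1⟩ := exists_kmove D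
  have h0 : hermForm (N + 13) F q (ν • Ei D (ix N 2) (ix N 3)) (E0 D) = 0 := by
    rw [uh_smul_left, (hi2_Ei D (d10 (N := N))).perpE, mul_zero]
  have h1 := M.mul_mem (M.mul_mem (hle hk) hν) (M.inv_mem (hle hk))
  rw [ueGL_conj hk.2.1 (E0_iso D) h0 (uh_symm0 hF h0), hkE, mulVec_smul, hk1, smul_smul] at h1
  exact h1

/-- `ν ∈ S, λ ∈ F₀ ⇒ ν λ ∈ S`. -/
theorem lam_b (hle : usH F₀ (N + 13) q ≤ M) {ν : F}
    (hν : ueGL q (E0 D) (ν • Ei D (ix N 2) (ix N 3)) ∈ M) {l : F} (hl : l ∈ F₀) :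
    ueGL q (E0 D) ((ν * l) • Ei D (ix N 2) (ix N 3)) ∈ M := by
  have hB := lam_a hle hν
  set l' : F := l * (D.τ * D.τ)⁻¹ with hl'
  have hl'r : l' ∈ F₀ := mul_mem hl (inv_mem (mul_mem D.hτ D.hτ))
  have hA : ueGL q (Ei D (ix N 4) (ix N 5)) (l' • Ei D (ix N 2) (ix N 3)) ∈ M :=
    hle (ueGL_rat hF D.stab (isRat_Ei D _ _) ((isRat_Ei D _ _).smul hl'r) (Ei_iso D ix45)
      (by rw [uh_smul_left, uh_smul_right hF, Ei_iso D ix23, mul_zero, mul_zero])
      (by rw [uh_smul_left, Ei_Ei_disj D d12, mul_zero]))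
  have h1 := comm3 hF (Ei_iso D (ix45 (N := N))) (E0_iso D) (Ei_iso D (ix23 (N := N)))
    (Ei_Ei_disj D d12) (hi2_Fi D (d20 (N := N))).perpE (hi2_Ei D (d20 (N := N))).perpE'
    (hi2_Ei D (d10 (N := N))).perpE' (Fi_Ei_disj D d21) l' (ν * (D.τ * D.τ))
  rw [Fi_Ei D ix45, mul_one] at h1
  have e : ν * (D.τ * D.τ) * l' = ν * l := by
    rw [hl']
    field_simp [D.τ0]
  rw [e] at h1
  have h2 := M.mul_mem (M.inv_mem hB) (M.mul_mem (M.mul_mem hA hB) (M.inv_mem hA))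
  rwa [h1, inv_mul_cancel_left] at h2

/-- `ν ∈ S ⇒ ε(E0, ν F₂) ∈ M`. -/
theorem lam_c (hle : usH F₀ (N + 13) q ≤ M) {ν : F}
    (hν : ueGL q (E0 D) (ν • Ei D (ix N 2) (ix N 3)) ∈ M) :
    ueGL q (E0 D) (ν • Fi D (ix N 4) (ix N 5)) ∈ M := by
  have h1 := lam_a hle (lam_b hle hν (inv_mem (mul_mem D.hτ D.hτ)))
  rwa [inv_mul_cancel_right₀ (tau_sq_ne D)] at h1

/-- `ν ∈ S ⇒ ε(E₂, ν E₁) ∈ M`. -/
theorem lam_d (hle : usH F₀ (N + 13) q ≤ M) {ν : F}
    (hν : ueGL q (E0 D) (ν • Ei D (ix N 2) (ix N 3)) ∈ M) :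
    ueGL q (Ei D (ix N 4) (ix N 5)) (ν • Ei D (ix N 2) (ix N 3)) ∈ M := by
  obtain ⟨k, hk, hk1, hkE⟩ := exists_kmove' D
  have hν' := lam_b hle hν (inv_mem (mul_mem D.hτ D.hτ))
  have h0 : hermForm (N + 13) F q ((ν * (D.τ * D.τ)⁻¹) • Ei D (ix N 2) (ix N 3)) (E0 D) = 0 := by
    rw [uh_smul_left, (hi2_Ei D (d10 (N := N))).perpE, mul_zero]
  have h1 := M.mul_mem (M.mul_mem (hle hk) hν') (M.inv_mem (hle hk))
  rw [ueGL_conj hk.2.1 (E0_iso D) h0 (uh_symm0 hF h0), hkE, mulVec_smul, hk1,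
    ueGL_smul_left hF _ (Ei_iso D ix45) (by rw [uh_smul_left, Ei_Ei_disj D d12, mul_zero]),
    tau_sq_frob, smul_smul, mul_comm, inv_mul_cancel_right₀ (tau_sq_ne D)] at h1
  exact h1

/-- The parameter algebra of the Eichler elements `ε(E0, ν E₁)` in `M`. -/
def lamU (D : UD F₀ hF N) (M : Subgroup (GL (Fin (N + 13)) F))
    (hle : usH F₀ (N + 13) q ≤ M) : Subalgebra F₀ F where
  carrier := {ν | ueGL q (E0 D) (ν • Ei D (ix N 2) (ix N 3)) ∈ M}
  mul_mem' := by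
    intro ν μ hν hμ
    have hA := lam_d hle hμ
    have hB := lam_c hle hν
    have h1 := comm3 hF (Ei_iso D (ix45 (N := N))) (E0_iso D) (Ei_iso D (ix23 (N := N)))
      (Ei_Ei_disj D d12) (hi2_Fi D (d20 (N := N))).perpE (hi2_Ei D (d20 (N := N))).perpE'
      (hi2_Ei D (d10 (N := N))).perpE' (Fi_Ei_disj D d21) μ ν
    rw [Fi_Ei D ix45, mul_one] at h1
    have h2 := M.mul_mem (M.inv_mem hB) (M.mul_mem (M.mul_mem hA hB) (M.inv_mem hA))
    rw [h1, inv_mul_cancel_left] at h2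
    exact h2
  add_mem' := by
    intro ν μ hν hμ
    have h0 : ∀ θ : F, hermForm (N + 13) F q (θ • Ei D (ix N 2) (ix N 3)) (E0 D) = 0 := fun θ => by
      rw [uh_smul_left, (hi2_Ei D (d10 (N := N))).perpE, mul_zero]
    show ueGL q (E0 D) ((ν + μ) • Ei D (ix N 2) (ix N 3)) ∈ M
    rw [add_smul, ← ueGL_mul hF (E0_iso D) (h0 ν) (h0 μ)
      (by rw [uh_smul_left, uh_smul_right hF, Ei_iso D ix23, mul_zero, mul_zero])]
    exact M.mul_mem hν hμ
  algebraMap_mem' := by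
    intro c
    exact hle (ueGL_rat hF D.stab (isRat_Ei D _ _) ((isRat_Ei D _ _).smul c.2) (E0_iso D)
      (by rw [uh_smul_left, uh_smul_right hF, Ei_iso D ix23, mul_zero, mul_zero])
      (by rw [uh_smul_left, (hi2_Ei D (d10 (N := N))).perpE, mul_zero]))

theorem mem_lamU (hle : usH F₀ (N + 13) q ≤ M) (ν : F) :
    ν ∈ lamU D M hle ↔ ueGL q (E0 D) (ν • Ei D (ix N 2) (ix N 3)) ∈ M := Iff.rfl

/-- If `M` contains a non-rational transvection with centre `E0`, the parameter algebra is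
everything. -/
theorem lamU_top (r : ℕ) (hr : r.Prime) (hcard : Fintype.card F = Nat.card F₀ ^ r)
    (hle : usH F₀ (N + 13) q ≤ M) (hgu : M ≤ GU (N + 13) F q ⊓ specialLinear (Fin (N + 13)) F)
    {c₀ : F} (hcW : frobQ hF c₀ = -c₀) (hcF : c₀ ∉ F₀) (hcM : utGL q (E0 D) c₀ ∈ M) :
    ZG D M (Ei D (ix N 2) (ix N 3)) := by
  have hT : ∀ u : Fin (N + 13) → F, IsRat F₀ u → hermForm (N + 13) F q u u = 0 →
      utGL q u c₀ ∈ M := by
    intro u hur hu
    by_cases hu0 : u = 0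
    · rw [hu0, utGL_zero_vec]
      exact M.one_mem
    obtain ⟨k, hk, hku⟩ := D.trans u hur hu0 hu
    have hku' : (k : Matrix (Fin (N + 13)) (Fin (N + 13)) F) *ᵥ u = E0 D := hku
    have hki : k⁻¹ ∈ usH F₀ (N + 13) q := Subgroup.inv_mem _ hk
    have h1 := M.mul_mem (M.mul_mem (hle hki) hcM) (M.inv_mem (hle hki))
    rwa [utGL_conj hki.2.1 (E0_iso D), ← hku', ugl_inv_mulVec] at h1
  have hTn : ∀ u : Fin (N + 13) → F, IsRat F₀ u → hermForm (N + 13) F q u u = 0 →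
      utGL q u (-c₀) ∈ M := by
    intro u hur hu
    rw [← utGL_inv hu]
    exact M.inv_mem (hT u hur hu)
  have h10 : hermForm (N + 13) F q (Ei D (ix N 2) (ix N 3)) (E0 D) = 0 :=
    (hi2_Ei D (d10 (N := N))).perpE
  have hc : c₀ ∈ lamU D M hle := by
    rw [mem_lamU, ueGL_param hF (E0_iso D) (Ei_iso D ix23) h10 hcW]
    have hiso : hermForm (N + 13) F q (E0 D + Ei D (ix N 2) (ix N 3))
        (E0 D + Ei D (ix N 2) (ix N 3)) = 0 := by
      simp only [uh_add_left, uh_add_right hF, E0_iso D, Ei_iso D (ix23 (N := N)), h10,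
        uh_symm0 hF h10, add_zero]
    exact M.mul_mem (M.mul_mem (hT _ ((isRat_Ei D _ _).add (isRat_Ei D _ _)) hiso)
      (hTn _ (isRat_Ei D _ _) (E0_iso D))) (hTn _ (isRat_Ei D _ _) (Ei_iso D ix23))
  have htop : lamU D M hle = ⊤ := by
    have hfr : (Module.finrank F₀ F).Prime := by rw [SF.sf_finrank F₀ r hcard]; exact hr
    haveI := Subalgebra.isSimpleOrder_of_finrank_prime F₀ F hfr
    rcases eq_bot_or_eq_top (lamU D M hle) with h | h
    · exfalso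
      rw [h] at hc
      obtain ⟨y, hy⟩ := Algebra.mem_bot.mp hc
      apply hcF
      rw [← hy]
      exact y.2
    · exact h
  intro ν
  have : ν ∈ lamU D M hle := by rw [htop]; exact Algebra.mem_top
  exact this

end Cfsg.Agent.Helper97.USF
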