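-- helper97 library: subfield subgroups of SU_n: step 1, part 2: from the parameter algebra to all
-- unitary transvections.
import Cfsg.Agent.Helper97.USFStep1
import Cfsg.Agent.S0780

set_option autoImplicit false
set_option linter.unusedSimpArgs false
set_option linter.unusedVariables false
set_option linter.unusedSectionVars false
set_option linter.style.haveILetI false
open Cfsg Cfsg.Geo Matrix
open Cfsg.Agent.Helper5 (frobQ frobQ_apply frobQ_frobQ)
open Cfsg.Agent.Helper13 (uh_add_left uh_smul_left uh_add_right uh_smul_right uh_conj uh_zero_left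
  uh_zero_right uh_neg_left uh_neg_right uh_sub_left uh_sub_right uh_single_right uh_single_left
  uh_single_single)

namespace Cfsg.Agent.Helper97.USF

variable {F : Type*} [Field F] [Fintype F] {q N : ℕ} {hF : Fintype.card F = q ^ 2}
  {F₀ : Subfield F} {D : UD F₀ hF N} {M : Subgroup (GL (Fin (N + 13)) F)}

/-- Centres of full unitary transvection groups contained in `M`. -/
def UC {n : ℕ} (hF : Fintype.card F = q ^ 2) (M : Subgroup (GL (Fin n) F)) (w : Fin n → F) :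
    Prop :=
  hermForm n F q w w = 0 ∧ ∀ c : F, frobQ hF c = -c → utGL q w c ∈ M

theorem UC_smul {n : ℕ} {M : Subgroup (GL (Fin n) F)} {w : Fin n → F} (hw : UC hF M w) (l : F) :
    UC hF M (l • w) := by
  refine ⟨by rw [uh_smul_left, uh_smul_right hF, hw.1, mul_zero, mul_zero], fun c hc => ?_⟩
  rw [utGL_smul hF l hw.1]
  exact hw.2 _ (by rw [map_mul, map_mul, frobQ_frobQ, hc]; ring)

theorem UC_map {n : ℕ} {M : Subgroup (GL (Fin n) F)}
    (hgu : M ≤ GU n F q ⊓ specialLinear (Fin n) F) {g : GL (Fin n) F} (hg : g ∈ M)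
    {w : Fin n → F} (hw : UC hF M w) : UC hF M ((g : Matrix (Fin n) (Fin n) F) *ᵥ w) := by
  refine ⟨by rw [gu_apply (hgu hg).1, hw.1], fun c hc => ?_⟩
  rw [← utGL_conj (hgu hg).1 hw.1]
  exact M.mul_mem (M.mul_mem hg (hw.2 c hc)) (M.inv_mem hg)

theorem ZG_F1 (hle : usH F₀ (N + 13) q ≤ M) (h : ZG D M (Ei D (ix N 2) (ix N 3))) :
    ZG D M (Fi D (ix N 2) (ix N 3)) := by
  obtain ⟨k, hk, hky, hkx⟩ := move1 D (isRat_Ei D (ix N 2) (ix N 3))
    (isRat_Fi D (ix N 2) (ix N 3)) (Ei_iso D ix23) (Fi_iso D ix23) (Fi_Ei D ix23)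
  exact ZG_move hle (hi2_Ei D (d10 (N := N))).perpE h hk
    (hkx _ (hi2_Ei D (d10 (N := N))).perpE' (hi2_Fi D (d10 (N := N))).perpE')
    (neg_ne_zero.mpr D.τ0) hky

theorem ZG_Ei (hle : usH F₀ (N + 13) q ≤ M) (h : ZG D M (Ei D (ix N 2) (ix N 3)))
    {j j' : Fin (N + 13)} (hjj' : j ≠ j') (d0 : Dj j j' (ix N 0) (ix N 1))
    (d1 : Dj j j' (ix N 2) (ix N 3)) : ZG D M (Ei D j j') := by
  have hf : hermForm (N + 13) F q (Fi D (ix N 2) (ix N 3) + Fi D j j')
      (Fi D (ix N 2) (ix N 3) + Fi D j j') = 0 := by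
    simp only [uh_add_left, uh_add_right hF, Fi_iso D (ix23 (N := N)), Fi_iso D hjj',
      Fi_Fi_disj D d1, Fi_Fi_disj D d1.symm, add_zero]
  obtain ⟨k, hk, hky, hkx⟩ := move2 D (isRat_Ei D (ix N 2) (ix N 3))
    ((isRat_Fi D (ix N 2) (ix N 3)).add (isRat_Fi D j j')) (isRat_Ei D j j') (Ei_iso D ix23) hf
    (Ei_iso D hjj')
    (by rw [uh_add_left, Fi_Ei D ix23, Fi_Ei_disj D d1, add_zero])
    (by rw [uh_add_right hF, Ei_Fi_disj D d1, Ei_Fi D hjj', zero_add])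
  refine ZG_move hle (hi2_Ei D (d10 (N := N))).perpE h hk
    (hkx _ (hi2_Ei D (d10 (N := N))).perpE' ?_ (hi2_Ei D d0).perpE') (tau_sq_ne D) hky
  rw [uh_add_right hF, (hi2_Fi D (d10 (N := N))).perpE', (hi2_Fi D d0).perpE', add_zero]

theorem ZG_Fi (hle : usH F₀ (N + 13) q ≤ M) (h : ZG D M (Ei D (ix N 2) (ix N 3)))
    {j j' : Fin (N + 13)} (hjj' : j ≠ j') (d0 : Dj j j' (ix N 0) (ix N 1))
    (d1 : Dj j j' (ix N 2) (ix N 3)) : ZG D M (Fi D j j') := by
  have hf : hermForm (N + 13) F q (Fi D (ix N 2) (ix N 3) + Ei D j j')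
      (Fi D (ix N 2) (ix N 3) + Ei D j j') = 0 := by
    simp only [uh_add_left, uh_add_right hF, Fi_iso D (ix23 (N := N)), Ei_iso D hjj',
      Fi_Ei_disj D d1.symm, Ei_Fi_disj D d1, add_zero]
  obtain ⟨k, hk, hky, hkx⟩ := move2 D (isRat_Ei D (ix N 2) (ix N 3))
    ((isRat_Fi D (ix N 2) (ix N 3)).add (isRat_Ei D j j')) (isRat_Fi D j j') (Ei_iso D ix23) hf
    (Fi_iso D hjj')
    (by rw [uh_add_left, Fi_Ei D ix23, Ei_Ei_disj D d1, add_zero])
    (by rw [uh_add_right hF, Fi_Fi_disj D d1, Fi_Ei D hjj', zero_add])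
  refine ZG_move hle (hi2_Ei D (d10 (N := N))).perpE h hk
    (hkx _ (hi2_Ei D (d10 (N := N))).perpE' ?_ (hi2_Fi D d0).perpE') (tau_sq_ne D) hky
  rw [uh_add_right hF, (hi2_Fi D (d10 (N := N))).perpE', (hi2_Ei D d0).perpE', add_zero]

/-- Every basis vector away from the base pair is a combination of two good frame vectors. -/
theorem exists_frame (hle : usH F₀ (N + 13) q ≤ M) (hZ : ZG D M (Ei D (ix N 2) (ix N 3)))
    (j : Fin (N + 13)) (hj0 : j ≠ ix N 0) (hj1 : j ≠ ix N 1) :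
    ∃ (z₁ z₂ : Fin (N + 13) → F) (α₁ α₂ : F), ZG D M z₁ ∧ ZG D M z₂ ∧ Hi2 z₁ ∧ Hi2 z₂ ∧
      (Pi.single j 1 : Fin (N + 13) → F) = α₁ • z₁ + α₂ • z₂ := by
  by_cases h2 : j = ix N 2
  · refine ⟨Ei D (ix N 2) (ix N 3), Fi D (ix N 2) (ix N 3), frobQ hF D.c, 1, hZ, ZG_F1 hle hZ,
      hi2_Ei D d10, hi2_Fi D d10, ?_⟩
    rw [h2, one_smul]
    exact single_eq_EF D ix23
  by_cases h3 : j = ix N 3
  · refine ⟨Ei D (ix N 2) (ix N 3), Fi D (ix N 2) (ix N 3), D.a⁻¹ * D.c, -D.a⁻¹, hZ,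
      ZG_F1 hle hZ, hi2_Ei D d10, hi2_Fi D d10, ?_⟩
    rw [h3, single_eq_EF' D ix23]
    module
  obtain ⟨j', hj'j, hj'0, hj'1, hj'2, hj'3⟩ : ∃ j' : Fin (N + 13),
      j' ≠ j ∧ j' ≠ ix N 0 ∧ j' ≠ ix N 1 ∧ j' ≠ ix N 2 ∧ j' ≠ ix N 3 := by
    by_cases h4 : j = ix N 4
    · exact ⟨ix N 5, by rw [h4]; simp, by simp, by simp, by simp, by simp⟩
    · exact ⟨ix N 4, fun e => h4 e.symm, by simp, by simp, by simp, by simp⟩
  have d0 : Dj j j' (ix N 0) (ix N 1) := ⟨hj0, hj1, hj'0, hj'1⟩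
  have d1 : Dj j j' (ix N 2) (ix N 3) := ⟨h2, h3, hj'2, hj'3⟩
  refine ⟨Ei D j j', Fi D j j', frobQ hF D.c, 1, ZG_Ei hle hZ hj'j.symm d0 d1,
    ZG_Fi hle hZ hj'j.symm d0 d1, hi2_Ei D d0, hi2_Fi D d0, ?_⟩
  rw [one_smul]
  exact single_eq_EF D hj'j.symm

/-- All transvections with centre `E0` lie in `M`. -/
theorem long_root (hle : usH F₀ (N + 13) q ≤ M) (hZ : ZG D M (Ei D (ix N 2) (ix N 3))) {c : F}
    (hc : frobQ hF c = -c) : utGL q (E0 D) c ∈ M := by
  have hZF : ZG D M (Fi D (ix N 4) (ix N 5)) := ZG_Fi hle hZ ix45 d20 d21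
  have hY : hermForm (N + 13) F q ((c * D.c) • Fi D (ix N 4) (ix N 5)) (E0 D) = 0 := by
    rw [uh_smul_left, (hi2_Fi D (d20 (N := N))).perpE, mul_zero]
  have hzE : hermForm (N + 13) F q (Ei D (ix N 4) (ix N 5)) (E0 D) = 0 :=
    (hi2_Ei D (d20 (N := N))).perpE
  have hB : ueGL q (E0 D) (Ei D (ix N 4) (ix N 5)) ∈ M :=
    hle (ueGL_rat hF D.stab (isRat_Ei D _ _) (isRat_Ei D _ _) (E0_iso D) (Ei_iso D ix45) hzE)
  have hA := hZF (c * D.c)
  have h1 := ueGL_heis hF (E0_iso D) hY hzE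
  have hd : hermForm (N + 13) F q ((c * D.c) • Fi D (ix N 4) (ix N 5)) (Ei D (ix N 4) (ix N 5))
      - hermForm (N + 13) F q (Ei D (ix N 4) (ix N 5)) ((c * D.c) • Fi D (ix N 4) (ix N 5))
      = c := by
    rw [uh_smul_left, uh_smul_right hF, Fi_Ei D ix45, Ei_Fi D ix45, mul_one, mul_one, map_mul, hc]
    linear_combination c * D.cT
  rw [hd] at h1
  have h2 := M.mul_mem (M.mul_mem hA hB) (M.inv_mem (M.mul_mem hB hA))
  rwa [h1, mul_inv_cancel_right] at h2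

theorem UC_rat (hle : usH F₀ (N + 13) q ≤ M)
    (hR1 : ∀ c : F, frobQ hF c = -c → utGL q (E0 D) c ∈ M) {u : Fin (N + 13) → F}
    (hur : IsRat F₀ u) (hu : hermForm (N + 13) F q u u = 0) : UC hF M u := by
  refine ⟨hu, fun c hc => ?_⟩
  by_cases hu0 : u = 0
  · rw [hu0, utGL_zero_vec]
    exact M.one_mem
  obtain ⟨k, hk, hku⟩ := D.trans u hur hu0 hu
  have hku' : (k : Matrix (Fin (N + 13)) (Fin (N + 13)) F) *ᵥ u = E0 D := hku
  have hki : k⁻¹ ∈ usH F₀ (N + 13) q := Subgroup.inv_mem _ hk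
  have h1 := M.mul_mem (M.mul_mem (hle hki) (hR1 c hc)) (M.inv_mem (hle hki))
  rwa [utGL_conj hki.2.1 (E0_iso D), ← hku', ugl_inv_mulVec] at h1

/-- The vectors `Y` supported away from the base pair with `F0 + Y + κ E0` a centre for some
`κ`. -/
def VS (D : UD F₀ hF N) (M : Subgroup (GL (Fin (N + 13)) F)) (Y : Fin (N + 13) → F) : Prop :=
  Hi2 Y ∧ ∃ κ : F, UC hF M (F0 D + Y + κ • E0 D)

theorem VS_add (hgu : M ≤ GU (N + 13) F q ⊓ specialLinear (Fin (N + 13)) F)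
    {Y z : Fin (N + 13) → F} (hY : VS D M Y) (hz : ZG D M z) (hz2 : Hi2 z) (ν : F) :
    VS D M (Y + ν • z) := by
  obtain ⟨hY2, κ, hκ⟩ := hY
  have hνzE : hermForm (N + 13) F q (ν • z) (E0 D) = 0 := by
    rw [uh_smul_left, hz2.perpE, mul_zero]
  have hXE : hermForm (N + 13) F q (F0 D + Y + κ • E0 D) (E0 D) = 1 := by
    simp only [uh_add_left, uh_smul_left, F0_E0 D, hY2.perpE, E0_iso D, mul_zero, add_zero]
  have h1 := UC_map hgu (hz ν) hκ
  rw [ueGL_mulVec (E0_iso D) hνzE (uh_symm0 hF hνzE), hXE, one_smul] at h1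
  refine ⟨hY2.add (hz2.smul ν),
    κ - hermForm (N + 13) F q (F0 D + Y + κ • E0 D) (ν • z), ?_⟩
  have e : F0 D + (Y + ν • z)
      + (κ - hermForm (N + 13) F q (F0 D + Y + κ • E0 D) (ν • z)) • E0 D
      = F0 D + Y + κ • E0 D + ν • z
        - hermForm (N + 13) F q (F0 D + Y + κ • E0 D) (ν • z) • E0 D := by
    module
  rw [e]
  exact h1

theorem VS_all (hle : usH F₀ (N + 13) q ≤ M)
    (hgu : M ≤ GU (N + 13) F q ⊓ specialLinear (Fin (N + 13)) F)
    (hZ : ZG D M (Ei D (ix N 2) (ix N 3)))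
    (hR1 : ∀ c : F, frobQ hF c = -c → utGL q (E0 D) c ∈ M) {v : Fin (N + 13) → F}
    (hv2 : Hi2 v) : VS D M v := by
  have hF0 : UC hF M (F0 D) := UC_rat hle hR1 (isRat_Fi D _ _) (F0_iso D)
  have key : ∀ s : Finset (Fin (N + 13)),
      VS D M (∑ j ∈ s, v j • (Pi.single j 1 : Fin (N + 13) → F)) := by
    intro s
    induction s using Finset.induction_on with
    | empty =>
      rw [Finset.sum_empty]
      exact ⟨hi2_zero, 0, by rw [add_zero, zero_smul, add_zero]; exact hF0⟩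
    | insert j s hj ih =>
      rw [Finset.sum_insert hj, add_comm]
      by_cases hj0 : j = ix N 0
      · rw [hj0, hv2.1, zero_smul, add_zero]
        exact ih
      by_cases hj1 : j = ix N 1
      · rw [hj1, hv2.2, zero_smul, add_zero]
        exact ih
      obtain ⟨z₁, z₂, α₁, α₂, hz₁, hz₂, h21, h22, he⟩ := exists_frame hle hZ j hj0 hj1
      have h1 := VS_add hgu (VS_add hgu ih hz₁ h21 (v j * α₁)) hz₂ h22 (v j * α₂)
      have e : ∑ x ∈ s, v x • (Pi.single x 1 : Fin (N + 13) → F)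
            + v j • (Pi.single j 1 : Fin (N + 13) → F)
          = ∑ x ∈ s, v x • (Pi.single x 1 : Fin (N + 13) → F) + (v j * α₁) • z₁
            + (v j * α₂) • z₂ := by
        rw [he]
        module
      rw [e]
      exact h1
  have := key Finset.univ
  rwa [← pi_eq_sum_univ' v] at this

theorem UC_of_pair (hle : usH F₀ (N + 13) q ≤ M)
    (hgu : M ≤ GU (N + 13) F q ⊓ specialLinear (Fin (N + 13)) F)
    (hZ : ZG D M (Ei D (ix N 2) (ix N 3)))
    (hR1 : ∀ c : F, frobQ hF c = -c → utGL q (E0 D) c ∈ M) {w : Fin (N + 13) → F}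
    (hw : hermForm (N + 13) F q w w = 0) (hwE : hermForm (N + 13) F q w (E0 D) = 1) :
    UC hF M w := by
  have hEw : hermForm (N + 13) F q (E0 D) w = 1 := by rw [← uh_conj hF, hwE, map_one]
  have hv2 := hi2_decomp D w
  rw [hwE, one_smul] at hv2
  obtain ⟨-, κ, hκ⟩ := VS_all hle hgu hZ hR1 hv2
  set α := hermForm (N + 13) F q w (F0 D) with hα
  set β := α - κ with hβdef
  have hw₁ : F0 D + (w - α • E0 D - F0 D) + κ • E0 D = w - β • E0 D := by
    rw [hβdef]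
    module
  rw [hw₁] at hκ
  have hβ : frobQ hF β = -β := by
    have h1 := hκ.1
    simp only [uh_sub_left, uh_sub_right hF, uh_smul_left, uh_smul_right hF, hw, hwE, E0_iso D,
      hEw] at h1
    linear_combination -h1
  have h2 := UC_map hgu (hR1 β hβ) hκ
  have e : (utGL q (E0 D) β : Matrix (Fin (N + 13)) (Fin (N + 13)) F) *ᵥ (w - β • E0 D) = w := by
    rw [utGL_mulVec (E0_iso D), uh_sub_left, uh_smul_left, hwE, E0_iso D]
    module
  rwa [e] at h2

theorem UC_all (hle : usH F₀ (N + 13) q ≤ M)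
    (hgu : M ≤ GU (N + 13) F q ⊓ specialLinear (Fin (N + 13)) F)
    (hZ : ZG D M (Ei D (ix N 2) (ix N 3)))
    (hR1 : ∀ c : F, frobQ hF c = -c → utGL q (E0 D) c ∈ M) {w : Fin (N + 13) → F}
    (hw : hermForm (N + 13) F q w w = 0) : UC hF M w := by
  by_cases hw0 : w = 0
  · rw [hw0]
    exact ⟨uh_zero_left _, fun c _ => by rw [utGL_zero_vec]; exact M.one_mem⟩
  obtain ⟨j, hj⟩ : ∃ j, w j ≠ 0 := by
    by_contra hcon
    push Not at hcon
    exact hw0 (funext hcon)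
  obtain ⟨j', hj'⟩ : ∃ j' : Fin (N + 13), j ≠ j' := by
    by_cases h : j = ix N 0
    · exact ⟨ix N 1, by rw [h]; exact ix01⟩
    · exact ⟨ix N 0, h⟩
  have e : w j = D.c * hermForm (N + 13) F q w (Ei D j j')
      + hermForm (N + 13) F q w (Fi D j j') := by
    rw [← uh_single_right hF w j, single_eq_EF D hj', uh_add_right hF, uh_smul_right hF,
      frobQ_frobQ]
  obtain ⟨u, hur, hu, hwu⟩ : ∃ u : Fin (N + 13) → F, IsRat F₀ u ∧
      hermForm (N + 13) F q u u = 0 ∧ hermForm (N + 13) F q w u ≠ 0 := by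
    by_cases h1 : hermForm (N + 13) F q w (Ei D j j') = 0
    · refine ⟨Fi D j j', isRat_Fi D j j', Fi_iso D hj', fun h2 => hj ?_⟩
      rw [e, h1, h2, mul_zero, add_zero]
    · exact ⟨Ei D j j', isRat_Ei D j j', Ei_iso D hj', h1⟩
  have hu0 : u ≠ 0 := by
    rintro rfl
    exact hwu (uh_zero_right hF _)
  obtain ⟨k, hk, hku⟩ := D.trans u hur hu0 hu
  have hku' : (k : Matrix (Fin (N + 13)) (Fin (N + 13)) F) *ᵥ u = E0 D := hku
  set η := hermForm (N + 13) F q w u with hη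
  set w' := (k : Matrix (Fin (N + 13)) (Fin (N + 13)) F) *ᵥ w with hw'
  have hw'E : hermForm (N + 13) F q w' (E0 D) = η := by rw [← hku', hw', gu_apply hk.2.1]
  have hw'iso : hermForm (N + 13) F q w' w' = 0 := by rw [hw', gu_apply hk.2.1, hw]
  have h1 : UC hF M (η⁻¹ • w') := UC_of_pair hle hgu hZ hR1
    (by rw [uh_smul_left, uh_smul_right hF, hw'iso, mul_zero, mul_zero])
    (by rw [uh_smul_left, hw'E, inv_mul_cancel₀ hwu])
  have h2 := UC_smul h1 η
  rw [smul_smul, mul_inv_cancel₀ hwu, one_smul] at h2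
  have h3 := UC_map hgu (hle (Subgroup.inv_mem _ hk)) h2
  rwa [hw', ugl_inv_mulVec] at h3

/-- Step 1: an overgroup of the subfield group inside `SU_n` containing a non-rational
transvection with centre `E0` is `SU_n`. -/
theorem us_step1 (D : UD F₀ hF N) (r : ℕ) (hr : r.Prime)
    (hcard : Fintype.card F = Nat.card F₀ ^ r) (M : Subgroup (GL (Fin (N + 13)) F))
    (hle : usH F₀ (N + 13) q ≤ M)
    (hgu : M ≤ GU (N + 13) F q ⊓ specialLinear (Fin (N + 13)) F) {c₀ : F}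
    (hcW : frobQ hF c₀ = -c₀) (hcF : c₀ ∉ F₀) (hcM : utGL q (E0 D) c₀ ∈ M) :
    GU (N + 13) F q ⊓ specialLinear (Fin (N + 13)) F ≤ M := by
  have hZ := lamU_top r hr hcard hle hgu hcW hcF hcM
  have hR1 : ∀ c : F, frobQ hF c = -c → utGL q (E0 D) c ∈ M := fun c hc => long_root hle hZ hc
  have hcl := Cfsg.Agent.S0780.result hF (N + 13) (by omega) (by omega)
  refine Cfsg.Agent.Helper98.us_gen_of_closure hF hcl M (fun w c hw hc => ?_)
  rw [← utGL_eq hw c]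
  exact (UC_all hle hgu hZ hR1 hw).2 c (by rw [frobQ_apply, hc])

end Cfsg.Agent.Helper97.USF
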