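-- helper97 library: subfield subgroups of SU_n: transfer from the unitary group over the subfield,
-- construction of the configuration data.
import Cfsg.Agent.Helper97.USFFrame

set_option autoImplicit false
set_option linter.unusedSimpArgs false
set_option linter.unusedVariables false
set_option linter.unusedSectionVars false
set_option linter.style.haveILetI false
open Cfsg Cfsg.Geo Matrix
open Cfsg.Agent.Helper98 (us_mem_GU_iff)
open Cfsg.Agent.Helper5 (frobQ frobQ_apply frobQ_frobQ)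
open Cfsg.Agent.Helper13 (uh_add_left uh_smul_left uh_add_right uh_smul_right uh_conj uh_zero_left
  uh_zero_right uh_neg_left uh_neg_right uh_sub_left uh_sub_right uh_single_right uh_single_left
  uh_single_single)

namespace Cfsg.Agent.Helper97.USF

theorem sq_of_pow_odd {q c r : ℕ} (hc : 0 < c) (hro : Odd r) (h : q ^ 2 = c ^ r) :
    ∃ q₀ s : ℕ, c = q₀ ^ 2 ∧ q = c ^ s * q₀ := by
  obtain ⟨s, rfl⟩ := hro
  have h1 : (c ^ s) ^ 2 ∣ q ^ 2 := by
    rw [h]
    exact ⟨c, by ring⟩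
  have h2 : c ^ s ∣ q := (Nat.pow_dvd_pow_iff (by norm_num)).mp h1
  obtain ⟨q₀, rfl⟩ := h2
  refine ⟨q₀, s, ?_, rfl⟩
  have h3 : (c ^ s) ^ 2 * q₀ ^ 2 = (c ^ s) ^ 2 * c := by
    rw [← mul_pow, h]
    ring
  exact (Nat.eq_of_mul_eq_mul_left (by positivity) h3).symm

variable {F : Type*} [Field F] [Fintype F] {q n : ℕ}

theorem exists_q0 (hF : Fintype.card F = q ^ 2) (F₀ : Subfield F) [Fintype F₀] (r : ℕ)
    (hro : Odd r) (hcard : Fintype.card F = Nat.card F₀ ^ r) :
    ∃ q₀ : ℕ, Fintype.card F₀ = q₀ ^ 2 ∧ ∀ x : F₀, (x : F) ^ q = (x : F) ^ q₀ := by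
  have hc : 0 < Nat.card F₀ := Nat.card_pos
  obtain ⟨q₀, s, h1, h2⟩ := sq_of_pow_odd hc hro (by rw [← hF, hcard])
  refine ⟨q₀, by rw [← Nat.card_eq_fintype_card, h1], fun x => ?_⟩
  have h3 : x ^ (Fintype.card F₀) ^ s = x := FiniteField.pow_card_pow s x
  have h4 : (x : F) ^ (Nat.card F₀ ^ s) = x := by
    rw [Nat.card_eq_fintype_card]
    have h5 := congrArg (fun y : F₀ => (y : F)) h3
    simpa using h5
  rw [h2, pow_mul, h4]

theorem uh_sum_left {ι : Type*} (s : Finset ι) (f : ι → Fin n → F) (y : Fin n → F) :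
    hermForm n F q (∑ i ∈ s, f i) y = ∑ i ∈ s, hermForm n F q (f i) y := by
  classical
  induction s using Finset.induction_on with
  | empty => rw [Finset.sum_empty, Finset.sum_empty, uh_zero_left]
  | insert a s ha ih => rw [Finset.sum_insert ha, Finset.sum_insert ha, uh_add_left, ih]

theorem uh_sum_right (hF : Fintype.card F = q ^ 2) {ι : Type*} (s : Finset ι)
    (f : ι → Fin n → F) (x : Fin n → F) :
    hermForm n F q x (∑ i ∈ s, f i) = ∑ i ∈ s, hermForm n F q x (f i) := by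
  classical
  induction s using Finset.induction_on with
  | empty => rw [Finset.sum_empty, Finset.sum_empty, uh_zero_right hF]
  | insert a s ha ih => rw [Finset.sum_insert ha, Finset.sum_insert ha, uh_add_right hF, ih]

/-- A matrix preserving the Hermitian form on the standard basis is unitary. -/
theorem gu_of_basis (hF : Fintype.card F = q ^ 2) (g : GL (Fin n) F)
    (hg : ∀ a b : Fin n, hermForm n F q ((g : Matrix (Fin n) (Fin n) F) *ᵥ Pi.single a 1)
      ((g : Matrix (Fin n) (Fin n) F) *ᵥ Pi.single b 1)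
      = hermForm n F q (Pi.single a 1) (Pi.single b 1)) : g ∈ GU n F q := by
  refine (us_mem_GU_iff g).mpr fun u v => ?_
  have key : ∀ (A : Matrix (Fin n) (Fin n) F) (x y : Fin n → F),
      hermForm n F q (A *ᵥ ∑ a, x a • (Pi.single a 1 : Fin n → F))
          (A *ᵥ ∑ b, y b • (Pi.single b 1 : Fin n → F))
        = ∑ a, ∑ b, x a * frobQ hF (y b)
            * hermForm n F q (A *ᵥ Pi.single a 1) (A *ᵥ Pi.single b 1) := by
    intro A x y
    rw [Matrix.mulVec_sum, Matrix.mulVec_sum, uh_sum_left]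
    refine Finset.sum_congr rfl fun a _ => ?_
    rw [uh_sum_right hF]
    refine Finset.sum_congr rfl fun b _ => ?_
    rw [Matrix.mulVec_smul, Matrix.mulVec_smul, uh_smul_left, uh_smul_right hF]
    ring
  have h1 := key (g : Matrix (Fin n) (Fin n) F) u v
  have h2 := key 1 u v
  rw [← pi_eq_sum_univ' u, ← pi_eq_sum_univ' v] at h1 h2
  simp only [one_mulVec] at h2
  rw [h1, h2]
  exact Finset.sum_congr rfl fun a _ => Finset.sum_congr rfl fun b _ => by rw [hg]

section lift

variable (F₀ : Subfield F)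

/-- The coercion of a vector over the subfield. -/
def vc (u : Fin n → F₀) : Fin n → F := fun i => (u i : F)

theorem vc_single (a : Fin n) : vc F₀ (Pi.single a (1 : F₀)) = (Pi.single a 1 : Fin n → F) := by
  funext i
  unfold vc
  by_cases hi : i = a <;> simp [Pi.single_apply, hi]

theorem vc_add_smul (x y : Fin n → F₀) (c : F₀) :
    vc F₀ (x + c • y) = vc F₀ x + (c : F) • vc F₀ y := by
  funext i
  simp [vc]

theorem herm_vc {q₀ : ℕ} (hpow : ∀ x : F₀, (x : F) ^ q = (x : F) ^ q₀) (u v : Fin n → F₀) :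
    hermForm n F q (vc F₀ u) (vc F₀ v) = ((hermForm n F₀ q₀ u v : F₀) : F) := by
  unfold hermForm vc
  push_cast
  exact Finset.sum_congr rfl fun i _ => by rw [hpow]

/-- The image in `GL_n(F)` of a matrix of determinant one over the subfield. -/
noncomputable def liftGL (A : Matrix.SpecialLinearGroup (Fin n) F₀) : GL (Fin n) F :=
  Matrix.GeneralLinearGroup.map (F₀.subtype : F₀ →+* F) (Matrix.SpecialLinearGroup.toGL A)

theorem liftGL_val (A : Matrix.SpecialLinearGroup (Fin n) F₀) (i j : Fin n) :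
    (liftGL F₀ A : Matrix (Fin n) (Fin n) F) i j = ((A.1 i j : F₀) : F) := rfl

theorem liftGL_mulVec (A : Matrix.SpecialLinearGroup (Fin n) F₀) (u : Fin n → F₀) :
    (liftGL F₀ A : Matrix (Fin n) (Fin n) F) *ᵥ vc F₀ u = vc F₀ (A.1 *ᵥ u) := by
  funext i
  simp only [vc, mulVec, dotProduct, liftGL_val]
  push_cast
  rfl

theorem liftGL_sub (A : Matrix.SpecialLinearGroup (Fin n) F₀) :
    liftGL F₀ A ∈ subfieldSubgroup F₀ (1 : GL (Fin n) F) :=
  (SG.mem_subfieldSubgroup_one F₀ _).mpr ⟨1, one_ne_zero, fun i j => by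
    rw [one_smul, liftGL_val]
    exact (A.1 i j).2⟩

theorem liftGL_SL (A : Matrix.SpecialLinearGroup (Fin n) F₀) :
    liftGL F₀ A ∈ specialLinear (Fin n) F := by
  unfold specialLinear
  rw [MonoidHom.mem_ker]
  apply Units.ext
  rw [Matrix.GeneralLinearGroup.val_det_apply, Units.val_one]
  have h1 : (liftGL F₀ A : Matrix (Fin n) (Fin n) F)
      = (F₀.subtype : F₀ →+* F).mapMatrix A.1 := by
    ext i j
    rfl
  rw [h1, ← RingHom.map_det, A.2, map_one]

theorem liftGL_GU (hF : Fintype.card F = q ^ 2) {q₀ : ℕ}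
    (hpow : ∀ x : F₀, (x : F) ^ q = (x : F) ^ q₀) (A : Matrix.SpecialLinearGroup (Fin n) F₀)
    (hA : A ∈ Cfsg.SU n F₀ q₀) : liftGL F₀ A ∈ GU n F q := by
  apply gu_of_basis hF
  intro a b
  rw [← vc_single F₀, ← vc_single F₀, liftGL_mulVec, liftGL_mulVec, herm_vc F₀ hpow,
    herm_vc F₀ hpow]
  congr 1
  exact hA _ _

theorem liftGL_mem (hF : Fintype.card F = q ^ 2) {q₀ : ℕ}
    (hpow : ∀ x : F₀, (x : F) ^ q = (x : F) ^ q₀) (A : Matrix.SpecialLinearGroup (Fin n) F₀)
    (hA : A ∈ Cfsg.SU n F₀ q₀) : liftGL F₀ A ∈ usH F₀ n q :=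
  ⟨liftGL_sub F₀ A, liftGL_GU F₀ hF hpow A hA, liftGL_SL F₀ A⟩

end lift

/-- The configuration data exists for a subfield of odd degree. -/
theorem exists_UD (hF : Fintype.card F = q ^ 2) (F₀ : Subfield F) (r : ℕ) (hro : Odd r)
    (hcard : Fintype.card F = Nat.card F₀ ^ r) (N : ℕ) : Nonempty (UD F₀ hF N) := by
  classical
  haveI : Fintype F₀ := Fintype.ofFinite _
  obtain ⟨q₀, hK, hpow⟩ := exists_q0 hF F₀ r hro hcard
  have hfrob : ∀ x : F₀, ((frobQ hK x : F₀) : F) = frobQ hF (x : F) := by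
    intro x
    rw [frobQ_apply, frobQ_apply, hpow]
    push_cast
    rfl
  have hstab : ∀ x ∈ F₀, frobQ hF x ∈ F₀ := by
    intro x hx
    have := hfrob ⟨x, hx⟩
    rw [← this]
    exact (frobQ hK ⟨x, hx⟩).2
  obtain ⟨w, hw⟩ := Cfsg.Agent.Helper13.ufld_exists_not_fixed hK
  obtain ⟨t, ht0, ht⟩ := Cfsg.Agent.Helper13.ufld_exists_skew hK
  obtain ⟨b, hb⟩ := Cfsg.Agent.Helper13.ufld_exists_trace_one hK
  obtain ⟨l, hl0, hl⟩ := Cfsg.Agent.Helper13.ufld_exists_norm hK (c := (-1 : F₀))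
    (neg_ne_zero.mpr one_ne_zero) (by rw [map_neg, map_one])
  have h32 : ¬ (N + 13 = 3 ∧ q₀ = 2) := by omega
  have e0 : (⟨0, by omega⟩ : Fin (N + 13)) = ix N 0 := Fin.ext (by simp [ix])
  have e1 : (⟨1, by omega⟩ : Fin (N + 13)) = ix N 1 := Fin.ext (by simp [ix])
  refine ⟨{ a := l, c := b, τ := t, ω := w, ha := l.2, hc := b.2, hτ := t.2, hω := w.2,
            aN := ?_, cT := ?_, τW := ?_, τ0 := ?_, ωne := ?_, stab := hstab, trans := ?_,
            ortho := ?_ }⟩
  · rw [← hfrob, ← Subfield.coe_mul, hl]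
    simp
  · rw [← hfrob, ← Subfield.coe_add, hb]
    simp
  · rw [← hfrob, ht]
    simp
  · exact fun h => ht0 (Subtype.ext h)
  · intro h
    apply hw
    apply Subtype.ext
    rw [hfrob]
    exact h
  · intro u hur hu0 hu
    set u' : Fin (N + 13) → F₀ := fun i => ⟨u i, hur i⟩ with hu'
    have hvc : vc F₀ u' = u := rfl
    have hu'0 : u' ≠ 0 := by
      intro h
      apply hu0
      rw [← hvc, h]
      rfl
    have hu'iso : hermForm (N + 13) F₀ q₀ u' u' = 0 := by
      apply Subtype.ext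
      rw [← herm_vc F₀ hpow, hvc, hu]
      rfl
    obtain ⟨g, -, hg⟩ := Cfsg.Agent.Helper13.su_trans_iso hK (by omega) h32 l hl u' hu'0 hu'iso
    refine ⟨liftGL F₀ g.1, liftGL_mem F₀ hF hpow g.1 g.2, ?_⟩
    have hg' : (g.1.1 : Matrix (Fin (N + 13)) (Fin (N + 13)) F₀) *ᵥ u'
        = Pi.single (ix N 0) 1 + l • Pi.single (ix N 1) 1 := by
      rw [← e0, ← e1]
      exact hg
    rw [← hvc, liftGL_mulVec, hg', vc_add_smul, vc_single, vc_single]
  · intro i j hij
    obtain ⟨g, -, hg1, hg2⟩ := Cfsg.Agent.Helper13.su_trans_ortho hK (by omega) h32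
      (Pi.single i 1) (Pi.single j 1) (by rw [uh_single_single hK, if_pos rfl])
      (by rw [uh_single_single hK, if_pos rfl]) (by rw [uh_single_single hK, if_neg hij])
    refine ⟨liftGL F₀ g.1, liftGL_mem F₀ hF hpow g.1 g.2, ?_, ?_⟩
    · have hg' : (g.1.1 : Matrix (Fin (N + 13)) (Fin (N + 13)) F₀) *ᵥ Pi.single i 1
          = Pi.single (ix N 0) 1 := by
        rw [← e0]
        exact hg1
      rw [← vc_single F₀, liftGL_mulVec, hg', vc_single]
    · have hg' : (g.1.1 : Matrix (Fin (N + 13)) (Fin (N + 13)) F₀) *ᵥ Pi.single j 1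
          = Pi.single (ix N 1) 1 := by
        rw [← e1]
        exact hg2
      rw [← vc_single F₀, liftGL_mulVec, hg', vc_single]

end Cfsg.Agent.Helper97.USF
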