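-- helper97 library: subfield subgroups of SU_n of odd prime degree are maximal (n ≥ 13): final
-- assembly and reduction of a form-rational structure to standard position.
import Cfsg.Agent.Helper97.USFAvg
import Cfsg.Agent.Helper97.USFStep1b
import Cfsg.Agent.Helper97.USFTrans
import Cfsg.Agent.Helper97.GSubfield
import Cfsg.Agent.Helper97.SFMax
import Cfsg.Agent.Helper13.HermBasis

set_option autoImplicit false
set_option linter.unusedSimpArgs false
set_option linter.unusedVariables false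
set_option linter.unusedSectionVars false
set_option linter.style.haveILetI false
open Cfsg Cfsg.Geo Matrix
open Cfsg.Agent.Helper5 (frobQ frobQ_apply frobQ_frobQ frobQ_ne_id)
open Cfsg.Agent.Helper13 (uh_add_left uh_smul_left uh_add_right uh_smul_right uh_conj uh_zero_left
  uh_zero_right uh_neg_left uh_neg_right uh_sub_left uh_sub_right uh_single_right uh_single_left
  uh_single_single)

namespace Cfsg.Agent.Helper97.USF

variable {F : Type*} [Field F] [Fintype F] {q N : ℕ} {hF : Fintype.card F = q ^ 2}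
  {F₀ : Subfield F}

theorem usH_lt (D : UD F₀ hF N) (hne : F₀ ≠ ⊤) :
    usH F₀ (N + 13) q < GU (N + 13) F q ⊓ specialLinear (Fin (N + 13)) F := by
  refine lt_of_le_of_ne inf_le_right (fun h => ?_)
  obtain ⟨ξ, hξ⟩ : ∃ ξ : F, ξ ∉ F₀ := by
    by_contra hcon
    push Not at hcon
    exact hne (eq_top_iff.mpr (fun x _ => hcon x))
  obtain ⟨c, hcW, hcF⟩ : ∃ c : F, frobQ hF c = -c ∧ c ∉ F₀ := by
    by_cases h1 : ξ - frobQ hF ξ ∈ F₀
    · refine ⟨D.ω * ξ - frobQ hF (D.ω * ξ), by rw [map_sub, frobQ_frobQ]; ring, fun h2 => hξ ?_⟩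
      have h3 : (D.ω - frobQ hF D.ω) * ξ ∈ F₀ := by
        have e : (D.ω - frobQ hF D.ω) * ξ
            = (D.ω * ξ - frobQ hF (D.ω * ξ)) - frobQ hF D.ω * (ξ - frobQ hF ξ) := by
          rw [map_mul]
          ring
        rw [e]
        exact sub_mem h2 (mul_mem (D.stab _ D.hω) h1)
      exact mem_of_mul_mem (sub_mem D.hω (D.stab _ D.hω)) (sub_ne_zero.mpr (Ne.symm D.ωne)) h3
    · exact ⟨ξ - frobQ hF ξ, by rw [map_sub, frobQ_frobQ]; ring, h1⟩
  have h1 : utGL q (E0 D) c ∈ usH F₀ (N + 13) q := by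
    rw [h]
    exact utGL_mem hF (E0_iso D) hcW
  have hE : (utGL q (E0 D) c : Matrix (Fin (N + 13)) (Fin (N + 13)) F) *ᵥ E0 D = E0 D :=
    utGL_fix (E0_iso D) (E0_iso D) c
  have hrat := rat_of_map h1.1 (isRat_Ei D (ix N 0) (ix N 1)) (isRat_Ei D (ix N 0) (ix N 1))
    (E0_ne_zero D) hE
  have h2 := rat_mulVec hrat (isRat_Fi D (ix N 0) (ix N 1))
  rw [utGL_mulVec (E0_iso D), F0_E0, mul_one] at h2
  have h3 := h2 (ix N 0)
  simp only [E0, Pi.add_apply, Pi.smul_apply, Ei_apply, Fi_apply, if_true,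
    if_neg (ix01 (N := N)), smul_eq_mul, mul_zero, mul_one, sub_zero, add_zero] at h3
  apply hcF
  have e : c = D.c + c - D.c := by ring
  rw [e]
  exact sub_mem h3 D.hc

/-- The subfield subgroup of `SU_n` in standard position is maximal (`n ≥ 13`, odd prime
degree). -/
theorem us_maximal_one (D : UD F₀ hF N) (r : ℕ) (hr : r.Prime)
    (hcard : Fintype.card F = Nat.card F₀ ^ r) :
    IsMaximalIn (GU (N + 13) F q ⊓ specialLinear (Fin (N + 13)) F) (usH F₀ (N + 13) q) := by
  constructor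
  · exact usH_lt D (Gen.subfield_ne_top_of_card F₀ r hr hcard)
  · intro M hHM hMS
    by_cases hex : ∃ c : F, frobQ hF c = -c ∧ c ∉ F₀ ∧ utGL q (E0 D) c ∈ M
    · obtain ⟨c, hcW, hcF, hcM⟩ := hex
      right
      exact le_antisymm hMS (us_step1 D r hr hcard M hHM hMS hcW hcF hcM)
    · left
      have hrat : ∀ c : F, frobQ hF c = -c → utGL q (E0 D) c ∈ M → c ∈ F₀ := by
        intro c hcW hcM
        by_contra hcF
        exact hex ⟨c, hcW, hcF, hcM⟩
      exact le_antisymm (us_step2 ⟨hHM, hMS, hrat⟩) hHM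

theorem uconj_map_self {G : Type*} [Group G] (K : Subgroup G) {a : G} (ha : a ∈ K) :
    K.map (MulAut.conj a).toMonoidHom = K := by
  ext x
  constructor
  · rintro ⟨y, hy, rfl⟩
    simp only [MulEquiv.coe_toMonoidHom, MulAut.conj_apply]
    exact K.mul_mem (K.mul_mem ha hy) (K.inv_mem ha)
  · intro hx
    refine ⟨a⁻¹ * x * a, K.mul_mem (K.mul_mem (K.inv_mem ha) hx) ha, ?_⟩
    simp only [MulEquiv.coe_toMonoidHom, MulAut.conj_apply]
    group

theorem usub_mul_rat {n : ℕ} (F₀ : Subfield F) (P A : GL (Fin n) F)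
    (hA : A ∈ (Matrix.GeneralLinearGroup.map (F₀.subtype : F₀ →+* F)).range) :
    subfieldSubgroup F₀ (P * A) = subfieldSubgroup F₀ P := by
  rw [subfieldSubgroup, subfieldSubgroup]
  have e : (MulAut.conj (P * A)).toMonoidHom
      = (MulAut.conj P).toMonoidHom.comp (MulAut.conj A).toMonoidHom := by
    ext1 x
    simp only [MulEquiv.coe_toMonoidHom, MulAut.conj_apply, MonoidHom.comp_apply]
    group
  rw [e, ← Subgroup.map_map, uconj_map_self _ (Subgroup.mem_sup_left hA)]

theorem usub_eq_map {n : ℕ} (F₀ : Subfield F) (Q : GL (Fin n) F) :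
    subfieldSubgroup F₀ Q
      = (subfieldSubgroup F₀ (1 : GL (Fin n) F)).map (MulAut.conj Q).toMonoidHom := by
  have h2 : subfieldSubgroup F₀ (1 : GL (Fin n) F)
      = (Matrix.GeneralLinearGroup.map (F₀.subtype : F₀ →+* F)).range ⊔ scalars (Fin n) F := by
    rw [subfieldSubgroup, map_one]
    exact Subgroup.map_id _
  rw [h2]
  rfl

theorem gu_sl_map_conj {n : ℕ} {Q : GL (Fin n) F} (hQ : Q ∈ GU n F q) :
    (GU n F q ⊓ specialLinear (Fin n) F).map (MulAut.conj Q).toMonoidHom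
      = GU n F q ⊓ specialLinear (Fin n) F := by
  have hnorm : (specialLinear (Fin n) F).Normal := by
    unfold specialLinear
    infer_instance
  ext g
  constructor
  · rintro ⟨y, hy, rfl⟩
    simp only [MulEquiv.coe_toMonoidHom, MulAut.conj_apply]
    exact ⟨Subgroup.mul_mem _ (Subgroup.mul_mem _ hQ hy.1) (Subgroup.inv_mem _ hQ),
      hnorm.conj_mem y hy.2 Q⟩
  · intro hg
    refine ⟨Q⁻¹ * g * Q, ⟨Subgroup.mul_mem _ (Subgroup.mul_mem _ (Subgroup.inv_mem _ hQ) hg.1) hQ,
      ?_⟩, ?_⟩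
    · have := hnorm.conj_mem g hg.2 Q⁻¹
      rwa [inv_inv] at this
    · simp only [MulEquiv.coe_toMonoidHom, MulAut.conj_apply]
      group

theorem us_maximal_of_gu (D : UD F₀ hF N) (r : ℕ) (hr : r.Prime)
    (hcard : Fintype.card F = Nat.card F₀ ^ r) (Q : GL (Fin (N + 13)) F)
    (hQ : Q ∈ GU (N + 13) F q) :
    IsMaximalIn (GU (N + 13) F q ⊓ specialLinear (Fin (N + 13)) F)
      (subfieldSubgroup F₀ Q ⊓ (GU (N + 13) F q ⊓ specialLinear (Fin (N + 13)) F)) := by
  have h1 := SF.sf_isMaximalIn_map (MulAut.conj Q) (us_maximal_one D r hr hcard)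
  rw [gu_sl_map_conj hQ] at h1
  have hsub : (usH F₀ (N + 13) q).map (MulAut.conj Q).toMonoidHom
      = subfieldSubgroup F₀ Q ⊓ (GU (N + 13) F q ⊓ specialLinear (Fin (N + 13)) F) := by
    rw [usH, Subgroup.map_inf _ _ _ (MulAut.conj Q).injective, gu_sl_map_conj hQ, ← usub_eq_map]
  rwa [hsub] at h1

theorem nd_aux {n : ℕ} (hF : Fintype.card F = q ^ 2) (P : GL (Fin n) F) (w : Fin n → F)
    (h : ∀ a : Fin n, hermForm n F q ((P : Matrix (Fin n) (Fin n) F) *ᵥ Pi.single a 1)
      ((P : Matrix (Fin n) (Fin n) F) *ᵥ w) = 0) : w = 0 := by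
  have h1 : ∀ x : Fin n → F, hermForm n F q ((P : Matrix (Fin n) (Fin n) F) *ᵥ x)
      ((P : Matrix (Fin n) (Fin n) F) *ᵥ w) = 0 := by
    intro x
    have e : (P : Matrix (Fin n) (Fin n) F) *ᵥ x
        = ∑ a, x a • ((P : Matrix (Fin n) (Fin n) F) *ᵥ Pi.single a 1) := by
      conv_lhs => rw [pi_eq_sum_univ' x]
      rw [Matrix.mulVec_sum]
      exact Finset.sum_congr rfl fun a _ => Matrix.mulVec_smul _ _ _
    rw [e, uh_sum_left]
    exact Finset.sum_eq_zero fun a _ => by rw [uh_smul_left, h a, mul_zero]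
  have h2 : (P : Matrix (Fin n) (Fin n) F) *ᵥ w = 0 :=
    Cfsg.Agent.Helper98.us_h_nd (hq_ne_zero hF) _ (fun y => by
      have := h1 (((P⁻¹ : GL (Fin n) F) : Matrix (Fin n) (Fin n) F) *ᵥ y)
      rwa [ugl_mulVec_inv] at this)
  have h3 := ugl_inv_mulVec P w
  rw [h2, mulVec_zero] at h3
  exact h3.symm

theorem vc_injective {n : ℕ} (F₀ : Subfield F) {u : Fin n → F₀} (h : vc F₀ u = 0) : u = 0 := by
  funext i
  exact Subtype.ext (congrFun h i)

theorem vc_add {n : ℕ} (F₀ : Subfield F) (x y : Fin n → F₀) :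
    vc F₀ (x + y) = vc F₀ x + vc F₀ y := by
  funext i
  simp [vc]

theorem vc_smul {n : ℕ} (F₀ : Subfield F) (c : F₀) (y : Fin n → F₀) :
    vc F₀ (c • y) = (c : F) • vc F₀ y := by
  funext i
  simp [vc]

/-- A rational orthonormal basis for a form-rational structure of the unitary form. -/
theorem exists_rat_unitary {n : ℕ} (hF : Fintype.card F = q ^ 2) (F₀ : Subfield F) (r : ℕ)
    (hro : Odd r) (hcard : Fintype.card F = Nat.card F₀ ^ r) (P : GL (Fin n) F)
    (hP : IsFormRationalStructure (hermForm n F q) F₀ 1 P) :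
    ∃ A : GL (Fin n) F, A ∈ (Matrix.GeneralLinearGroup.map (F₀.subtype : F₀ →+* F)).range ∧
      P * A ∈ GU n F q := by
  classical
  haveI : Fintype F₀ := Fintype.ofFinite _
  obtain ⟨q₀, hK, hpow⟩ := exists_q0 hF F₀ r hro hcard
  have hfrob : ∀ x : F₀, ((frobQ hK x : F₀) : F) = frobQ hF (x : F) := by
    intro x
    rw [frobQ_apply, frobQ_apply, hpow]
    push_cast
    rfl
  have hmem : ∀ u v : Fin n → F₀, hermForm n F q ((P : Matrix (Fin n) (Fin n) F) *ᵥ vc F₀ v)
      ((P : Matrix (Fin n) (Fin n) F) *ᵥ vc F₀ u) ∈ F₀ := by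
    intro u v
    have := hP (vc F₀ v) (vc F₀ u) (fun i => (v i).2) (fun i => (u i).2)
    rwa [one_mul] at this
  set f : (Fin n → F₀) → (Fin n → F₀) → F₀ := fun u v =>
    ⟨hermForm n F q ((P : Matrix (Fin n) (Fin n) F) *ᵥ vc F₀ v)
      ((P : Matrix (Fin n) (Fin n) F) *ᵥ vc F₀ u), hmem u v⟩ with hf
  set B₀ : (Fin n → F₀) →ₛₗ[frobQ hK] (Fin n → F₀) →ₗ[F₀] F₀ :=
    LinearMap.mk₂'ₛₗ (frobQ hK) (RingHom.id F₀) f
      (by
        intro u₁ u₂ v
        apply Subtype.ext
        show hermForm n F q _ ((P : Matrix (Fin n) (Fin n) F) *ᵥ vc F₀ (u₁ + u₂)) = _ + _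
        rw [vc_add, mulVec_add, uh_add_right hF])
      (by
        intro c u v
        apply Subtype.ext
        show hermForm n F q _ ((P : Matrix (Fin n) (Fin n) F) *ᵥ vc F₀ (c • u))
          = ((frobQ hK c : F₀) : F) * _
        rw [vc_smul, mulVec_smul, uh_smul_right hF, hfrob])
      (by
        intro u v₁ v₂
        apply Subtype.ext
        show hermForm n F q ((P : Matrix (Fin n) (Fin n) F) *ᵥ vc F₀ (v₁ + v₂)) _ = _ + _
        rw [vc_add, mulVec_add, uh_add_left])
      (by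
        intro c u v
        apply Subtype.ext
        show hermForm n F q ((P : Matrix (Fin n) (Fin n) F) *ᵥ vc F₀ (c • v)) _ = (c : F) * _
        rw [vc_smul, mulVec_smul, uh_smul_left]) with hB₀
  have hBval : ∀ u v : Fin n → F₀, ((B₀ u v : F₀) : F)
      = hermForm n F q ((P : Matrix (Fin n) (Fin n) F) *ᵥ vc F₀ v)
        ((P : Matrix (Fin n) (Fin n) F) *ᵥ vc F₀ u) := fun u v => rfl
  have hS : B₀.IsSymm := by
    refine ⟨fun u v => ?_⟩
    apply Subtype.ext
    rw [hfrob, hBval, hBval, uh_conj hF]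
  have hBnd : B₀.Nondegenerate := by
    constructor
    · intro u hu
      apply vc_injective F₀
      apply nd_aux hF P
      intro a
      have h1 := hBval u (Pi.single a 1)
      rw [hu, vc_single] at h1
      exact h1.symm
    · intro v hv
      apply vc_injective F₀
      apply nd_aux hF P
      intro a
      have h1 := hBval (Pi.single a 1) v
      rw [hv, vc_single] at h1
      exact uh_symm0 hF h1.symm
  obtain ⟨b, hb⟩ := Cfsg.Agent.Helper13.herm_exists_orthonormal_basis (frobQ hK) B₀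
    (frobQ_ne_id hK) (frobQ_frobQ hK) hS hBnd
  have hfr : Module.finrank F₀ (Fin n → F₀) = n := Module.finrank_fin_fun F₀
  set e : Fin (Module.finrank F₀ (Fin n → F₀)) ≃ Fin n := finCongr hfr with he
  set b' : Module.Basis (Fin n) F₀ (Fin n → F₀) := b.reindex e with hb'
  have hb'a : ∀ a c : Fin n, B₀ (b' a) (b' c) = if a = c then 1 else 0 := by
    intro a c
    rw [hb', Module.Basis.reindex_apply, Module.Basis.reindex_apply, hb]
    by_cases hac : a = c
    · rw [if_pos (by rw [hac]), if_pos hac]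
    · rw [if_neg (fun h => hac (e.symm.injective h)), if_neg hac]
  set A₀ : Matrix (Fin n) (Fin n) F₀ := (Pi.basisFun F₀ (Fin n)).toMatrix b' with hA₀
  haveI : Invertible A₀ := (Pi.basisFun F₀ (Fin n)).invertibleToMatrix b'
  have hA₀e : ∀ i a, A₀ i a = (b' a) i := by
    intro i a
    rw [hA₀, Module.Basis.toMatrix_apply, Pi.basisFun_repr]
  set A' : GL (Fin n) F₀ := unitOfInvertible A₀ with hA'
  refine ⟨Matrix.GeneralLinearGroup.map (F₀.subtype : F₀ →+* F) A', ⟨A', rfl⟩, ?_⟩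
  have hAcol : ∀ a, ((Matrix.GeneralLinearGroup.map (F₀.subtype : F₀ →+* F) A' :
      GL (Fin n) F) : Matrix (Fin n) (Fin n) F) *ᵥ Pi.single a 1 = vc F₀ (b' a) := by
    intro a
    rw [Matrix.mulVec_single_one]
    funext i
    show F₀.subtype (A₀ i a) = _
    rw [hA₀e]
    rfl
  apply gu_of_basis hF
  intro a c
  rw [Units.val_mul, ← Matrix.mulVec_mulVec, ← Matrix.mulVec_mulVec, hAcol, hAcol, ← hBval,
    hb'a, uh_single_single hF]
  by_cases hac : a = c
  · rw [if_pos hac, if_pos hac.symm]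
    rfl
  · rw [if_neg hac, if_neg (fun h => hac h.symm)]
    rfl

/-- **Maximality of the subfield subgroups of `SU_n`** (`n ≥ 13`, subfield of odd prime
degree). -/
theorem us_maximal (hF : Fintype.card F = q ^ 2) (N : ℕ) (F₀ : Subfield F) (r : ℕ)
    (hr : r.Prime) (hro : Odd r) (hcard : Fintype.card F = Nat.card F₀ ^ r)
    (P : GL (Fin (N + 13)) F)
    (hP : IsFormRationalStructure (hermForm (N + 13) F q) F₀ 1 P) :
    IsMaximalIn (GU (N + 13) F q ⊓ specialLinear (Fin (N + 13)) F)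
      (subfieldSubgroup F₀ P ⊓ (GU (N + 13) F q ⊓ specialLinear (Fin (N + 13)) F)) := by
  obtain ⟨D⟩ := exists_UD hF F₀ r hro hcard N
  obtain ⟨A, hA, hPA⟩ := exists_rat_unitary hF F₀ r hro hcard P hP
  have h1 := us_maximal_of_gu D r hr hcard (P * A) hPA
  rwa [usub_mul_rat F₀ P A hA] at h1

end Cfsg.Agent.Helper97.USF
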